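import Mathlib

set_option autoImplicit false

namespace Cfsg.Agent.Lib.Helper2

theorem mat2_ext_entries {R : Type*} (A B : Matrix (Fin 2) (Fin 2) R) (h00 : A 0 0 = B 0 0)
    (h01 : A 0 1 = B 0 1) (h10 : A 1 0 = B 1 0) (h11 : A 1 1 = B 1 1) : A = B := by
  ext i j
  fin_cases i
  · fin_cases j
    · exact h00
    · exact h01
  · fin_cases j
    · exact h10
    · exact h11

/-- Cayley–Hamilton for 2 × 2 matrices of determinant one. -/
theorem sl2_cayley {R : Type*} [CommRing R] (M : Matrix (Fin 2) (Fin 2) R)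
    (hdet : M 0 0 * M 1 1 - M 0 1 * M 1 0 = 1) :
    M * M = (M 0 0 + M 1 1) • M - 1 := by
  apply mat2_ext_entries
  · rw [Matrix.mul_apply, Fin.sum_univ_two, Matrix.sub_apply, Matrix.smul_apply, smul_eq_mul,
      Matrix.one_apply_eq]
    linear_combination -hdet
  · rw [Matrix.mul_apply, Fin.sum_univ_two, Matrix.sub_apply, Matrix.smul_apply, smul_eq_mul,
      Matrix.one_apply_ne (by decide), sub_zero]
    ring
  · rw [Matrix.mul_apply, Fin.sum_univ_two, Matrix.sub_apply, Matrix.smul_apply, smul_eq_mul,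
      Matrix.one_apply_ne (by decide), sub_zero]
    ring
  · rw [Matrix.mul_apply, Fin.sum_univ_two, Matrix.sub_apply, Matrix.smul_apply, smul_eq_mul,
      Matrix.one_apply_eq]
    linear_combination -hdet

theorem sl2_pow3 {R : Type*} [CommRing R] (M : Matrix (Fin 2) (Fin 2) R) (t : R)
    (h2 : M * M = t • M - 1) :
    M * M * M = (t ^ 2 - 1) • M - t • (1 : Matrix (Fin 2) (Fin 2) R) := by
  rw [h2, sub_mul, smul_mul_assoc, one_mul, h2]
  apply mat2_ext_entries <;>
    simp only [Matrix.sub_apply, Matrix.smul_apply, smul_eq_mul] <;> ring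

theorem sl2_pow4 {R : Type*} [CommRing R] (M : Matrix (Fin 2) (Fin 2) R) (t : R)
    (h2 : M * M = t • M - 1) :
    M * M * M * M = (t ^ 3 - 2 * t) • M - (t ^ 2 - 1) • (1 : Matrix (Fin 2) (Fin 2) R) := by
  rw [sl2_pow3 M t h2, sub_mul, smul_mul_assoc, smul_mul_assoc, one_mul, h2]
  apply mat2_ext_entries <;>
    simp only [Matrix.sub_apply, Matrix.smul_apply, smul_eq_mul] <;> ring

theorem sl2_pow5 {R : Type*} [CommRing R] (M : Matrix (Fin 2) (Fin 2) R) (t : R)
    (h2 : M * M = t • M - 1) :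
    M * M * M * M * M =
      (t ^ 4 - 3 * t ^ 2 + 1) • M - (t ^ 3 - 2 * t) • (1 : Matrix (Fin 2) (Fin 2) R) := by
  rw [sl2_pow4 M t h2, sub_mul, smul_mul_assoc, smul_mul_assoc, one_mul, h2]
  apply mat2_ext_entries <;>
    simp only [Matrix.sub_apply, Matrix.smul_apply, smul_eq_mul] <;> ring

/-- The trace of an element of order five of `SL₂` gives a root of `τ² + τ - 1`. -/
theorem sl2_order5_trace {F : Type*} [Field F] (M : Matrix (Fin 2) (Fin 2) F)
    (hdet : M 0 0 * M 1 1 - M 0 1 * M 1 0 = 1)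
    (h5 : M * M * M * M * M = 1) (hne : M * M ≠ 1) :
    ∃ τ : F, τ ^ 2 + τ - 1 = 0 := by
  have h2 := sl2_cayley M hdet
  obtain ⟨t, ht⟩ : ∃ t : F, t = M 0 0 + M 1 1 := ⟨_, rfl⟩
  rw [← ht] at h2
  have h5' := sl2_pow5 M t h2
  rw [h5] at h5'
  by_cases hu : t ^ 4 - 3 * t ^ 2 + 1 = 0
  · have hfac : (t ^ 2 + t - 1) * (t ^ 2 - t - 1) = 0 := by linear_combination hu
    rcases mul_eq_zero.mp hfac with h | h
    · exact ⟨t, h⟩
    · exact ⟨-t, by linear_combination h⟩
  · exfalso
    apply hne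
    have e00 := congrFun (congrFun h5' 0) 0
    have e01 := congrFun (congrFun h5' 0) 1
    have e10 := congrFun (congrFun h5' 1) 0
    have e11 := congrFun (congrFun h5' 1) 1
    simp only [Matrix.sub_apply, Matrix.smul_apply, smul_eq_mul] at e00 e01 e10 e11
    rw [Matrix.one_apply_eq] at e00 e11
    rw [Matrix.one_apply_ne (by decide)] at e01 e10
    have h01 : M 0 1 = 0 := by
      have h : (t ^ 4 - 3 * t ^ 2 + 1) * M 0 1 = 0 := by linear_combination -e01
      exact (mul_eq_zero.mp h).resolve_left hu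
    have h10 : M 1 0 = 0 := by
      have h : (t ^ 4 - 3 * t ^ 2 + 1) * M 1 0 = 0 := by linear_combination -e10
      exact (mul_eq_zero.mp h).resolve_left hu
    have h0011 : M 0 0 = M 1 1 := by
      have h : (t ^ 4 - 3 * t ^ 2 + 1) * (M 0 0 - M 1 1) = 0 := by
        linear_combination e11 - e00
      exact sub_eq_zero.mp ((mul_eq_zero.mp h).resolve_left hu)
    apply mat2_ext_entries
    · rw [Matrix.mul_apply, Fin.sum_univ_two, Matrix.one_apply_eq]
      linear_combination hdet + M 0 0 * h0011 + 2 * M 1 0 * h01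
    · rw [Matrix.mul_apply, Fin.sum_univ_two, Matrix.one_apply_ne (by decide)]
      linear_combination (M 0 0 + M 1 1) * h01
    · rw [Matrix.mul_apply, Fin.sum_univ_two, Matrix.one_apply_ne (by decide)]
      linear_combination (M 0 0 + M 1 1) * h10
    · rw [Matrix.mul_apply, Fin.sum_univ_two, Matrix.one_apply_eq]
      linear_combination hdet - M 1 1 * h0011 + 2 * M 1 0 * h01

/-- A point on the conic used to find an element of order three with prescribed products. -/
theorem conic_point {F : Type*} [Field F] [Fintype F] (τ : F) (hτ : τ ^ 2 + τ - 1 = 0) :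
    ∃ s x : F, s ^ 2 + τ * s * x + x ^ 2 + s + 1 = 0 := by
  by_cases h2 : (2 : F) = 0
  · refine ⟨τ, 0, ?_⟩
    linear_combination hτ + h2
  · obtain ⟨h, hh⟩ : ∃ h : F, 2 * h = 1 := ⟨2⁻¹, mul_inv_cancel₀ h2⟩
    by_cases h4 : τ ^ 2 = 4
    · refine ⟨-1, τ * h, ?_⟩
      linear_combination (h ^ 2 - h) * h4 + (2 * h - 1) * hh
    · have hchar : ringChar F ≠ 2 := by
        intro hc
        apply h2
        have h := (CharP.cast_eq_zero_iff F (ringChar F) 2).mpr (by rw [hc])
        rwa [Nat.cast_ofNat] at h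
      have hodd : Fintype.card F % 2 = 1 := FiniteField.odd_card_of_char_ne_two hchar
      have hne : (4 - τ ^ 2 : F) ≠ 0 := by
        intro h0
        apply h4
        linear_combination -h0
      obtain ⟨w, s, hws⟩ := FiniteField.exists_root_sum_quadratic
        (f := (Polynomial.X : Polynomial F) ^ 2)
        (g := Polynomial.C (4 - τ ^ 2) * Polynomial.X ^ 2 + Polynomial.C 4 * Polynomial.X
          + Polynomial.C 4)
        (Polynomial.degree_X_pow 2) (Polynomial.degree_quadratic hne) hodd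
      simp only [Polynomial.eval_add, Polynomial.eval_mul, Polynomial.eval_pow,
        Polynomial.eval_X, Polynomial.eval_C] at hws
      refine ⟨s, (w - τ * s) * h, ?_⟩
      linear_combination h ^ 2 * hws
        - ((1 + 2 * h) * (s ^ 2 + s + 1) + τ * s * w * h - τ ^ 2 * s ^ 2 * h) * hh

end Cfsg.Agent.Lib.Helper2
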