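import Mathlib
import Cfsg.Agent.Lib.Helper2.SL2Trace

set_option autoImplicit false

namespace Cfsg.Agent.Lib.Helper2

/-- Every involution of `A₄` lies in the normal closure of any non-identity element. -/
theorem a4_normal_gen : ∀ k t : alternatingGroup (Fin 4), k ≠ 1 → t * t = 1 →
    ∃ h1 h2 : alternatingGroup (Fin 4), t = (h1 * k * h1⁻¹) * (h2 * k * h2⁻¹)⁻¹ := by
  decide +kernel

theorem a4_elts : ∃ a c : alternatingGroup (Fin 4), a * a = 1 ∧ a ≠ 1 ∧ c * c * c = 1 ∧ c ≠ 1 ∧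
    a * (c * a * c⁻¹) = (c * a * c⁻¹) * a := by
  decide +kernel

theorem char2_nil_aux {F : Type*} [Field F] (h2 : (2 : F) = 0) (m m' β γ β' γ' : F)
    (hm : m ^ 2 = β * γ) (hm' : m' ^ 2 = β' * γ') (hc : β * γ' = β' * γ) :
    m * m' + β * γ' = 0 ∧ m * β' + β * m' = 0 := by
  constructor
  · have h : (m * m' + β * γ') ^ 2 = 0 := by
      linear_combination (β ^ 2 * γ' ^ 2 + m * m' * β * γ') * h2 - β * γ' * hc + β * γ * hm'
        + m' ^ 2 * hm
    exact (pow_eq_zero_iff two_ne_zero).mp h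
  · have h : (m * β' + β * m') ^ 2 = 0 := by
      linear_combination (β ^ 2 * β' * γ' + m * m' * β * β') * h2 - β * β' * hc + β' ^ 2 * hm
        + β ^ 2 * hm'
    exact (pow_eq_zero_iff two_ne_zero).mp h

theorem char2_invol_trace {F : Type*} [Field F] (h2 : (2 : F) = 0)
    (A : Matrix (Fin 2) (Fin 2) F)
    (hdA : A 0 0 * A 1 1 - A 0 1 * A 1 0 = 1) (hA2 : A * A = 1) : A 0 0 + A 1 1 = 0 := by
  have h := sl2_cayley A hdA
  rw [hA2] at h
  by_contra ht
  have e00 := congrFun (congrFun h 0) 0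
  have e01 := congrFun (congrFun h 0) 1
  simp only [Matrix.sub_apply, Matrix.smul_apply, smul_eq_mul] at e00 e01
  rw [Matrix.one_apply_eq] at e00
  rw [Matrix.one_apply_ne (by decide)] at e01
  have h00 : A 0 0 = 0 := by
    have h' : (A 0 0 + A 1 1) * A 0 0 = 0 := by linear_combination h2 - e00
    exact (mul_eq_zero.mp h').resolve_left ht
  have h01 : A 0 1 = 0 := by
    have h' : (A 0 0 + A 1 1) * A 0 1 = 0 := by linear_combination -e01
    exact (mul_eq_zero.mp h').resolve_left ht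
  rw [h00, h01, zero_mul, zero_mul, sub_zero] at hdA
  exact zero_ne_one hdA

theorem char2_order3_trace {F : Type*} [Field F] (h2 : (2 : F) = 0)
    (C : Matrix (Fin 2) (Fin 2) F)
    (hdC : C 0 0 * C 1 1 - C 0 1 * C 1 0 = 1) (hC3 : C * C * C = 1) (hC1 : C ≠ 1) :
    C 0 0 + C 1 1 = 1 := by
  have h := sl2_cayley C hdC
  obtain ⟨t, ht⟩ : ∃ t : F, t = C 0 0 + C 1 1 := ⟨_, rfl⟩
  rw [← ht] at h ⊢
  have h3 := sl2_pow3 C t h
  rw [hC3] at h3
  by_contra ht1
  have hu : t ^ 2 - 1 ≠ 0 := by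
    intro h0
    apply ht1
    have hsq : (t - 1) ^ 2 = 0 := by linear_combination h0 + (1 - t) * h2
    exact sub_eq_zero.mp ((pow_eq_zero_iff two_ne_zero).mp hsq)
  apply hC1
  have e00 := congrFun (congrFun h3 0) 0
  have e01 := congrFun (congrFun h3 0) 1
  have e10 := congrFun (congrFun h3 1) 0
  have e11 := congrFun (congrFun h3 1) 1
  simp only [Matrix.sub_apply, Matrix.smul_apply, smul_eq_mul] at e00 e01 e10 e11
  rw [Matrix.one_apply_eq] at e00 e11
  rw [Matrix.one_apply_ne (by decide)] at e01 e10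
  have h01 : C 0 1 = 0 := by
    have h' : (t ^ 2 - 1) * C 0 1 = 0 := by linear_combination -e01
    exact (mul_eq_zero.mp h').resolve_left hu
  have h10 : C 1 0 = 0 := by
    have h' : (t ^ 2 - 1) * C 1 0 = 0 := by linear_combination -e10
    exact (mul_eq_zero.mp h').resolve_left hu
  have h0011 : C 0 0 = C 1 1 := by
    have h' : (t ^ 2 - 1) * (C 0 0 - C 1 1) = 0 := by linear_combination e11 - e00
    exact sub_eq_zero.mp ((mul_eq_zero.mp h').resolve_left hu)
  have hsq : (C 0 0 - 1) ^ 2 = 0 := by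
    linear_combination hdC + C 0 0 * h0011 + C 1 0 * h01 + (1 - C 0 0) * h2
  have h00 : C 0 0 = 1 := sub_eq_zero.mp ((pow_eq_zero_iff two_ne_zero).mp hsq)
  apply mat2_ext_entries
  · rw [Matrix.one_apply_eq]
    exact h00
  · rw [Matrix.one_apply_ne (by decide)]
    exact h01
  · rw [Matrix.one_apply_ne (by decide)]
    exact h10
  · rw [Matrix.one_apply_eq, ← h0011]
    exact h00

/-- In characteristic two, an involution of `SL₂` commuting with its conjugate under an element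
of order three forces a primitive cube root of unity in the field. -/
theorem a4_char2_root {F : Type*} [Field F] (h2 : (2 : F) = 0)
    (A C D : Matrix (Fin 2) (Fin 2) F)
    (hdA : A 0 0 * A 1 1 - A 0 1 * A 1 0 = 1)
    (hdC : C 0 0 * C 1 1 - C 0 1 * C 1 0 = 1)
    (hCD : C * D = 1) (hA2 : A * A = 1) (hA1 : A ≠ 1)
    (hC3 : C * C * C = 1) (hC1 : C ≠ 1)
    (hcomm : A * (C * A * D) = C * A * D * A) :
    ∃ r : F, r ^ 2 + r + 1 = 0 := by
  have htA := char2_invol_trace h2 A hdA hA2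
  have htC := char2_order3_trace h2 C hdC hC3 hC1
  have hDC : D * C = 1 := by
    first
      | exact mul_eq_one_comm.mp hCD
      | exact Matrix.mul_eq_one_comm.mp hCD
  obtain ⟨B, hB⟩ : ∃ B : Matrix (Fin 2) (Fin 2) F, B = C * A * D := ⟨_, rfl⟩
  have hB2 : B * B = 1 := by
    rw [hB]
    calc C * A * D * (C * A * D) = C * A * (D * C) * A * D := by simp only [mul_assoc]
      _ = C * (A * A) * D := by rw [hDC, mul_one, mul_assoc C A A]
      _ = 1 := by rw [hA2, mul_one, hCD]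
  have hdetB : B.det = 1 := by
    have hdetA : A.det = 1 := by rw [Matrix.det_fin_two]; exact hdA
    have hdetC : C.det = 1 := by rw [Matrix.det_fin_two]; exact hdC
    have hdetD : D.det = 1 := by
      have h := congrArg Matrix.det hCD
      rw [Matrix.det_mul, hdetC, one_mul, Matrix.det_one] at h
      exact h
    rw [hB, Matrix.det_mul, Matrix.det_mul, hdetA, hdetC, hdetD, one_mul, one_mul]
  have hdB : B 0 0 * B 1 1 - B 0 1 * B 1 0 = 1 := by
    rw [← Matrix.det_fin_two]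
    exact hdetB
  have htB := char2_invol_trace h2 B hdB hB2
  have hAB : A * B = B * A := by
    rw [hB]
    exact hcomm
  have hc : A 0 1 * B 1 0 = B 0 1 * A 1 0 := by
    have h := congrFun (congrFun hAB 0) 0
    rw [Matrix.mul_apply, Matrix.mul_apply, Fin.sum_univ_two, Fin.sum_univ_two] at h
    linear_combination h
  have hm : (A 0 0 - 1) ^ 2 = A 0 1 * A 1 0 := by
    linear_combination hdA + A 0 0 * htA + (1 - A 0 0 - A 0 0 * A 1 1) * h2
  have hm' : (B 0 0 - 1) ^ 2 = B 0 1 * B 1 0 := by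
    linear_combination hdB + B 0 0 * htB + (1 - B 0 0 - B 0 0 * B 1 1) * h2
  obtain ⟨h11, h12⟩ := char2_nil_aux h2 (A 0 0 - 1) (B 0 0 - 1) (A 0 1) (A 1 0) (B 0 1) (B 1 0)
    hm hm' hc
  obtain ⟨h21, h22⟩ := char2_nil_aux h2 (A 0 0 - 1) (B 0 0 - 1) (A 1 0) (A 0 1) (B 1 0) (B 0 1)
    (hm.trans (mul_comm _ _)) (hm'.trans (mul_comm _ _)) (by linear_combination -hc)
  have o00 : (1 : Matrix (Fin 2) (Fin 2) F) 0 0 = 1 := Matrix.one_apply_eq 0
  have o11 : (1 : Matrix (Fin 2) (Fin 2) F) 1 1 = 1 := Matrix.one_apply_eq 1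
  have o01 : (1 : Matrix (Fin 2) (Fin 2) F) 0 1 = 0 := Matrix.one_apply_ne (by decide)
  have o10 : (1 : Matrix (Fin 2) (Fin 2) F) 1 0 = 0 := Matrix.one_apply_ne (by decide)
  have hNN : (A - 1) * (B - 1) = 0 := by
    apply mat2_ext_entries
    · simp only [Matrix.mul_apply, Fin.sum_univ_two, Matrix.sub_apply, o00, o01, o10, o11,
        Matrix.zero_apply]
      linear_combination h11
    · simp only [Matrix.mul_apply, Fin.sum_univ_two, Matrix.sub_apply, o00, o01, o10, o11,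
        Matrix.zero_apply]
      linear_combination h12 + A 0 1 * htB - A 0 1 * B 0 0 * h2
    · simp only [Matrix.mul_apply, Fin.sum_univ_two, Matrix.sub_apply, o00, o01, o10, o11,
        Matrix.zero_apply]
      linear_combination h22 + B 1 0 * htA - B 1 0 * A 0 0 * h2
    · simp only [Matrix.mul_apply, Fin.sum_univ_two, Matrix.sub_apply, o00, o01, o10, o11,
        Matrix.zero_apply]
      linear_combination h21 + (B 1 1 - 1) * htA - (A 0 0 + 1) * htB + (A 0 0 + B 0 0) * h2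
  have hNCN : (A - 1) * C * (A - 1) = 0 := by
    have h1 : (B - 1) * C = C * (A - 1) := by
      rw [hB, sub_mul, one_mul, mul_sub, mul_one, mul_assoc (C * A) D C, hDC, mul_one]
    calc (A - 1) * C * (A - 1) = (A - 1) * (C * (A - 1)) := by rw [mul_assoc]
      _ = (A - 1) * ((B - 1) * C) := by rw [h1]
      _ = (A - 1) * (B - 1) * C := by rw [mul_assoc]
      _ = 0 := by rw [hNN, zero_mul]
  have hE1 := congrFun (congrFun hNCN 0) 1
  have hE2 := congrFun (congrFun hNCN 1) 0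
  simp only [Matrix.mul_apply, Fin.sum_univ_two, Matrix.sub_apply, o00, o01, o10, o11,
    Matrix.zero_apply] at hE1 hE2
  by_cases hβ : A 0 1 = 0
  · -- the involution is lower unitriangular
    have ha0 : A 0 0 - 1 = 0 := by
      have hsq : (A 0 0 - 1) ^ 2 = 0 := by rw [hm, hβ, zero_mul]
      exact (pow_eq_zero_iff two_ne_zero).mp hsq
    have ha1 : A 1 1 - 1 = 0 := by linear_combination htA - ha0 - h2
    have hγ : A 1 0 ≠ 0 := by
      intro hγ0
      apply hA1
      apply mat2_ext_entries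
      · rw [o00]
        exact sub_eq_zero.mp ha0
      · rw [o01]
        exact hβ
      · rw [o10]
        exact hγ0
      · rw [o11]
        exact sub_eq_zero.mp ha1
    have hc2 : C 0 1 = 0 := by
      have h' : A 1 0 ^ 2 * C 0 1 = 0 := by
        linear_combination hE2 - (A 1 0 * C 0 0 + (A 1 1 - 1) * C 1 0) * ha0
          - (C 1 1 * A 1 0) * ha1
      exact (mul_eq_zero.mp h').resolve_left (pow_ne_zero 2 hγ)
    exact ⟨C 0 0, by linear_combination -hdC + C 0 0 * htC - C 1 0 * hc2 + C 0 0 * h2⟩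
  · have hβi : A 0 1 * (A 0 1)⁻¹ = 1 := mul_inv_cancel₀ hβ
    have hT : (C 0 0 * A 0 1 + C 0 1 * (A 1 1 - 1)) ^ 2
        + (C 0 0 * A 0 1 + C 0 1 * (A 1 1 - 1)) * A 0 1 + A 0 1 ^ 2 = 0 := by
      linear_combination C 0 1 * hE1
        + C 0 1 * (C 0 0 * A 0 1 + C 0 1 * (A 1 1 - 1)) * htA
        + (A 0 1 ^ 2 * C 0 0 ^ 2 + A 0 1 ^ 2 + C 0 0 * C 0 1 * (A 1 1 - 1) * A 0 1
            - C 0 1 * (C 0 0 * A 0 1 + C 0 1 * (A 1 1 - 1)) * A 0 0) * h2
        - (C 0 0 * A 0 1 ^ 2 + C 0 1 * (A 1 1 - 1) * A 0 1) * htC + A 0 1 ^ 2 * hdC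
    refine ⟨(C 0 0 * A 0 1 + C 0 1 * (A 1 1 - 1)) * (A 0 1)⁻¹, ?_⟩
    linear_combination ((A 0 1)⁻¹) ^ 2 * hT
      - ((C 0 0 * A 0 1 + C 0 1 * (A 1 1 - 1)) * (A 0 1)⁻¹ + (1 + A 0 1 * (A 0 1)⁻¹)) * hβi

end Cfsg.Agent.Lib.Helper2
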