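import Mathlib

namespace Cfsg.Agent.Lib.Helper2

set_option linter.unusedSimpArgs false in
set_option maxHeartbeats 1600000 in
theorem a5pres_card_le {G : Type*} [Group G] (x y : G) (hx3 : x ^ 3 = 1) (hy5 : y ^ 5 = 1)
    (hxy2 : (x * y) ^ 2 = 1) (hgen : Subgroup.closure ({x, y} : Set G) = ⊤) :
    Finite G ∧ Nat.card G ≤ 60 := by
  have hx3p : x * x * x = 1 := by rw [← hx3, pow_succ, pow_succ, pow_one]
  have hy5p : y * y * y * y * y = 1 := by
    rw [← hy5, pow_succ, pow_succ, pow_succ, pow_succ, pow_one]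
  have hxy2p : x * y * (x * y) = 1 := by rw [← hxy2, pow_two]
  have d_0x : 1 * x * (1 * (x))⁻¹ = 1 := by
    simp only [mul_assoc, mul_inv_rev, inv_inv, mul_inv_cancel_left, inv_mul_cancel_left, mul_one, one_mul, inv_one, mul_inv_cancel, inv_mul_cancel]
  have d_1x : x * x * (1 * (x * x))⁻¹ = 1 := by
    simp only [mul_assoc, mul_inv_rev, inv_inv, mul_inv_cancel_left, inv_mul_cancel_left, mul_one, one_mul, inv_one, mul_inv_cancel, inv_mul_cancel]
  have d_2y : x * x * y * (1 * (x * x * y))⁻¹ = 1 := by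
    simp only [mul_assoc, mul_inv_rev, inv_inv, mul_inv_cancel_left, inv_mul_cancel_left, mul_one, one_mul, inv_one, mul_inv_cancel, inv_mul_cancel]
  have d_3x : x * x * y * x * (1 * (x * x * y * x))⁻¹ = 1 := by
    simp only [mul_assoc, mul_inv_rev, inv_inv, mul_inv_cancel_left, inv_mul_cancel_left, mul_one, one_mul, inv_one, mul_inv_cancel, inv_mul_cancel]
  have d_3y : x * x * y * y * (1 * (x * x * y * y))⁻¹ = 1 := by
    simp only [mul_assoc, mul_inv_rev, inv_inv, mul_inv_cancel_left, inv_mul_cancel_left, mul_one, one_mul, inv_one, mul_inv_cancel, inv_mul_cancel]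
  have d_4x : x * x * y * x * x * (1 * (x * x * y * x * x))⁻¹ = 1 := by
    simp only [mul_assoc, mul_inv_rev, inv_inv, mul_inv_cancel_left, inv_mul_cancel_left, mul_one, one_mul, inv_one, mul_inv_cancel, inv_mul_cancel]
  have d_5x : x * x * y * y * x * (1 * (x * x * y * y * x))⁻¹ = 1 := by
    simp only [mul_assoc, mul_inv_rev, inv_inv, mul_inv_cancel_left, inv_mul_cancel_left, mul_one, one_mul, inv_one, mul_inv_cancel, inv_mul_cancel]
  have d_6y : x * x * y * x * x * y * (1 * (x * x * y * x * x * y))⁻¹ = 1 := by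
    simp only [mul_assoc, mul_inv_rev, inv_inv, mul_inv_cancel_left, inv_mul_cancel_left, mul_one, one_mul, inv_one, mul_inv_cancel, inv_mul_cancel]
  have d_8y : x * x * y * x * x * y * y * (1 * (x * x * y * x * x * y * y))⁻¹ = 1 := by
    simp only [mul_assoc, mul_inv_rev, inv_inv, mul_inv_cancel_left, inv_mul_cancel_left, mul_one, one_mul, inv_one, mul_inv_cancel, inv_mul_cancel]
  have d_9x : x * x * y * x * x * y * y * x * (1 * (x * x * y * x * x * y * y * x))⁻¹ = 1 := by
    simp only [mul_assoc, mul_inv_rev, inv_inv, mul_inv_cancel_left, inv_mul_cancel_left, mul_one, one_mul, inv_one, mul_inv_cancel, inv_mul_cancel]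
  have d_10x : x * x * y * x * x * y * y * x * x * (1 * (x * x * y * x * x * y * y * x * x))⁻¹ = 1 := by
    simp only [mul_assoc, mul_inv_rev, inv_inv, mul_inv_cancel_left, inv_mul_cancel_left, mul_one, one_mul, inv_one, mul_inv_cancel, inv_mul_cancel]
  have d_0y : 1 * y * (y * (1))⁻¹ = 1 := by
    simp only [mul_assoc, mul_inv_rev, inv_inv, mul_inv_cancel_left, inv_mul_cancel_left, mul_one, one_mul, inv_one, mul_inv_cancel, inv_mul_cancel]
  have d_2x : x * x * x * (1 * (1))⁻¹ = 1 := by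
    calc x * x * x * (1 * (1))⁻¹
        = (1)⁻¹
          * ((1 * (1 * x * (1 * (x))⁻¹) * (1)⁻¹) * (1 * (x * x * (1 * (x * x))⁻¹) * (1)⁻¹))⁻¹
          * (1 * (x * x * x) * (1)⁻¹)
          * 1 := by
          simp only [mul_assoc, mul_inv_rev, inv_inv, mul_inv_cancel_left, inv_mul_cancel_left, mul_one, one_mul, inv_one, mul_inv_cancel, inv_mul_cancel]
      _ = 1 := by
        rw [hx3p, d_0x, d_1x]
        simp only [mul_assoc, mul_inv_rev, inv_inv, mul_inv_cancel_left, inv_mul_cancel_left, mul_one, one_mul, inv_one, mul_inv_cancel, inv_mul_cancel]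
  have d_1y : x * y * (y⁻¹ * (x * x))⁻¹ = 1 := by
    calc x * y * (y⁻¹ * (x * x))⁻¹
        = (1)⁻¹
          * ((1 * (1 * x * (1 * (x))⁻¹) * (1)⁻¹))⁻¹
          * (1 * (x * y * (x * y)) * (1)⁻¹)
          * ((y⁻¹ * (x * x * x * (1 * (1))⁻¹) * (y⁻¹)⁻¹) * (y⁻¹ * (1 * y * (y * (1))⁻¹) * (y⁻¹)⁻¹))⁻¹
          * 1 := by
          simp only [mul_assoc, mul_inv_rev, inv_inv, mul_inv_cancel_left, inv_mul_cancel_left, mul_one, one_mul, inv_one, mul_inv_cancel, inv_mul_cancel]
      _ = 1 := by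
        rw [hxy2p, d_0x, d_2x, d_0y]
        simp only [mul_assoc, mul_inv_rev, inv_inv, mul_inv_cancel_left, inv_mul_cancel_left, mul_one, one_mul, inv_one, mul_inv_cancel, inv_mul_cancel]
  have d_4y : x * x * y * x * y * (1 * (x))⁻¹ = 1 := by
    calc x * x * y * x * y * (1 * (x))⁻¹
        = (1)⁻¹
          * ((1 * (x * x * (1 * (x * x))⁻¹) * (1)⁻¹) * (1 * (x * x * y * (1 * (x * x * y))⁻¹) * (1)⁻¹) * (1 * (x * x * y * x * (1 * (x * x * y * x))⁻¹) * (1)⁻¹))⁻¹
          * (x * (x * y * (x * y)) * (x)⁻¹)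
          * 1 := by
          simp only [mul_assoc, mul_inv_rev, inv_inv, mul_inv_cancel_left, inv_mul_cancel_left, mul_one, one_mul, inv_one, mul_inv_cancel, inv_mul_cancel]
      _ = 1 := by
        rw [hxy2p, d_1x, d_2y, d_3x]
        simp only [mul_assoc, mul_inv_rev, inv_inv, mul_inv_cancel_left, inv_mul_cancel_left, mul_one, one_mul, inv_one, mul_inv_cancel, inv_mul_cancel]
  have d_5y : x * x * y * y * y * (y * (x * x * y * x))⁻¹ = 1 := by
    calc x * x * y * y * y * (y * (x * x * y * x))⁻¹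
        = (1)⁻¹
          * ((1 * (x * x * y * (1 * (x * x * y))⁻¹) * (1)⁻¹) * (1 * (x * x * y * y * (1 * (x * x * y * y))⁻¹) * (1)⁻¹))⁻¹
          * (x * x * (y * y * y * y * y) * (x * x)⁻¹)
          * ((y * (x * x * y * x * y * (1 * (x))⁻¹) * (y)⁻¹) * (y * (x * y * (y⁻¹ * (x * x))⁻¹) * (y)⁻¹))⁻¹
          * 1 := by
          simp only [mul_assoc, mul_inv_rev, inv_inv, mul_inv_cancel_left, inv_mul_cancel_left, mul_one, one_mul, inv_one, mul_inv_cancel, inv_mul_cancel]
      _ = 1 := by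
        rw [hy5p, d_2y, d_3y, d_4y, d_1y]
        simp only [mul_assoc, mul_inv_rev, inv_inv, mul_inv_cancel_left, inv_mul_cancel_left, mul_one, one_mul, inv_one, mul_inv_cancel, inv_mul_cancel]
  have d_6x : x * x * y * x * x * x * (1 * (x * x * y))⁻¹ = 1 := by
    calc x * x * y * x * x * x * (1 * (x * x * y))⁻¹
        = (1)⁻¹
          * ((1 * (x * x * y * x * (1 * (x * x * y * x))⁻¹) * (1)⁻¹) * (1 * (x * x * y * x * x * (1 * (x * x * y * x * x))⁻¹) * (1)⁻¹))⁻¹
          * (x * x * y * (x * x * x) * (x * x * y)⁻¹)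
          * 1 := by
          simp only [mul_assoc, mul_inv_rev, inv_inv, mul_inv_cancel_left, inv_mul_cancel_left, mul_one, one_mul, inv_one, mul_inv_cancel, inv_mul_cancel]
      _ = 1 := by
        rw [hx3p, d_3x, d_4x]
        simp only [mul_assoc, mul_inv_rev, inv_inv, mul_inv_cancel_left, inv_mul_cancel_left, mul_one, one_mul, inv_one, mul_inv_cancel, inv_mul_cancel]
  have d_8x : x * x * y * x * x * y * x * (y⁻¹ * (x * x * y * y))⁻¹ = 1 := by
    calc x * x * y * x * x * y * x * (y⁻¹ * (x * x * y * y))⁻¹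
        = (1)⁻¹
          * ((1 * (x * x * y * x * x * (1 * (x * x * y * x * x))⁻¹) * (1)⁻¹) * (1 * (x * x * y * x * x * y * (1 * (x * x * y * x * x * y))⁻¹) * (1)⁻¹))⁻¹
          * (x * x * y * x * (x * y * (x * y)) * (x * x * y * x)⁻¹)
          * ((y⁻¹ * (x * x * y * y * y * (y * (x * x * y * x))⁻¹) * (y⁻¹)⁻¹))⁻¹
          * 1 := by
          simp only [mul_assoc, mul_inv_rev, inv_inv, mul_inv_cancel_left, inv_mul_cancel_left, mul_one, one_mul, inv_one, mul_inv_cancel, inv_mul_cancel]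
      _ = 1 := by
        rw [hxy2p, d_4x, d_6y, d_5y]
        simp only [mul_assoc, mul_inv_rev, inv_inv, mul_inv_cancel_left, inv_mul_cancel_left, mul_one, one_mul, inv_one, mul_inv_cancel, inv_mul_cancel]
  have d_7x : x * x * y * y * x * x * (y * (x * x * y * x * x * y))⁻¹ = 1 := by
    calc x * x * y * y * x * x * (y * (x * x * y * x * x * y))⁻¹
        = (1)⁻¹
          * ((1 * (x * x * y * y * x * (1 * (x * x * y * y * x))⁻¹) * (1)⁻¹))⁻¹
          * (x * x * y * y * (x * x * x) * (x * x * y * y)⁻¹)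
          * ((y * (x * x * y * x * x * y * x * (y⁻¹ * (x * x * y * y))⁻¹) * (y)⁻¹))⁻¹
          * 1 := by
          simp only [mul_assoc, mul_inv_rev, inv_inv, mul_inv_cancel_left, inv_mul_cancel_left, mul_one, one_mul, inv_one, mul_inv_cancel, inv_mul_cancel]
      _ = 1 := by
        rw [hx3p, d_5x, d_8x]
        simp only [mul_assoc, mul_inv_rev, inv_inv, mul_inv_cancel_left, inv_mul_cancel_left, mul_one, one_mul, inv_one, mul_inv_cancel, inv_mul_cancel]
  have d_7y : x * x * y * y * x * y * (1 * (x * x * y * x * x))⁻¹ = 1 := by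
    calc x * x * y * y * x * y * (1 * (x * x * y * x * x))⁻¹
        = (1)⁻¹
          * ((1 * (x * x * y * y * x * (1 * (x * x * y * y * x))⁻¹) * (1)⁻¹))⁻¹
          * (x * x * y * y * (x * y * (x * y)) * (x * x * y * y)⁻¹)
          * ((1 * (x * x * y * x * x * x * (1 * (x * x * y))⁻¹) * (1)⁻¹) * (1 * (x * x * y * y * (1 * (x * x * y * y))⁻¹) * (1)⁻¹))⁻¹
          * 1 := by
          simp only [mul_assoc, mul_inv_rev, inv_inv, mul_inv_cancel_left, inv_mul_cancel_left, mul_one, one_mul, inv_one, mul_inv_cancel, inv_mul_cancel]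
      _ = 1 := by
        rw [hxy2p, d_5x, d_6x, d_3y]
        simp only [mul_assoc, mul_inv_rev, inv_inv, mul_inv_cancel_left, inv_mul_cancel_left, mul_one, one_mul, inv_one, mul_inv_cancel, inv_mul_cancel]
  have d_10y : x * x * y * x * x * y * y * x * y * (y⁻¹ * (x * x * y * y * x))⁻¹ = 1 := by
    calc x * x * y * x * x * y * y * x * y * (y⁻¹ * (x * x * y * y * x))⁻¹
        = (y)⁻¹
          * ((1 * (x * x * y * y * x * x * (y * (x * x * y * x * x * y))⁻¹) * (1)⁻¹) * (y * (x * x * y * x * x * y * y * (1 * (x * x * y * x * x * y * y))⁻¹) * (y)⁻¹) * (y * (x * x * y * x * x * y * y * x * (1 * (x * x * y * x * x * y * y * x))⁻¹) * (y)⁻¹))⁻¹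
          * (x * x * y * y * x * (x * y * (x * y)) * (x * x * y * y * x)⁻¹)
          * y := by
          simp only [mul_assoc, mul_inv_rev, inv_inv, mul_inv_cancel_left, inv_mul_cancel_left, mul_one, one_mul, inv_one, mul_inv_cancel, inv_mul_cancel]
      _ = 1 := by
        rw [hxy2p, d_7x, d_8y, d_9x]
        simp only [mul_assoc, mul_inv_rev, inv_inv, mul_inv_cancel_left, inv_mul_cancel_left, mul_one, one_mul, inv_one, mul_inv_cancel, inv_mul_cancel]
  have d_9y : x * x * y * x * x * y * y * y * (y * (x * x * y * x * x * y * y * x))⁻¹ = 1 := by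
    calc x * x * y * x * x * y * y * y * (y * (x * x * y * x * x * y * y * x))⁻¹
        = (1)⁻¹
          * ((1 * (x * x * y * x * x * y * y * (1 * (x * x * y * x * x * y * y))⁻¹) * (1)⁻¹))⁻¹
          * (x * x * y * x * x * y * (y * y * y * y * y) * (x * x * y * x * x * y)⁻¹)
          * ((y * (x * x * y * x * x * y * y * x * y * (y⁻¹ * (x * x * y * y * x))⁻¹) * (y)⁻¹) * (1 * (x * x * y * y * x * y * (1 * (x * x * y * x * x))⁻¹) * (1)⁻¹) * (1 * (x * x * y * x * x * y * (1 * (x * x * y * x * x * y))⁻¹) * (1)⁻¹))⁻¹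
          * 1 := by
          simp only [mul_assoc, mul_inv_rev, inv_inv, mul_inv_cancel_left, inv_mul_cancel_left, mul_one, one_mul, inv_one, mul_inv_cancel, inv_mul_cancel]
      _ = 1 := by
        rw [hy5p, d_8y, d_10y, d_7y, d_6y]
        simp only [mul_assoc, mul_inv_rev, inv_inv, mul_inv_cancel_left, inv_mul_cancel_left, mul_one, one_mul, inv_one, mul_inv_cancel, inv_mul_cancel]
  have d_11x : x * x * y * x * x * y * y * x * x * x * (1 * (x * x * y * x * x * y * y))⁻¹ = 1 := by
    calc x * x * y * x * x * y * y * x * x * x * (1 * (x * x * y * x * x * y * y))⁻¹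
        = (1)⁻¹
          * ((1 * (x * x * y * x * x * y * y * x * (1 * (x * x * y * x * x * y * y * x))⁻¹) * (1)⁻¹) * (1 * (x * x * y * x * x * y * y * x * x * (1 * (x * x * y * x * x * y * y * x * x))⁻¹) * (1)⁻¹))⁻¹
          * (x * x * y * x * x * y * y * (x * x * x) * (x * x * y * x * x * y * y)⁻¹)
          * 1 := by
          simp only [mul_assoc, mul_inv_rev, inv_inv, mul_inv_cancel_left, inv_mul_cancel_left, mul_one, one_mul, inv_one, mul_inv_cancel, inv_mul_cancel]
      _ = 1 := by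
        rw [hx3p, d_9x, d_10x]
        simp only [mul_assoc, mul_inv_rev, inv_inv, mul_inv_cancel_left, inv_mul_cancel_left, mul_one, one_mul, inv_one, mul_inv_cancel, inv_mul_cancel]
  have d_11y : x * x * y * x * x * y * y * x * x * y * (y⁻¹ * (x * x * y * x * x * y * y * x * x))⁻¹ = 1 := by
    calc x * x * y * x * x * y * y * x * x * y * (y⁻¹ * (x * x * y * x * x * y * y * x * x))⁻¹
        = (1)⁻¹
          * ((1 * (x * x * y * x * x * y * y * x * x * (1 * (x * x * y * x * x * y * y * x * x))⁻¹) * (1)⁻¹))⁻¹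
          * (x * x * y * x * x * y * y * x * (x * y * (x * y)) * (x * x * y * x * x * y * y * x)⁻¹)
          * ((y⁻¹ * (x * x * y * x * x * y * y * x * x * x * (1 * (x * x * y * x * x * y * y))⁻¹) * (y⁻¹)⁻¹) * (y⁻¹ * (x * x * y * x * x * y * y * y * (y * (x * x * y * x * x * y * y * x))⁻¹) * (y⁻¹)⁻¹))⁻¹
          * 1 := by
          simp only [mul_assoc, mul_inv_rev, inv_inv, mul_inv_cancel_left, inv_mul_cancel_left, mul_one, one_mul, inv_one, mul_inv_cancel, inv_mul_cancel]
      _ = 1 := by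
        rw [hxy2p, d_10x, d_11x, d_9y]
        simp only [mul_assoc, mul_inv_rev, inv_inv, mul_inv_cancel_left, inv_mul_cancel_left, mul_one, one_mul, inv_one, mul_inv_cancel, inv_mul_cancel]
  obtain ⟨r, hr0, hr1, hr2, hr3, hr4, hr5, hr6, hr7, hr8, hr9, hr10, hr11⟩ :
      ∃ r : ℕ → G, r 0 = 1 ∧ r 1 = x ∧ r 2 = x * x ∧ r 3 = x * x * y ∧ r 4 = x * x * y * x ∧ r 5 = x * x * y * y ∧ r 6 = x * x * y * x * x ∧ r 7 = x * x * y * y * x ∧ r 8 = x * x * y * x * x * y ∧ r 9 = x * x * y * x * x * y * y ∧ r 10 = x * x * y * x * x * y * y * x ∧ r 11 = x * x * y * x * x * y * y * x * x :=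
    ⟨fun n => match n with
      | 0 => 1
      | 1 => x
      | 2 => x * x
      | 3 => x * x * y
      | 4 => x * x * y * x
      | 5 => x * x * y * y
      | 6 => x * x * y * x * x
      | 7 => x * x * y * y * x
      | 8 => x * x * y * x * x * y
      | 9 => x * x * y * x * x * y * y
      | 10 => x * x * y * x * x * y * y * x
      | 11 => x * x * y * x * x * y * y * x * x
      | _ => 1, rfl, rfl, rfl, rfl, rfl, rfl, rfl, rfl, rfl, rfl, rfl, rfl⟩
  obtain ⟨T, hT⟩ : ∃ T : G → Prop, ∀ g, T g ↔ ∃ i, i < 12 ∧ ∃ k : ℤ, g = y ^ k * r i :=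
    ⟨fun g => ∃ i, i < 12 ∧ ∃ k : ℤ, g = y ^ k * r i, fun g => Iff.rfl⟩
  have step : ∀ (i j : ℕ) (k' : ℤ) (g : G), j < 12 → r i * g = y ^ k' * r j →
      ∀ k : ℤ, T (y ^ k * r i * g) := by
    intro i j k' g hj h k
    rw [hT]
    exact ⟨j, hj, k + k', by rw [mul_assoc, h, ← mul_assoc, zpow_add]⟩
  have hTx : ∀ g, T g → T (g * x) := by
    intro g hg
    rw [hT] at hg
    obtain ⟨i, hi, k, rfl⟩ := hg
    interval_cases i
    · exact step 0 1 (0) x (by norm_num) (by rw [hr0, hr1, zpow_zero]; first | done | exact mul_inv_eq_one.mp d_0x) k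
    · exact step 1 2 (0) x (by norm_num) (by rw [hr1, hr2, zpow_zero]; first | done | exact mul_inv_eq_one.mp d_1x) k
    · exact step 2 0 (0) x (by norm_num) (by rw [hr2, hr0, zpow_zero]; first | done | exact mul_inv_eq_one.mp d_2x) k
    · exact step 3 4 (0) x (by norm_num) (by rw [hr3, hr4, zpow_zero]; first | done | exact mul_inv_eq_one.mp d_3x) k
    · exact step 4 6 (0) x (by norm_num) (by rw [hr4, hr6, zpow_zero]; first | done | exact mul_inv_eq_one.mp d_4x) k
    · exact step 5 7 (0) x (by norm_num) (by rw [hr5, hr7, zpow_zero]; first | done | exact mul_inv_eq_one.mp d_5x) k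
    · exact step 6 3 (0) x (by norm_num) (by rw [hr6, hr3, zpow_zero]; first | done | exact mul_inv_eq_one.mp d_6x) k
    · exact step 7 8 (1) x (by norm_num) (by rw [hr7, hr8, zpow_one]; first | done | exact mul_inv_eq_one.mp d_7x) k
    · exact step 8 5 (-1) x (by norm_num) (by rw [hr8, hr5, zpow_neg_one]; first | done | exact mul_inv_eq_one.mp d_8x) k
    · exact step 9 10 (0) x (by norm_num) (by rw [hr9, hr10, zpow_zero]; first | done | exact mul_inv_eq_one.mp d_9x) k
    · exact step 10 11 (0) x (by norm_num) (by rw [hr10, hr11, zpow_zero]; first | done | exact mul_inv_eq_one.mp d_10x) k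
    · exact step 11 9 (0) x (by norm_num) (by rw [hr11, hr9, zpow_zero]; first | done | exact mul_inv_eq_one.mp d_11x) k
  have hTy : ∀ g, T g → T (g * y) := by
    intro g hg
    rw [hT] at hg
    obtain ⟨i, hi, k, rfl⟩ := hg
    interval_cases i
    · exact step 0 0 (1) y (by norm_num) (by rw [hr0, zpow_one]; first | done | exact mul_inv_eq_one.mp d_0y) k
    · exact step 1 2 (-1) y (by norm_num) (by rw [hr1, hr2, zpow_neg_one]; first | done | exact mul_inv_eq_one.mp d_1y) k
    · exact step 2 3 (0) y (by norm_num) (by rw [hr2, hr3, zpow_zero]; first | done | exact mul_inv_eq_one.mp d_2y) k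
    · exact step 3 5 (0) y (by norm_num) (by rw [hr3, hr5, zpow_zero]; first | done | exact mul_inv_eq_one.mp d_3y) k
    · exact step 4 1 (0) y (by norm_num) (by rw [hr4, hr1, zpow_zero]; first | done | exact mul_inv_eq_one.mp d_4y) k
    · exact step 5 4 (1) y (by norm_num) (by rw [hr5, hr4, zpow_one]; first | done | exact mul_inv_eq_one.mp d_5y) k
    · exact step 6 8 (0) y (by norm_num) (by rw [hr6, hr8, zpow_zero]; first | done | exact mul_inv_eq_one.mp d_6y) k
    · exact step 7 6 (0) y (by norm_num) (by rw [hr7, hr6, zpow_zero]; first | done | exact mul_inv_eq_one.mp d_7y) k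
    · exact step 8 9 (0) y (by norm_num) (by rw [hr8, hr9, zpow_zero]; first | done | exact mul_inv_eq_one.mp d_8y) k
    · exact step 9 10 (1) y (by norm_num) (by rw [hr9, hr10, zpow_one]; first | done | exact mul_inv_eq_one.mp d_9y) k
    · exact step 10 7 (-1) y (by norm_num) (by rw [hr10, hr7, zpow_neg_one]; first | done | exact mul_inv_eq_one.mp d_10y) k
    · exact step 11 11 (-1) y (by norm_num) (by rw [hr11, zpow_neg_one]; first | done | exact mul_inv_eq_one.mp d_11y) k
  have hxinv : x⁻¹ = x * x := inv_eq_of_mul_eq_one_right (by rw [← mul_assoc]; exact hx3p)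
  have hyinv : y⁻¹ = y * y * y * y :=
    inv_eq_of_mul_eq_one_right (by rw [← mul_assoc, ← mul_assoc, ← mul_assoc]; exact hy5p)
  have hT1 : T 1 := by
    rw [hT]
    exact ⟨0, by norm_num, 0, by rw [hr0]; group⟩
  have hall : ∀ w ∈ Subgroup.closure ({x, y} : Set G), ∀ g, T g → T (g * w) := by
    intro w hw
    induction hw using Subgroup.closure_induction'' with
    | mem a ha =>
      rcases ha with rfl | rfl
      · exact hTx
      · exact hTy
    | inv_mem a ha =>
      rcases ha with rfl | rfl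
      · intro g hg
        rw [hxinv, ← mul_assoc]
        exact hTx _ (hTx _ hg)
      · intro g hg
        rw [hyinv, ← mul_assoc, ← mul_assoc, ← mul_assoc]
        exact hTy _ (hTy _ (hTy _ (hTy _ hg)))
    | one =>
      intro g hg
      rwa [mul_one]
    | mul a b _ _ iha ihb =>
      intro g hg
      rw [← mul_assoc]
      exact ihb _ (iha _ hg)
  have hTall : ∀ g : G, T g := by
    intro g
    have h1 := hall g (by rw [hgen]; exact Subgroup.mem_top g) 1 hT1
    rwa [one_mul] at h1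
  have hyfin : IsOfFinOrder y := isOfFinOrder_iff_pow_eq_one.mpr ⟨5, by norm_num, hy5⟩
  have hfz : Finite (Subgroup.zpowers y) := hyfin.finite_zpowers.to_subtype
  obtain ⟨f, hf⟩ : ∃ f : Subgroup.zpowers y × Fin 12 → G, ∀ p, f p = (p.1 : G) * r p.2.val :=
    ⟨fun p => (p.1 : G) * r p.2.val, fun p => rfl⟩
  have hsurj : Function.Surjective f := by
    intro g
    obtain ⟨i, hi, k, rfl⟩ := (hT g).mp (hTall g)
    exact ⟨(⟨y ^ k, Subgroup.zpow_mem_zpowers y k⟩, ⟨i, hi⟩), by rw [hf]⟩
  have hfinG : Finite G := Finite.of_surjective f hsurj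
  refine ⟨hfinG, ?_⟩
  have h1 : Nat.card G ≤ Nat.card (Subgroup.zpowers y × Fin 12) :=
    Nat.card_le_card_of_surjective f hsurj
  have h2 : Nat.card (Subgroup.zpowers y × Fin 12) = orderOf y * 12 := by
    rw [Nat.card_prod, Nat.card_zpowers, Nat.card_eq_fintype_card, Fintype.card_fin]
  have h3 : orderOf y ≤ 5 := Nat.le_of_dvd (by norm_num) (orderOf_dvd_of_pow_eq_one hy5)
  omega

end Cfsg.Agent.Lib.Helper2
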