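import Mathlib
import Cfsg.Agent.Lib.Helper4.ConjHom

set_option autoImplicit false

namespace Cfsg.Agent.Lib.Helper2

open scoped IsMulCommutative

theorem exists_index_two_of_hom {G A : Type*} [Group G] [Finite G] [Group A] (f : G →* A)
    (hA : IsPGroup 2 ↥f.range) (g : G) (hg : f g ≠ 1) : ∃ H : Subgroup G, H.index = 2 := by
  haveI : Fact (Nat.Prime 2) := ⟨Nat.prime_two⟩
  haveI : Finite ↥f.range := Finite.of_surjective f.rangeRestrict f.rangeRestrict_surjective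
  obtain ⟨k, hk⟩ := IsPGroup.iff_card.mp hA
  have hk1 : k ≠ 0 := by
    rintro rfl
    rw [pow_zero] at hk
    haveI := (Nat.card_eq_one_iff_unique.mp hk).1
    have h1 : (⟨f g, ⟨g, rfl⟩⟩ : ↥f.range) = 1 := Subsingleton.elim _ _
    exact hg (congrArg Subtype.val h1)
  obtain ⟨K, hK⟩ := Sylow.exists_subgroup_card_pow_prime (G := ↥f.range) 2 (n := k - 1)
    (by rw [hk]; exact pow_dvd_pow 2 (Nat.sub_le k 1))
  refine ⟨K.comap f.rangeRestrict, ?_⟩
  rw [Subgroup.index_comap_of_surjective K f.rangeRestrict_surjective]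
  have h2 := K.card_mul_index
  rw [hK, hk] at h2
  have h3 : 2 ^ k = 2 ^ (k - 1) * 2 := by
    rw [← pow_succ]; congr 1; omega
  rw [h3] at h2
  exact Nat.eq_of_mul_eq_mul_left (by positivity) h2

theorem exists_index_two_of_normalizer_fixed {G : Type*} [Group G] [Finite G] (S : Sylow 2 G)
    (hS : IsMulCommutative (S : Subgroup G)) (v : G) (hvS : v ∈ S) (hv2 : v ^ 2 = 1)
    (hv1 : v ≠ 1)
    (hinv : ∀ n ∈ Subgroup.normalizer ((S : Subgroup G) : Set G), n * v * n⁻¹ = v) :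
    ∃ H : Subgroup G, H.index = 2 := by
  haveI : Fact (Nat.Prime 2) := ⟨Nat.prime_two⟩
  haveI := hS
  have hcomm : ∀ a ∈ (S : Subgroup G), ∀ b ∈ (S : Subgroup G), a * b = b * a := by
    intro a ha b hb
    exact congrArg Subtype.val (hS.is_comm.comm ⟨a, ha⟩ ⟨b, hb⟩)
  have hcent : ∀ a ∈ (S : Subgroup G),
      a ∈ Subgroup.centralizer ((S : Subgroup G) : Set G) := by
    intro a ha
    rw [Subgroup.mem_centralizer_iff]
    intro b hb
    exact hcomm b hb a ha
  have key : ∀ (k : ℕ) (g₀ : G), g₀⁻¹ * v ^ k * g₀ ∈ (S : Subgroup G) →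
      g₀⁻¹ * v ^ k * g₀ = v ^ k := by
    intro k g₀ h
    obtain ⟨n, hn, hn'⟩ := Sylow.conj_eq_normalizer_conj_of_mem_centralizer S (v ^ k) g₀
      (hcent _ (pow_mem hvS k)) (hcent _ h)
    rw [hn']
    have h1 := hinv n⁻¹ (inv_mem hn)
    rw [inv_inv] at h1
    have h2 : n⁻¹ * v ^ k * n = (n⁻¹ * v * n) ^ k := by
      have := conj_pow (a := n⁻¹) (b := v) (i := k)
      rw [inv_inv] at this
      exact this.symm
    rw [h2, h1]
  have h3 := MonoidHom.transfer_eq_pow (MonoidHom.id ↥(S : Subgroup G)) v key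
  have hodd : ¬ 2 ∣ (S : Subgroup G).index := S.not_dvd_index
  have h4 : v ^ (S : Subgroup G).index = v := by
    have hodd' : Odd (S : Subgroup G).index := Nat.odd_iff.mpr (Nat.two_dvd_ne_zero.mp hodd)
    obtain ⟨m, hm⟩ := hodd'
    rw [hm, pow_succ, pow_mul, hv2, one_pow, one_mul]
  refine exists_index_two_of_hom (MonoidHom.transfer (MonoidHom.id ↥(S : Subgroup G))) ?_ v ?_
  · exact IsPGroup.to_subgroup S.isPGroup' _
  · rw [h3]
    intro h5
    have h6 : v ^ (S : Subgroup G).index = 1 := congrArg Subtype.val h5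
    rw [h4] at h6
    exact hv1 h6

theorem exists_normalizer_fixed_not_mem {G : Type*} [Group G] [Finite G] (S : Sylow 2 G)
    (hS : IsMulCommutative (S : Subgroup G)) (V W : Subgroup G)
    (hidx : W.relIndex V = 2) (t : G) (htS : t ∈ S)
    (ht : ∀ n ∈ Subgroup.normalizer ((S : Subgroup G) : Set G),
      n * t * n⁻¹ ∈ V ∧ n * t * n⁻¹ ∉ W) :
    ∃ v ∈ V, v ∉ W ∧
      ∀ n ∈ Subgroup.normalizer ((S : Subgroup G) : Set G), n * v * n⁻¹ = v := by
  classical
  haveI : Fact (Nat.Prime 2) := ⟨Nat.prime_two⟩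
  haveI := hS
  have hcomm : ∀ a ∈ (S : Subgroup G), ∀ b ∈ (S : Subgroup G), a * b = b * a := by
    intro a ha b hb
    exact congrArg Subtype.val (hS.is_comm.comm ⟨a, ha⟩ ⟨b, hb⟩)
  set N : Subgroup G := Subgroup.normalizer ((S : Subgroup G) : Set G) with hN
  have hSN : (S : Subgroup G) ≤ N := Subgroup.le_normalizer
  let S' : Subgroup ↥N := (S : Subgroup G).subgroupOf N
  let Q := ↥N ⧸ S'
  haveI : Fintype Q := Fintype.ofFinite Q
  have hconjS : ∀ n ∈ N, ∀ s ∈ (S : Subgroup G), n * s * n⁻¹ ∈ (S : Subgroup G) := by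
    intro n hn s hs
    exact (Subgroup.mem_normalizer_iff.mp hn s).mp hs
  let fN : ↥N → ↥(S : Subgroup G) := fun a => ⟨(a : G) * t * (a : G)⁻¹, hconjS a a.2 t htS⟩
  have hwd : ∀ a b : ↥N, (QuotientGroup.mk a : Q) = QuotientGroup.mk b → fN a = fN b := by
    intro a b hab
    have h1 : a⁻¹ * b ∈ S' := QuotientGroup.eq.mp hab
    have h2 : (a : G)⁻¹ * (b : G) ∈ (S : Subgroup G) := h1
    have h3 := hcomm _ h2 t htS
    apply Subtype.ext
    show (a : G) * t * (a : G)⁻¹ = (b : G) * t * (b : G)⁻¹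
    have e : (b : G) * t * (b : G)⁻¹
        = (a : G) * (((a : G)⁻¹ * (b : G)) * t) * ((a : G)⁻¹ * (b : G))⁻¹ * (a : G)⁻¹ := by
      group
    rw [e, h3]; group
  let f : Q → ↥(S : Subgroup G) := fun q => fN q.out
  have hkey : ∀ a ∈ V, ∀ b ∈ V, (a * b ∈ W ↔ (a ∈ W ↔ b ∈ W)) := by
    intro a ha b hb
    have hidx' : (W.subgroupOf V).index = 2 := hidx
    exact Subgroup.mul_mem_iff_of_index_two hidx' (a := ⟨a, ha⟩) (b := ⟨b, hb⟩)
  have hfV : ∀ q : Q, ((f q : ↥(S : Subgroup G)) : G) ∈ V ∧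
      ((f q : ↥(S : Subgroup G)) : G) ∉ W := fun q => ht _ q.out.2
  have hpar : ∀ s : Finset Q, ((∏ q ∈ s, f q : ↥(S : Subgroup G)) : G) ∈ V ∧
      (((∏ q ∈ s, f q : ↥(S : Subgroup G)) : G) ∈ W ↔ Even s.card) := by
    intro s
    induction s using Finset.induction_on with
    | empty =>
      rw [Finset.prod_empty, Finset.card_empty]
      refine ⟨V.one_mem, ?_⟩
      exact ⟨fun _ => ⟨0, rfl⟩, fun _ => W.one_mem⟩
    | insert a s ha ih =>
      rw [Finset.prod_insert ha, Finset.card_insert_of_notMem ha]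
      have e : ((f a * ∏ q ∈ s, f q : ↥(S : Subgroup G)) : G)
          = (f a : G) * ((∏ q ∈ s, f q : ↥(S : Subgroup G)) : G) := rfl
      rw [e]
      refine ⟨V.mul_mem (hfV a).1 ih.1, ?_⟩
      rw [hkey _ (hfV a).1 _ ih.1, ih.2, Nat.even_add_one]
      constructor
      · intro h1 h2; exact (hfV a).2 (h1.mpr h2)
      · intro h1; exact ⟨fun h2 => absurd h2 (hfV a).2, fun h2 => absurd h2 h1⟩
  have hQodd : ¬ Even (Fintype.card Q) := by
    have h1 : Fintype.card Q = (S : Subgroup G).relIndex N := by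
      rw [← Nat.card_eq_fintype_card]; rfl
    rw [h1]
    intro h2
    have h3 : 2 ∣ (S : Subgroup G).index :=
      (even_iff_two_dvd.mp h2).trans (Subgroup.relIndex_dvd_index_of_le hSN)
    exact S.not_dvd_index h3
  have hv := hpar Finset.univ
  rw [Finset.card_univ] at hv
  refine ⟨((∏ q : Q, f q : ↥(S : Subgroup G)) : G), hv.1, fun h => hQodd (hv.2.mp h), ?_⟩
  intro n hn
  have h1 : Cfsg.Agent.Lib.Helper4.conjHom (S : Subgroup G) N le_rfl ⟨n, hn⟩ (∏ q : Q, f q)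
      = ∏ q : Q, f q := by
    rw [map_prod]
    have h2 : ∀ q : Q, Cfsg.Agent.Lib.Helper4.conjHom (S : Subgroup G) N le_rfl ⟨n, hn⟩ (f q)
        = f ((⟨n, hn⟩ : ↥N) • q) := by
      intro q
      have h3 : f ((⟨n, hn⟩ : ↥N) • q) = fN (⟨n, hn⟩ * q.out) := by
        show fN (((⟨n, hn⟩ : ↥N) • q).out) = fN (⟨n, hn⟩ * q.out)
        apply hwd
        rw [QuotientGroup.out_eq']
        have h4 : (⟨n, hn⟩ : ↥N) • q = (⟨n, hn⟩ : ↥N) • (QuotientGroup.mk q.out : Q) := by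
          rw [QuotientGroup.out_eq']
        exact h4.trans rfl
      rw [h3]
      apply Subtype.ext
      show n * ((q.out : ↥N) * t * ((q.out : ↥N) : G)⁻¹) * n⁻¹
        = (n * (q.out : ↥N)) * t * (n * ((q.out : ↥N) : G))⁻¹
      group
    rw [Finset.prod_congr rfl (fun q _ => h2 q)]
    exact Equiv.prod_comp (MulAction.toPerm (⟨n, hn⟩ : ↥N)) f
  exact congrArg Subtype.val h1

end Cfsg.Agent.Lib.Helper2
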