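import Mathlib
import Cfsg.Prelude.Def_ChevB2

set_option autoImplicit false

namespace Cfsg.Agent.Lib.Helper2

open Cfsg.Lie

/-- Position of a coordinate of the ten-dimensional space of type B2. -/
def b2Pos : chevB2.Idx → ℕ := Sum.elim (fun i => i.val) (fun u => u.val + 2)

/-- The matrix over the prime field coded by the bits of a natural number. -/
def b2Tab (N : ℕ) : Matrix chevB2.Idx chevB2.Idx (ZMod 2) :=
  fun row col => if N.testBit (10 * b2Pos row + b2Pos col) then 1 else 0

def b2L1 : List ℕ := [634134936313486801951313627649, 634135540776972859051088021761, 634753906923425163805420685441, 634135238545013481606872107009, 634289678855290689816235116545, 713440491330859870716411512849, 673761144612358388800515213321, 639106048728474841244042795013, 634289829971054170450490886145, 633980344887445831494741788673, 634754813618438393280409962625, 639730785353153789858916403341, 678920988801951865865028831245, 757839722901005658938566248477, 639106048728475105256215677441, 4971112488811607610491930625]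

def b2L2 : List ℕ := [633980344887445831494741788673, 634289678855290689816235116545, 757839722901005658938566248477, 4971112488811607610491930625, 639106048728474841244042795013, 4971112488811625211272108037, 634134936313486801951313627649, 634289829971054170450490886145, 4980793377031148202545448961, 4980788654633271997551908893, 4971117211182682072978298901, 4971117211182664467903154193, 634135540776972859051088021761, 633980496003209312128997558273, 634135238545013481606872107009, 4971131378349596957988685825, 4966295642789255077391538205, 4966286198020233972380866581, 4975948196701785173954402317, 4975948196701763175127713801, 634753906923425163805420685441, 758228817634134495151245006877, 718411608468214674491738953749, 713440491330859870716411512849, 757839923601612706100174428189, 718196629785381476872501598229, 678737092730625168222896265229, 673761144612358388800515213321]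

def b2P1 : List (ℕ × ℕ) := [(0, 0), (0, 0), (0, 0), (0, 0), (0, 0), (0, 0), (0, 0), (0, 0), (3, 4), (8, 3), (3, 2), (10, 7), (11, 2), (12, 3), (0, 7), (14, 0)]

def b2P2 : List (ℕ × ℕ) := [(0, 0), (0, 0), (0, 0), (0, 0), (0, 0), (3, 4), (5, 3), (1, 0), (7, 3), (8, 2), (9, 1), (10, 4), (11, 3), (0, 1), (13, 0), (14, 3), (15, 2), (16, 1), (17, 0), (18, 4), (19, 3), (7, 2), (21, 1), (22, 4), (14, 2), (24, 1), (25, 0), (26, 4)]

def b2Out1 : List ℕ := [9, 4, 13, 15, 7]

def b2Out2 : List ℕ := [6, 12, 20, 14, 1, 23, 27, 4]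

def b2T1 (k : ℕ) : Matrix chevB2.Idx chevB2.Idx (ZMod 2) := b2Tab (b2L1.getD k 0)

def b2T2 (k : ℕ) : Matrix chevB2.Idx chevB2.Idx (ZMod 2) := b2Tab (b2L2.getD k 0)

def b2A1 (k : ℕ) : ℕ := (b2P1.getD k (0, 0)).1

def b2B1 (k : ℕ) : ℕ := (b2P1.getD k (0, 0)).2

def b2A2 (k : ℕ) : ℕ := (b2P2.getD k (0, 0)).1

def b2B2 (k : ℕ) : ℕ := (b2P2.getD k (0, 0)).2

def b2O1 (k : ℕ) : ℕ := b2Out1.getD k 0

def b2O2 (k : ℕ) : ℕ := b2Out2.getD k 0

theorem b2_base1 : ∀ r : Fin chevB2.nroots, chevB2.xMat (ZMod 2) r 1 = b2T1 r.val := by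
  decide +kernel

theorem b2_xsq : ∀ r : Fin chevB2.nroots, b2T1 r.val * b2T1 r.val = 1 := by
  decide +kernel

theorem b2_step1 : ∀ k : Fin 16, 8 ≤ k.val →
    b2A1 k.val < k.val ∧ b2B1 k.val < k.val ∧
      b2T1 k.val = b2T1 (b2A1 k.val) * b2T1 (b2B1 k.val) := by
  decide +kernel

theorem b2_out1 : ∀ i : Fin 5, b2O1 i.val < 16 ∧ b2T2 i.val = b2T1 (b2O1 i.val) := by
  decide +kernel

theorem b2_step2 : ∀ k : Fin 28, 5 ≤ k.val →
    b2A2 k.val < k.val ∧ b2B2 k.val < k.val ∧
      b2T2 k.val = b2T2 (b2A2 k.val) * b2T2 (b2B2 k.val) := by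
  decide +kernel

theorem b2_out2 : ∀ r : Fin chevB2.nroots, b2O2 r.val < 28 ∧ b2T1 r.val = b2T2 (b2O2 r.val) := by
  decide +kernel

theorem b2M_sq : ∀ i : Fin 5, b2T2 i.val * b2T2 i.val = 1 := by
  decide +kernel

theorem b2M_braid : ∀ i j : Fin 5, ((j : ℕ) + 1 = i ∨ (i : ℕ) + 1 = j) →
    b2T2 i.val * b2T2 j.val * b2T2 i.val = b2T2 j.val * b2T2 i.val * b2T2 j.val := by
  decide +kernel

theorem b2M_comm : ∀ i j : Fin 5, i ≠ j → ¬((j : ℕ) + 1 = i ∨ (i : ℕ) + 1 = j) →
    b2T2 i.val * b2T2 j.val = b2T2 j.val * b2T2 i.val := by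
  decide +kernel

theorem b2M_ne : b2T2 0 * b2T2 1 ≠ 1 := by
  decide +kernel

theorem b2_zmod2 : ∀ z : ZMod 2, z = 0 ∨ z = 1 := by
  decide

theorem b2_rel : ∀ i j : Fin 5, (b2T2 i.val * b2T2 j.val) ^ ((CoxeterMatrix.A 5) i j) = 1 := by
  intro i j
  have hv : (CoxeterMatrix.A 5) i j = if i = j then 1
      else (if (j : ℕ) + 1 = i ∨ (i : ℕ) + 1 = j then 3 else 2) := rfl
  rw [hv]
  by_cases hij : i = j
  · subst hij
    rw [if_pos rfl, pow_one]
    exact b2M_sq i
  · rw [if_neg hij]
    have ha := b2M_sq i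
    have hb := b2M_sq j
    by_cases hadj : (j : ℕ) + 1 = i ∨ (i : ℕ) + 1 = j
    · rw [if_pos hadj]
      have hab := b2M_braid i j hadj
      calc (b2T2 i.val * b2T2 j.val) ^ 3
          = (b2T2 i.val * b2T2 j.val * b2T2 i.val) * (b2T2 j.val * b2T2 i.val * b2T2 j.val) := by
            rw [pow_three']
            simp only [mul_assoc]
        _ = (b2T2 j.val * b2T2 i.val * b2T2 j.val) * (b2T2 j.val * b2T2 i.val * b2T2 j.val) := by
            rw [hab]
        _ = b2T2 j.val * (b2T2 i.val * (b2T2 j.val * b2T2 j.val) * b2T2 i.val) * b2T2 j.val := by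
            simp only [mul_assoc]
        _ = 1 := by rw [hb, mul_one, ha, mul_one, hb]
    · rw [if_neg hadj]
      have hab := b2M_comm i j hij hadj
      calc (b2T2 i.val * b2T2 j.val) ^ 2
          = b2T2 i.val * (b2T2 j.val * b2T2 i.val) * b2T2 j.val := by
            rw [sq]
            simp only [mul_assoc]
        _ = b2T2 i.val * (b2T2 i.val * b2T2 j.val) * b2T2 j.val := by rw [← hab]
        _ = (b2T2 i.val * b2T2 i.val) * (b2T2 j.val * b2T2 j.val) := by simp only [mul_assoc]
        _ = 1 := by rw [ha, hb, mul_one]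

/-- Membership along a straight-line program: every entry of a table is obtained from the
base entries by products of earlier entries. -/
theorem slp_mem {N : Type*} [Mul N] (P : N → Prop) (hmul : ∀ a b, P a → P b → P (a * b))
    (T : ℕ → N) (pa pb : ℕ → ℕ) (m n : ℕ)
    (hbase : ∀ k, k < m → P (T k))
    (hstep : ∀ k, m ≤ k → k < n → pa k < k ∧ pb k < k ∧ T k = T (pa k) * T (pb k)) :
    ∀ k, k < n → P (T k) := by
  intro k
  induction k using Nat.strong_induction_on with
  | _ k ih =>
    intro hk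
    by_cases hkm : k < m
    · exact hbase k hkm
    · obtain ⟨h1, h2, h3⟩ := hstep k (not_lt.mp hkm) hk
      rw [h3]
      exact hmul _ _ (ih _ h1 (lt_trans h1 hk)) (ih _ h2 (lt_trans h2 hk))

theorem b2_slp1 : ∀ k, 8 ≤ k → k < 16 →
    b2A1 k < k ∧ b2B1 k < k ∧ b2T1 k = b2T1 (b2A1 k) * b2T1 (b2B1 k) :=
  fun k h8 hk => b2_step1 ⟨k, hk⟩ h8

theorem b2_slp2 : ∀ k, 5 ≤ k → k < 28 →
    b2A2 k < k ∧ b2B2 k < k ∧ b2T2 k = b2T2 (b2A2 k) * b2T2 (b2B2 k) :=
  fun k h5 hk => b2_step2 ⟨k, hk⟩ h5

end Cfsg.Agent.Lib.Helper2
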