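import Mathlib
import Cfsg.Prelude.Def_ChevB2

set_option autoImplicit false

namespace Cfsg.Agent.Lib.Helper2

open Cfsg.Lie

/-- Root elements are natural in the coefficient field. -/
theorem xMat_map_hom (D : ChevalleyDatum) {K F : Type*} [Field K] [Field F] (f : K →+* F)
    (r : Fin D.nroots) (t : K) : (D.xMat K r t).map f = D.xMat F r (f t) := by
  ext row col
  rw [Matrix.map_apply]
  rcases col with i | s
  · rcases row with i' | u
    · simp only [ChevalleyDatum.xMat, Matrix.of_apply]
      split_ifs <;> simp
    · simp only [ChevalleyDatum.xMat, Matrix.of_apply]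
      split_ifs <;> simp
  · have hsum : ∀ u : ℕ, f (((D.chainCoeff r.val s.val u).map
        fun km => ((km.2 : ℤ) : K) * t ^ km.1).sum)
        = ((D.chainCoeff r.val s.val u).map fun km => ((km.2 : ℤ) : F) * (f t) ^ km.1).sum := by
      intro u
      rw [map_list_sum, List.map_map]
      congr 1
      apply List.map_congr_left
      intro km _
      simp
    rcases row with i | u
    · simp only [ChevalleyDatum.xMat, Matrix.of_apply]
      split_ifs <;> simp
    · simp only [ChevalleyDatum.xMat, Matrix.of_apply]
      split_ifs <;> simp [hsum]

end Cfsg.Agent.Lib.Helper2
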