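import Mathlib
import Cfsg.Prelude
import Cfsg.Agent.Lib.Helper2.PConstrInv2
import Cfsg.Agent.Lib.Helper5.CoprimeAB

set_option autoImplicit false

namespace Cfsg.Agent.Lib.Helper2

universe u

/-- Lifting the hypothesis on `p`-elements in the centralizer of `A` to the quotient by a
normal subgroup of order prime to `p`. -/
theorem lift_pelt_centralizer {X : Type u} [Group X] [Finite X] (p : ℕ) [Fact p.Prime]
    (O : Subgroup X) [O.Normal] (hOc : (Nat.card O).Coprime p)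
    (A : Subgroup X) (hAp : IsPGroup p ↥A)
    (hΩ : ∀ x ∈ Subgroup.centralizer (A : Set X), ∀ k : ℕ, x ^ p ^ k = 1 → x ∈ A)
    (yb : X ⧸ O)
    (hyb : yb ∈ Subgroup.centralizer ((A.map (QuotientGroup.mk' O) : Subgroup (X ⧸ O)) : Set (X ⧸ O)))
    (k : ℕ) (hybpow : yb ^ p ^ k = 1) : yb ∈ A.map (QuotientGroup.mk' O) := by
  have hpp : p.Prime := Fact.out
  obtain ⟨π, hπdef⟩ : ∃ π : X →* X ⧸ O, π = QuotientGroup.mk' O := ⟨_, rfl⟩
  rw [← hπdef] at hyb ⊢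
  have hπ1 : ∀ g, π g = 1 ↔ g ∈ O := by
    intro g; rw [hπdef]; exact QuotientGroup.eq_one_iff g
  have hπs : Function.Surjective π := by rw [hπdef]; exact QuotientGroup.mk'_surjective O
  by_cases hk0 : k = 0
  · rw [hk0, pow_zero, pow_one] at hybpow
    rw [hybpow]; exact Subgroup.one_mem _
  have hpk1 : 1 < p ^ k := Nat.one_lt_pow hk0 hpp.one_lt
  obtain ⟨y₁, hy₁π, hy₁A⟩ : ∃ y₁ : X, π y₁ = yb ∧ ∀ a ∈ A, a * y₁ * a⁻¹ = y₁ := by
    obtain ⟨y₀, hy₀⟩ := hπs yb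
    have hconjF : ∀ (a : ↥A) (y : {y : X // π y = yb}), π ((a : X) * y.1 * (a : X)⁻¹) = yb := by
      intro a y
      rw [map_mul, map_mul, map_inv, y.2]
      have h1 : π (a : X) ∈ A.map π := Subgroup.mem_map_of_mem π a.2
      have h2 := (Subgroup.mem_centralizer_iff.mp hyb) _ h1
      rw [h2]; group
    letI : MulAction ↥A {y : X // π y = yb} :=
      { smul := fun a y => ⟨(a : X) * y.1 * (a : X)⁻¹, hconjF a y⟩
        one_smul := fun y => Subtype.ext (by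
          show ((1 : ↥A) : X) * y.1 * ((1 : ↥A) : X)⁻¹ = y.1
          rw [Subgroup.coe_one]; group)
        mul_smul := fun a b y => Subtype.ext (by
          show ((a * b : ↥A) : X) * y.1 * ((a * b : ↥A) : X)⁻¹
            = (a : X) * ((b : X) * y.1 * (b : X)⁻¹) * (a : X)⁻¹
          rw [Subgroup.coe_mul]; group) }
    have hcardF : Nat.card {y : X // π y = yb} = Nat.card O := by
      apply Nat.card_congr
      exact
        { toFun := fun y => ⟨y₀⁻¹ * y.1, by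
            rw [← hπ1, map_mul, map_inv, hy₀, y.2, inv_mul_cancel]⟩
          invFun := fun o => ⟨y₀ * o.1, by rw [map_mul, hy₀, (hπ1 o.1).mpr o.2, mul_one]⟩
          left_inv := fun y => Subtype.ext (by simp)
          right_inv := fun o => Subtype.ext (by simp) }
    have hnd : ¬ p ∣ Nat.card {y : X // π y = yb} := by
      rw [hcardF]; exact (Nat.Prime.coprime_iff_not_dvd hpp).mp hOc.symm
    obtain ⟨y₁, hy₁⟩ := hAp.nonempty_fixed_point_of_prime_not_dvd_card {y : X // π y = yb} hnd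
    refine ⟨y₁.1, y₁.2, ?_⟩
    intro a ha
    have h1 := hy₁ ⟨a, ha⟩
    exact congrArg Subtype.val h1
  obtain ⟨r, hrdef⟩ : ∃ r : ℕ, r = Nat.card O := ⟨_, rfl⟩
  have hrp : r.Coprime (p ^ k) := by rw [hrdef]; exact Nat.Coprime.pow_right k hOc
  obtain ⟨r', -, hr'⟩ := Nat.exists_mul_mod_eq_one_of_coprime hrp hpk1
  obtain ⟨y₂, hy₂def⟩ : ∃ y₂ : X, y₂ = y₁ ^ (r * r') := ⟨_, rfl⟩
  have hy₁p : y₁ ^ p ^ k ∈ O := by
    rw [← hπ1, map_pow, hy₁π]; exact hybpow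
  have h1 : (y₁ ^ p ^ k) ^ r = 1 := by
    rw [hrdef]
    exact congrArg Subtype.val (pow_card_eq_one' (G := ↥O) (x := ⟨y₁ ^ p ^ k, hy₁p⟩))
  have hy₂p : y₂ ^ p ^ k = 1 := by
    calc y₂ ^ p ^ k = ((y₁ ^ p ^ k) ^ r) ^ r' := by
          rw [hy₂def, ← pow_mul, ← pow_mul, ← pow_mul]; congr 1; ring
      _ = 1 := by rw [h1, one_pow]
  have hy₂π : π y₂ = yb := by
    rw [hy₂def, map_pow, hy₁π]
    calc yb ^ (r * r') = yb ^ (p ^ k * (r * r' / p ^ k) + r * r' % p ^ k) := by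
          rw [Nat.div_add_mod]
      _ = yb := by rw [pow_add, pow_mul, hybpow, one_pow, one_mul, hr', pow_one]
  have hy₂A : y₂ ∈ Subgroup.centralizer (A : Set X) := by
    rw [Subgroup.mem_centralizer_iff]
    intro a ha
    have h3 := hy₁A a ha
    have h2 : a * y₂ * a⁻¹ = y₂ := by rw [hy₂def, ← conj_pow, h3]
    calc a * y₂ = a * y₂ * a⁻¹ * a := by group
      _ = y₂ * a := by rw [h2]
  have h5 := hΩ y₂ hy₂A k hy₂p
  rw [← hy₂π]
  exact Subgroup.mem_map_of_mem π h5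

/-- A `p`-subgroup of a quotient is the image of a `p`-subgroup. -/
theorem lift_pgroup_quotient {X : Type u} [Group X] [Finite X] (p : ℕ) [Fact p.Prime]
    (O : Subgroup X) [O.Normal] (Tb : Subgroup (X ⧸ O)) (hTb : IsPGroup p ↥Tb) :
    ∃ T : Subgroup X, IsPGroup p ↥T ∧ ∀ tb ∈ Tb, ∃ t ∈ T, QuotientGroup.mk' O t = tb := by
  obtain ⟨H, hHdef⟩ : ∃ H : Subgroup X, H = Tb.comap (QuotientGroup.mk' O) := ⟨_, rfl⟩
  have hmem : ∀ h : ↥H, ((QuotientGroup.mk' O).comp H.subtype) h ∈ Tb := by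
    intro h
    have h1 : (h : X) ∈ Tb.comap (QuotientGroup.mk' O) := (le_of_eq hHdef) h.2
    exact Subgroup.mem_comap.mp h1
  obtain ⟨f, hfdef⟩ : ∃ f : ↥H →* ↥Tb, ∀ h : ↥H, ((f h : ↥Tb) : X ⧸ O) =
      QuotientGroup.mk' O (h : X) :=
    ⟨((QuotientGroup.mk' O).comp H.subtype).codRestrict Tb hmem, fun h => rfl⟩
  have hf : Function.Surjective f := by
    intro tb
    obtain ⟨x, hx⟩ := QuotientGroup.mk'_surjective O tb.1
    have hxH : x ∈ H := by rw [hHdef, Subgroup.mem_comap, hx]; exact tb.2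
    exact ⟨⟨x, hxH⟩, Subtype.ext ((hfdef ⟨x, hxH⟩).trans hx)⟩
  obtain ⟨S⟩ : Nonempty (Sylow p ↥H) := inferInstance
  have hStop : ((S.mapSurjective hf : Sylow p ↥Tb) : Subgroup ↥Tb) = ⊤ := by
    have h1 : IsPGroup p ↥(⊤ : Subgroup ↥Tb) := hTb.to_subgroup ⊤
    exact ((S.mapSurjective hf).3 h1 le_top).symm
  refine ⟨(S : Subgroup ↥H).map H.subtype, S.2.map _, ?_⟩
  intro tb htb
  have h2 : (⟨tb, htb⟩ : ↥Tb) ∈ ((S.mapSurjective hf : Sylow p ↥Tb) : Subgroup ↥Tb) := by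
    rw [hStop]; exact Subgroup.mem_top _
  rw [Sylow.coe_mapSurjective] at h2
  obtain ⟨s, hs, hsf⟩ := h2
  refine ⟨(s : X), ⟨s, hs, rfl⟩, ?_⟩
  rw [← hfdef s, hsf]

/-- A version of the invariance lemma for `p`-constrained groups whose `p`-subgroups have class
at most two (any prime `p`). -/
theorem pconstr_inv_class2 {X : Type u} [Group X] [Finite X] (p : ℕ) [Fact p.Prime]
    (hX : Cfsg.IsPConstrained p X) (A : Subgroup X) (hAp : IsPGroup p ↥A)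
    (hΩ : ∀ x ∈ Subgroup.centralizer (A : Set X), ∀ k : ℕ, x ^ p ^ k = 1 → x ∈ A)
    (hcl : ∀ T : Subgroup X, IsPGroup p ↥T → ∀ x ∈ T, ∀ y ∈ T, ∀ z ∈ T,
      (x * y * x⁻¹ * y⁻¹) * z = z * (x * y * x⁻¹ * y⁻¹))
    (Q : Subgroup X) (hQ : ¬ p ∣ Nat.card ↥Q) (hAQ : A ≤ Subgroup.normalizer (Q : Set X)) :
    Q ≤ Cfsg.pPrimeCore p X := by
  have hpp : p.Prime := Fact.out
  have hOc : (Nat.card (Cfsg.pPrimeCore p X)).Coprime p := pPrimeCore_card_coprime p X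
  have hΩb := lift_pelt_centralizer p (Cfsg.pPrimeCore p X) hOc A hAp hΩ
  obtain ⟨π, hπdef⟩ : ∃ π : X →* X ⧸ Cfsg.pPrimeCore p X,
      π = QuotientGroup.mk' (Cfsg.pPrimeCore p X) := ⟨_, rfl⟩
  rw [← hπdef] at hΩb
  have hπ1 : ∀ g, π g = 1 ↔ g ∈ Cfsg.pPrimeCore p X := by
    intro g; rw [hπdef]; exact QuotientGroup.eq_one_iff g
  obtain ⟨Pb, hPbdef⟩ : ∃ Pb : Subgroup (X ⧸ Cfsg.pPrimeCore p X),
      Pb = Cfsg.pCore p (X ⧸ Cfsg.pPrimeCore p X) := ⟨_, rfl⟩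
  have hPbp : IsPGroup p Pb := by rw [hPbdef]; exact pCore_isPGroup' p _
  have hPbn : Pb.Normal := by rw [hPbdef]; infer_instance
  have hPbc : Subgroup.centralizer (Pb : Set (X ⧸ Cfsg.pPrimeCore p X)) ≤ Pb := by
    rw [hPbdef]; exact pConstrained_centralizer_pCore_le p hX
  obtain ⟨Ab, hAbdef⟩ : ∃ Ab : Subgroup (X ⧸ Cfsg.pPrimeCore p X), Ab = A.map π := ⟨_, rfl⟩
  obtain ⟨Qb, hQbdef⟩ : ∃ Qb : Subgroup (X ⧸ Cfsg.pPrimeCore p X), Qb = Q.map π := ⟨_, rfl⟩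
  rw [← hAbdef] at hΩb
  have hAbp : IsPGroup p Ab := by rw [hAbdef]; exact IsPGroup.map hAp π
  have hQbc : (Nat.card Qb).Coprime p := by
    rw [hQbdef]
    exact Nat.Coprime.coprime_dvd_left (Subgroup.card_map_dvd Q π)
      ((Nat.Prime.coprime_iff_not_dvd hpp).mpr hQ).symm
  have hAbQb : Ab ≤ Subgroup.normalizer (Qb : Set (X ⧸ Cfsg.pPrimeCore p X)) := by
    rw [hAbdef, hQbdef]
    apply Cfsg.Agent.Lib.Lead.le_normalizer_of_conj_mem
    rintro _ ⟨a, ha, rfl⟩ _ ⟨q, hq, rfl⟩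
    refine ⟨a * q * a⁻¹, Cfsg.Agent.Lib.Lead.conj_mem_of_mem_normalizer (hAQ ha) hq, ?_⟩
    rw [map_mul, map_mul, map_inv]
  have hAbPb : Ab ≤ Subgroup.normalizer (Pb : Set (X ⧸ Cfsg.pPrimeCore p X)) := by
    rw [Subgroup.normalizer_eq_top_iff.mpr hPbn]; exact le_top
  have hQbPb : Qb ≤ Subgroup.normalizer (Pb : Set (X ⧸ Cfsg.pPrimeCore p X)) := by
    rw [Subgroup.normalizer_eq_top_iff.mpr hPbn]; exact le_top
  have hQP : ∀ g : X ⧸ Cfsg.pPrimeCore p X, g ∈ Qb → g ∈ Pb → g = 1 := by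
    intro g hgQ hgP
    obtain ⟨e, he⟩ := hPbp ⟨g, hgP⟩
    have he' : g ^ p ^ e = 1 := congrArg Subtype.val he
    have h3 : g ^ (Nat.card Qb) = 1 :=
      congrArg Subtype.val (pow_card_eq_one' (G := ↥Qb) (x := ⟨g, hgQ⟩))
    exact eq_one_of_pow_prime_pow_of_coprime p e (Nat.card Qb) hQbc g he' h3
  -- class two in the quotient
  have hTbp : IsPGroup p ↥(Pb ⊔ Ab : Subgroup (X ⧸ Cfsg.pPrimeCore p X)) :=
    IsPGroup.to_sup_of_normal_left hPbp hAbp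
  obtain ⟨T, hTp, hTlift⟩ := lift_pgroup_quotient p (Cfsg.pPrimeCore p X) (Pb ⊔ Ab) hTbp
  rw [← hπdef] at hTlift
  have hclb : ∀ x ∈ Pb ⊔ Ab, ∀ y ∈ Pb ⊔ Ab, ∀ z ∈ Pb ⊔ Ab,
      (x * y * x⁻¹ * y⁻¹) * z = z * (x * y * x⁻¹ * y⁻¹) := by
    intro x hx y hy z hz
    obtain ⟨x', hx', rfl⟩ := hTlift x hx
    obtain ⟨y', hy', rfl⟩ := hTlift y hy
    obtain ⟨z', hz', rfl⟩ := hTlift z hz
    have h := hcl T hTp x' hx' y' hy' z' hz'
    have h2 := congrArg π h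
    simp only [map_mul, map_inv] at h2
    exact h2
  -- commutators [Pb, Ab] are central in Pb Ab and centralized by Qb
  have hμ : ∀ y ∈ Pb, ∀ a ∈ Ab, a * y * a⁻¹ * y⁻¹ ∈ Pb ∧
      (∀ z ∈ Ab, (a * y * a⁻¹ * y⁻¹) * z = z * (a * y * a⁻¹ * y⁻¹)) ∧
      (∀ k ∈ Qb, (a * y * a⁻¹ * y⁻¹) * k = k * (a * y * a⁻¹ * y⁻¹)) := by
    intro y hy a ha
    obtain ⟨m, hmdef⟩ : ∃ m, m = a * y * a⁻¹ * y⁻¹ := ⟨_, rfl⟩
    rw [← hmdef]
    have hmP : m ∈ Pb := by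
      rw [hmdef]; exact Pb.mul_mem (hPbn.conj_mem y hy a) (Pb.inv_mem hy)
    have hmA : ∀ z ∈ Ab, m * z = z * m := by
      intro z hz
      rw [hmdef]
      exact hclb a (Subgroup.mem_sup_right ha) y (Subgroup.mem_sup_left hy) z
        (Subgroup.mem_sup_right hz)
    refine ⟨hmP, hmA, ?_⟩
    have hmcent : m ∈ Subgroup.centralizer (Ab : Set (X ⧸ Cfsg.pPrimeCore p X)) := by
      rw [Subgroup.mem_centralizer_iff]
      intro z hz
      exact (hmA z hz).symm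
    obtain ⟨e, he⟩ := hPbp ⟨m, hmP⟩
    have he' : m ^ p ^ e = 1 := congrArg Subtype.val he
    have hmAb : m ∈ Ab := hΩb m hmcent e he'
    intro k hk
    have h1 : k * m * k⁻¹ * m⁻¹ ∈ Pb := Pb.mul_mem (hPbn.conj_mem m hmP k) (Pb.inv_mem hmP)
    have h2 : k * m * k⁻¹ * m⁻¹ ∈ Qb := by
      have h4 : k * m * k⁻¹ * m⁻¹ = k * (m * k⁻¹ * m⁻¹) := by group
      rw [h4]
      exact Qb.mul_mem hk
        (Cfsg.Agent.Lib.Lead.conj_mem_of_mem_normalizer (hAbQb hmAb) (Qb.inv_mem hk))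
    have h3 := hQP _ h2 h1
    calc m * k = (k * m * k⁻¹ * m⁻¹)⁻¹ * (k * m) := by group
      _ = k * m := by rw [h3, inv_one, one_mul]
  -- generators of [Qb, Ab] centralize Pb
  have hg : ∀ k ∈ Qb, ∀ a ∈ Ab, ∀ x ∈ Pb,
      (k * a * k⁻¹ * a⁻¹) * x = x * (k * a * k⁻¹ * a⁻¹) := by
    intro k hk a ha x hx
    obtain ⟨g, hgdef⟩ : ∃ g, g = k * a * k⁻¹ * a⁻¹ := ⟨_, rfl⟩
    rw [← hgdef]
    have hgQ : g ∈ Qb := by
      rw [hgdef]
      have h4 : k * a * k⁻¹ * a⁻¹ = k * (a * k⁻¹ * a⁻¹) := by group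
      rw [h4]
      exact Qb.mul_mem hk
        (Cfsg.Agent.Lib.Lead.conj_mem_of_mem_normalizer (hAbQb ha) (Qb.inv_mem hk))
    obtain ⟨m₁, hm₁def⟩ : ∃ m₁, m₁ = a⁻¹ * x * a⁻¹⁻¹ * x⁻¹ := ⟨_, rfl⟩
    obtain ⟨hm₁P, hm₁A, hm₁Q⟩ := hμ x hx a⁻¹ (Ab.inv_mem ha)
    rw [← hm₁def] at hm₁P hm₁A hm₁Q
    obtain ⟨y, hydef⟩ : ∃ y, y = k⁻¹ * x * k := ⟨_, rfl⟩
    have hyP : y ∈ Pb := by
      rw [hydef]
      have h := hPbn.conj_mem x hx k⁻¹
      rw [inv_inv] at h; exact h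
    obtain ⟨m₂, hm₂def⟩ : ∃ m₂, m₂ = a * y * a⁻¹ * y⁻¹ := ⟨_, rfl⟩
    obtain ⟨hm₂P, hm₂A, hm₂Q⟩ := hμ y hyP a ha
    rw [← hm₂def] at hm₂P hm₂A hm₂Q
    have hconj : g * x * g⁻¹ = m₁ * m₂ * x := by
      have e1 : a⁻¹ * x * a = m₁ * x := by rw [hm₁def]; group
      have e2 : a * y * a⁻¹ = m₂ * y := by rw [hm₂def]; group
      have e3 : k * y * k⁻¹ = x := by rw [hydef]; group
      have e4 : k⁻¹ * m₁ = m₁ * k⁻¹ := (hm₁Q k⁻¹ (Qb.inv_mem hk)).symm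
      have e5 : a * m₁ = m₁ * a := (hm₁A a ha).symm
      have e6 : k * (m₁ * m₂) = (m₁ * m₂) * k := by
        calc k * (m₁ * m₂) = (k * m₁) * m₂ := by group
          _ = (m₁ * k) * m₂ := by rw [← hm₁Q k hk]
          _ = m₁ * (k * m₂) := by group
          _ = m₁ * (m₂ * k) := by rw [← hm₂Q k hk]
          _ = (m₁ * m₂) * k := by group
      calc g * x * g⁻¹ = k * (a * (k⁻¹ * (a⁻¹ * x * a) * k) * a⁻¹) * k⁻¹ := by
            rw [hgdef]; group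
        _ = k * (a * (k⁻¹ * (m₁ * x) * k) * a⁻¹) * k⁻¹ := by rw [e1]
        _ = k * (a * ((k⁻¹ * m₁) * (x * k)) * a⁻¹) * k⁻¹ := by group
        _ = k * (a * ((m₁ * k⁻¹) * (x * k)) * a⁻¹) * k⁻¹ := by rw [e4]
        _ = k * ((a * m₁) * (k⁻¹ * x * k) * a⁻¹) * k⁻¹ := by group
        _ = k * ((m₁ * a) * y * a⁻¹) * k⁻¹ := by rw [e5, ← hydef]
        _ = k * (m₁ * (a * y * a⁻¹)) * k⁻¹ := by group
        _ = k * (m₁ * (m₂ * y)) * k⁻¹ := by rw [e2]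
        _ = (k * (m₁ * m₂)) * y * k⁻¹ := by group
        _ = ((m₁ * m₂) * k) * y * k⁻¹ := by rw [e6]
        _ = m₁ * m₂ * (k * y * k⁻¹) := by group
        _ = m₁ * m₂ * x := by rw [e3]
    obtain ⟨s, hsdef⟩ : ∃ s, s = m₁ * m₂ := ⟨_, rfl⟩
    rw [← hsdef] at hconj
    have hsP : s ∈ Pb := by rw [hsdef]; exact Pb.mul_mem hm₁P hm₂P
    have hsg : s * g = g * s := by
      rw [hsdef]
      calc m₁ * m₂ * g = m₁ * (m₂ * g) := by group
        _ = m₁ * (g * m₂) := by rw [hm₂Q g hgQ]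
        _ = (m₁ * g) * m₂ := by group
        _ = (g * m₁) * m₂ := by rw [hm₁Q g hgQ]
        _ = g * (m₁ * m₂) := by group
    have hpow : ∀ n : ℕ, g ^ n * x * (g ^ n)⁻¹ = s ^ n * x := by
      intro n
      induction n with
      | zero => simp
      | succ n ih =>
        have hsgn : s ^ n * g = g * s ^ n :=
          (Commute.pow_left (show Commute s g from hsg) n).eq
        calc g ^ (n + 1) * x * (g ^ (n + 1))⁻¹ = g * (g ^ n * x * (g ^ n)⁻¹) * g⁻¹ := by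
              rw [pow_succ']; group
          _ = g * (s ^ n * x) * g⁻¹ := by rw [ih]
          _ = (g * s ^ n) * x * g⁻¹ := by group
          _ = (s ^ n * g) * x * g⁻¹ := by rw [hsgn]
          _ = s ^ n * (g * x * g⁻¹) := by group
          _ = s ^ n * (s * x) := by rw [hconj]
          _ = s ^ (n + 1) * x := by rw [pow_succ]; group
    have hgn : g ^ (Nat.card Qb) = 1 :=
      congrArg Subtype.val (pow_card_eq_one' (G := ↥Qb) (x := ⟨g, hgQ⟩))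
    have hsn : s ^ (Nat.card Qb) = 1 := by
      have h := hpow (Nat.card Qb)
      rw [hgn, inv_one, one_mul, mul_one] at h
      have h2 : s ^ (Nat.card Qb) * x = 1 * x := by rw [one_mul]; exact h.symm
      exact mul_right_cancel h2
    obtain ⟨e, he⟩ := hPbp ⟨s, hsP⟩
    have he' : s ^ p ^ e = 1 := congrArg Subtype.val he
    have hs1 : s = 1 := eq_one_of_pow_prime_pow_of_coprime p e (Nat.card Qb) hQbc s he' hsn
    rw [hs1, one_mul] at hconj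
    calc g * x = g * x * g⁻¹ * g := by group
      _ = x * g := by rw [hconj]
  -- the A × B lemma for C_Qb(Ab)
  have hAB : ∀ c ∈ Qb, (∀ a ∈ Ab, c * a = a * c) → ∀ x ∈ Pb, c * x * c⁻¹ = x := by
    intro c hc hca
    have hcop : (orderOf c).Coprime p := by
      have h1 : orderOf c ∣ Nat.card Qb :=
        orderOf_dvd_of_pow_eq_one
          (congrArg Subtype.val (pow_card_eq_one' (G := ↥Qb) (x := ⟨c, hc⟩)))
      exact Nat.Coprime.coprime_dvd_left h1 hQbc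
    apply Cfsg.Agent.Lib.Helper5.thompson_AB5 Pb Ab hPbp hAbp hAbPb c (hQbPb hc) hca hcop
    intro e heP heA
    have hecent : e ∈ Subgroup.centralizer (Ab : Set (X ⧸ Cfsg.pPrimeCore p X)) := by
      rw [Subgroup.mem_centralizer_iff]
      intro b hb
      exact heA b hb
    obtain ⟨j, hj⟩ := hPbp ⟨e, heP⟩
    have hj' : e ^ p ^ j = 1 := congrArg Subtype.val hj
    have heAb : e ∈ Ab := hΩb e hecent j hj'
    have h1 : c * e * c⁻¹ * e⁻¹ ∈ Pb := Pb.mul_mem (hPbn.conj_mem e heP c) (Pb.inv_mem heP)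
    have h2 : c * e * c⁻¹ * e⁻¹ ∈ Qb := by
      have h4 : c * e * c⁻¹ * e⁻¹ = c * (e * c⁻¹ * e⁻¹) := by group
      rw [h4]
      exact Qb.mul_mem hc
        (Cfsg.Agent.Lib.Lead.conj_mem_of_mem_normalizer (hAbQb heAb) (Qb.inv_mem hc))
    have h3 := hQP _ h2 h1
    calc c * e * c⁻¹ = (c * e * c⁻¹ * e⁻¹) * e := by group
      _ = e := by rw [h3, one_mul]
  have hcent : Qb ≤ Subgroup.centralizer (Pb : Set (X ⧸ Cfsg.pPrimeCore p X)) := by
    have hcopAQ : (Nat.card Ab).Coprime (Nat.card Qb) := by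
      obtain ⟨e, he⟩ := hAbp.exists_card_eq
      rw [he]; exact Nat.Coprime.pow_left e hQbc.symm
    have hsolv : Group.IsSolvable Ab ∨ Group.IsSolvable Qb := by
      left
      haveI := hAbp.isNilpotent
      infer_instance
    have hcomm : ⁅Qb, Ab⁆ ≤ Subgroup.centralizer (Pb : Set (X ⧸ Cfsg.pPrimeCore p X)) := by
      rw [Subgroup.commutator_le]
      intro k hk a ha
      rw [Subgroup.mem_centralizer_iff]
      intro x hx
      rw [commutatorElement_def]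
      exact (hg k hk a ha x hx).symm
    intro k hk
    obtain ⟨y, hy, c, hc, hkc⟩ :=
      Cfsg.Agent.Lib.Lead.coprime_commutator_decomp Ab Qb hAbQb hcopAQ hsolv k hk
    rw [hkc]
    apply Subgroup.mul_mem _ (hcomm hy)
    rw [Subgroup.mem_centralizer_iff]
    intro x hx
    have hcQ : c ∈ Qb := hc.1
    have hcA : c ∈ Subgroup.centralizer (Ab : Set (X ⧸ Cfsg.pPrimeCore p X)) := hc.2
    rw [Subgroup.mem_centralizer_iff] at hcA
    have h := hAB c hcQ (fun a ha => (hcA a ha).symm) x hx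
    calc x * c = (c * x * c⁻¹) * c := by rw [h]
      _ = c * x := by group
  intro q hq
  rw [← hπ1]
  have hqb : π q ∈ Qb := by rw [hQbdef]; exact Subgroup.mem_map_of_mem π hq
  exact hQP _ hqb (hPbc (hcent hqb))

end Cfsg.Agent.Lib.Helper2
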