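import Mathlib
import Cfsg.Prelude.Def_Balance
import Cfsg.Agent.Lib.Helper2.GenCoprime3
import Cfsg.Agent.Lib.Helper2.ExtLayer2
import Cfsg.Agent.Lib.Helper3.PRes
import Cfsg.Agent.S1280
import Cfsg.Agent.S1282
import Cfsg.Agent.S0024
import Cfsg.Agent.S0025

set_option autoImplicit false

namespace Cfsg.Agent.Lib.Helper2

open Cfsg

theorem mem_signalizerInf {G : Type*} [Group G] (A : Subgroup G) (θ : G → Subgroup G) (c : G) :
    c ∈ Cfsg.signalizerInf A θ ↔ ∀ a ∈ A, a ≠ 1 → c ∈ θ a := by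
  unfold Cfsg.signalizerInf
  rw [Subgroup.mem_iInf]
  constructor
  · intro h a ha ha1
    exact h ⟨a, ha, ha1⟩
  · rintro h ⟨a, ha, ha1⟩
    exact h a ha ha1

theorem signalizerInf_le_centralizer {G : Type*} [Group G] (p : ℕ) (A : Subgroup G)
    (θ : G → Subgroup G) (hθ : Cfsg.IsSignalizerFunctor p A θ) :
    Cfsg.signalizerInf A θ ≤ Subgroup.centralizer (A : Set G) := by
  intro c hc
  rw [Subgroup.mem_centralizer_iff]
  intro a ha
  by_cases ha1 : a = 1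
  · subst ha1; simp
  · have h1 : c ∈ θ a := (mem_signalizerInf A θ c).mp hc a ha ha1
    exact Subgroup.mem_centralizer_iff.mp (hθ.1 a ha ha1 h1) a rfl

/-- An `A`-invariant subgroup of a member of the family is a member. -/
theorem family_sub {G : Type*} [Group G] [Finite G] (p : ℕ) (A : Subgroup G)
    (θ : G → Subgroup G) (U V : Subgroup G) (hU : U ∈ Cfsg.signalizerFamily p A θ) (hVU : V ≤ U)
    (hV : ∀ b ∈ A, ∀ v ∈ V, b * v * b⁻¹ ∈ V) : V ∈ Cfsg.signalizerFamily p A θ := by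
  obtain ⟨hs, hp', hinv, hθU⟩ := hU
  refine ⟨?_, ?_, hV, ?_⟩
  · haveI := hs
    exact Group.isSolvable_of_isSolvable_injective (Subgroup.inclusion_injective hVU)
  · exact fun h => hp' (h.trans (Subgroup.card_dvd_of_le hVU))
  · intro a ha ha1
    exact (inf_le_inf_right _ hVU).trans (hθU a ha ha1)

/-- The family is invariant under conjugation by `θ(C_G(A))`. -/
theorem family_conj {G : Type*} [Group G] [Finite G] (p : ℕ) (A : Subgroup G)
    (θ : G → Subgroup G) (hθ : Cfsg.IsSignalizerFunctor p A θ) (U : Subgroup G)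
    (hU : U ∈ Cfsg.signalizerFamily p A θ) (c : G) (hc : c ∈ Cfsg.signalizerInf A θ) :
    U.map (MulAut.conj c).toMonoidHom ∈ Cfsg.signalizerFamily p A θ := by
  obtain ⟨hs, hp', hinv, hθU⟩ := hU
  have hcA := signalizerInf_le_centralizer p A θ hθ hc
  refine ⟨?_, ?_, ?_, ?_⟩
  · haveI := hs
    exact Group.isSolvable_of_surjective (f := ((MulAut.conj c).subgroupMap U).toMonoidHom)
      (MulEquiv.surjective _)
  · rw [Subgroup.card_map_of_injective (MulAut.conj c).injective]; exact hp'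
  · rintro b hb _ ⟨u, hu, rfl⟩
    refine ⟨b * u * b⁻¹, hinv b hb u hu, ?_⟩
    show c * (b * u * b⁻¹) * c⁻¹ = b * (c * u * c⁻¹) * b⁻¹
    have h := Subgroup.mem_centralizer_iff.mp hcA b hb
    calc c * (b * u * b⁻¹) * c⁻¹ = (c * b) * u * (c * b)⁻¹ := by group
      _ = (b * c) * u * (b * c)⁻¹ := by rw [h]
      _ = b * (c * u * c⁻¹) * b⁻¹ := by group
  · intro a ha ha1
    rintro g ⟨⟨u, hu, rfl⟩, hg⟩
    have hca : Commute a c := Subgroup.mem_centralizer_iff.mp hcA a ha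
    have hcθ : c ∈ θ a := (mem_signalizerInf A θ c).mp hc a ha ha1
    have h1 : Commute a (c * u * c⁻¹) := (mem_centralizer_singleton a _).mp hg
    have h2 : Commute a (c⁻¹ * (c * u * c⁻¹) * c) := (hca.inv_right.mul_right h1).mul_right hca
    have h3 : c⁻¹ * (c * u * c⁻¹) * c = u := by group
    rw [h3] at h2
    have hua : u ∈ Subgroup.centralizer ({a} : Set G) := (mem_centralizer_singleton a u).mpr h2
    have huθ : u ∈ θ a := hθU a ha ha1 ⟨hu, hua⟩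
    exact (θ a).mul_mem ((θ a).mul_mem hcθ huθ) ((θ a).inv_mem hcθ)

/-- Any subgroup with a property is contained in a maximal one. -/
theorem exists_maximal_member {G : Type*} [Group G] [Finite G] (P : Subgroup G → Prop) :
    ∀ (d : ℕ) (R : Subgroup G), P R → Nat.card G - Nat.card ↥R ≤ d →
      ∃ Q, P Q ∧ R ≤ Q ∧ ∀ R', P R' → Q ≤ R' → R' = Q := by
  intro d
  induction d using Nat.strong_induction_on with
  | _ d ih =>
    intro R hR hd
    by_cases h : ∀ R', P R' → R ≤ R' → R' = R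
    · exact ⟨R, hR, le_rfl, h⟩
    · push Not at h
      obtain ⟨R', hPR', hle, hne⟩ := h
      have hlt := card_lt_card_of_lt' (lt_of_le_of_ne hle (Ne.symm hne))
      have hle' := Subgroup.card_le_card_group R'
      obtain ⟨Q, hQ, hR'Q, hmax⟩ := ih (Nat.card G - Nat.card ↥R') (by omega) R' hPR' le_rfl
      exact ⟨Q, hQ, hle.trans hR'Q, hmax⟩

theorem map_conj_one' {G : Type*} [Group G] (K : Subgroup G) :
    K.map (MulAut.conj (1 : G)).toMonoidHom = K := by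
  ext x
  rw [Cfsg.Agent.Lib.Helper7.mem_map_conj]
  simp

open scoped Pointwise in
theorem conj_smul_eq_map {G : Type*} [Group G] (K : Subgroup G) (g : G) :
    MulAut.conj g • K = K.map (MulAut.conj g).toMonoidHom := by
  ext x
  rw [Cfsg.Agent.Lib.Lead.mem_conj_smul, Cfsg.Agent.Lib.Helper7.mem_map_conj]

/-- The Transitivity Theorem for solvable signalizer functors (rank at least 3): maximal
`q`-members of the family are conjugate under `θ(C_G(A))`. -/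
theorem transitivity {G : Type*} [Group G] [Finite G] (p : ℕ) [hp : Fact p.Prime]
    (A : Subgroup G) (hA : Cfsg.IsElementaryAbelian p A) (hA3 : p ^ 3 ≤ Nat.card ↥A)
    (θ : G → Subgroup G) (hθ : Cfsg.IsSolvableSignalizerFunctor p A θ) (q : ℕ)
    [hq : Fact q.Prime] :
    ∀ (d : ℕ) (Q₁ Q₂ : Subgroup G), Q₁ ∈ Cfsg.signalizerFamily p A θ → IsPGroup q ↥Q₁ →
      (∀ R ∈ Cfsg.signalizerFamily p A θ, IsPGroup q ↥R → Q₁ ≤ R → R = Q₁) →
      Q₂ ∈ Cfsg.signalizerFamily p A θ → IsPGroup q ↥Q₂ →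
      (∀ R ∈ Cfsg.signalizerFamily p A θ, IsPGroup q ↥R → Q₂ ≤ R → R = Q₂) →
      Nat.card G - Nat.card ↥(Q₁ ⊓ Q₂ : Subgroup G) ≤ d →
      ∃ c ∈ Cfsg.signalizerInf A θ, Q₁.map (MulAut.conj c).toMonoidHom = Q₂ := by
  have hcommA : ∀ a ∈ A, ∀ b ∈ A, a * b = b * a := by
    intro a ha b hb
    have := hA.1.is_comm.comm ⟨a, ha⟩ ⟨b, hb⟩
    exact congrArg Subtype.val this
  have hA2 : p ^ 2 ≤ Nat.card ↥A :=
    le_trans (Nat.pow_le_pow_right hp.out.pos (by norm_num)) hA3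
  have hApg : IsPGroup p ↥A := by
    intro a
    refine ⟨1, ?_⟩
    apply Subtype.ext
    show (a : G) ^ p ^ 1 = 1
    rw [pow_one]
    exact hA.2 a.1 a.2
  have hAsolv : Group.IsSolvable ↥A :=
    Group.isSolvable_of_comm (fun a b => Subtype.ext (hcommA a.1 a.2 b.1 b.2))
  intro d
  induction d using Nat.strong_induction_on with
  | _ d ih =>
    intro Q₁ Q₂ hQ₁W hQ₁q hQ₁max hQ₂W hQ₂q hQ₂max hd
    by_cases h1 : Q₁ ⊓ Q₂ = Q₁
    · have h3 : Q₂ = Q₁ := hQ₁max Q₂ hQ₂W hQ₂q (inf_eq_left.mp h1)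
      exact ⟨1, one_mem _, by rw [h3, map_conj_one']⟩
    by_cases h2 : Q₁ ⊓ Q₂ = Q₂
    · have h3 : Q₁ = Q₂ := hQ₂max Q₁ hQ₁W hQ₁q (inf_eq_right.mp h2)
      exact ⟨1, one_mem _, by rw [h3, map_conj_one']⟩
    have hqp : q ≠ p := by
      intro hqp
      apply h1
      have hbot : Q₁ = ⊥ := by
        obtain ⟨k, hk⟩ := IsPGroup.iff_card.mp hQ₁q
        have hk0 : k = 0 := by
          by_contra hk0
          exact hQ₁W.2.1 (by rw [hk, hqp]; exact dvd_pow_self _ hk0)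
        rw [hk0, pow_zero] at hk
        exact Subgroup.card_eq_one.mp hk
      rw [hbot]
      simp
    have hAQ₁ : A ≤ Subgroup.normalizer (Q₁ : Set G) :=
      Cfsg.Agent.Lib.Helper4.le_normalizer_of_conj_mem hQ₁W.2.2.1
    have hAQ₂ : A ≤ Subgroup.normalizer (Q₂ : Set G) :=
      Cfsg.Agent.Lib.Helper4.le_normalizer_of_conj_mem hQ₂W.2.2.1
    obtain ⟨a, haA, ha1, hE₁, hE₂⟩ := Cfsg.Agent.S1282.result p A hA hA3 q hqp Q₁ Q₂ hQ₁q hQ₂q
      hAQ₁ hAQ₂ h1 h2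
    have hAD : A ≤ Subgroup.normalizer ((Q₁ ⊓ Q₂ : Subgroup G) : Set G) :=
      Cfsg.Agent.Lib.Helper4.le_normalizer_inf hAQ₁ hAQ₂
    have hDW : Q₁ ⊓ Q₂ ∈ Cfsg.signalizerFamily p A θ :=
      family_sub p A θ Q₁ _ hQ₁W inf_le_left
        (fun b hb v hv => Cfsg.Agent.Lib.Helper4.conj_mem_of_mem_normalizer (hAD hb) hv)
    have hAθ : A ≤ Subgroup.normalizer (θ a : Set G) :=
      Cfsg.Agent.Lib.Helper4.le_normalizer_of_conj_mem (hθ.1.2.2.1 a haA ha1)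
    have hATn : A ≤ Subgroup.normalizer
        ((θ a ⊓ Subgroup.normalizer ((Q₁ ⊓ Q₂ : Subgroup G) : Set G) : Subgroup G) : Set G) :=
      Cfsg.Agent.Lib.Helper4.le_normalizer_inf hAθ (hAD.trans Subgroup.le_normalizer)
    have hTW : θ a ⊓ Subgroup.normalizer ((Q₁ ⊓ Q₂ : Subgroup G) : Set G) ∈
        Cfsg.signalizerFamily p A θ := by
      refine ⟨?_, ?_, ?_, ?_⟩
      · haveI := hθ.2 a haA ha1
        exact Group.isSolvable_of_isSolvable_injective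
          (Subgroup.inclusion_injective (inf_le_left : θ a ⊓ _ ≤ θ a))
      · exact fun h => hθ.1.2.1 a haA ha1 (h.trans (Subgroup.card_dvd_of_le inf_le_left))
      · exact fun b hb v hv => Cfsg.Agent.Lib.Helper4.conj_mem_of_mem_normalizer (hATn hb) hv
      · intro b hb hb1
        exact (inf_le_inf_right _ inf_le_left).trans (hθ.1.2.2.2 a haA ha1 b hb hb1)
    have hXW := Cfsg.Agent.S1280.result p A hA hA2 θ hθ (Q₁ ⊓ Q₂)
      (θ a ⊓ Subgroup.normalizer ((Q₁ ⊓ Q₂ : Subgroup G) : Set G)) hDW hTW inf_le_right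
    have hAX : A ≤ Subgroup.normalizer ((Q₁ ⊓ Q₂ ⊔
        (θ a ⊓ Subgroup.normalizer ((Q₁ ⊓ Q₂ : Subgroup G) : Set G)) : Subgroup G) : Set G) :=
      Cfsg.Agent.Lib.Helper4.le_normalizer_of_conj_mem hXW.2.2.1
    have hcop : (Nat.card ↥A).Coprime (Nat.card ↥(Q₁ ⊓ Q₂ ⊔
        (θ a ⊓ Subgroup.normalizer ((Q₁ ⊓ Q₂ : Subgroup G) : Set G)) : Subgroup G)) := by
      obtain ⟨k, hk⟩ := IsPGroup.iff_card.mp hApg
      rw [hk]
      exact Nat.Coprime.pow_left k ((Nat.Prime.coprime_iff_not_dvd hp.out).mpr hXW.2.1)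
    have hACa : A ≤ Subgroup.normalizer
        ((Subgroup.centralizer ({a} : Set G) : Subgroup G) : Set G) := by
      intro b hb
      apply Subgroup.le_normalizer
      rw [mem_centralizer_singleton]
      exact hcommA a haA b hb
    -- the two enlarged `q`-subgroups
    have hstep : ∀ Q : Subgroup G, Q ∈ Cfsg.signalizerFamily p A θ → IsPGroup q ↥Q →
        Q₁ ⊓ Q₂ ≤ Q → A ≤ Subgroup.normalizer (Q : Set G) →
        ¬ (Subgroup.normalizer ((Q₁ ⊓ Q₂ : Subgroup G) : Set G) ⊓ Q ⊓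
          Subgroup.centralizer ({a} : Set G) ≤ Q₁ ⊓ Q₂) →
        ∃ U : Subgroup G, U ≤ Q ∧ Q₁ ⊓ Q₂ < U ∧ IsPGroup q ↥U ∧
          U ≤ Q₁ ⊓ Q₂ ⊔ (θ a ⊓ Subgroup.normalizer ((Q₁ ⊓ Q₂ : Subgroup G) : Set G)) ∧
          A ≤ Subgroup.normalizer (U : Set G) := by
      intro Q hQW hQq hDQ hAQ hE
      refine ⟨Q₁ ⊓ Q₂ ⊔ (Subgroup.normalizer ((Q₁ ⊓ Q₂ : Subgroup G) : Set G) ⊓ Q ⊓
          Subgroup.centralizer ({a} : Set G)), ?_, ?_, ?_, ?_, ?_⟩
      · exact sup_le hDQ (inf_le_left.trans inf_le_right)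
      · refine lt_of_le_of_ne le_sup_left ?_
        intro heq
        exact hE (le_sup_right.trans heq.ge)
      · exact hQq.to_le (sup_le hDQ (inf_le_left.trans inf_le_right))
      · refine sup_le le_sup_left (le_trans ?_ le_sup_right)
        intro g hg
        exact ⟨hQW.2.2.2 a haA ha1 ⟨hg.1.2, hg.2⟩, hg.1.1⟩
      · exact Cfsg.Agent.Lib.Helper4.le_normalizer_sup hAD
          (Cfsg.Agent.Lib.Helper4.le_normalizer_inf
            (Cfsg.Agent.Lib.Helper4.le_normalizer_inf (hAD.trans Subgroup.le_normalizer) hAQ)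
            hACa)
    obtain ⟨U₁, hU₁Q, hDU₁, hU₁q, hU₁X, hU₁A⟩ := hstep Q₁ hQ₁W hQ₁q inf_le_left hAQ₁ hE₁
    obtain ⟨U₂, hU₂Q, hDU₂, hU₂q, hU₂X, hU₂A⟩ := hstep Q₂ hQ₂W hQ₂q inf_le_right hAQ₂ hE₂
    obtain ⟨P₁, hP₁U, hP₁A⟩ := Cfsg.Agent.S0025.result A _ hAX hcop (Or.inl hAsolv) q U₁ hU₁X
      hU₁q hU₁A
    obtain ⟨P₂, hP₂U, hP₂A⟩ := Cfsg.Agent.S0025.result A _ hAX hcop (Or.inl hAsolv) q U₂ hU₂X
      hU₂q hU₂A
    obtain ⟨c₀, hc₀A, hc₀⟩ := Cfsg.Agent.S0024.result A _ hAX hcop (Or.inl hAsolv) q P₂ P₁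
      hP₂A hP₁A
    have hc₀Θ : (c₀ : G) ∈ Cfsg.signalizerInf A θ := by
      rw [mem_signalizerInf]
      intro a' ha' ha'1
      exact hXW.2.2.2 a' ha' ha'1 ⟨c₀.2,
        Subgroup.centralizer_le (Set.singleton_subset_iff.mpr ha') hc₀A⟩
    have hconjP : (P₂.1.map (Subgroup.subtype _)).map
        (MulAut.conj (c₀ : G)).toMonoidHom = P₁.1.map (Subgroup.subtype _) := by
      rw [← conj_smul_eq_map, ← Cfsg.Agent.Lib.Lead.sylow_map_smul, Sylow.smul_def, hc₀]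
    have hRW : P₁.1.map (Subgroup.subtype _) ∈ Cfsg.signalizerFamily p A θ :=
      family_sub p A θ _ _ hXW (Subgroup.map_subtype_le _)
        (fun b hb v hv => Cfsg.Agent.Lib.Helper4.conj_mem_of_mem_normalizer (hP₁A hb) hv)
    have hRq : IsPGroup q ↥(P₁.1.map (Subgroup.subtype _)) := P₁.2.map _
    obtain ⟨Q₃, ⟨hQ₃W, hQ₃q⟩, hRQ₃, hQ₃max⟩ := exists_maximal_member
      (fun R => R ∈ Cfsg.signalizerFamily p A θ ∧ IsPGroup q ↥R) _ _ ⟨hRW, hRq⟩ le_rfl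
    have hQ₃max' : ∀ R ∈ Cfsg.signalizerFamily p A θ, IsPGroup q ↥R → Q₃ ≤ R → R = Q₃ :=
      fun R hR hRq hle => hQ₃max R ⟨hR, hRq⟩ hle
    -- the pair (Q₁, Q₃)
    have hcard1 : Nat.card ↥(Q₁ ⊓ Q₂ : Subgroup G) < Nat.card ↥(Q₁ ⊓ Q₃ : Subgroup G) :=
      lt_of_lt_of_le (card_lt_card_of_lt' hDU₁)
        (Subgroup.card_le_of_le (le_inf hU₁Q (hP₁U.trans hRQ₃)))
    have hle1 := Subgroup.card_le_card_group (Q₁ ⊓ Q₃)
    obtain ⟨c₁, hc₁, hc₁eq⟩ := ih (Nat.card G - Nat.card ↥(Q₁ ⊓ Q₃ : Subgroup G)) (by omega)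
      Q₁ Q₃ hQ₁W hQ₁q hQ₁max hQ₃W hQ₃q hQ₃max' le_rfl
    -- the pair (Q₂ ^ c₀, Q₃)
    have hQ₂'W := family_conj p A θ hθ.1 Q₂ hQ₂W c₀ hc₀Θ
    have hQ₂'q : IsPGroup q ↥(Q₂.map (MulAut.conj (c₀ : G)).toMonoidHom) := hQ₂q.map _
    have hQ₂'max : ∀ R ∈ Cfsg.signalizerFamily p A θ, IsPGroup q ↥R →
        Q₂.map (MulAut.conj (c₀ : G)).toMonoidHom ≤ R →
        R = Q₂.map (MulAut.conj (c₀ : G)).toMonoidHom := by
      intro R hR hRq hle
      have h3 : R.map (MulAut.conj (c₀ : G)⁻¹).toMonoidHom = Q₂ :=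
        hQ₂max _ (family_conj p A θ hθ.1 R hR _ (inv_mem hc₀Θ)) (hRq.map _) (by
          have := Subgroup.map_mono (f := (MulAut.conj (c₀ : G)⁻¹).toMonoidHom) hle
          rwa [map_conj_inv_cancel] at this)
      calc R = (R.map (MulAut.conj (c₀ : G)⁻¹).toMonoidHom).map
            (MulAut.conj (c₀ : G)).toMonoidHom := (map_conj_cancel_inv R (c₀ : G)).symm
        _ = Q₂.map (MulAut.conj (c₀ : G)).toMonoidHom := by rw [h3]
    have hU₂' : U₂.map (MulAut.conj (c₀ : G)).toMonoidHom ≤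
        Q₂.map (MulAut.conj (c₀ : G)).toMonoidHom ⊓ Q₃ :=
      le_inf (Subgroup.map_mono hU₂Q)
        ((Subgroup.map_mono hP₂U).trans (hconjP.le.trans hRQ₃))
    have hcard2 : Nat.card ↥(Q₁ ⊓ Q₂ : Subgroup G) <
        Nat.card ↥(Q₂.map (MulAut.conj (c₀ : G)).toMonoidHom ⊓ Q₃ : Subgroup G) := by
      have h4 := card_lt_card_of_lt' hDU₂
      have h5 := Subgroup.card_le_of_le hU₂'
      rw [Subgroup.card_map_of_injective (MulAut.conj (c₀ : G)).injective] at h5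
      omega
    have hle2 := Subgroup.card_le_card_group (Q₂.map (MulAut.conj (c₀ : G)).toMonoidHom ⊓ Q₃)
    obtain ⟨c₂, hc₂, hc₂eq⟩ := ih
      (Nat.card G - Nat.card ↥(Q₂.map (MulAut.conj (c₀ : G)).toMonoidHom ⊓ Q₃ : Subgroup G))
      (by omega) _ Q₃ hQ₂'W hQ₂'q hQ₂'max hQ₃W hQ₃q hQ₃max' le_rfl
    refine ⟨(c₂ * c₀)⁻¹ * c₁, mul_mem (inv_mem (mul_mem hc₂ hc₀Θ)) hc₁, ?_⟩
    rw [← Cfsg.Agent.Lib.Helper3.map_conj_map_conj, hc₁eq, ← hc₂eq,
      Cfsg.Agent.Lib.Helper3.map_conj_map_conj Q₂ c₂ c₀, map_conj_inv_cancel]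

end Cfsg.Agent.Lib.Helper2
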