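import Mathlib
import Cfsg.Prelude
import Cfsg.Agent.Lib.Helper2.ThTransLocal
import Cfsg.Agent.Lib.Helper2.Transit

set_option autoImplicit false

namespace Cfsg.Agent.Lib.Helper2

universe u

open scoped commutatorElement

/-- Class at most two, in elementwise form, from the vanishing of the second term of the lower
central series. -/
theorem class2_comm_of_lcs {G : Type*} [Group G] (S : Subgroup G)
    (h : Subgroup.lowerCentralSeries (⊤ : Subgroup ↥S) 2 = ⊥) (x : G) (hx : x ∈ S) (y : G)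
    (hy : y ∈ S) (z : G) (hz : z ∈ S) :
    (x * y * x⁻¹ * y⁻¹) * z = z * (x * y * x⁻¹ * y⁻¹) := by
  have h1 : ⁅⁅(⟨x, hx⟩ : ↥S), (⟨y, hy⟩ : ↥S)⁆, (⟨z, hz⟩ : ↥S)⁆ ∈
      Subgroup.lowerCentralSeries (⊤ : Subgroup ↥S) 2 := by
    show _ ∈ ⁅⁅(⊤ : Subgroup ↥S), ⊤⁆, ⊤⁆
    exact Subgroup.commutator_mem_commutator
      (Subgroup.commutator_mem_commutator (Subgroup.mem_top _) (Subgroup.mem_top _))
      (Subgroup.mem_top _)
  rw [h, Subgroup.mem_bot] at h1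
  have h2 := congrArg Subtype.val h1
  have h3 : (x * y * x⁻¹ * y⁻¹) * z * (x * y * x⁻¹ * y⁻¹)⁻¹ * z⁻¹ = 1 := h2
  calc (x * y * x⁻¹ * y⁻¹) * z
      = ((x * y * x⁻¹ * y⁻¹) * z * (x * y * x⁻¹ * y⁻¹)⁻¹ * z⁻¹) * (z * (x * y * x⁻¹ * y⁻¹)) := by
        group
    _ = z * (x * y * x⁻¹ * y⁻¹) := by rw [h3, one_mul]

/-- The local key: inside a `p`-constrained subgroup `N` containing `E`, every `E`-invariant
`p'`-subgroup lies in `O_{p'}(N)`. -/
theorem local_key_sub {G : Type u} [Group G] [Finite G] (p : ℕ) [hp : Fact p.Prime]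
    (N : Subgroup G) (hN : Cfsg.IsPConstrained p ↥N)
    (hcl : p = 2 → ∀ T : Subgroup G, IsPGroup p ↥T → ∀ x ∈ T, ∀ y ∈ T, ∀ z ∈ T,
      (x * y * x⁻¹ * y⁻¹) * z = z * (x * y * x⁻¹ * y⁻¹))
    (E : Subgroup G) (hEp : IsPGroup p ↥E) (hEN : E ≤ N)
    (hEfull : ∀ x ∈ Subgroup.centralizer (E : Set G), IsPGroup p ↥(Subgroup.zpowers x) → x ∈ E)
    (K : Subgroup G) (hKp : ¬ p ∣ Nat.card ↥K) (hEK : E ≤ Subgroup.normalizer (K : Set G))
    (hKN : K ≤ N) : K ≤ (Cfsg.pPrimeCore p ↥N).map N.subtype := by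
  obtain ⟨A', hA'def⟩ : ∃ A' : Subgroup ↥N, A' = E.subgroupOf N := ⟨_, rfl⟩
  obtain ⟨K', hK'def⟩ : ∃ K' : Subgroup ↥N, K' = K.subgroupOf N := ⟨_, rfl⟩
  have hA'mem : ∀ x : ↥N, x ∈ A' ↔ (x : G) ∈ E := by
    intro x; rw [hA'def, Subgroup.mem_subgroupOf]
  have hK'mem : ∀ x : ↥N, x ∈ K' ↔ (x : G) ∈ K := by
    intro x; rw [hK'def, Subgroup.mem_subgroupOf]
  have hA'p : IsPGroup p ↥A' := by rw [hA'def]; exact hEp.comap_subtype
  have hK'card : ¬ p ∣ Nat.card ↥K' := by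
    have h1 : Nat.card ↥K' = Nat.card ↥K := by
      rw [hK'def]; exact Nat.card_congr (Subgroup.subgroupOfEquivOfLe hKN).toEquiv
    rw [h1]; exact hKp
  have hA'K' : A' ≤ Subgroup.normalizer (K' : Set ↥N) := by
    apply Cfsg.Agent.Lib.Lead.le_normalizer_of_conj_mem
    intro a ha k hk
    rw [hA'mem] at ha
    rw [hK'mem] at hk ⊢
    exact Cfsg.Agent.Lib.Lead.conj_mem_of_mem_normalizer (hEK ha) hk
  have hcentE : ∀ x : ↥N, x ∈ Subgroup.centralizer (A' : Set ↥N) →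
      (x : G) ∈ Subgroup.centralizer (E : Set G) := by
    intro x hx
    rw [Subgroup.mem_centralizer_iff] at hx ⊢
    intro e he
    have h := hx ⟨e, hEN he⟩ ((hA'mem _).mpr he)
    exact congrArg Subtype.val h
  have hzp : ∀ (x : G) (k : ℕ), x ^ p ^ k = 1 → IsPGroup p ↥(Subgroup.zpowers x) := by
    intro x k hxk
    apply IsPGroup.of_card_dvd_pow (n := k)
    rw [Nat.card_zpowers]
    exact orderOf_dvd_of_pow_eq_one hxk
  have hΩall : ∀ x ∈ Subgroup.centralizer (A' : Set ↥N), ∀ k : ℕ, x ^ p ^ k = 1 → x ∈ A' := by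
    intro x hx k hxk
    rw [hA'mem]
    apply hEfull (x : G) (hcentE x hx)
    apply hzp (x : G) k
    have h := congrArg Subtype.val hxk
    exact h
  have hX' : K' ≤ Cfsg.pPrimeCore p ↥N := by
    by_cases hp2 : p = 2
    · apply pconstr_inv_class2 p hN A' hA'p hΩall ?_ K' hK'card hA'K'
      intro T hT x hx y hy z hz
      have h := hcl hp2 (T.map N.subtype) (hT.map _) (x : G) ⟨x, hx, rfl⟩ (y : G) ⟨y, hy, rfl⟩
        (z : G) ⟨z, hz, rfl⟩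
      exact Subtype.ext h
    · apply pconstr_inv_main p hp2 hN A' hA'p ?_ K' hK'card hA'K'
      intro x hx hxp
      apply hΩall x hx 1
      have h := pow_orderOf_eq_one x
      rw [hxp] at h
      rw [pow_one]; exact h
  intro k hk
  have h1 : (⟨k, hKN hk⟩ : ↥N) ∈ K' := (hK'mem _).mpr hk
  exact ⟨⟨k, hKN hk⟩, hX' h1, rfl⟩

/-- The core of the Thompson transitivity theorem, with the local information abstracted. -/
theorem thompson_trans_core {G : Type*} [Group G] [Finite G] (p : ℕ) [hp : Fact p.Prime]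
    (E : Subgroup G) (hEp : IsPGroup p ↥E) (hEc : ∀ a ∈ E, ∀ b ∈ E, a * b = b * a)
    (A : Subgroup G) (hAE : A ≤ E) (hA : Cfsg.IsElementaryAbelian p A)
    (hA3 : p ^ 3 ≤ Nat.card ↥A) (q : ℕ) [hq : Fact q.Prime] (hqp : q ≠ p)
    (W : G → Subgroup G)
    (hW1 : ∀ a ∈ E, a ≠ 1 → ¬ p ∣ Nat.card ↥(W a))
    (hW2 : ∀ a ∈ E, a ≠ 1 → E ≤ Subgroup.normalizer (W a : Set G))
    (hW3 : ∀ a ∈ E, a ≠ 1 → ∀ K : Subgroup G, IsPGroup q ↥K →
      E ≤ Subgroup.normalizer (K : Set G) → K ≤ Subgroup.centralizer ({a} : Set G) → K ≤ W a)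
    (O : Subgroup G)
    (hO : ∀ L : Subgroup G, ¬ p ∣ Nat.card ↥L → E ≤ Subgroup.normalizer (L : Set G) →
      L ⊓ Subgroup.centralizer (E : Set G) ≤ O) :
    ∀ (d : ℕ) (Q₁ Q₂ : Subgroup G), IsPGroup q ↥Q₁ → E ≤ Subgroup.normalizer (Q₁ : Set G) →
      (∀ R : Subgroup G, IsPGroup q ↥R → E ≤ Subgroup.normalizer (R : Set G) → Q₁ ≤ R →
        R = Q₁) →
      IsPGroup q ↥Q₂ → E ≤ Subgroup.normalizer (Q₂ : Set G) →
      (∀ R : Subgroup G, IsPGroup q ↥R → E ≤ Subgroup.normalizer (R : Set G) → Q₂ ≤ R →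
        R = Q₂) →
      Nat.card G - Nat.card ↥(Q₁ ⊓ Q₂ : Subgroup G) ≤ d →
      ∃ c ∈ O, Q₁.map (MulAut.conj c).toMonoidHom = Q₂ := by
  have hpp : p.Prime := hp.out
  have hEsolv : Group.IsSolvable ↥E := by
    haveI := hEp.isNilpotent
    infer_instance
  have hconjinv : ∀ (c : G), c ∈ Subgroup.centralizer (E : Set G) → ∀ R : Subgroup G,
      E ≤ Subgroup.normalizer (R : Set G) →
      E ≤ Subgroup.normalizer ((R.map (MulAut.conj c).toMonoidHom : Subgroup G) : Set G) := by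
    intro c hc R hER
    apply Cfsg.Agent.Lib.Helper4.le_normalizer_of_conj_mem
    rintro b hb _ ⟨u, hu, rfl⟩
    refine ⟨b * u * b⁻¹, Cfsg.Agent.Lib.Helper4.conj_mem_of_mem_normalizer (hER hb) hu, ?_⟩
    show c * (b * u * b⁻¹) * c⁻¹ = b * (c * u * c⁻¹) * b⁻¹
    have h := Subgroup.mem_centralizer_iff.mp hc b hb
    calc c * (b * u * b⁻¹) * c⁻¹ = (c * b) * u * (c * b)⁻¹ := by group
      _ = (b * c) * u * (b * c)⁻¹ := by rw [h]
      _ = b * (c * u * c⁻¹) * b⁻¹ := by group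
  intro d
  induction d using Nat.strong_induction_on with
  | _ d ih =>
    intro Q₁ Q₂ hQ₁q hEQ₁ hQ₁max hQ₂q hEQ₂ hQ₂max hd
    by_cases h1 : Q₁ ⊓ Q₂ = Q₁
    · have h3 : Q₂ = Q₁ := hQ₁max Q₂ hQ₂q hEQ₂ (inf_eq_left.mp h1)
      exact ⟨1, hO ⊥ (by
          rw [Subgroup.card_bot]; exact hpp.one_lt.ne' ∘ Nat.dvd_one.mp) (by
          intro e _
          rw [Subgroup.mem_normalizer_iff]
          intro x
          rw [Subgroup.mem_bot, Subgroup.mem_bot]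
          constructor
          · intro hx; rw [hx]; group
          · intro hx
            calc x = e⁻¹ * (e * x * e⁻¹) * e := by group
              _ = 1 := by rw [hx]; group) ⟨Subgroup.one_mem _, Subgroup.one_mem _⟩,
        by rw [h3, map_conj_one']⟩
    by_cases h2 : Q₁ ⊓ Q₂ = Q₂
    · have h3 : Q₁ = Q₂ := hQ₂max Q₁ hQ₁q hEQ₁ (inf_eq_right.mp h2)
      exact ⟨1, O.one_mem, by rw [h3, map_conj_one']⟩
    obtain ⟨a, haA, ha1, hE₁, hE₂⟩ := Cfsg.Agent.S1282.result p A hA hA3 q hqp Q₁ Q₂ hQ₁q hQ₂q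
      (hAE.trans hEQ₁) (hAE.trans hEQ₂) h1 h2
    have haE : a ∈ E := hAE haA
    have hED : E ≤ Subgroup.normalizer ((Q₁ ⊓ Q₂ : Subgroup G) : Set G) :=
      Cfsg.Agent.Lib.Helper4.le_normalizer_inf hEQ₁ hEQ₂
    have hEW : E ≤ Subgroup.normalizer (W a : Set G) := hW2 a haE ha1
    have hETn : E ≤ Subgroup.normalizer
        ((W a ⊓ Subgroup.normalizer ((Q₁ ⊓ Q₂ : Subgroup G) : Set G) : Subgroup G) : Set G) :=
      Cfsg.Agent.Lib.Helper4.le_normalizer_inf hEW (hED.trans Subgroup.le_normalizer)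
    have hEX : E ≤ Subgroup.normalizer ((Q₁ ⊓ Q₂ ⊔
        (W a ⊓ Subgroup.normalizer ((Q₁ ⊓ Q₂ : Subgroup G) : Set G)) : Subgroup G) : Set G) :=
      Cfsg.Agent.Lib.Helper4.le_normalizer_sup hED hETn
    have hDq : IsPGroup q ↥(Q₁ ⊓ Q₂ : Subgroup G) := hQ₁q.to_le inf_le_left
    have hXp : ¬ p ∣ Nat.card ↥(Q₁ ⊓ Q₂ ⊔
        (W a ⊓ Subgroup.normalizer ((Q₁ ⊓ Q₂ : Subgroup G) : Set G)) : Subgroup G) := by
      intro hdvd
      rw [sup_comm] at hdvd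
      rcases Cfsg.Agent.Lib.Helper3.prime_dvd_card_sup _ _ inf_le_right hpp hdvd with h | h
      · exact hW1 a haE ha1 (h.trans (Subgroup.card_dvd_of_le inf_le_left))
      · obtain ⟨k, hk⟩ := IsPGroup.iff_card.mp hDq
        rw [hk] at h
        exact hqp ((Nat.prime_dvd_prime_iff_eq hpp hq.out).mp (hpp.dvd_of_dvd_pow h)).symm
    have hcop : (Nat.card ↥E).Coprime (Nat.card ↥(Q₁ ⊓ Q₂ ⊔
        (W a ⊓ Subgroup.normalizer ((Q₁ ⊓ Q₂ : Subgroup G) : Set G)) : Subgroup G)) := by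
      obtain ⟨k, hk⟩ := IsPGroup.iff_card.mp hEp
      rw [hk]
      exact Nat.Coprime.pow_left k ((Nat.Prime.coprime_iff_not_dvd hpp).mpr hXp)
    have hECa : E ≤ Subgroup.normalizer
        ((Subgroup.centralizer ({a} : Set G) : Subgroup G) : Set G) := by
      intro b hb
      apply Subgroup.le_normalizer
      rw [mem_centralizer_singleton]
      exact hEc a haE b hb
    have hstep : ∀ Q : Subgroup G, IsPGroup q ↥Q →
        Q₁ ⊓ Q₂ ≤ Q → E ≤ Subgroup.normalizer (Q : Set G) →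
        ¬ (Subgroup.normalizer ((Q₁ ⊓ Q₂ : Subgroup G) : Set G) ⊓ Q ⊓
          Subgroup.centralizer ({a} : Set G) ≤ Q₁ ⊓ Q₂) →
        ∃ U : Subgroup G, U ≤ Q ∧ Q₁ ⊓ Q₂ < U ∧ IsPGroup q ↥U ∧
          U ≤ Q₁ ⊓ Q₂ ⊔ (W a ⊓ Subgroup.normalizer ((Q₁ ⊓ Q₂ : Subgroup G) : Set G)) ∧
          E ≤ Subgroup.normalizer (U : Set G) := by
      intro Q hQq hDQ hEQ hE
      have hEK : E ≤ Subgroup.normalizer
          ((Subgroup.normalizer ((Q₁ ⊓ Q₂ : Subgroup G) : Set G) ⊓ Q ⊓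
            Subgroup.centralizer ({a} : Set G) : Subgroup G) : Set G) :=
        Cfsg.Agent.Lib.Helper4.le_normalizer_inf
          (Cfsg.Agent.Lib.Helper4.le_normalizer_inf (hED.trans Subgroup.le_normalizer) hEQ) hECa
      have hKW : Subgroup.normalizer ((Q₁ ⊓ Q₂ : Subgroup G) : Set G) ⊓ Q ⊓
          Subgroup.centralizer ({a} : Set G) ≤ W a :=
        hW3 a haE ha1 _ (hQq.to_le (inf_le_left.trans inf_le_right)) hEK inf_le_right
      refine ⟨Q₁ ⊓ Q₂ ⊔ (Subgroup.normalizer ((Q₁ ⊓ Q₂ : Subgroup G) : Set G) ⊓ Q ⊓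
          Subgroup.centralizer ({a} : Set G)), ?_, ?_, ?_, ?_, ?_⟩
      · exact sup_le hDQ (inf_le_left.trans inf_le_right)
      · refine lt_of_le_of_ne le_sup_left ?_
        intro heq
        exact hE (le_sup_right.trans heq.ge)
      · exact hQq.to_le (sup_le hDQ (inf_le_left.trans inf_le_right))
      · refine sup_le le_sup_left (le_trans ?_ le_sup_right)
        exact le_inf hKW (inf_le_left.trans inf_le_left)
      · exact Cfsg.Agent.Lib.Helper4.le_normalizer_sup hED hEK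
    obtain ⟨U₁, hU₁Q, hDU₁, hU₁q, hU₁X, hU₁E⟩ := hstep Q₁ hQ₁q inf_le_left hEQ₁ hE₁
    obtain ⟨U₂, hU₂Q, hDU₂, hU₂q, hU₂X, hU₂E⟩ := hstep Q₂ hQ₂q inf_le_right hEQ₂ hE₂
    obtain ⟨P₁, hP₁U, hP₁E⟩ := Cfsg.Agent.S0025.result E _ hEX hcop (Or.inl hEsolv) q U₁ hU₁X
      hU₁q hU₁E
    obtain ⟨P₂, hP₂U, hP₂E⟩ := Cfsg.Agent.S0025.result E _ hEX hcop (Or.inl hEsolv) q U₂ hU₂X
      hU₂q hU₂E
    obtain ⟨c₀, hc₀E, hc₀⟩ := Cfsg.Agent.S0024.result E _ hEX hcop (Or.inl hEsolv) q P₂ P₁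
      hP₂E hP₁E
    have hc₀O : (c₀ : G) ∈ O := hO _ hXp hEX ⟨c₀.2, hc₀E⟩
    have hc₀C : (c₀ : G) ∈ Subgroup.centralizer (E : Set G) := hc₀E
    have hconjP : (P₂.1.map (Subgroup.subtype _)).map
        (MulAut.conj (c₀ : G)).toMonoidHom = P₁.1.map (Subgroup.subtype _) := by
      rw [← conj_smul_eq_map, ← Cfsg.Agent.Lib.Lead.sylow_map_smul, Sylow.smul_def, hc₀]
    have hRq : IsPGroup q ↥(P₁.1.map (Subgroup.subtype _)) := P₁.2.map _
    obtain ⟨Q₃, ⟨hQ₃q, hEQ₃⟩, hRQ₃, hQ₃max⟩ := exists_maximal_member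
      (fun R => IsPGroup q ↥R ∧ E ≤ Subgroup.normalizer (R : Set G)) _ _ ⟨hRq, hP₁E⟩ le_rfl
    have hQ₃max' : ∀ R : Subgroup G, IsPGroup q ↥R → E ≤ Subgroup.normalizer (R : Set G) →
        Q₃ ≤ R → R = Q₃ :=
      fun R hRq hR hle => hQ₃max R ⟨hRq, hR⟩ hle
    have hcard1 : Nat.card ↥(Q₁ ⊓ Q₂ : Subgroup G) < Nat.card ↥(Q₁ ⊓ Q₃ : Subgroup G) :=
      lt_of_lt_of_le (card_lt_card_of_lt' hDU₁)
        (Subgroup.card_le_of_le (le_inf hU₁Q (hP₁U.trans hRQ₃)))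
    have hle1 := Subgroup.card_le_card_group (Q₁ ⊓ Q₃)
    obtain ⟨c₁, hc₁, hc₁eq⟩ := ih (Nat.card G - Nat.card ↥(Q₁ ⊓ Q₃ : Subgroup G)) (by omega)
      Q₁ Q₃ hQ₁q hEQ₁ hQ₁max hQ₃q hEQ₃ hQ₃max' le_rfl
    have hQ₂'E := hconjinv (c₀ : G) hc₀C Q₂ hEQ₂
    have hQ₂'q : IsPGroup q ↥(Q₂.map (MulAut.conj (c₀ : G)).toMonoidHom) := hQ₂q.map _
    have hc₀inv : (c₀ : G)⁻¹ ∈ Subgroup.centralizer (E : Set G) := Subgroup.inv_mem _ hc₀C
    have hQ₂'max : ∀ R : Subgroup G, IsPGroup q ↥R → E ≤ Subgroup.normalizer (R : Set G) →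
        Q₂.map (MulAut.conj (c₀ : G)).toMonoidHom ≤ R →
        R = Q₂.map (MulAut.conj (c₀ : G)).toMonoidHom := by
      intro R hRq hR hle
      have h3 : R.map (MulAut.conj (c₀ : G)⁻¹).toMonoidHom = Q₂ :=
        hQ₂max _ (hRq.map _) (hconjinv _ hc₀inv R hR) (by
          have := Subgroup.map_mono (f := (MulAut.conj (c₀ : G)⁻¹).toMonoidHom) hle
          rwa [map_conj_inv_cancel] at this)
      calc R = (R.map (MulAut.conj (c₀ : G)⁻¹).toMonoidHom).map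
            (MulAut.conj (c₀ : G)).toMonoidHom := (map_conj_cancel_inv R (c₀ : G)).symm
        _ = Q₂.map (MulAut.conj (c₀ : G)).toMonoidHom := by rw [h3]
    have hU₂' : U₂.map (MulAut.conj (c₀ : G)).toMonoidHom ≤
        Q₂.map (MulAut.conj (c₀ : G)).toMonoidHom ⊓ Q₃ :=
      le_inf (Subgroup.map_mono hU₂Q)
        ((Subgroup.map_mono hP₂U).trans (hconjP.le.trans hRQ₃))
    have hcard2 : Nat.card ↥(Q₁ ⊓ Q₂ : Subgroup G) <
        Nat.card ↥(Q₂.map (MulAut.conj (c₀ : G)).toMonoidHom ⊓ Q₃ : Subgroup G) := by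
      have h4 := card_lt_card_of_lt' hDU₂
      have h5 := Subgroup.card_le_of_le hU₂'
      rw [Subgroup.card_map_of_injective (MulAut.conj (c₀ : G)).injective] at h5
      omega
    have hle2 := Subgroup.card_le_card_group (Q₂.map (MulAut.conj (c₀ : G)).toMonoidHom ⊓ Q₃)
    obtain ⟨c₂, hc₂, hc₂eq⟩ := ih
      (Nat.card G - Nat.card ↥(Q₂.map (MulAut.conj (c₀ : G)).toMonoidHom ⊓ Q₃ : Subgroup G))
      (by omega) _ Q₃ hQ₂'q hQ₂'E hQ₂'max hQ₃q hEQ₃ hQ₃max' le_rfl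
    refine ⟨(c₂ * c₀)⁻¹ * c₁, mul_mem (inv_mem (mul_mem hc₂ hc₀O)) hc₁, ?_⟩
    rw [← Cfsg.Agent.Lib.Helper3.map_conj_map_conj, hc₁eq, ← hc₂eq,
      Cfsg.Agent.Lib.Helper3.map_conj_map_conj Q₂ c₂ c₀, map_conj_inv_cancel]

/-- The Thompson transitivity theorem, assembled. -/
theorem thompson_trans_main {G : Type u} [Group G] [Finite G] (p : ℕ) [hp : Fact p.Prime]
    (hloc : ∀ T : Subgroup G, IsPGroup p ↥T → T ≠ ⊥ →
      Cfsg.IsPConstrained p ↥(Subgroup.normalizer (T : Set G)))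
    (hcl : p = 2 → ∀ T : Subgroup G, IsPGroup p ↥T → ∀ x ∈ T, ∀ y ∈ T, ∀ z ∈ T,
      (x * y * x⁻¹ * y⁻¹) * z = z * (x * y * x⁻¹ * y⁻¹))
    (E : Subgroup G) (hEp : IsPGroup p ↥E) (hEc : IsMulCommutative ↥E)
    (hE3 : ¬ Cfsg.PRankLE p 2 ↥E)
    (hEfull : ∀ x ∈ Subgroup.centralizer (E : Set G), IsPGroup p ↥(Subgroup.zpowers x) → x ∈ E)
    (q : ℕ) [hq : Fact q.Prime] (hqp : q ≠ p) :
    ∀ Q₁ ∈ Cfsg.maxInvSubgroups ⊤ E {q}, ∀ Q₂ ∈ Cfsg.maxInvSubgroups ⊤ E {q},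
        ∃ k ∈ Cfsg.piCoreOf (Cfsg.primesNotDvd p) (Subgroup.centralizer (E : Set G)),
          Q₂ = Q₁.map (MulAut.conj k).toMonoidHom := by
  have hpp : p.Prime := hp.out
  have hqq : q.Prime := hq.out
  have hEcomm : ∀ a ∈ E, ∀ b ∈ E, a * b = b * a := by
    intro a ha b hb
    have h := hEc.is_comm.comm ⟨a, ha⟩ ⟨b, hb⟩
    exact congrArg Subtype.val h
  have hE3' : ∃ A₀ : Subgroup ↥E, IsMulCommutative ↥A₀ ∧ (∀ a ∈ A₀, a ^ p = 1) ∧
      ¬ Nat.card ↥A₀ ≤ p ^ 2 := by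
    by_contra hcon
    apply hE3
    intro A₀ hc he
    by_contra hle
    exact hcon ⟨A₀, hc, he, hle⟩
  obtain ⟨A₀, hA₀c, hA₀e, hA₀card⟩ := hE3'
  obtain ⟨A, hAdef⟩ : ∃ A : Subgroup G, A = A₀.map E.subtype := ⟨_, rfl⟩
  have hAE : A ≤ E := by rw [hAdef]; exact Subgroup.map_subtype_le A₀
  have hA : Cfsg.IsElementaryAbelian p A := by
    apply Cfsg.Agent.Lib.Helper1.ea_of_comm
    · intro a ha b hb; exact hEcomm a (hAE ha) b (hAE hb)
    · intro a ha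
      rw [hAdef] at ha
      obtain ⟨a', ha', rfl⟩ := ha
      have h := hA₀e a' ha'
      exact congrArg Subtype.val h
  have hAcard : Nat.card ↥A = Nat.card ↥A₀ := by
    rw [hAdef]; exact Subgroup.card_map_of_injective E.subtype_injective
  have hA3 : p ^ 3 ≤ Nat.card ↥A := by
    have hAp : IsPGroup p ↥A := hEp.to_le hAE
    obtain ⟨k, hk⟩ := IsPGroup.iff_card.mp hAp
    rw [hAcard] at hk
    rw [hk] at hA₀card
    rw [hAcard, hk]
    have h2k : 2 < k := by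
      by_contra hle
      apply hA₀card
      exact Nat.pow_le_pow_right hpp.pos (by omega)
    exact Nat.pow_le_pow_right hpp.pos (by omega)
  have hE1 : E ≠ ⊥ := by
    intro hE
    have h1 : Nat.card ↥A ≤ Nat.card ↥E := Subgroup.card_le_of_le hAE
    rw [hE, Subgroup.card_bot] at h1
    have h2 : 1 < p ^ 3 := Nat.one_lt_pow (by norm_num) hpp.one_lt
    omega
  have hcz : ∀ a g : G, a * g = g * a →
      g ∈ Subgroup.normalizer ((Subgroup.zpowers a : Subgroup G) : Set G) := by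
    intro a g hg
    apply Subgroup.centralizer_le_normalizer
    rw [Subgroup.mem_centralizer_iff]
    intro h hh
    obtain ⟨k, rfl⟩ := Subgroup.mem_zpowers_iff.mp hh
    exact (Commute.zpow_left (show Commute a g from hg) k).eq
  obtain ⟨W, hWdef⟩ : ∃ W : G → Subgroup G, ∀ a : G, W a =
      (Cfsg.pPrimeCore p ↥(Subgroup.normalizer ((Subgroup.zpowers a : Subgroup G) : Set G))).map
        (Subgroup.normalizer ((Subgroup.zpowers a : Subgroup G) : Set G)).subtype :=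
    ⟨fun a => _, fun a => rfl⟩
  have hWN : ∀ N : Subgroup G, ¬ p ∣ Nat.card ↥((Cfsg.pPrimeCore p ↥N).map N.subtype) := by
    intro N
    rw [Subgroup.card_map_of_injective N.subtype_injective]
    exact (Nat.Prime.coprime_iff_not_dvd hpp).mp (pPrimeCore_card_coprime p ↥N).symm
  have hWNn : ∀ N : Subgroup G, ∀ n ∈ N, ∀ w ∈ (Cfsg.pPrimeCore p ↥N).map N.subtype,
      n * w * n⁻¹ ∈ (Cfsg.pPrimeCore p ↥N).map N.subtype := by
    intro N n hn w hw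
    obtain ⟨w', hw', rfl⟩ := hw
    exact ⟨⟨n, hn⟩ * w' * ⟨n, hn⟩⁻¹,
      (Cfsg.pPrimeCore_normal p ↥N).conj_mem w' hw' ⟨n, hn⟩, rfl⟩
  have haEp : ∀ a ∈ E, IsPGroup p ↥(Subgroup.zpowers a) := by
    intro a ha
    exact hEp.to_le (Subgroup.zpowers_le.mpr ha)
  have haE1 : ∀ a : G, a ≠ 1 → Subgroup.zpowers a ≠ ⊥ := by
    intro a ha h
    exact ha (Subgroup.zpowers_eq_bot.mp h)
  have hENa : ∀ a ∈ E,
      E ≤ Subgroup.normalizer ((Subgroup.zpowers a : Subgroup G) : Set G) := by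
    intro a ha e he
    exact hcz a e (hEcomm a ha e he)
  have hW1 : ∀ a ∈ E, a ≠ 1 → ¬ p ∣ Nat.card ↥(W a) := by
    intro a _ _; rw [hWdef]; exact hWN _
  have hW2 : ∀ a ∈ E, a ≠ 1 → E ≤ Subgroup.normalizer (W a : Set G) := by
    intro a ha _
    apply Cfsg.Agent.Lib.Lead.le_normalizer_of_conj_mem
    intro e he w hw
    rw [hWdef] at hw ⊢
    exact hWNn _ e (hENa a ha he) w hw
  have hqK : ∀ K : Subgroup G, IsPGroup q ↥K → ¬ p ∣ Nat.card ↥K := by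
    intro K hK h
    obtain ⟨k, hk⟩ := IsPGroup.iff_card.mp hK
    rw [hk] at h
    exact hqp ((Nat.prime_dvd_prime_iff_eq hpp hqq).mp (hpp.dvd_of_dvd_pow h)).symm
  have hW3 : ∀ a ∈ E, a ≠ 1 → ∀ K : Subgroup G, IsPGroup q ↥K →
      E ≤ Subgroup.normalizer (K : Set G) → K ≤ Subgroup.centralizer ({a} : Set G) →
      K ≤ W a := by
    intro a ha ha1 K hKq hEK hKa
    rw [hWdef]
    apply local_key_sub p _ (hloc _ (haEp a ha) (haE1 a ha1)) hcl E hEp (hENa a ha) hEfull K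
      (hqK K hKq) hEK
    intro k hk
    have h := hKa hk
    rw [mem_centralizer_singleton] at h
    exact hcz a k h
  obtain ⟨O, hOdef⟩ : ∃ O : Subgroup G, O = Cfsg.piCoreOf (Cfsg.primesNotDvd p)
      (Subgroup.centralizer (E : Set G)) := ⟨_, rfl⟩
  have hECE : E ≤ Subgroup.centralizer (E : Set G) := by
    intro e he
    rw [Subgroup.mem_centralizer_iff]
    intro b hb
    exact hEcomm b hb e he
  have hO : ∀ L : Subgroup G, ¬ p ∣ Nat.card ↥L → E ≤ Subgroup.normalizer (L : Set G) →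
      L ⊓ Subgroup.centralizer (E : Set G) ≤ O := by
    intro L hLp hEL
    obtain ⟨NE, hNEdef⟩ : ∃ NE : Subgroup G, NE = Subgroup.normalizer (E : Set G) := ⟨_, rfl⟩
    have hNEc : Cfsg.IsPConstrained p ↥NE := by rw [hNEdef]; exact hloc E hEp hE1
    have hENE : E ≤ NE := by rw [hNEdef]; exact Subgroup.le_normalizer
    have hCNE : Subgroup.centralizer (E : Set G) ≤ NE := by
      rw [hNEdef]; exact Subgroup.centralizer_le_normalizer _
    have hK₀p : ¬ p ∣ Nat.card ↥(L ⊓ Subgroup.centralizer (E : Set G) : Subgroup G) :=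
      fun h => hLp (h.trans (Subgroup.card_dvd_of_le inf_le_left))
    have hEK₀ : E ≤ Subgroup.normalizer
        ((L ⊓ Subgroup.centralizer (E : Set G) : Subgroup G) : Set G) :=
      Cfsg.Agent.Lib.Helper4.le_normalizer_inf hEL (hECE.trans Subgroup.le_normalizer)
    have hK₀W := local_key_sub p NE hNEc hcl E hEp hENE hEfull _ hK₀p hEK₀
      (inf_le_right.trans hCNE)
    obtain ⟨M, hMdef⟩ : ∃ M : Subgroup ↥(Subgroup.centralizer (E : Set G)),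
        M = ((Cfsg.pPrimeCore p ↥NE).map NE.subtype).subgroupOf
          (Subgroup.centralizer (E : Set G)) := ⟨_, rfl⟩
    have hMmem : ∀ x : ↥(Subgroup.centralizer (E : Set G)),
        x ∈ M ↔ (x : G) ∈ (Cfsg.pPrimeCore p ↥NE).map NE.subtype := by
      intro x; rw [hMdef, Subgroup.mem_subgroupOf]
    have hMn : M.Normal := by
      constructor
      intro m hm c
      rw [hMmem] at hm ⊢
      exact hWNn NE (c : G) (hCNE c.2) (m : G) hm
    have hMcard : ¬ p ∣ Nat.card ↥M := by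
      intro h
      apply hWN NE
      have h1 : Nat.card ↥(M.map (Subgroup.centralizer (E : Set G)).subtype) = Nat.card ↥M :=
        Subgroup.card_map_of_injective (Subgroup.subtype_injective _)
      have h2 : M.map (Subgroup.centralizer (E : Set G)).subtype ≤
          (Cfsg.pPrimeCore p ↥NE).map NE.subtype := by
        rintro _ ⟨m, hm, rfl⟩
        exact (hMmem m).mp hm
      rw [← h1] at h
      exact h.trans (Subgroup.card_dvd_of_le h2)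
    have hMle : M ≤ Cfsg.piCore (Cfsg.primesNotDvd p) ↥(Subgroup.centralizer (E : Set G)) := by
      apply le_sSup
      refine ⟨hMn, ?_⟩
      intro r hr hrM
      refine ⟨hr, ?_⟩
      intro hrp
      have hrp' : r = p := (Nat.prime_dvd_prime_iff_eq hr hpp).mp hrp
      rw [hrp'] at hrM
      exact hMcard hrM
    intro c hc
    have hcC : c ∈ Subgroup.centralizer (E : Set G) := hc.2
    have hcM : (⟨c, hcC⟩ : ↥(Subgroup.centralizer (E : Set G))) ∈ M := (hMmem _).mpr (hK₀W hc)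
    rw [hOdef]
    show c ∈ (Cfsg.piCore (Cfsg.primesNotDvd p) ↥(Subgroup.centralizer (E : Set G))).map
      (Subgroup.centralizer (E : Set G)).subtype
    exact ⟨⟨c, hcC⟩, hMle hcM, rfl⟩
  have hq_of : ∀ Y : Subgroup G,
      (∀ r : ℕ, r.Prime → r ∣ Nat.card ↥Y → r ∈ ({q} : Set ℕ)) → IsPGroup q ↥Y := by
    intro Y hY
    have hpos : Nat.card ↥Y ≠ 0 := Nat.card_pos.ne'
    have h := Nat.eq_prime_pow_of_unique_prime_dvd hpos (p := q)
      (fun {d} hd hdY => Set.mem_singleton_iff.mp (hY d hd hdY))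
    exact IsPGroup.of_card h
  have hq_to : ∀ Y : Subgroup G, IsPGroup q ↥Y →
      ∀ r : ℕ, r.Prime → r ∣ Nat.card ↥Y → r ∈ ({q} : Set ℕ) := by
    intro Y hY r hr hrY
    obtain ⟨k, hk⟩ := IsPGroup.iff_card.mp hY
    rw [hk] at hrY
    exact Set.mem_singleton_iff.mpr
      ((Nat.prime_dvd_prime_iff_eq hr hqq).mp (hr.dvd_of_dvd_pow hrY))
  intro Q₁ hQ₁ Q₂ hQ₂
  have hQ₁' : Q₁ ∈ Cfsg.invSubgroups ⊤ E {q} ∧
      ∀ R ∈ Cfsg.invSubgroups ⊤ E {q}, Q₁ ≤ R → R = Q₁ := hQ₁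
  have hQ₂' : Q₂ ∈ Cfsg.invSubgroups ⊤ E {q} ∧
      ∀ R ∈ Cfsg.invSubgroups ⊤ E {q}, Q₂ ≤ R → R = Q₂ := hQ₂
  obtain ⟨hQ₁I, hQ₁mx⟩ := hQ₁'
  obtain ⟨hQ₂I, hQ₂mx⟩ := hQ₂'
  have hQ₁I' : Q₁ ≤ ⊤ ∧ (∀ r : ℕ, r.Prime → r ∣ Nat.card ↥Q₁ → r ∈ ({q} : Set ℕ)) ∧
      E ≤ Subgroup.normalizer (Q₁ : Set G) := hQ₁I
  have hQ₂I' : Q₂ ≤ ⊤ ∧ (∀ r : ℕ, r.Prime → r ∣ Nat.card ↥Q₂ → r ∈ ({q} : Set ℕ)) ∧
      E ≤ Subgroup.normalizer (Q₂ : Set G) := hQ₂I
  have hmemI : ∀ R : Subgroup G, IsPGroup q ↥R → E ≤ Subgroup.normalizer (R : Set G) →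
      R ∈ Cfsg.invSubgroups ⊤ E {q} :=
    fun R hRq hER => ⟨le_top, hq_to R hRq, hER⟩
  obtain ⟨c, hcO, hceq⟩ := thompson_trans_core p E hEp hEcomm A hAE hA hA3 q hqp W hW1 hW2 hW3
    O hO (Nat.card G) Q₁ Q₂ (hq_of Q₁ hQ₁I'.2.1) hQ₁I'.2.2
    (fun R hRq hER hle => hQ₁mx R (hmemI R hRq hER) hle)
    (hq_of Q₂ hQ₂I'.2.1) hQ₂I'.2.2
    (fun R hRq hER hle => hQ₂mx R (hmemI R hRq hER) hle) (Nat.sub_le _ _)
  rw [hOdef] at hcO
  exact ⟨c, hcO, hceq.symm⟩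

end Cfsg.Agent.Lib.Helper2
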