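import Mathlib
import Cfsg.Prelude
import Cfsg.Agent.Lib.Helper2.ThTrans
import Cfsg.Agent.Lib.Helper2.Quasi
import Cfsg.Agent.Lib.Lead.SylowAux

set_option autoImplicit false

namespace Cfsg.Agent.Lib.Helper2

universe u

/-- A finite solvable group is `p`-constrained. -/
theorem pconstr_of_solvable {X : Type u} [Group X] [Finite X] (p : ℕ) [Fact p.Prime]
    (hs : Group.IsSolvable X) : Cfsg.IsPConstrained p X := by
  rw [pConstrained_iff p]
  unfold Cfsg.pLayer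
  rw [sSup_eq_bot]
  rintro K ⟨-, ⟨-, hq⟩, -⟩
  exfalso
  apply quasisimple_not_solvable hq
  haveI := hs
  haveI : Group.IsSolvable (X ⧸ Cfsg.pPrimeCore p X) :=
    Group.isSolvable_of_surjective (QuotientGroup.mk'_surjective (Cfsg.pPrimeCore p X))
  infer_instance

theorem isPGroup_of_primes_singleton {G : Type*} [Group G] [Finite G] (q : ℕ) (Y : Subgroup G)
    (hY : ∀ r : ℕ, r.Prime → r ∣ Nat.card ↥Y → r ∈ ({q} : Set ℕ)) : IsPGroup q ↥Y := by
  have hpos : Nat.card ↥Y ≠ 0 := Nat.card_pos.ne'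
  have h := Nat.eq_prime_pow_of_unique_prime_dvd hpos (p := q)
    (fun {d} hd hdY => Set.mem_singleton_iff.mp (hY d hd hdY))
  exact IsPGroup.of_card h

theorem primes_singleton_of_isPGroup {G : Type*} [Group G] [Finite G] (q : ℕ)
    [hq : Fact q.Prime] (Y : Subgroup G) (hY : IsPGroup q ↥Y) :
    ∀ r : ℕ, r.Prime → r ∣ Nat.card ↥Y → r ∈ ({q} : Set ℕ) := by
  intro r hr hrY
  obtain ⟨k, hk⟩ := IsPGroup.iff_card.mp hY
  rw [hk] at hrY
  exact Set.mem_singleton_iff.mpr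
    ((Nat.prime_dvd_prime_iff_eq hr hq.out).mp (hr.dvd_of_dvd_pow hrY))

/-- The transitivity theorem in the odd-order setting. -/
theorem odd_transitivity {X : Type u} [Group X] [Finite X] (hX : Odd (Nat.card X)) (p : ℕ)
    [hp : Fact p.Prime]
    (hloc : ∀ T : Subgroup X, IsPGroup p ↥T → T ≠ ⊥ →
      Group.IsSolvable ↥(Subgroup.normalizer (T : Set X)))
    (P : Sylow p X) (B : Subgroup X) (hBP : B ≤ (P : Subgroup X))
    (hBn : ∀ x ∈ (P : Subgroup X), ∀ b ∈ B, x * b * x⁻¹ ∈ B) (hBa : IsMulCommutative ↥B)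
    (hBc : (P : Subgroup X) ⊓ Subgroup.centralizer (B : Set X) = B)
    (hB3 : ∃ E : Subgroup X, E ≤ B ∧ (∀ e ∈ E, e ^ p = 1) ∧ p ^ 3 ≤ Nat.card ↥E)
    (q : ℕ) [hq : Fact q.Prime] (hqp : q ≠ p) (Q₁ Q₂ : Subgroup X)
    (h₁ : IsPGroup q ↥Q₁ ∧ B ≤ Subgroup.normalizer (Q₁ : Set X) ∧
      ∀ R : Subgroup X, IsPGroup q ↥R → B ≤ Subgroup.normalizer (R : Set X) → Q₁ ≤ R → R = Q₁)
    (h₂ : IsPGroup q ↥Q₂ ∧ B ≤ Subgroup.normalizer (Q₂ : Set X) ∧
      ∀ R : Subgroup X, IsPGroup q ↥R → B ≤ Subgroup.normalizer (R : Set X) → Q₂ ≤ R → R = Q₂) :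
    ∃ c ∈ Subgroup.centralizer (B : Set X), Q₂ = Q₁.map (MulAut.conj c).toMonoidHom := by
  have hpp : p.Prime := hp.out
  have hBpg : IsPGroup p ↥B := P.2.to_le hBP
  have hcl : p = 2 → ∀ T : Subgroup X, IsPGroup p ↥T → ∀ x ∈ T, ∀ y ∈ T, ∀ z ∈ T,
      (x * y * x⁻¹ * y⁻¹) * z = z * (x * y * x⁻¹ * y⁻¹) := by
    intro hp2 T hT x hx y hy z hz
    have hT1 : T = ⊥ := by
      obtain ⟨k, hk⟩ := IsPGroup.iff_card.mp hT
      have hdvd : Nat.card ↥T ∣ Nat.card X := Subgroup.card_subgroup_dvd_card T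
      rcases Nat.eq_zero_or_pos k with hk0 | hk0
      · rw [hk0, pow_zero] at hk; exact Subgroup.eq_bot_of_card_eq T hk
      · exfalso
        have h2 : p ∣ Nat.card X := by
          have h3 : p ∣ Nat.card ↥T := by rw [hk]; exact dvd_pow_self p (by omega)
          exact h3.trans hdvd
        rw [hp2] at h2
        exact (Nat.not_even_iff_odd.mpr hX) (even_iff_two_dvd.mpr h2)
    rw [hT1, Subgroup.mem_bot] at hx hy hz
    rw [hx, hy, hz]
    simp
  have hloc' : ∀ T : Subgroup X, IsPGroup p ↥T → T ≠ ⊥ →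
      Cfsg.IsPConstrained p ↥(Subgroup.normalizer (T : Set X)) :=
    fun T hT hT1 => pconstr_of_solvable p (hloc T hT hT1)
  have hE3 : ¬ Cfsg.PRankLE p 2 ↥B := by
    obtain ⟨E, hEB, hEe, hEcard⟩ := hB3
    intro hr
    have hc : IsMulCommutative ↥(E.subgroupOf B) :=
      ⟨⟨fun a b => Subtype.ext (hBa.is_comm.comm a.1 b.1)⟩⟩
    have h1 := hr (E.subgroupOf B) hc (by
      intro a ha
      apply Subtype.ext
      exact hEe (a : X) (Subgroup.mem_subgroupOf.mp ha))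
    have h2 : Nat.card ↥(E.subgroupOf B) = Nat.card ↥E :=
      Nat.card_congr (Subgroup.subgroupOfEquivOfLe hEB).toEquiv
    rw [h2] at h1
    have h3 : p ^ 2 < p ^ 3 := Nat.pow_lt_pow_right hpp.one_lt (by norm_num)
    omega
  have hEfull : ∀ x ∈ Subgroup.centralizer (B : Set X), IsPGroup p ↥(Subgroup.zpowers x) →
      x ∈ B := by
    intro x hxC hxp
    obtain ⟨N, hNdef⟩ : ∃ N : Subgroup X, N = Subgroup.normalizer (B : Set X) := ⟨_, rfl⟩
    have hPN : (P : Subgroup X) ≤ N := by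
      rw [hNdef]; exact Cfsg.Agent.Lib.Helper4.le_normalizer_of_conj_mem hBn
    have hxN : x ∈ N := by
      rw [hNdef]; exact Subgroup.centralizer_le_normalizer _ hxC
    have hT' : IsPGroup p ↥((Subgroup.zpowers x).subgroupOf N) := hxp.comap_subtype
    obtain ⟨g, hg⟩ := Cfsg.Agent.Lib.Lead.sylow_conj_mem (P.subtype hPN) _ hT'
    have h1 := hg ⟨x, hxN⟩ (Subgroup.mem_subgroupOf.mpr (Subgroup.mem_zpowers x))
    have h2 : (g : X) * x * (g : X)⁻¹ ∈ (P : Subgroup X) := Subgroup.mem_subgroupOf.mp h1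
    have hgN : (g : X) ∈ Subgroup.normalizer (B : Set X) := by rw [← hNdef]; exact g.2
    have hgN' : (g : X)⁻¹ ∈ Subgroup.normalizer (B : Set X) := Subgroup.inv_mem _ hgN
    have hnx : (g : X) * x * (g : X)⁻¹ ∈ B := by
      have h3 : (g : X) * x * (g : X)⁻¹ ∈ (P : Subgroup X) ⊓ Subgroup.centralizer (B : Set X) := by
        refine ⟨h2, Subgroup.mem_centralizer_iff.mpr ?_⟩
        intro b hb
        have hb' : (g : X)⁻¹ * b * (g : X) ∈ B := by
          have h := Cfsg.Agent.Lib.Lead.conj_mem_of_mem_normalizer hgN' hb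
          rw [inv_inv] at h; exact h
        have hc := Subgroup.mem_centralizer_iff.mp hxC _ hb'
        calc b * ((g : X) * x * (g : X)⁻¹)
            = (g : X) * (((g : X)⁻¹ * b * (g : X)) * x) * (g : X)⁻¹ := by group
          _ = (g : X) * (x * ((g : X)⁻¹ * b * (g : X))) * (g : X)⁻¹ := by rw [hc]
          _ = (g : X) * x * (g : X)⁻¹ * b := by group
      rw [hBc] at h3; exact h3
    have h := Cfsg.Agent.Lib.Lead.conj_mem_of_mem_normalizer hgN' hnx
    have e : (g : X)⁻¹ * ((g : X) * x * (g : X)⁻¹) * (g : X)⁻¹⁻¹ = x := by group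
    rw [e] at h; exact h
  have hQ₁mem : Q₁ ∈ Cfsg.maxInvSubgroups ⊤ B {q} :=
    ⟨⟨le_top, primes_singleton_of_isPGroup q Q₁ h₁.1, h₁.2.1⟩,
      fun R hR hle => h₁.2.2 R (isPGroup_of_primes_singleton q R hR.2.1) hR.2.2 hle⟩
  have hQ₂mem : Q₂ ∈ Cfsg.maxInvSubgroups ⊤ B {q} :=
    ⟨⟨le_top, primes_singleton_of_isPGroup q Q₂ h₂.1, h₂.2.1⟩,
      fun R hR hle => h₂.2.2 R (isPGroup_of_primes_singleton q R hR.2.1) hR.2.2 hle⟩
  obtain ⟨k, hk, hkeq⟩ := thompson_trans_main p hloc' hcl B hBpg hBa hE3 hEfull q hqp Q₁ hQ₁mem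
    Q₂ hQ₂mem
  have hle : Cfsg.piCoreOf (Cfsg.primesNotDvd p) (Subgroup.centralizer (B : Set X)) ≤
      Subgroup.centralizer (B : Set X) := by
    unfold Cfsg.piCoreOf
    exact Subgroup.map_subtype_le _
  exact ⟨k, hle hk, hkeq⟩

end Cfsg.Agent.Lib.Helper2
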