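import Mathlib
import Cfsg.Prelude
import Cfsg.Agent.Lib.Helper2.ThTrans
import Cfsg.Agent.Lib.Helper2.OddTrans
import Cfsg.Agent.Lib.Helper3.PiCore
import Cfsg.Agent.Lib.Helper6.SylowSub

set_option autoImplicit false

namespace Cfsg.Agent.Lib.Helper2

universe u

/-- The abstract linking step of the transitivity theorems. -/
theorem trans_link {G : Type*} [Group G] [Finite G] (E : Subgroup G)
    (hEs : Group.IsSolvable ↥E) (q : ℕ) [hq : Fact q.Prime] (O : Subgroup G)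
    (hO : ∀ L : Subgroup G, (Nat.card ↥E).Coprime (Nat.card ↥L) →
      E ≤ Subgroup.normalizer (L : Set G) → L ⊓ Subgroup.centralizer (E : Set G) ≤ O)
    (n : ℕ)
    (hconj : ∀ Q Q' : Subgroup G, IsPGroup q ↥Q → E ≤ Subgroup.normalizer (Q : Set G) →
      (∀ R : Subgroup G, IsPGroup q ↥R → E ≤ Subgroup.normalizer (R : Set G) → Q ≤ R → R = Q) →
      IsPGroup q ↥Q' → E ≤ Subgroup.normalizer (Q' : Set G) →
      (∀ R : Subgroup G, IsPGroup q ↥R → E ≤ Subgroup.normalizer (R : Set G) → Q' ≤ R →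
        R = Q') →
      n < Nat.card ↥(Q ⊓ Q' : Subgroup G) → ∃ c ∈ O, Q.map (MulAut.conj c).toMonoidHom = Q')
    (L : Subgroup G) (hLcop : (Nat.card ↥E).Coprime (Nat.card ↥L))
    (hEL : E ≤ Subgroup.normalizer (L : Set G))
    (Q₁ Q₂ : Subgroup G) (hQ₁q : IsPGroup q ↥Q₁) (hEQ₁ : E ≤ Subgroup.normalizer (Q₁ : Set G))
    (hQ₁max : ∀ R : Subgroup G, IsPGroup q ↥R → E ≤ Subgroup.normalizer (R : Set G) → Q₁ ≤ R →
      R = Q₁)
    (hQ₂q : IsPGroup q ↥Q₂) (hEQ₂ : E ≤ Subgroup.normalizer (Q₂ : Set G))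
    (hQ₂max : ∀ R : Subgroup G, IsPGroup q ↥R → E ≤ Subgroup.normalizer (R : Set G) → Q₂ ≤ R →
      R = Q₂)
    (U₁ U₂ : Subgroup G) (hU₁Q : U₁ ≤ Q₁) (hU₁L : U₁ ≤ L)
    (hU₁E : E ≤ Subgroup.normalizer (U₁ : Set G)) (hn₁ : n < Nat.card ↥U₁)
    (hU₂Q : U₂ ≤ Q₂) (hU₂L : U₂ ≤ L)
    (hU₂E : E ≤ Subgroup.normalizer (U₂ : Set G)) (hn₂ : n < Nat.card ↥U₂) :
    ∃ c ∈ O, Q₁.map (MulAut.conj c).toMonoidHom = Q₂ := by
  have hconjinv : ∀ (c : G), c ∈ Subgroup.centralizer (E : Set G) → ∀ R : Subgroup G,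
      E ≤ Subgroup.normalizer (R : Set G) →
      E ≤ Subgroup.normalizer ((R.map (MulAut.conj c).toMonoidHom : Subgroup G) : Set G) := by
    intro c hc R hER
    apply Cfsg.Agent.Lib.Helper4.le_normalizer_of_conj_mem
    rintro b hb _ ⟨u, hu, rfl⟩
    refine ⟨b * u * b⁻¹, Cfsg.Agent.Lib.Helper4.conj_mem_of_mem_normalizer (hER hb) hu, ?_⟩
    show c * (b * u * b⁻¹) * c⁻¹ = b * (c * u * c⁻¹) * b⁻¹
    have h := Subgroup.mem_centralizer_iff.mp hc b hb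
    calc c * (b * u * b⁻¹) * c⁻¹ = (c * b) * u * (c * b)⁻¹ := by group
      _ = (b * c) * u * (b * c)⁻¹ := by rw [h]
      _ = b * (c * u * c⁻¹) * b⁻¹ := by group
  have hU₁q : IsPGroup q ↥U₁ := hQ₁q.to_le hU₁Q
  have hU₂q : IsPGroup q ↥U₂ := hQ₂q.to_le hU₂Q
  obtain ⟨P₁, hP₁U, hP₁E⟩ := Cfsg.Agent.S0025.result E L hEL hLcop (Or.inl hEs) q U₁ hU₁L
    hU₁q hU₁E
  obtain ⟨P₂, hP₂U, hP₂E⟩ := Cfsg.Agent.S0025.result E L hEL hLcop (Or.inl hEs) q U₂ hU₂L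
    hU₂q hU₂E
  obtain ⟨c₀, hc₀E, hc₀⟩ := Cfsg.Agent.S0024.result E L hEL hLcop (Or.inl hEs) q P₂ P₁
    hP₂E hP₁E
  have hc₀O : (c₀ : G) ∈ O := hO L hLcop hEL ⟨c₀.2, hc₀E⟩
  have hc₀C : (c₀ : G) ∈ Subgroup.centralizer (E : Set G) := hc₀E
  have hconjP : (P₂.1.map (Subgroup.subtype _)).map
      (MulAut.conj (c₀ : G)).toMonoidHom = P₁.1.map (Subgroup.subtype _) := by
    rw [← conj_smul_eq_map, ← Cfsg.Agent.Lib.Lead.sylow_map_smul, Sylow.smul_def, hc₀]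
  have hRq : IsPGroup q ↥(P₁.1.map (Subgroup.subtype _)) := P₁.2.map _
  obtain ⟨Q₃, ⟨hQ₃q, hEQ₃⟩, hRQ₃, hQ₃max⟩ := exists_maximal_member
    (fun R => IsPGroup q ↥R ∧ E ≤ Subgroup.normalizer (R : Set G)) _ _ ⟨hRq, hP₁E⟩ le_rfl
  have hQ₃max' : ∀ R : Subgroup G, IsPGroup q ↥R → E ≤ Subgroup.normalizer (R : Set G) →
      Q₃ ≤ R → R = Q₃ :=
    fun R hRq hR hle => hQ₃max R ⟨hRq, hR⟩ hle
  have hcard1 : n < Nat.card ↥(Q₁ ⊓ Q₃ : Subgroup G) :=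
    lt_of_lt_of_le hn₁ (Subgroup.card_le_of_le (le_inf hU₁Q (hP₁U.trans hRQ₃)))
  obtain ⟨c₁, hc₁, hc₁eq⟩ := hconj Q₁ Q₃ hQ₁q hEQ₁ hQ₁max hQ₃q hEQ₃ hQ₃max' hcard1
  have hQ₂'E := hconjinv (c₀ : G) hc₀C Q₂ hEQ₂
  have hQ₂'q : IsPGroup q ↥(Q₂.map (MulAut.conj (c₀ : G)).toMonoidHom) := hQ₂q.map _
  have hc₀inv : (c₀ : G)⁻¹ ∈ Subgroup.centralizer (E : Set G) := Subgroup.inv_mem _ hc₀C
  have hQ₂'max : ∀ R : Subgroup G, IsPGroup q ↥R → E ≤ Subgroup.normalizer (R : Set G) →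
      Q₂.map (MulAut.conj (c₀ : G)).toMonoidHom ≤ R →
      R = Q₂.map (MulAut.conj (c₀ : G)).toMonoidHom := by
    intro R hRq hR hle
    have h3 : R.map (MulAut.conj (c₀ : G)⁻¹).toMonoidHom = Q₂ :=
      hQ₂max _ (hRq.map _) (hconjinv _ hc₀inv R hR) (by
        have := Subgroup.map_mono (f := (MulAut.conj (c₀ : G)⁻¹).toMonoidHom) hle
        rwa [map_conj_inv_cancel] at this)
    calc R = (R.map (MulAut.conj (c₀ : G)⁻¹).toMonoidHom).map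
          (MulAut.conj (c₀ : G)).toMonoidHom := (map_conj_cancel_inv R (c₀ : G)).symm
      _ = Q₂.map (MulAut.conj (c₀ : G)).toMonoidHom := by rw [h3]
  have hU₂' : U₂.map (MulAut.conj (c₀ : G)).toMonoidHom ≤
      Q₂.map (MulAut.conj (c₀ : G)).toMonoidHom ⊓ Q₃ :=
    le_inf (Subgroup.map_mono hU₂Q)
      ((Subgroup.map_mono hP₂U).trans (hconjP.le.trans hRQ₃))
  have hcard2 : n <
      Nat.card ↥(Q₂.map (MulAut.conj (c₀ : G)).toMonoidHom ⊓ Q₃ : Subgroup G) := by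
    have h5 := Subgroup.card_le_of_le hU₂'
    rw [Subgroup.card_map_of_injective (MulAut.conj (c₀ : G)).injective] at h5
    omega
  obtain ⟨c₂, hc₂, hc₂eq⟩ := hconj _ Q₃ hQ₂'q hQ₂'E hQ₂'max hQ₃q hEQ₃ hQ₃max' hcard2
  refine ⟨(c₂ * c₀)⁻¹ * c₁, mul_mem (inv_mem (mul_mem hc₂ hc₀O)) hc₁, ?_⟩
  rw [← Cfsg.Agent.Lib.Helper3.map_conj_map_conj, hc₁eq, ← hc₂eq,
    Cfsg.Agent.Lib.Helper3.map_conj_map_conj Q₂ c₂ c₀, map_conj_inv_cancel]

/-- Maximal invariant `q`-subgroups with nontrivial intersection are conjugate, provided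
the invariant `q`-subgroups of normalizers of nontrivial `q`-subgroups are controlled. -/
theorem trans_inter {G : Type*} [Group G] [Finite G] (E : Subgroup G)
    (hEs : Group.IsSolvable ↥E) (q : ℕ) [hq : Fact q.Prime] (O : Subgroup G)
    (hO : ∀ L : Subgroup G, (Nat.card ↥E).Coprime (Nat.card ↥L) →
      E ≤ Subgroup.normalizer (L : Set G) → L ⊓ Subgroup.centralizer (E : Set G) ≤ O)
    (LL : Subgroup G → Subgroup G)
    (hLL : ∀ D : Subgroup G, D ≠ ⊥ → IsPGroup q ↥D → E ≤ Subgroup.normalizer (D : Set G) →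
      (Nat.card ↥E).Coprime (Nat.card ↥(LL D)) ∧ E ≤ Subgroup.normalizer (LL D : Set G) ∧
      ∀ U : Subgroup G, IsPGroup q ↥U → E ≤ Subgroup.normalizer (U : Set G) →
        U ≤ Subgroup.normalizer (D : Set G) → U ≤ LL D) :
    ∀ (d : ℕ) (Q₁ Q₂ : Subgroup G), IsPGroup q ↥Q₁ → E ≤ Subgroup.normalizer (Q₁ : Set G) →
      (∀ R : Subgroup G, IsPGroup q ↥R → E ≤ Subgroup.normalizer (R : Set G) → Q₁ ≤ R →
        R = Q₁) →
      IsPGroup q ↥Q₂ → E ≤ Subgroup.normalizer (Q₂ : Set G) →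
      (∀ R : Subgroup G, IsPGroup q ↥R → E ≤ Subgroup.normalizer (R : Set G) → Q₂ ≤ R →
        R = Q₂) →
      Q₁ ⊓ Q₂ ≠ ⊥ → Nat.card G - Nat.card ↥(Q₁ ⊓ Q₂ : Subgroup G) ≤ d →
      ∃ c ∈ O, Q₁.map (MulAut.conj c).toMonoidHom = Q₂ := by
  intro d
  induction d using Nat.strong_induction_on with
  | _ d ih =>
    intro Q₁ Q₂ hQ₁q hEQ₁ hQ₁max hQ₂q hEQ₂ hQ₂max hne hd
    by_cases h1 : Q₁ ⊓ Q₂ = Q₁
    · have h3 : Q₂ = Q₁ := hQ₁max Q₂ hQ₂q hEQ₂ (inf_eq_left.mp h1)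
      exact ⟨1, O.one_mem, by rw [h3, map_conj_one']⟩
    by_cases h2 : Q₁ ⊓ Q₂ = Q₂
    · have h3 : Q₁ = Q₂ := hQ₂max Q₁ hQ₁q hEQ₁ (inf_eq_right.mp h2)
      exact ⟨1, O.one_mem, by rw [h3, map_conj_one']⟩
    have hED : E ≤ Subgroup.normalizer ((Q₁ ⊓ Q₂ : Subgroup G) : Set G) :=
      Cfsg.Agent.Lib.Helper4.le_normalizer_inf hEQ₁ hEQ₂
    have hDq : IsPGroup q ↥(Q₁ ⊓ Q₂ : Subgroup G) := hQ₁q.to_le inf_le_left
    obtain ⟨hLcop, hEL, hLU⟩ := hLL (Q₁ ⊓ Q₂) hne hDq hED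
    have hstep : ∀ Q : Subgroup G, IsPGroup q ↥Q → Q₁ ⊓ Q₂ ≤ Q → Q₁ ⊓ Q₂ ≠ Q →
        E ≤ Subgroup.normalizer (Q : Set G) →
        ∃ U : Subgroup G, U ≤ Q ∧ U ≤ LL (Q₁ ⊓ Q₂) ∧ E ≤ Subgroup.normalizer (U : Set G) ∧
          Nat.card ↥(Q₁ ⊓ Q₂ : Subgroup G) < Nat.card ↥U := by
      intro Q hQq hDQ hDne hEQ
      have hEU : E ≤ Subgroup.normalizer
          ((Subgroup.normalizer ((Q₁ ⊓ Q₂ : Subgroup G) : Set G) ⊓ Q : Subgroup G) : Set G) :=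
        Cfsg.Agent.Lib.Helper4.le_normalizer_inf (hED.trans Subgroup.le_normalizer) hEQ
      refine ⟨Subgroup.normalizer ((Q₁ ⊓ Q₂ : Subgroup G) : Set G) ⊓ Q, inf_le_right,
        hLU _ (hQq.to_le inf_le_right) hEU inf_le_left, hEU, ?_⟩
      obtain ⟨s, hsQ, hsN, hsD⟩ :=
        Cfsg.Agent.Lib.Lead.exists_mem_normalizer_not_mem Q (Q₁ ⊓ Q₂) hQq hDQ hDne
      apply card_lt_card_of_lt'
      refine lt_of_le_of_ne (le_inf Subgroup.le_normalizer hDQ) ?_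
      intro heq
      exact hsD ((le_of_eq heq.symm) ⟨hsN, hsQ⟩)
    obtain ⟨U₁, hU₁Q, hU₁L, hU₁E, hn₁⟩ := hstep Q₁ hQ₁q inf_le_left h1 hEQ₁
    obtain ⟨U₂, hU₂Q, hU₂L, hU₂E, hn₂⟩ := hstep Q₂ hQ₂q inf_le_right h2 hEQ₂
    apply trans_link E hEs q O hO (Nat.card ↥(Q₁ ⊓ Q₂ : Subgroup G)) ?_ (LL (Q₁ ⊓ Q₂)) hLcop hEL
      Q₁ Q₂ hQ₁q hEQ₁ hQ₁max hQ₂q hEQ₂ hQ₂max U₁ U₂ hU₁Q hU₁L hU₁E hn₁ hU₂Q hU₂L hU₂E hn₂
    intro Q Q' hQq hEQ hQmax hQ'q hEQ' hQ'max hlt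
    have hle := Subgroup.card_le_card_group (Q ⊓ Q')
    have hDpos : 0 < Nat.card ↥(Q₁ ⊓ Q₂ : Subgroup G) := Nat.card_pos
    have hne' : Q ⊓ Q' ≠ ⊥ := by
      intro h
      rw [h, Subgroup.card_bot] at hlt
      omega
    exact ih (Nat.card G - Nat.card ↥(Q ⊓ Q' : Subgroup G)) (by omega) Q Q' hQq hEQ hQmax hQ'q
      hEQ' hQ'max hne' le_rfl

theorem piCoreOf_conj_mem {G : Type*} [Group G] (π : Set ℕ) (X : Subgroup G) (n : G)
    (hn : n ∈ X) (w : G) (hw : w ∈ Cfsg.piCoreOf π X) : n * w * n⁻¹ ∈ Cfsg.piCoreOf π X := by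
  unfold Cfsg.piCoreOf at hw ⊢
  obtain ⟨w', hw', rfl⟩ := hw
  exact ⟨⟨n, hn⟩ * w' * ⟨n, hn⟩⁻¹, (Cfsg.piCore_normal π ↥X).conj_mem w' hw' ⟨n, hn⟩, rfl⟩

theorem piCoreOf_isPi {G : Type*} [Group G] [Finite G] (π : Set ℕ) (X : Subgroup G) :
    ∀ r : ℕ, r.Prime → r ∣ Nat.card ↥(Cfsg.piCoreOf π X) → r ∈ π := by
  intro r hr hdvd
  unfold Cfsg.piCoreOf at hdvd
  rw [Subgroup.card_map_of_injective X.subtype_injective] at hdvd
  exact Cfsg.Agent.Lib.Helper3.piCore_isPi π r hr hdvd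

theorem piCoreOf_le_self {G : Type*} [Group G] (π : Set ℕ) (X : Subgroup G) :
    Cfsg.piCoreOf π X ≤ X := by
  unfold Cfsg.piCoreOf
  exact Subgroup.map_subtype_le _

/-- A `π`-subgroup normalized by `C` meets `C` inside `O_π(C)`. -/
theorem mem_piCoreOf_of_normal_sub {G : Type*} [Group G] [Finite G] (π : Set ℕ)
    (C W : Subgroup G) (hWn : ∀ c ∈ C, ∀ w ∈ W, c * w * c⁻¹ ∈ W)
    (hWπ : ∀ r : ℕ, r.Prime → r ∣ Nat.card ↥W → r ∈ π) : W ⊓ C ≤ Cfsg.piCoreOf π C := by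
  obtain ⟨M, hMdef⟩ : ∃ M : Subgroup ↥C, M = W.subgroupOf C := ⟨_, rfl⟩
  have hMmem : ∀ x : ↥C, x ∈ M ↔ (x : G) ∈ W := by
    intro x; rw [hMdef, Subgroup.mem_subgroupOf]
  have hMn : M.Normal := by
    constructor
    intro m hm c
    rw [hMmem] at hm ⊢
    exact hWn (c : G) c.2 (m : G) hm
  have hMπ : ∀ r : ℕ, r.Prime → r ∣ Nat.card ↥M → r ∈ π := by
    intro r hr hrM
    apply hWπ r hr
    have h1 : Nat.card ↥(M.map C.subtype) = Nat.card ↥M :=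
      Subgroup.card_map_of_injective C.subtype_injective
    have h2 : M.map C.subtype ≤ W := by
      rintro _ ⟨m, hm, rfl⟩
      exact (hMmem m).mp hm
    rw [← h1] at hrM
    exact hrM.trans (Subgroup.card_dvd_of_le h2)
  have hMle : M ≤ Cfsg.piCore π ↥C := Cfsg.Agent.Lib.Helper3.le_piCore π hMn hMπ
  intro x hx
  have hxM : (⟨x, hx.2⟩ : ↥C) ∈ M := (hMmem _).mpr hx.1
  show x ∈ (Cfsg.piCore π ↥C).map C.subtype
  exact ⟨⟨x, hx.2⟩, hMle hxM, rfl⟩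

/-- The data extracted from the transitivity hypothesis in a minimal simple group of odd
order. -/
theorem bg_data {G : Type u} [Group G] [Finite G] (hG : Cfsg.IsMinSimpleOddOrder G)
    (A : Subgroup G) (hA : Cfsg.TransitivityHypothesis A) :
    Group.IsSolvable ↥A ∧
    (∀ X : Subgroup G, X ≠ ⊤ → A ≤ X → ∀ U : Subgroup G,
      (Nat.card ↥A).Coprime (Nat.card ↥U) → A ≤ Subgroup.normalizer (U : Set G) → U ≤ X →
      U ≤ Cfsg.piCoreOf (Cfsg.primesNotDvd (Nat.card ↥A)) X) ∧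
    (∀ X : Subgroup G, (Nat.card ↥A).Coprime
      (Nat.card ↥(Cfsg.piCoreOf (Cfsg.primesNotDvd (Nat.card ↥A)) X))) ∧
    (∀ L : Subgroup G, (Nat.card ↥A).Coprime (Nat.card ↥L) →
      A ≤ Subgroup.normalizer (L : Set G) →
      L ⊓ Subgroup.centralizer (A : Set G) ≤
        Cfsg.piCoreOf (Cfsg.primesNotDvd (Nat.card ↥A)) (Subgroup.centralizer (A : Set G))) := by
  obtain ⟨hA1, hAtop, hTH⟩ := hA
  have hG' : Odd (Nat.card G) ∧ Cfsg.IsMinimalSimple G := hG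
  have hms : IsSimpleGroup G ∧ ¬ IsMulCommutative G ∧
      ∀ H : Subgroup G, H ≠ ⊤ → Group.IsSolvable ↥H := hG'.2
  have hkey : ∀ X : Subgroup G, X ≠ ⊤ → A ≤ X → ∀ U : Subgroup G,
      (Nat.card ↥A).Coprime (Nat.card ↥U) → A ≤ Subgroup.normalizer (U : Set G) → U ≤ X →
      U ≤ Cfsg.piCoreOf (Cfsg.primesNotDvd (Nat.card ↥A)) X := by
    intro X hX hAX U hUcop hAU hUX
    have hmem : U ∈ Cfsg.invSubgroups X A (Cfsg.primesNotDvd (Nat.card ↥A)) := by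
      refine ⟨hUX, ?_, hAU⟩
      intro r hr hrU
      refine ⟨hr, ?_⟩
      intro hrA
      have h1 : r = 1 := Nat.eq_one_of_dvd_coprimes hUcop hrA hrU
      exact hr.one_lt.ne' h1
    have h2 := hTH X hX hAX
    rw [← h2]
    exact le_sSup hmem
  have hcopW : ∀ X : Subgroup G, (Nat.card ↥A).Coprime
      (Nat.card ↥(Cfsg.piCoreOf (Cfsg.primesNotDvd (Nat.card ↥A)) X)) := by
    intro X
    apply Nat.coprime_of_dvd
    intro k hk hkA hkW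
    have h := piCoreOf_isPi _ X k hk hkW
    exact h.2 hkA
  refine ⟨hms.2.2 A hAtop, hkey, hcopW, ?_⟩
  intro L hLcop hAL
  have hNtop : Subgroup.normalizer (A : Set G) ≠ ⊤ := by
    intro h
    have hAn : A.Normal := Subgroup.normalizer_eq_top_iff.mp h
    haveI := hms.1
    rcases hAn.eq_bot_or_eq_top with h' | h'
    · exact hA1 h'
    · exact hAtop h'
  have hAcent : A ≤ Subgroup.normalizer
      ((Subgroup.centralizer (A : Set G) : Subgroup G) : Set G) :=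
    (Subgroup.le_normalizer).trans (normalizer_le_normalizer_centralizer' A)
  have hU : L ⊓ Subgroup.centralizer (A : Set G) ≤
      Cfsg.piCoreOf (Cfsg.primesNotDvd (Nat.card ↥A)) (Subgroup.normalizer (A : Set G)) :=
    hkey _ hNtop Subgroup.le_normalizer _
      (Nat.Coprime.coprime_dvd_right (Subgroup.card_dvd_of_le inf_le_left) hLcop)
      (Cfsg.Agent.Lib.Helper4.le_normalizer_inf hAL hAcent)
      (inf_le_right.trans (Subgroup.centralizer_le_normalizer _))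
  have h3 := mem_piCoreOf_of_normal_sub (Cfsg.primesNotDvd (Nat.card ↥A))
    (Subgroup.centralizer (A : Set G))
    (Cfsg.piCoreOf (Cfsg.primesNotDvd (Nat.card ↥A)) (Subgroup.normalizer (A : Set G)))
    (fun c hc w hw => piCoreOf_conj_mem _ _ c (Subgroup.centralizer_le_normalizer _ hc) w hw)
    (piCoreOf_isPi _ _)
  intro x hx
  exact h3 ⟨hU hx, hx.2⟩

theorem maxInv_iff {G : Type*} [Group G] [Finite G] (A : Subgroup G) (q : ℕ)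
    [hq : Fact q.Prime] (Q : Subgroup G) :
    Q ∈ Cfsg.maxInvSubgroups ⊤ A {q} ↔ (IsPGroup q ↥Q ∧ A ≤ Subgroup.normalizer (Q : Set G) ∧
      ∀ R : Subgroup G, IsPGroup q ↥R → A ≤ Subgroup.normalizer (R : Set G) → Q ≤ R →
        R = Q) := by
  constructor
  · intro h
    have h' : Q ∈ Cfsg.invSubgroups ⊤ A {q} ∧
        ∀ R ∈ Cfsg.invSubgroups ⊤ A {q}, Q ≤ R → R = Q := h
    obtain ⟨hI, hmx⟩ := h'
    have hI' : Q ≤ ⊤ ∧ (∀ r : ℕ, r.Prime → r ∣ Nat.card ↥Q → r ∈ ({q} : Set ℕ)) ∧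
        A ≤ Subgroup.normalizer (Q : Set G) := hI
    refine ⟨isPGroup_of_primes_singleton q Q hI'.2.1, hI'.2.2, ?_⟩
    intro R hRq hAR hle
    exact hmx R ⟨le_top, primes_singleton_of_isPGroup q R hRq, hAR⟩ hle
  · rintro ⟨hQq, hAQ, hmx⟩
    refine ⟨⟨le_top, primes_singleton_of_isPGroup q Q hQq, hAQ⟩, ?_⟩
    intro R hR hle
    have hR' : R ≤ ⊤ ∧ (∀ r : ℕ, r.Prime → r ∣ Nat.card ↥R → r ∈ ({q} : Set ℕ)) ∧
        A ≤ Subgroup.normalizer (R : Set G) := hR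
    exact hmx R (isPGroup_of_primes_singleton q R hR'.2.1) hR'.2.2 hle

theorem coprime_card_of_isPGroup {G : Type*} [Group G] [Finite G] (A : Subgroup G) (q : ℕ)
    [hq : Fact q.Prime] (hqA : ¬ q ∣ Nat.card ↥A) (U : Subgroup G) (hU : IsPGroup q ↥U) :
    (Nat.card ↥A).Coprime (Nat.card ↥U) := by
  obtain ⟨k, hk⟩ := IsPGroup.iff_card.mp hU
  rw [hk]
  exact Nat.Coprime.pow_right k ((Nat.Prime.coprime_iff_not_dvd hq.out).mpr hqA).symm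

/-- Two maximal `A`-invariant `q`-subgroups with nontrivial intersection are conjugate. -/
theorem bg_trans_inter {G : Type u} [Group G] [Finite G] (hG : Cfsg.IsMinSimpleOddOrder G)
    (A : Subgroup G) (hA : Cfsg.TransitivityHypothesis A) (q : ℕ) [hq : Fact q.Prime]
    (hqA : ¬ q ∣ Nat.card ↥A) (Q₁ Q₂ : Subgroup G)
    (hQ₁q : IsPGroup q ↥Q₁) (hEQ₁ : A ≤ Subgroup.normalizer (Q₁ : Set G))
    (hQ₁max : ∀ R : Subgroup G, IsPGroup q ↥R → A ≤ Subgroup.normalizer (R : Set G) → Q₁ ≤ R →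
      R = Q₁)
    (hQ₂q : IsPGroup q ↥Q₂) (hEQ₂ : A ≤ Subgroup.normalizer (Q₂ : Set G))
    (hQ₂max : ∀ R : Subgroup G, IsPGroup q ↥R → A ≤ Subgroup.normalizer (R : Set G) → Q₂ ≤ R →
      R = Q₂)
    (hne : Q₁ ⊓ Q₂ ≠ ⊥) :
    ∃ c ∈ Cfsg.piCoreOf (Cfsg.primesNotDvd (Nat.card ↥A)) (Subgroup.centralizer (A : Set G)),
      Q₁.map (MulAut.conj c).toMonoidHom = Q₂ := by
  obtain ⟨hAs, hkey, hcopW, hO⟩ := bg_data hG A hA
  have hG' : Odd (Nat.card G) ∧ Cfsg.IsMinimalSimple G := hG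
  have hms : IsSimpleGroup G ∧ ¬ IsMulCommutative G ∧
      ∀ H : Subgroup G, H ≠ ⊤ → Group.IsSolvable ↥H := hG'.2
  apply trans_inter A hAs q _ hO
    (fun D => Cfsg.piCoreOf (Cfsg.primesNotDvd (Nat.card ↥A)) (Subgroup.normalizer (D : Set G)))
    ?_ (Nat.card G) Q₁ Q₂ hQ₁q hEQ₁ hQ₁max hQ₂q hEQ₂ hQ₂max hne (Nat.sub_le _ _)
  intro D hD1 hDq hED
  have hNtop : Subgroup.normalizer (D : Set G) ≠ ⊤ := by
    intro h
    have hDn : D.Normal := Subgroup.normalizer_eq_top_iff.mp h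
    haveI := hms.1
    rcases hDn.eq_bot_or_eq_top with h' | h'
    · exact hD1 h'
    · apply hA.1
      have hAq : IsPGroup q ↥A := hDq.to_le (by rw [h']; exact le_top)
      obtain ⟨k, hk⟩ := IsPGroup.iff_card.mp hAq
      have hk0 : k = 0 := by
        by_contra hk0
        exact hqA (by rw [hk]; exact dvd_pow_self q hk0)
      rw [hk0, pow_zero] at hk
      exact Subgroup.eq_bot_of_card_eq A hk
  refine ⟨hcopW _, Cfsg.Agent.Lib.Helper4.le_normalizer_of_conj_mem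
    (fun a ha w hw => piCoreOf_conj_mem _ _ a (hED ha) w hw), ?_⟩
  intro U hUq hAU hUN
  exact hkey _ hNtop hED U (coprime_card_of_isPGroup A q hqA U hUq) hAU hUN

/-- Two maximal `A`-invariant `q`-subgroups meeting a proper subgroup containing `A`
nontrivially are conjugate. -/
theorem bg_trans_meet {G : Type u} [Group G] [Finite G] (hG : Cfsg.IsMinSimpleOddOrder G)
    (A : Subgroup G) (hA : Cfsg.TransitivityHypothesis A) (q : ℕ) [hq : Fact q.Prime]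
    (hqA : ¬ q ∣ Nat.card ↥A) (Q₁ Q₂ : Subgroup G)
    (hQ₁q : IsPGroup q ↥Q₁) (hEQ₁ : A ≤ Subgroup.normalizer (Q₁ : Set G))
    (hQ₁max : ∀ R : Subgroup G, IsPGroup q ↥R → A ≤ Subgroup.normalizer (R : Set G) → Q₁ ≤ R →
      R = Q₁)
    (hQ₂q : IsPGroup q ↥Q₂) (hEQ₂ : A ≤ Subgroup.normalizer (Q₂ : Set G))
    (hQ₂max : ∀ R : Subgroup G, IsPGroup q ↥R → A ≤ Subgroup.normalizer (R : Set G) → Q₂ ≤ R →
      R = Q₂)
    (H : Subgroup G) (hH : H ≠ ⊤) (hAH : A ≤ H) (hH₁ : H ⊓ Q₁ ≠ ⊥) (hH₂ : H ⊓ Q₂ ≠ ⊥) :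
    ∃ c ∈ Cfsg.piCoreOf (Cfsg.primesNotDvd (Nat.card ↥A)) (Subgroup.centralizer (A : Set G)),
      Q₁.map (MulAut.conj c).toMonoidHom = Q₂ := by
  obtain ⟨hAs, hkey, hcopW, hO⟩ := bg_data hG A hA
  have hAHn : A ≤ Subgroup.normalizer (H : Set G) := hAH.trans Subgroup.le_normalizer
  have hE₁ : A ≤ Subgroup.normalizer ((H ⊓ Q₁ : Subgroup G) : Set G) :=
    Cfsg.Agent.Lib.Helper4.le_normalizer_inf hAHn hEQ₁
  have hE₂ : A ≤ Subgroup.normalizer ((H ⊓ Q₂ : Subgroup G) : Set G) :=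
    Cfsg.Agent.Lib.Helper4.le_normalizer_inf hAHn hEQ₂
  apply trans_link A hAs q _ hO 1 ?_
    (Cfsg.piCoreOf (Cfsg.primesNotDvd (Nat.card ↥A)) H) (hcopW H)
    (Cfsg.Agent.Lib.Helper4.le_normalizer_of_conj_mem
      (fun a ha w hw => piCoreOf_conj_mem _ _ a (hAH ha) w hw))
    Q₁ Q₂ hQ₁q hEQ₁ hQ₁max hQ₂q hEQ₂ hQ₂max (H ⊓ Q₁) (H ⊓ Q₂) inf_le_right
    (hkey H hH hAH _ (coprime_card_of_isPGroup A q hqA _ (hQ₁q.to_le inf_le_right)) hE₁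
      inf_le_left)
    hE₁ ((Subgroup.one_lt_card_iff_ne_bot _).mpr hH₁) inf_le_right
    (hkey H hH hAH _ (coprime_card_of_isPGroup A q hqA _ (hQ₂q.to_le inf_le_right)) hE₂
      inf_le_left)
    hE₂ ((Subgroup.one_lt_card_iff_ne_bot _).mpr hH₂)
  intro Q Q' hQq hEQ hQmax hQ'q hEQ' hQ'max hlt
  exact bg_trans_inter hG A hA q hqA Q Q' hQq hEQ hQmax hQ'q hEQ' hQ'max
    ((Subgroup.one_lt_card_iff_ne_bot _).mp hlt)

end Cfsg.Agent.Lib.Helper2
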