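import Mathlib
import Cfsg.Agent.Lib.Helper2.BGTrans
import Cfsg.Agent.Lib.Helper2.GenCoprime3
import Cfsg.Agent.Lib.Helper2.Transit
import Cfsg.Agent.Lib.Helper2.ExtLayer2
import Cfsg.Agent.S1282
import Cfsg.Agent.Lib.Helper1.ThompsonJ
import Cfsg.Agent.Lib.Helper6.SylowSub
import Cfsg.Agent.Lib.Helper3.PRes

set_option autoImplicit false

namespace Cfsg.Agent.Lib.Helper2

universe u

/-- From failure of `RankLE k` on a subgroup `Z`, an elementary abelian subgroup of `Z` of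
order at least `p ^ (k + 1)`. -/
theorem exists_elemAb_of_not_rankLE {G : Type u} [Group G] [Finite G] (Z : Subgroup G) (k : ℕ)
    (hZ : ¬ Cfsg.RankLE k ↥Z) :
    ∃ p : ℕ, p.Prime ∧ ∃ A₁ : Subgroup G, A₁ ≤ Z ∧ (∀ a ∈ A₁, ∀ b ∈ A₁, a * b = b * a) ∧
      (∀ a ∈ A₁, a ^ p = 1) ∧ p ^ (k + 1) ≤ Nat.card ↥A₁ := by
  have hZ' : ¬ ∀ p : ℕ, p.Prime → Cfsg.PRankLE p k ↥Z := hZ
  push_neg at hZ'
  obtain ⟨p, hp, hpk⟩ := hZ'
  have hpk' : ¬ ∀ A : Subgroup ↥Z, IsMulCommutative ↥A → (∀ a ∈ A, a ^ p = 1) →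
      Nat.card ↥A ≤ p ^ k := hpk
  push_neg at hpk'
  obtain ⟨A₀, hA₀c, hA₀e, hA₀card⟩ := hpk'
  haveI : Fact p.Prime := ⟨hp⟩
  refine ⟨p, hp, A₀.map Z.subtype, ?_, ?_, ?_, ?_⟩
  · rintro x ⟨y, hy, rfl⟩
    exact y.2
  · rintro a ⟨a', ha', rfl⟩ b ⟨b', hb', rfl⟩
    have h1 := hA₀c.is_comm.comm ⟨a', ha'⟩ ⟨b', hb'⟩
    have h2 : a' * b' = b' * a' := congrArg Subtype.val h1
    have h3 : ((a' * b' : ↥Z) : G) = ((b' * a' : ↥Z) : G) := congrArg Subtype.val h2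
    exact h3
  · rintro a ⟨a', ha', rfl⟩
    have h1 := hA₀e a' ha'
    have h3 : ((a' ^ p : ↥Z) : G) = ((1 : ↥Z) : G) := congrArg Subtype.val h1
    exact h3
  · have hcard : Nat.card ↥(A₀.map Z.subtype) = Nat.card ↥A₀ :=
      Subgroup.card_map_of_injective Z.subtype_injective
    rw [hcard]
    have hA₀p : IsPGroup p ↥A₀ := by
      intro a
      refine ⟨1, ?_⟩
      rw [pow_one]
      exact Subtype.ext (hA₀e a.1 a.2)
    obtain ⟨j, hj⟩ := IsPGroup.iff_card.mp hA₀p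
    rw [hj] at hA₀card ⊢
    have hkj : k < j := by
      by_contra hkj
      push_neg at hkj
      exact absurd (Nat.pow_le_pow_right hp.pos hkj) (not_le.mpr hA₀card)
    exact Nat.pow_le_pow_right hp.pos hkj

/-- In a minimal simple group of odd order, the centralizer of a nonidentity element is proper. -/
theorem bg_centralizer_ne_top {G : Type u} [Group G] [Finite G]
    (hG : Cfsg.IsMinSimpleOddOrder G) (a : G) (ha : a ≠ 1) :
    Subgroup.centralizer ({a} : Set G) ≠ ⊤ := by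
  intro htop
  have hG' : Odd (Nat.card G) ∧ Cfsg.IsMinimalSimple G := hG
  have hms : IsSimpleGroup G ∧ ¬ IsMulCommutative G ∧
      ∀ H : Subgroup G, H ≠ ⊤ → Group.IsSolvable ↥H := hG'.2
  haveI := hms.1
  have hac : a ∈ Subgroup.center G := by
    rw [Subgroup.mem_center_iff]
    intro g
    have hg : g ∈ Subgroup.centralizer ({a} : Set G) := by
      rw [htop]
      exact Subgroup.mem_top g
    exact ((mem_centralizer_singleton a g).mp hg).symm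
  rcases (inferInstance : (Subgroup.center G).Normal).eq_bot_or_eq_top with h | h
  · rw [h, Subgroup.mem_bot] at hac
    exact ha hac
  · apply hms.2.1
    refine ⟨⟨fun x y => ?_⟩⟩
    have hx : x ∈ Subgroup.center G := by
      rw [h]
      exact Subgroup.mem_top x
    exact (Subgroup.mem_center_iff.mp hx y).symm

/-- The elementary abelian data attached to a centre of rank at least `k + 1`. -/
theorem bg_center_data {G : Type u} [Group G] [Finite G] (A : Subgroup G) (k : ℕ)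
    (hZ : ¬ Cfsg.RankLE k ↥(A ⊓ Subgroup.centralizer (A : Set G)))
    (q : ℕ) [hq : Fact q.Prime] (hqA : ¬ q ∣ Nat.card ↥A) :
    ∃ p : ℕ, p.Prime ∧ q ≠ p ∧ ∃ A₁ : Subgroup G, A₁ ≤ A ∧
      A₁ ≤ Subgroup.centralizer (A : Set G) ∧ (∀ a ∈ A₁, ∀ b ∈ A₁, a * b = b * a) ∧
      (∀ a ∈ A₁, a ^ p = 1) ∧ p ^ (k + 1) ≤ Nat.card ↥A₁ := by
  obtain ⟨p, hp, A₁, hA₁Z, hA₁c, hA₁e, hA₁card⟩ := exists_elemAb_of_not_rankLE _ k hZ
  haveI : Fact p.Prime := ⟨hp⟩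
  have hA₁A : A₁ ≤ A := hA₁Z.trans inf_le_left
  have hA₁C : A₁ ≤ Subgroup.centralizer (A : Set G) := hA₁Z.trans inf_le_right
  have hA₁p : IsPGroup p ↥A₁ := by
    intro a
    refine ⟨1, ?_⟩
    rw [pow_one]
    exact Subtype.ext (hA₁e a.1 a.2)
  have hpA : p ∣ Nat.card ↥A := by
    have h1 : p ∣ Nat.card ↥A₁ := by
      obtain ⟨j, hj⟩ := IsPGroup.iff_card.mp hA₁p
      have hj0 : j ≠ 0 := by
        rintro rfl
        rw [hj, pow_zero] at hA₁card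
        have h2 : 1 < p ^ (k + 1) := Nat.one_lt_pow (Nat.succ_ne_zero k) hp.one_lt
        omega
      rw [hj]
      exact dvd_pow_self p hj0
    exact h1.trans (Subgroup.card_dvd_of_le hA₁A)
  have hqp : q ≠ p := by
    rintro rfl
    exact hqA hpA
  exact ⟨p, hp, hqp, A₁, hA₁A, hA₁C, hA₁c, hA₁e, hA₁card⟩

/-- Transitivity when the centre of `A` has rank at least three. -/
theorem bg_trans_rank3 {G : Type u} [Group G] [Finite G] (hG : Cfsg.IsMinSimpleOddOrder G)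
    (A : Subgroup G) (hA : Cfsg.TransitivityHypothesis A)
    (hZ : ¬ Cfsg.RankLE 2 ↥(A ⊓ Subgroup.centralizer (A : Set G)))
    (q : ℕ) [hq : Fact q.Prime] (hqA : ¬ q ∣ Nat.card ↥A) (Q₁ Q₂ : Subgroup G)
    (hQ₁q : IsPGroup q ↥Q₁) (hEQ₁ : A ≤ Subgroup.normalizer (Q₁ : Set G))
    (hQ₁max : ∀ R : Subgroup G, IsPGroup q ↥R → A ≤ Subgroup.normalizer (R : Set G) → Q₁ ≤ R →
      R = Q₁)
    (hQ₂q : IsPGroup q ↥Q₂) (hEQ₂ : A ≤ Subgroup.normalizer (Q₂ : Set G))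
    (hQ₂max : ∀ R : Subgroup G, IsPGroup q ↥R → A ≤ Subgroup.normalizer (R : Set G) → Q₂ ≤ R →
      R = Q₂) :
    ∃ c ∈ Cfsg.piCoreOf (Cfsg.primesNotDvd (Nat.card ↥A)) (Subgroup.centralizer (A : Set G)),
      Q₁.map (MulAut.conj c).toMonoidHom = Q₂ := by
  obtain ⟨p, hp, hqp, A₁, hA₁A, hA₁C, hA₁c, hA₁e, hA₁card⟩ := bg_center_data A 2 hZ q hqA
  haveI : Fact p.Prime := ⟨hp⟩
  by_cases hne : Q₁ ⊓ Q₂ = ⊥
  swap
  · exact bg_trans_inter hG A hA q hqA Q₁ Q₂ hQ₁q hEQ₁ hQ₁max hQ₂q hEQ₂ hQ₂max hne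
  by_cases hD₁ : Q₁ ⊓ Q₂ = Q₁
  · have hle : Q₁ ≤ Q₂ := inf_eq_left.mp hD₁
    have heq : Q₂ = Q₁ := hQ₁max Q₂ hQ₂q hEQ₂ hle
    refine ⟨1, Subgroup.one_mem _, ?_⟩
    rw [map_conj_one', heq]
  by_cases hD₂ : Q₁ ⊓ Q₂ = Q₂
  · have hle : Q₂ ≤ Q₁ := inf_eq_right.mp hD₂
    have heq : Q₁ = Q₂ := hQ₂max Q₁ hQ₁q hEQ₁ hle
    refine ⟨1, Subgroup.one_mem _, ?_⟩
    rw [map_conj_one', heq]
  obtain ⟨a, haA₁, ha1, hn₁, hn₂⟩ := Cfsg.Agent.S1282.result p A₁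
    (Cfsg.Agent.Lib.Helper1.ea_of_comm hA₁c hA₁e) hA₁card q hqp Q₁ Q₂ hQ₁q hQ₂q
    (hA₁A.trans hEQ₁) (hA₁A.trans hEQ₂) hD₁ hD₂
  have hAH : A ≤ Subgroup.centralizer ({a} : Set G) := by
    intro x hx
    rw [mem_centralizer_singleton]
    exact ((Subgroup.mem_centralizer_iff.mp (hA₁C haA₁)) x hx).symm
  have hH₁ : Subgroup.centralizer ({a} : Set G) ⊓ Q₁ ≠ ⊥ := by
    intro hbot
    apply hn₁
    intro x hx
    have hx' : x ∈ Subgroup.centralizer ({a} : Set G) ⊓ Q₁ := ⟨hx.2, hx.1.2⟩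
    rw [hbot, Subgroup.mem_bot] at hx'
    rw [hx']
    exact Subgroup.one_mem _
  have hH₂ : Subgroup.centralizer ({a} : Set G) ⊓ Q₂ ≠ ⊥ := by
    intro hbot
    apply hn₂
    intro x hx
    have hx' : x ∈ Subgroup.centralizer ({a} : Set G) ⊓ Q₂ := ⟨hx.2, hx.1.2⟩
    rw [hbot, Subgroup.mem_bot] at hx'
    rw [hx']
    exact Subgroup.one_mem _
  exact bg_trans_meet hG A hA q hqA Q₁ Q₂ hQ₁q hEQ₁ hQ₁max hQ₂q hEQ₂ hQ₂max _
    (bg_centralizer_ne_top hG a ha1) hAH hH₁ hH₂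

/-- Transitivity when the centre of `A` has rank at least two and `q` divides `|C_G(A)|`:
all maximal `A`-invariant `q`-subgroups are conjugate to a fixed one. -/
theorem bg_trans_rank2 {G : Type u} [Group G] [Finite G] (hG : Cfsg.IsMinSimpleOddOrder G)
    (A : Subgroup G) (hA : Cfsg.TransitivityHypothesis A)
    (hZ : ¬ Cfsg.RankLE 1 ↥(A ⊓ Subgroup.centralizer (A : Set G)))
    (q : ℕ) [hq : Fact q.Prime] (hqA : ¬ q ∣ Nat.card ↥A)
    (hqC : q ∣ Nat.card ↥(Subgroup.centralizer (A : Set G))) :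
    ∃ Qs : Subgroup G, ∀ Q : Subgroup G, IsPGroup q ↥Q →
      A ≤ Subgroup.normalizer (Q : Set G) →
      (∀ R : Subgroup G, IsPGroup q ↥R → A ≤ Subgroup.normalizer (R : Set G) → Q ≤ R →
        R = Q) →
      ∃ c ∈ Cfsg.piCoreOf (Cfsg.primesNotDvd (Nat.card ↥A)) (Subgroup.centralizer (A : Set G)),
        Q.map (MulAut.conj c).toMonoidHom = Qs := by
  obtain ⟨p, hp, hqp, A₁, hA₁A, hA₁C, hA₁c, hA₁e, hA₁card⟩ := bg_center_data A 1 hZ q hqA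
  haveI : Fact p.Prime := ⟨hp⟩
  obtain ⟨x, hx⟩ := exists_prime_orderOf_dvd_card'
    (G := ↥(Subgroup.centralizer (A : Set G))) q hqC
  obtain ⟨Q₀, hQ₀def⟩ : ∃ Q₀ : Subgroup G, Q₀ = Subgroup.zpowers (x : G) := ⟨_, rfl⟩
  have hQ₀card : Nat.card ↥Q₀ = q := by
    rw [hQ₀def, Nat.card_zpowers, Subgroup.orderOf_coe]
    exact hx
  have hQ₀q : IsPGroup q ↥Q₀ := IsPGroup.of_card (n := 1) (by rw [hQ₀card, pow_one])
  have hQ₀C : Q₀ ≤ Subgroup.centralizer (A : Set G) := by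
    rw [hQ₀def, Subgroup.zpowers_le]
    exact x.2
  have hAQ₀ : A ≤ Subgroup.normalizer (Q₀ : Set G) := by
    intro a ha
    apply Subgroup.centralizer_le_normalizer (Q₀ : Set G)
    rw [Subgroup.mem_centralizer_iff]
    intro y hy
    exact ((Subgroup.mem_centralizer_iff.mp (hQ₀C hy)) a ha).symm
  have hQ₀ne : Q₀ ≠ ⊥ := by
    intro h
    rw [h, Subgroup.card_bot] at hQ₀card
    exact hq.out.one_lt.ne hQ₀card
  obtain ⟨Qs, ⟨hQsq, hAQs⟩, hQ₀Qs, hQsmax⟩ := exists_maximal_member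
    (fun R : Subgroup G => IsPGroup q ↥R ∧ A ≤ Subgroup.normalizer (R : Set G)) _ Q₀
    ⟨hQ₀q, hAQ₀⟩ le_rfl
  have hQsmax' : ∀ R : Subgroup G, IsPGroup q ↥R → A ≤ Subgroup.normalizer (R : Set G) →
      Qs ≤ R → R = Qs := fun R h1 h2 h3 => hQsmax R ⟨h1, h2⟩ h3
  refine ⟨Qs, ?_⟩
  intro Q hQq hAQ hQmax
  have hQne : Q ≠ ⊥ := by
    intro h
    have h1 : Q₀ = Q := hQmax Q₀ hQ₀q hAQ₀ (by rw [h]; exact bot_le)
    exact hQ₀ne (h1.trans h)
  have hpQ : ¬ p ∣ Nat.card ↥Q := by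
    obtain ⟨j, hj⟩ := IsPGroup.iff_card.mp hQq
    rw [hj]
    intro hdvd
    exact hqp ((Nat.prime_dvd_prime_iff_eq hp hq.out).mp (hp.dvd_of_dvd_pow hdvd)).symm
  have hex : ∃ B : Subgroup G, B ≤ A₁ ∧ B.relIndex A₁ ∣ p ∧
      ¬ (Q ⊓ Subgroup.centralizer (B : Set G) ≤ ⊥) := by
    by_contra hcon
    push_neg at hcon
    have h1 := gen_coprime_relIndex p A₁ Q ⊥ hA₁c hA₁e hpQ (hA₁A.trans hAQ) hcon
    exact hQne (le_bot_iff.mp h1)
  obtain ⟨B, hBA₁, hBidx, hBQ⟩ := hex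
  have hBne : B ≠ ⊥ := by
    intro h
    have h1 := Cfsg.Agent.Lib.Helper6.card_mul_relIndex_of_le hBA₁
    rw [h, Subgroup.card_bot, one_mul] at h1
    rw [h, h1] at hBidx
    have hle : Nat.card ↥A₁ ≤ p := Nat.le_of_dvd hp.pos hBidx
    have hlt : p < p ^ (1 + 1) := by
      calc p = p ^ 1 := (pow_one p).symm
        _ < p ^ (1 + 1) := Nat.pow_lt_pow_right hp.one_lt (by norm_num)
    omega
  obtain ⟨a, haB, ha1⟩ : ∃ a ∈ B, a ≠ 1 := by
    by_contra hcon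
    push_neg at hcon
    exact hBne ((Subgroup.eq_bot_iff_forall _).mpr hcon)
  have hAH : A ≤ Subgroup.centralizer ({a} : Set G) := by
    intro y hy
    rw [mem_centralizer_singleton]
    exact ((Subgroup.mem_centralizer_iff.mp (hA₁C (hBA₁ haB))) y hy).symm
  have hCBle : Subgroup.centralizer (B : Set G) ≤ Subgroup.centralizer ({a} : Set G) :=
    Subgroup.centralizer_le (Set.singleton_subset_iff.mpr haB)
  have hH₁ : Subgroup.centralizer ({a} : Set G) ⊓ Q ≠ ⊥ := by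
    intro hbot
    apply hBQ
    intro y hy
    have h1 : y ∈ Subgroup.centralizer ({a} : Set G) ⊓ Q := ⟨hCBle hy.2, hy.1⟩
    rw [hbot] at h1
    exact h1
  have hH₂ : Subgroup.centralizer ({a} : Set G) ⊓ Qs ≠ ⊥ := by
    intro hbot
    have hxQ₀ : (x : G) ∈ Q₀ := by
      rw [hQ₀def]
      exact Subgroup.mem_zpowers _
    have hxc : (x : G) ∈ Subgroup.centralizer ({a} : Set G) := by
      rw [mem_centralizer_singleton]
      exact Subgroup.mem_centralizer_iff.mp x.2 a (hA₁A (hBA₁ haB))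
    have h1 : (x : G) ∈ Subgroup.centralizer ({a} : Set G) ⊓ Qs := ⟨hxc, hQ₀Qs hxQ₀⟩
    rw [hbot, Subgroup.mem_bot] at h1
    have hx1 : x = 1 := Subtype.ext h1
    rw [hx1, orderOf_one] at hx
    exact hq.out.one_lt.ne hx
  exact bg_trans_meet hG A hA q hqA Q Qs hQq hAQ hQmax hQsq hAQs hQsmax' _
    (bg_centralizer_ne_top hG a ha1) hAH hH₁ hH₂

end Cfsg.Agent.Lib.Helper2
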