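import Mathlib
import Cfsg.Agent.Lib.Helper2.BGTrans2
import Cfsg.Agent.Lib.Helper2.GenCoprime2
import Cfsg.Agent.Lib.Lead.Glauberman2
import Cfsg.Agent.Lib.Lead.SZ2
import Cfsg.Agent.Lib.Lead.PmQ
import Cfsg.Agent.Lib.Helper3.PiCore
import Cfsg.Agent.Lib.Helper3.PRes
import Cfsg.Agent.Lib.Helper4.Normalizer
import Cfsg.Agent.S0025

set_option autoImplicit false

namespace Cfsg.Agent.Lib.Helper2

universe u

open scoped Pointwise commutatorElement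

/-- `Q` is maximal among the `E`-invariant `q`-subgroups. -/
def MaxInvQ {G : Type*} [Group G] (E : Subgroup G) (q : ℕ) (Q : Subgroup G) : Prop :=
  IsPGroup q ↥Q ∧ E ≤ Subgroup.normalizer (Q : Set G) ∧
    ∀ R : Subgroup G, IsPGroup q ↥R → E ≤ Subgroup.normalizer (R : Set G) → Q ≤ R → R = Q

theorem maxInvQ_iff {G : Type*} [Group G] [Finite G] (E : Subgroup G) (q : ℕ)
    [hq : Fact q.Prime] (Q : Subgroup G) :
    Q ∈ Cfsg.maxInvSubgroups ⊤ E {q} ↔ MaxInvQ E q Q := maxInv_iff E q Q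

theorem piCoreOf_conj_mem' {G : Type*} [Group G] [Finite G] (π : Set ℕ) (X : Subgroup G) (n : G)
    (hn : n ∈ Subgroup.normalizer (X : Set G)) (w : G) (hw : w ∈ Cfsg.piCoreOf π X) :
    n * w * n⁻¹ ∈ Cfsg.piCoreOf π X := by
  have hninv : n⁻¹ ∈ Subgroup.normalizer (X : Set G) := Subgroup.inv_mem _ hn
  have h1 : ∀ c ∈ X, ∀ y ∈ (Cfsg.piCoreOf π X).map (MulAut.conj n).toMonoidHom,
      c * y * c⁻¹ ∈ (Cfsg.piCoreOf π X).map (MulAut.conj n).toMonoidHom := by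
    rintro c hc _ ⟨v, hv, rfl⟩
    have h2 : n⁻¹ * c * n⁻¹⁻¹ ∈ X := Cfsg.Agent.Lib.Helper4.conj_mem_of_mem_normalizer hninv hc
    refine ⟨(n⁻¹ * c * n⁻¹⁻¹) * v * (n⁻¹ * c * n⁻¹⁻¹)⁻¹, piCoreOf_conj_mem π X _ h2 v hv, ?_⟩
    show n * ((n⁻¹ * c * n⁻¹⁻¹) * v * (n⁻¹ * c * n⁻¹⁻¹)⁻¹) * n⁻¹ = c * (n * v * n⁻¹) * c⁻¹
    group
  have h3 : ∀ r : ℕ, r.Prime →
      r ∣ Nat.card ↥((Cfsg.piCoreOf π X).map (MulAut.conj n).toMonoidHom) → r ∈ π := by
    intro r hr hdvd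
    rw [Subgroup.card_map_of_injective (MulAut.conj n).injective] at hdvd
    exact piCoreOf_isPi π X r hr hdvd
  have h4 := mem_piCoreOf_of_normal_sub π X _ h1 h3
  apply h4
  apply Subgroup.mem_inf.mpr
  refine ⟨⟨w, hw, rfl⟩, ?_⟩
  exact Cfsg.Agent.Lib.Helper4.conj_mem_of_mem_normalizer hn (piCoreOf_le_self π X hw)

theorem le_normalizer_map_conj {G : Type*} [Group G] (E R : Subgroup G) (n : G)
    (hn : n ∈ Subgroup.normalizer (E : Set G)) (hER : E ≤ Subgroup.normalizer (R : Set G)) :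
    E ≤ Subgroup.normalizer ((R.map (MulAut.conj n).toMonoidHom : Subgroup G) : Set G) := by
  intro b hb
  have hninv : n⁻¹ ∈ Subgroup.normalizer (E : Set G) := Subgroup.inv_mem _ hn
  have h1 : n⁻¹ * b * n⁻¹⁻¹ ∈ E := Cfsg.Agent.Lib.Helper4.conj_mem_of_mem_normalizer hninv hb
  have h2 := Cfsg.Agent.Lib.Helper3.conj_mem_normalizer_map_conj R n _ (hER h1)
  have h3 : n * (n⁻¹ * b * n⁻¹⁻¹) * n⁻¹ = b := by group
  rw [h3] at h2
  exact h2

theorem maxInvQ_conj {G : Type*} [Group G] (E : Subgroup G) (q : ℕ) (n : G)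
    (hn : n ∈ Subgroup.normalizer (E : Set G)) (Q : Subgroup G) (hQ : MaxInvQ E q Q) :
    MaxInvQ E q (Q.map (MulAut.conj n).toMonoidHom) := by
  obtain ⟨hQq, hEQ, hQmax⟩ := hQ
  have hninv : n⁻¹ ∈ Subgroup.normalizer (E : Set G) := Subgroup.inv_mem _ hn
  refine ⟨hQq.map _, le_normalizer_map_conj E Q n hn hEQ, ?_⟩
  intro R hRq hER hle
  have h3 : R.map (MulAut.conj n⁻¹).toMonoidHom = Q :=
    hQmax _ (hRq.map _) (le_normalizer_map_conj E R n⁻¹ hninv hER) (by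
      have := Subgroup.map_mono (f := (MulAut.conj n⁻¹).toMonoidHom) hle
      rwa [map_conj_inv_cancel] at this)
  calc R = (R.map (MulAut.conj n⁻¹).toMonoidHom).map (MulAut.conj n).toMonoidHom :=
        (map_conj_cancel_inv R n).symm
    _ = Q.map (MulAut.conj n).toMonoidHom := by rw [h3]

theorem inv_mul_mem_normalizer_of_map_conj_eq {G : Type*} [Group G] (Q : Subgroup G) (c x : G)
    (h : Q.map (MulAut.conj c).toMonoidHom = Q.map (MulAut.conj x).toMonoidHom) :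
    c⁻¹ * x ∈ Subgroup.normalizer (Q : Set G) := by
  apply Cfsg.Agent.Lib.Helper4.mem_normalizer_of_map_conj_eq
  rw [← Cfsg.Agent.Lib.Helper3.map_conj_map_conj, ← h, map_conj_inv_cancel]

theorem bg_normalizer_ne_top {G : Type u} [Group G] [Finite G] (hG : Cfsg.IsMinSimpleOddOrder G)
    (A : Subgroup G) (hA : Cfsg.TransitivityHypothesis A) (q : ℕ) [hq : Fact q.Prime]
    (hqA : ¬ q ∣ Nat.card ↥A) (D : Subgroup G) (hD1 : D ≠ ⊥) (hDq : IsPGroup q ↥D) :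
    Subgroup.normalizer (D : Set G) ≠ ⊤ := by
  have hG' : Odd (Nat.card G) ∧ Cfsg.IsMinimalSimple G := hG
  have hms : IsSimpleGroup G ∧ ¬ IsMulCommutative G ∧
      ∀ H : Subgroup G, H ≠ ⊤ → Group.IsSolvable ↥H := hG'.2
  intro h
  have hDn : D.Normal := Subgroup.normalizer_eq_top_iff.mp h
  haveI := hms.1
  rcases hDn.eq_bot_or_eq_top with h' | h'
  · exact hD1 h'
  · apply hA.1
    have hAq : IsPGroup q ↥A := hDq.to_le (by rw [h']; exact le_top)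
    obtain ⟨k, hk⟩ := IsPGroup.iff_card.mp hAq
    have hk0 : k = 0 := by
      by_contra hk0
      exact hqA (by rw [hk]; exact dvd_pow_self q hk0)
    rw [hk0, pow_zero] at hk
    exact Subgroup.eq_bot_of_card_eq A hk

theorem bg_cop_of_pi {G : Type u} [Group G] [Finite G] (A P : Subgroup G)
    (hPπ : ∀ r : ℕ, r.Prime → r ∣ Nat.card ↥P → r ∣ Nat.card ↥A) (W : Subgroup G)
    (hW : (Nat.card ↥A).Coprime (Nat.card ↥W)) : (Nat.card ↥P).Coprime (Nat.card ↥W) := by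
  apply Nat.coprime_of_dvd
  intro r hr hrP hrW
  have h1 := hPπ r hr hrP
  have h2 : r = 1 := Nat.eq_one_of_dvd_coprimes hW h1 hrW
  exact hr.one_lt.ne' h2

/-- A nontrivial maximal `P`-invariant `q`-subgroup is maximal `B`-invariant for `A ≤ B ≤ P`. -/
theorem bg_maxInv_sub {G : Type u} [Group G] [Finite G] (hG : Cfsg.IsMinSimpleOddOrder G)
    (A : Subgroup G) (hA : Cfsg.TransitivityHypothesis A) (q : ℕ) [hq : Fact q.Prime]
    (hqA : ¬ q ∣ Nat.card ↥A) (B P : Subgroup G) (hAB : A ≤ B) (hBP : B ≤ P) (hP : P ≠ ⊤)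
    (hPπ : ∀ r : ℕ, r.Prime → r ∣ Nat.card ↥P → r ∣ Nat.card ↥A)
    (Q : Subgroup G) (hQ : MaxInvQ P q Q) (hQ1 : Q ≠ ⊥) : MaxInvQ B q Q := by
  obtain ⟨hAs, hkey, hcopW, hO⟩ := bg_data hG A hA
  have hG' : Odd (Nat.card G) ∧ Cfsg.IsMinimalSimple G := hG
  have hms : IsSimpleGroup G ∧ ¬ IsMulCommutative G ∧
      ∀ H : Subgroup G, H ≠ ⊤ → Group.IsSolvable ↥H := hG'.2
  obtain ⟨hQq, hPQ, hQmax⟩ := hQ
  have hPs : Group.IsSolvable ↥P := hms.2.2 P hP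
  have hAP : A ≤ P := hAB.trans hBP
  refine ⟨hQq, hBP.trans hPQ, ?_⟩
  intro R hRq hBR hQR
  by_contra hne
  have hHtop := bg_normalizer_ne_top hG A hA q hqA Q hQ1 hQq
  obtain ⟨W, hWdef⟩ : ∃ W : Subgroup G, W = Cfsg.piCoreOf (Cfsg.primesNotDvd (Nat.card ↥A))
      (Subgroup.normalizer (Q : Set G)) := ⟨_, rfl⟩
  have hAH : A ≤ Subgroup.normalizer (Q : Set G) := hAP.trans hPQ
  have hAR : A ≤ Subgroup.normalizer (R : Set G) := hAB.trans hBR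
  have hAD : A ≤ Subgroup.normalizer
      ((R ⊓ Subgroup.normalizer (Q : Set G) : Subgroup G) : Set G) :=
    Cfsg.Agent.Lib.Helper4.le_normalizer_inf hAR (hAH.trans Subgroup.le_normalizer)
  have hDq : IsPGroup q ↥(R ⊓ Subgroup.normalizer (Q : Set G) : Subgroup G) :=
    hRq.to_le inf_le_left
  have hDW : R ⊓ Subgroup.normalizer (Q : Set G) ≤ W := by
    rw [hWdef]
    exact hkey _ hHtop hAH _ (coprime_card_of_isPGroup A q hqA _ hDq) hAD inf_le_right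
  have hQD : Q ≤ R ⊓ Subgroup.normalizer (Q : Set G) := le_inf hQR Subgroup.le_normalizer
  have hQW : Q ≤ W := hQD.trans hDW
  have hPW : P ≤ Subgroup.normalizer (W : Set G) := by
    rw [hWdef]
    exact Cfsg.Agent.Lib.Helper4.le_normalizer_of_conj_mem
      (fun a ha w hw => piCoreOf_conj_mem _ _ a (hPQ ha) w hw)
  have hcop : (Nat.card ↥P).Coprime (Nat.card ↥W) := by
    rw [hWdef]
    exact bg_cop_of_pi A P hPπ _ (hcopW _)
  obtain ⟨S, hQS, hPS⟩ := Cfsg.Agent.S0025.result P W hPW hcop (Or.inl hPs) q Q hQW hQq hPQ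
  have hSQ : (S : Subgroup ↥W).map W.subtype = Q := hQmax _ (S.2.map _) hPS hQS
  have hDeq : (R ⊓ Subgroup.normalizer (Q : Set G)).subgroupOf W = (S : Subgroup ↥W) := by
    apply S.is_maximal' hDq.comap_subtype
    intro s hs
    show (s : G) ∈ R ⊓ Subgroup.normalizer (Q : Set G)
    apply hQD
    rw [← hSQ]
    exact ⟨s, hs, rfl⟩
  have hDQ : R ⊓ Subgroup.normalizer (Q : Set G) = Q := by
    calc R ⊓ Subgroup.normalizer (Q : Set G)
        = ((R ⊓ Subgroup.normalizer (Q : Set G)).subgroupOf W).map W.subtype :=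
          (Subgroup.map_subgroupOf_eq_of_le hDW).symm
      _ = (S : Subgroup ↥W).map W.subtype := by rw [hDeq]
      _ = Q := hSQ
  obtain ⟨s, hsR, hsN, hsQ⟩ :=
    Cfsg.Agent.Lib.Lead.exists_mem_normalizer_not_mem R Q hRq hQR (fun h => hne h.symm)
  exact hsQ ((le_of_eq hDQ) ⟨hsR, hsN⟩)

/-- If `B ⊴ P` and `O_{π'}(C(B))` is transitive on the maximal `B`-invariant `q`-subgroups,
then `P` normalizes one of them. -/
theorem bg_fixed_point {G : Type u} [Group G] [Finite G] (hG : Cfsg.IsMinSimpleOddOrder G)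
    (A : Subgroup G) (hA : Cfsg.TransitivityHypothesis A) (q : ℕ) [hq : Fact q.Prime]
    (B P : Subgroup G)
    (hPB : P ≤ Subgroup.normalizer (B : Set G)) (hP : P ≠ ⊤)
    (hPπ : ∀ r : ℕ, r.Prime → r ∣ Nat.card ↥P → r ∣ Nat.card ↥A)
    (htr : ∀ Q₁ Q₂ : Subgroup G, MaxInvQ B q Q₁ → MaxInvQ B q Q₂ →
      ∃ c ∈ Cfsg.piCoreOf (Cfsg.primesNotDvd (Nat.card ↥A)) (Subgroup.centralizer (B : Set G)),
        Q₁.map (MulAut.conj c).toMonoidHom = Q₂) :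
    ∃ Q₀ : Subgroup G, MaxInvQ B q Q₀ ∧ P ≤ Subgroup.normalizer (Q₀ : Set G) := by
  obtain ⟨hAs, hkey, hcopW, hO⟩ := bg_data hG A hA
  have hG' : Odd (Nat.card G) ∧ Cfsg.IsMinimalSimple G := hG
  have hms : IsSimpleGroup G ∧ ¬ IsMulCommutative G ∧
      ∀ H : Subgroup G, H ≠ ⊤ → Group.IsSolvable ↥H := hG'.2
  have hPs : Group.IsSolvable ↥P := hms.2.2 P hP
  obtain ⟨KB, hKBdef⟩ : ∃ KB : Subgroup G, KB = Cfsg.piCoreOf (Cfsg.primesNotDvd (Nat.card ↥A))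
      (Subgroup.centralizer (B : Set G)) := ⟨_, rfl⟩
  rw [← hKBdef] at htr
  have hKBC : KB ≤ Subgroup.centralizer (B : Set G) := by
    rw [hKBdef]
    exact piCoreOf_le_self _ _
  have hKBN : KB ≤ Subgroup.normalizer (B : Set G) :=
    hKBC.trans (Subgroup.centralizer_le_normalizer _)
  have hPKB : P ≤ Subgroup.normalizer (KB : Set G) := by
    rw [hKBdef]
    exact Cfsg.Agent.Lib.Helper4.le_normalizer_of_conj_mem
      (fun a ha w hw => piCoreOf_conj_mem' _ _ a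
        (normalizer_le_normalizer_centralizer' B (hPB ha)) w hw)
  have hcop : (Nat.card ↥P).Coprime (Nat.card ↥KB) := by
    rw [hKBdef]
    exact bg_cop_of_pi A P hPπ _ (hcopW _)
  have hBbot : B ≤ Subgroup.normalizer ((⊥ : Subgroup G) : Set G) := by
    apply Cfsg.Agent.Lib.Helper4.le_normalizer_of_conj_mem
    intro s _ d hd
    rw [Subgroup.mem_bot] at hd ⊢
    rw [hd]
    group
  obtain ⟨Qs, ⟨hQsq, hBQs⟩, -, hQsmax⟩ := exists_maximal_member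
    (fun R : Subgroup G => IsPGroup q ↥R ∧ B ≤ Subgroup.normalizer (R : Set G)) _ ⊥
    ⟨IsPGroup.of_bot, hBbot⟩ le_rfl
  have hQs : MaxInvQ B q Qs := ⟨hQsq, hBQs, fun R h1 h2 h3 => hQsmax R ⟨h1, h2⟩ h3⟩
  obtain ⟨M, hMdef⟩ : ∃ M : Subgroup G,
      M = Subgroup.normalizer (Qs : Set G) ⊓ (P ⊔ KB) := ⟨_, rfl⟩
  have hM : M ≤ P ⊔ KB := by
    rw [hMdef]
    exact inf_le_right
  have hPM : P ≤ M ⊔ KB := by
    intro x hx
    have h1 : MaxInvQ B q (Qs.map (MulAut.conj x).toMonoidHom) :=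
      maxInvQ_conj B q x (hPB hx) Qs hQs
    obtain ⟨c, hc, hceq⟩ := htr Qs _ hQs h1
    have h2 : c⁻¹ * x ∈ Subgroup.normalizer (Qs : Set G) :=
      inv_mul_mem_normalizer_of_map_conj_eq Qs c x hceq
    have h3 : c⁻¹ * x ∈ M := by
      rw [hMdef]
      exact ⟨h2, Subgroup.mul_mem _ (Subgroup.mem_sup_right (Subgroup.inv_mem _ hc))
        (Subgroup.mem_sup_left hx)⟩
    have h4 : x = c * (c⁻¹ * x) := by group
    rw [h4]
    exact Subgroup.mul_mem _ (Subgroup.mem_sup_right hc) (Subgroup.mem_sup_left h3)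
  obtain ⟨k, hk, hkM⟩ :=
    Cfsg.Agent.Lib.Lead.exists_conj_le_of_sup P KB M hPKB hcop (Or.inl hPs) hM hPM
  have hkC : k⁻¹ ∈ Subgroup.normalizer (B : Set G) := hKBN (Subgroup.inv_mem _ hk)
  refine ⟨Qs.map (MulAut.conj k⁻¹).toMonoidHom, maxInvQ_conj B q k⁻¹ hkC Qs hQs, ?_⟩
  intro x hx
  have h1 : k * x * k⁻¹ ∈ M := hkM (Cfsg.Agent.Lib.Lead.conj_mem_conj_smul hx)
  have h2 : k * x * k⁻¹ ∈ Subgroup.normalizer (Qs : Set G) := by
    rw [hMdef] at h1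
    exact h1.1
  have h3 := Cfsg.Agent.Lib.Helper3.conj_mem_normalizer_map_conj Qs k⁻¹ _ h2
  have h4 : k⁻¹ * (k * x * k⁻¹) * k⁻¹⁻¹ = x := by group
  rw [h4] at h3
  exact h3

theorem piCoreOf_inf_centralizer_le {G : Type*} [Group G] [Finite G] (π : Set ℕ)
    (B P : Subgroup G) (hBP : B ≤ P) :
    Cfsg.piCoreOf π (Subgroup.centralizer (B : Set G)) ⊓ Subgroup.centralizer (P : Set G) ≤
      Cfsg.piCoreOf π (Subgroup.centralizer (P : Set G)) := by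
  apply mem_piCoreOf_of_normal_sub π (Subgroup.centralizer (P : Set G))
    (Cfsg.piCoreOf π (Subgroup.centralizer (B : Set G)))
  · intro c hc w hw
    exact piCoreOf_conj_mem π _ c
      (Subgroup.centralizer_le (SetLike.coe_subset_coe.mpr hBP) hc) w hw
  · exact piCoreOf_isPi π _

/-- The normal step: from `B ⊴ P` and transitivity for `B` to transitivity for `P`. -/
theorem bg_sub_step {G : Type u} [Group G] [Finite G] (hG : Cfsg.IsMinSimpleOddOrder G)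
    (A : Subgroup G) (hA : Cfsg.TransitivityHypothesis A) (q : ℕ) [hq : Fact q.Prime]
    (hqA : ¬ q ∣ Nat.card ↥A) (B P : Subgroup G) (hAB : A ≤ B) (hBP : B ≤ P)
    (hPB : P ≤ Subgroup.normalizer (B : Set G)) (hP : P ≠ ⊤)
    (hPπ : ∀ r : ℕ, r.Prime → r ∣ Nat.card ↥P → r ∣ Nat.card ↥A)
    (htr : ∀ Q₁ Q₂ : Subgroup G, MaxInvQ B q Q₁ → MaxInvQ B q Q₂ →
      ∃ c ∈ Cfsg.piCoreOf (Cfsg.primesNotDvd (Nat.card ↥A)) (Subgroup.centralizer (B : Set G)),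
        Q₁.map (MulAut.conj c).toMonoidHom = Q₂) :
    (∀ Q₁ Q₂ : Subgroup G, MaxInvQ P q Q₁ → MaxInvQ P q Q₂ →
      ∃ c ∈ Cfsg.piCoreOf (Cfsg.primesNotDvd (Nat.card ↥A)) (Subgroup.centralizer (P : Set G)),
        Q₁.map (MulAut.conj c).toMonoidHom = Q₂) ∧
    (∀ Q : Subgroup G, MaxInvQ P q Q → MaxInvQ B q Q) := by
  obtain ⟨hAs, hkey, hcopW, hO⟩ := bg_data hG A hA
  have hG' : Odd (Nat.card G) ∧ Cfsg.IsMinimalSimple G := hG
  have hms : IsSimpleGroup G ∧ ¬ IsMulCommutative G ∧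
      ∀ H : Subgroup G, H ≠ ⊤ → Group.IsSolvable ↥H := hG'.2
  have hPs : Group.IsSolvable ↥P := hms.2.2 P hP
  have hsub : ∀ Q : Subgroup G, MaxInvQ P q Q → MaxInvQ B q Q := by
    intro Q hQ
    by_cases hQ1 : Q = ⊥
    · obtain ⟨Q₀, hQ₀, hPQ₀⟩ := bg_fixed_point hG A hA q B P hPB hP hPπ htr
      have h1 : Q₀ = Q := hQ.2.2 Q₀ hQ₀.1 hPQ₀ (by rw [hQ1]; exact bot_le)
      rw [← h1]
      exact hQ₀
    · exact bg_maxInv_sub hG A hA q hqA B P hAB hBP hP hPπ Q hQ hQ1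
  refine ⟨?_, hsub⟩
  intro Q₁ Q₂ hQ₁ hQ₂
  obtain ⟨KB, hKBdef⟩ : ∃ KB : Subgroup G, KB = Cfsg.piCoreOf (Cfsg.primesNotDvd (Nat.card ↥A))
      (Subgroup.centralizer (B : Set G)) := ⟨_, rfl⟩
  have hPKB : P ≤ Subgroup.normalizer (KB : Set G) := by
    rw [hKBdef]
    exact Cfsg.Agent.Lib.Helper4.le_normalizer_of_conj_mem
      (fun a ha w hw => piCoreOf_conj_mem' _ _ a
        (normalizer_le_normalizer_centralizer' B (hPB ha)) w hw)
  have hcop : (Nat.card ↥P).Coprime (Nat.card ↥KB) := by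
    rw [hKBdef]
    exact bg_cop_of_pi A P hPπ _ (hcopW _)
  obtain ⟨k, hk, hkeq⟩ := htr Q₁ Q₂ (hsub Q₁ hQ₁) (hsub Q₂ hQ₂)
  rw [← hKBdef] at hk
  have hPQ₁ : P ≤ Subgroup.normalizer (Q₁ : Set G) := hQ₁.2.1
  have hPQ₂ : P ≤ Subgroup.normalizer (Q₂ : Set G) := hQ₂.2.1
  obtain ⟨K₁, hK₁def⟩ : ∃ K₁ : Subgroup G,
      K₁ = KB ⊓ Subgroup.normalizer (Q₂ : Set G) := ⟨_, rfl⟩
  have hK₁KB : K₁ ≤ KB := by
    rw [hK₁def]
    exact inf_le_left
  have hK₁N : K₁ ≤ Subgroup.normalizer (Q₂ : Set G) := by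
    rw [hK₁def]
    exact inf_le_right
  have hPK₁ : P ≤ Subgroup.normalizer (K₁ : Set G) := by
    rw [hK₁def]
    exact Cfsg.Agent.Lib.Helper4.le_normalizer_inf hPKB (hPQ₂.trans Subgroup.le_normalizer)
  have hP'le : MulAut.conj k • P ≤ P ⊔ K₁ := by
    intro y hy
    rw [Cfsg.Agent.Lib.Lead.mem_conj_smul] at hy
    have hxinv : (k⁻¹ * y * k)⁻¹ ∈ P := Subgroup.inv_mem _ hy
    have h1 : (k⁻¹ * y * k)⁻¹ * k * (k⁻¹ * y * k)⁻¹⁻¹ ∈ KB :=
      Cfsg.Agent.Lib.Helper4.conj_mem_of_mem_normalizer (hPKB hxinv) hk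
    have h2 : (k⁻¹ * y * k)⁻¹ * y ∈ KB := by
      have h3 : (k⁻¹ * y * k)⁻¹ * y =
          ((k⁻¹ * y * k)⁻¹ * k * (k⁻¹ * y * k)⁻¹⁻¹) * k⁻¹ := by group
      rw [h3]
      exact Subgroup.mul_mem _ h1 (Subgroup.inv_mem _ hk)
    have h4 : y ∈ Subgroup.normalizer (Q₂ : Set G) := by
      have h5 := Cfsg.Agent.Lib.Helper3.conj_mem_normalizer_map_conj Q₁ k _ (hPQ₁ hy)
      rw [hkeq] at h5
      have h6 : k * (k⁻¹ * y * k) * k⁻¹ = y := by group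
      rw [h6] at h5
      exact h5
    have h7 : (k⁻¹ * y * k)⁻¹ * y ∈ K₁ := by
      rw [hK₁def]
      exact ⟨h2, Subgroup.mul_mem _ (hPQ₂ hxinv) h4⟩
    have h8 : y = (k⁻¹ * y * k) * ((k⁻¹ * y * k)⁻¹ * y) := by group
    rw [h8]
    exact Subgroup.mul_mem _ (Subgroup.mem_sup_left hy) (Subgroup.mem_sup_right h7)
  obtain ⟨n, hn, hneq⟩ := Cfsg.Agent.Lib.Lead.szc K₁ P (MulAut.conj k • P) hPK₁ hP'le
    (Cfsg.Agent.Lib.Lead.card_conj_smul k P)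
    (Nat.Coprime.coprime_dvd_left (Subgroup.card_dvd_of_le hK₁KB) hcop.symm) (Or.inr hPs)
  have hcN : n⁻¹ * k ∈ Subgroup.normalizer (P : Set G) := by
    apply Cfsg.Agent.Lib.Helper4.mem_normalizer_of_map_conj_eq
    rw [← conj_smul_eq_map, Cfsg.Agent.Lib.Lead.conj_mul_smul, ← hneq,
      ← Cfsg.Agent.Lib.Lead.conj_mul_smul, inv_mul_cancel, conj_smul_eq_map, map_conj_one']
  have hcKB : n⁻¹ * k ∈ KB := Subgroup.mul_mem _ (Subgroup.inv_mem _ (hK₁KB hn)) hk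
  have hPKBbot : P ⊓ KB = ⊥ := Subgroup.inf_eq_bot_of_coprime hcop
  have hcC : n⁻¹ * k ∈ Subgroup.centralizer (P : Set G) := by
    rw [Subgroup.mem_centralizer_iff]
    intro x hx
    have h1 : (n⁻¹ * k) * x * (n⁻¹ * k)⁻¹ ∈ P :=
      Cfsg.Agent.Lib.Helper4.conj_mem_of_mem_normalizer hcN hx
    have h2 : x * (n⁻¹ * k)⁻¹ * x⁻¹ ∈ KB :=
      Cfsg.Agent.Lib.Helper4.conj_mem_of_mem_normalizer (hPKB hx) (Subgroup.inv_mem _ hcKB)
    have h3 : (n⁻¹ * k) * x * (n⁻¹ * k)⁻¹ * x⁻¹ ∈ P ⊓ KB := by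
      apply Subgroup.mem_inf.mpr
      refine ⟨Subgroup.mul_mem _ h1 (Subgroup.inv_mem _ hx), ?_⟩
      have h4 : (n⁻¹ * k) * x * (n⁻¹ * k)⁻¹ * x⁻¹ =
          (n⁻¹ * k) * (x * (n⁻¹ * k)⁻¹ * x⁻¹) := by group
      rw [h4]
      exact Subgroup.mul_mem _ hcKB h2
    rw [hPKBbot, Subgroup.mem_bot] at h3
    calc x * (n⁻¹ * k)
        = ((n⁻¹ * k) * x * (n⁻¹ * k)⁻¹ * x⁻¹)⁻¹ * ((n⁻¹ * k) * x) := by group
      _ = (n⁻¹ * k) * x := by rw [h3, inv_one, one_mul]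
  have hcK : n⁻¹ * k ∈ Cfsg.piCoreOf (Cfsg.primesNotDvd (Nat.card ↥A))
      (Subgroup.centralizer (P : Set G)) := by
    apply piCoreOf_inf_centralizer_le _ B P hBP
    rw [← hKBdef]
    exact ⟨hcKB, hcC⟩
  refine ⟨n⁻¹ * k, hcK, ?_⟩
  rw [← Cfsg.Agent.Lib.Helper3.map_conj_map_conj, hkeq]
  exact Cfsg.Agent.Lib.Helper4.map_conj_eq_of_mem_normalizer (Subgroup.inv_mem _ (hK₁N hn))

/-- Induction along a subnormal chain. -/
theorem bg_sub_subnormal {G : Type u} [Group G] [Finite G] (hG : Cfsg.IsMinSimpleOddOrder G)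
    (A : Subgroup G) (hA : Cfsg.TransitivityHypothesis A) (q : ℕ) [hq : Fact q.Prime]
    (hqA : ¬ q ∣ Nat.card ↥A) (P : Subgroup G) (hP : P ≠ ⊤)
    (hPπ : ∀ r : ℕ, r.Prime → r ∣ Nat.card ↥P → r ∣ Nat.card ↥A)
    (H : Subgroup ↥P) (hH : H.IsSubnormal) :
    A ≤ H.map P.subtype →
    (∀ Q₁ Q₂ : Subgroup G, MaxInvQ (H.map P.subtype) q Q₁ → MaxInvQ (H.map P.subtype) q Q₂ →
      ∃ c ∈ Cfsg.piCoreOf (Cfsg.primesNotDvd (Nat.card ↥A))
        (Subgroup.centralizer ((H.map P.subtype : Subgroup G) : Set G)),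
        Q₁.map (MulAut.conj c).toMonoidHom = Q₂) →
    (∀ Q₁ Q₂ : Subgroup G, MaxInvQ P q Q₁ → MaxInvQ P q Q₂ →
      ∃ c ∈ Cfsg.piCoreOf (Cfsg.primesNotDvd (Nat.card ↥A)) (Subgroup.centralizer (P : Set G)),
        Q₁.map (MulAut.conj c).toMonoidHom = Q₂) ∧
    (∀ Q : Subgroup G, MaxInvQ P q Q → MaxInvQ (H.map P.subtype) q Q) := by
  induction hH with
  | top =>
    intro _ htr
    have htop : (⊤ : Subgroup ↥P).map P.subtype = P := by
      rw [← MonoidHom.range_eq_map, Subgroup.range_subtype]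
    rw [htop] at htr ⊢
    exact ⟨htr, fun Q hQ => hQ⟩
  | step H K hHK hK hN ih =>
    intro hAH htr
    have hBP' : H.map P.subtype ≤ K.map P.subtype := Subgroup.map_mono hHK
    have hK'P : K.map P.subtype ≤ P := Subgroup.map_subtype_le K
    have hK'top : K.map P.subtype ≠ ⊤ := by
      intro h
      apply hP
      rw [eq_top_iff, ← h]
      exact hK'P
    have hK'π : ∀ r : ℕ, r.Prime → r ∣ Nat.card ↥(K.map P.subtype) → r ∣ Nat.card ↥A := by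
      intro r hr hdvd
      exact hPπ r hr (hdvd.trans (Subgroup.card_dvd_of_le hK'P))
    have hnorm : K.map P.subtype ≤
        Subgroup.normalizer ((H.map P.subtype : Subgroup G) : Set G) := by
      apply Cfsg.Agent.Lib.Helper4.le_normalizer_of_conj_mem
      rintro _ ⟨k, hk, rfl⟩ _ ⟨h, hh, rfl⟩
      have h1 : (⟨k, hk⟩ : ↥K) * ⟨h, hHK hh⟩ * (⟨k, hk⟩ : ↥K)⁻¹ ∈ H.subgroupOf K :=
        hN.conj_mem ⟨h, hHK hh⟩ (by rw [Subgroup.mem_subgroupOf]; exact hh) ⟨k, hk⟩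
      rw [Subgroup.mem_subgroupOf] at h1
      exact ⟨k * h * k⁻¹, h1, rfl⟩
    obtain ⟨htrK, hsubK⟩ := bg_sub_step hG A hA q hqA (H.map P.subtype) (K.map P.subtype) hAH
      hBP' hnorm hK'top hK'π htr
    obtain ⟨htrP, hsubP⟩ := ih (hAH.trans hBP') htrK
    exact ⟨htrP, fun Q hQ => hsubK Q (hsubP Q hQ)⟩

theorem bg_part_a {G : Type u} [Group G] [Finite G] (hG : Cfsg.IsMinSimpleOddOrder G)
    (A : Subgroup G) (hA : Cfsg.TransitivityHypothesis A) (P : Subgroup G) (hAP : A ≤ P) :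
    Cfsg.piCoreOf (Cfsg.primesNotDvd (Nat.card ↥A)) (Subgroup.centralizer (A : Set G)) ⊓
      Subgroup.centralizer (P : Set G) =
    Cfsg.piCoreOf (Cfsg.primesNotDvd (Nat.card ↥A)) (Subgroup.centralizer (P : Set G)) := by
  obtain ⟨hAs, hkey, hcopW, hO⟩ := bg_data hG A hA
  apply le_antisymm (piCoreOf_inf_centralizer_le _ A P hAP)
  have hLC : Cfsg.piCoreOf (Cfsg.primesNotDvd (Nat.card ↥A))
      (Subgroup.centralizer (P : Set G)) ≤ Subgroup.centralizer (P : Set G) :=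
    piCoreOf_le_self _ _
  have hPA : Subgroup.centralizer (P : Set G) ≤ Subgroup.centralizer (A : Set G) :=
    Subgroup.centralizer_le (SetLike.coe_subset_coe.mpr hAP)
  have hAL : A ≤ Subgroup.normalizer ((Cfsg.piCoreOf (Cfsg.primesNotDvd (Nat.card ↥A))
      (Subgroup.centralizer (P : Set G)) : Subgroup G) : Set G) := by
    apply Cfsg.Agent.Lib.Helper4.le_normalizer_of_conj_mem
    intro a ha w hw
    have h1 := Subgroup.mem_centralizer_iff.mp (hPA (hLC hw)) a ha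
    have h2 : a * w * a⁻¹ = w := by
      rw [h1]
      group
    rw [h2]
    exact hw
  have h3 := hO _ (hcopW _) hAL
  exact le_inf (fun x hx => h3 ⟨hx, hPA (hLC hx)⟩) hLC

/-- The Frattini-type consequences of transitivity for `P`. -/
theorem bg_sub_frattini {G : Type u} [Group G] [Finite G] (hG : Cfsg.IsMinSimpleOddOrder G)
    (A : Subgroup G) (hA : Cfsg.TransitivityHypothesis A) (q : ℕ) [hq : Fact q.Prime]
    (P : Subgroup G)
    (hPπ : ∀ r : ℕ, r.Prime → r ∣ Nat.card ↥P → r ∣ Nat.card ↥A)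
    (htr : ∀ Q₁ Q₂ : Subgroup G, MaxInvQ P q Q₁ → MaxInvQ P q Q₂ →
      ∃ c ∈ Cfsg.piCoreOf (Cfsg.primesNotDvd (Nat.card ↥A)) (Subgroup.centralizer (P : Set G)),
        Q₁.map (MulAut.conj c).toMonoidHom = Q₂)
    (Q : Subgroup G) (hQ : MaxInvQ P q Q) :
    P ⊓ ⁅Subgroup.normalizer (P : Set G), Subgroup.normalizer (P : Set G)⁆ ≤
        ⁅Subgroup.normalizer (Q : Set G), Subgroup.normalizer (Q : Set G)⁆ ∧
      Subgroup.normalizer (P : Set G) =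
        Cfsg.piCoreOf (Cfsg.primesNotDvd (Nat.card ↥A)) (Subgroup.centralizer (P : Set G)) ⊔
          (Subgroup.normalizer (P : Set G) ⊓ Subgroup.normalizer (Q : Set G)) := by
  obtain ⟨hAs, hkey, hcopW, hO⟩ := bg_data hG A hA
  obtain ⟨KP, hKPdef⟩ : ∃ KP : Subgroup G, KP = Cfsg.piCoreOf (Cfsg.primesNotDvd (Nat.card ↥A))
      (Subgroup.centralizer (P : Set G)) := ⟨_, rfl⟩
  rw [← hKPdef] at htr ⊢
  obtain ⟨N₁, hN₁def⟩ : ∃ N₁ : Subgroup G,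
      N₁ = Subgroup.normalizer (P : Set G) ⊓ Subgroup.normalizer (Q : Set G) := ⟨_, rfl⟩
  rw [← hN₁def]
  have hKPC : KP ≤ Subgroup.centralizer (P : Set G) := by
    rw [hKPdef]
    exact piCoreOf_le_self _ _
  have hKPN : KP ≤ Subgroup.normalizer (P : Set G) :=
    hKPC.trans (Subgroup.centralizer_le_normalizer _)
  have hN₁P : N₁ ≤ Subgroup.normalizer (P : Set G) := by
    rw [hN₁def]
    exact inf_le_left
  have hN₁Q : N₁ ≤ Subgroup.normalizer (Q : Set G) := by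
    rw [hN₁def]
    exact inf_le_right
  have hNKP : Subgroup.normalizer (P : Set G) ≤ Subgroup.normalizer (KP : Set G) := by
    rw [hKPdef]
    exact Cfsg.Agent.Lib.Helper4.le_normalizer_of_conj_mem
      (fun a ha w hw => piCoreOf_conj_mem' _ _ a
        (normalizer_le_normalizer_centralizer' P ha) w hw)
  have hcop : (Nat.card ↥P).Coprime (Nat.card ↥KP) := by
    rw [hKPdef]
    exact bg_cop_of_pi A P hPπ _ (hcopW _)
  have hdec : ∀ g ∈ Subgroup.normalizer (P : Set G), ∃ c ∈ KP, ∃ n ∈ N₁, g = c * n := by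
    intro g hg
    have h1 : MaxInvQ P q (Q.map (MulAut.conj g).toMonoidHom) := maxInvQ_conj P q g hg Q hQ
    obtain ⟨c, hc, hceq⟩ := htr Q _ hQ h1
    have h2 : c⁻¹ * g ∈ Subgroup.normalizer (Q : Set G) :=
      inv_mul_mem_normalizer_of_map_conj_eq Q c g hceq
    have h3 : c⁻¹ * g ∈ N₁ := by
      rw [hN₁def]
      exact ⟨Subgroup.mul_mem _ (Subgroup.inv_mem _ (hKPN hc)) hg, h2⟩
    exact ⟨c, hc, c⁻¹ * g, h3, by group⟩
  have hsup : Subgroup.normalizer (P : Set G) = KP ⊔ N₁ := by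
    apply le_antisymm
    · intro g hg
      obtain ⟨c, hc, n, hn, rfl⟩ := hdec g hg
      exact Subgroup.mul_mem _ (Subgroup.mem_sup_left hc) (Subgroup.mem_sup_right hn)
    · exact sup_le hKPN hN₁P
  refine ⟨?_, hsup⟩
  have hcomm : ⁅Subgroup.normalizer (P : Set G), Subgroup.normalizer (P : Set G)⁆ ≤
      KP ⊔ ⁅N₁, N₁⁆ := by
    rw [Subgroup.commutator_le]
    intro g₁ hg₁ g₂ hg₂
    obtain ⟨k₁, hk₁, n₁, hn₁, rfl⟩ := hdec g₁ hg₁
    obtain ⟨k₂, hk₂, n₂, hn₂, rfl⟩ := hdec g₂ hg₂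
    have hn₁P := hN₁P hn₁
    have hn₂P := hN₁P hn₂
    have e1 : n₁ * k₂ * n₁⁻¹ ∈ KP :=
      Cfsg.Agent.Lib.Helper4.conj_mem_of_mem_normalizer (hNKP hn₁P) hk₂
    have hm : n₁ * n₂ * n₁⁻¹ ∈ Subgroup.normalizer (P : Set G) :=
      Subgroup.mul_mem _ (Subgroup.mul_mem _ hn₁P hn₂P) (Subgroup.inv_mem _ hn₁P)
    have e2 : (n₁ * n₂ * n₁⁻¹) * k₁⁻¹ * (n₁ * n₂ * n₁⁻¹)⁻¹ ∈ KP :=
      Cfsg.Agent.Lib.Helper4.conj_mem_of_mem_normalizer (hNKP hm) (Subgroup.inv_mem _ hk₁)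
    have e3 : ⁅n₁, n₂⁆ ∈ ⁅N₁, N₁⁆ := Subgroup.commutator_mem_commutator hn₁ hn₂
    have e4 : ⁅k₁ * n₁, k₂ * n₂⁆ =
        (k₁ * (n₁ * k₂ * n₁⁻¹) * ((n₁ * n₂ * n₁⁻¹) * k₁⁻¹ * (n₁ * n₂ * n₁⁻¹)⁻¹)) *
          ⁅n₁, n₂⁆ * k₂⁻¹ := by
      rw [commutatorElement_def, commutatorElement_def]
      group
    rw [e4]
    exact Subgroup.mul_mem _ (Subgroup.mul_mem _
      (Subgroup.mem_sup_left (Subgroup.mul_mem _ (Subgroup.mul_mem _ hk₁ e1) e2))
      (Subgroup.mem_sup_right e3)) (Subgroup.mem_sup_left (Subgroup.inv_mem _ hk₂))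
  intro x hx
  obtain ⟨hxP, hxc⟩ := hx
  have hxL := hcomm hxc
  have hN₁'N : ⁅N₁, N₁⁆ ≤ N₁ := by
    rw [Subgroup.commutator_le]
    intro a ha b hb
    rw [commutatorElement_def]
    exact Subgroup.mul_mem _ (Subgroup.mul_mem _ (Subgroup.mul_mem _ ha hb)
      (Subgroup.inv_mem _ ha)) (Subgroup.inv_mem _ hb)
  have hxL' : x ∈ ⁅N₁, N₁⁆ ⊔ KP := by
    rw [sup_comm]
    exact hxL
  obtain ⟨y, hy, k, hk, hxyk⟩ :=
    Cfsg.Agent.Lib.Helper3.exists_mul_of_mem_sup_of_le_normalizer ⁅N₁, N₁⁆ KP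
      (hN₁'N.trans (hN₁P.trans hNKP)) hxL'
  have hPN₁ : P ≤ N₁ := by
    rw [hN₁def]
    exact le_inf Subgroup.le_normalizer hQ.2.1
  have hxN₁ : x ∈ N₁ := hPN₁ hxP
  have hyN₁ : y ∈ N₁ := hN₁'N hy
  have hkN₁ : k ∈ N₁ := by
    have h1 : k = y⁻¹ * x := by
      rw [hxyk]
      group
    rw [h1]
    exact Subgroup.mul_mem _ (Subgroup.inv_mem _ hyN₁) hxN₁
  have hy' : (⟨y, hyN₁⟩ : ↥N₁) ∈ commutator ↥N₁ := by
    have h1 : y ∈ (commutator ↥N₁).map N₁.subtype := by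
      rw [Subgroup.map_subtype_commutator]
      exact hy
    obtain ⟨y', hy', hyy⟩ := h1
    have h2 : y' = ⟨y, hyN₁⟩ := Subtype.ext hyy
    rw [← h2]
    exact hy'
  have hφy : Abelianization.of (⟨y, hyN₁⟩ : ↥N₁) = 1 := by
    have h1 : (⟨y, hyN₁⟩ : ↥N₁) ∈ (Abelianization.of : ↥N₁ →* Abelianization ↥N₁).ker := by
      rw [Abelianization.ker_of]
      exact hy'
    exact MonoidHom.mem_ker.mp h1
  have hφ : Abelianization.of (⟨x, hxN₁⟩ : ↥N₁) = Abelianization.of (⟨k, hkN₁⟩ : ↥N₁) := by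
    have h1 : (⟨x, hxN₁⟩ : ↥N₁) = ⟨y, hyN₁⟩ * ⟨k, hkN₁⟩ := Subtype.ext hxyk
    rw [h1, map_mul, hφy, one_mul]
  have ho1 : orderOf (Abelianization.of (⟨x, hxN₁⟩ : ↥N₁)) ∣ Nat.card ↥P := by
    have h1 : orderOf (Abelianization.of (⟨x, hxN₁⟩ : ↥N₁)) ∣ orderOf (⟨x, hxN₁⟩ : ↥N₁) :=
      orderOf_map_dvd _ _
    have h2 : orderOf (⟨x, hxN₁⟩ : ↥N₁) = orderOf x := Subgroup.orderOf_mk x hxN₁
    rw [h2] at h1
    exact h1.trans (Subgroup.orderOf_dvd_natCard P hxP)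
  have ho2 : orderOf (Abelianization.of (⟨x, hxN₁⟩ : ↥N₁)) ∣ Nat.card ↥KP := by
    rw [hφ]
    have h1 : orderOf (Abelianization.of (⟨k, hkN₁⟩ : ↥N₁)) ∣ orderOf (⟨k, hkN₁⟩ : ↥N₁) :=
      orderOf_map_dvd _ _
    have h2 : orderOf (⟨k, hkN₁⟩ : ↥N₁) = orderOf k := Subgroup.orderOf_mk k hkN₁
    rw [h2] at h1
    exact h1.trans (Subgroup.orderOf_dvd_natCard KP hk)
  have ho : orderOf (Abelianization.of (⟨x, hxN₁⟩ : ↥N₁)) = 1 :=
    Nat.eq_one_of_dvd_coprimes hcop ho1 ho2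
  have hx1 : Abelianization.of (⟨x, hxN₁⟩ : ↥N₁) = 1 := orderOf_eq_one_iff.mp ho
  have hxc' : (⟨x, hxN₁⟩ : ↥N₁) ∈ commutator ↥N₁ := by
    rw [← Abelianization.ker_of]
    exact MonoidHom.mem_ker.mpr hx1
  have hxN₁' : x ∈ ⁅N₁, N₁⁆ := by
    rw [← Subgroup.map_subtype_commutator]
    exact ⟨⟨x, hxN₁⟩, hxc', rfl⟩
  exact Subgroup.commutator_mono hN₁Q hN₁Q hxN₁'

end Cfsg.Agent.Lib.Helper2
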