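import Mathlib
import Cfsg.Agent.Lib.Helper2.BGTrans
import Cfsg.Agent.Lib.Helper2.PConstrInv2
import Cfsg.Agent.Lib.Helper2.OddTrans
import Cfsg.Agent.Lib.Helper2.PComp
import Cfsg.Agent.Lib.Helper3.PiCore
import Cfsg.Agent.Lib.Helper4.Normalizer

set_option autoImplicit false

namespace Cfsg.Agent.Lib.Helper2

universe u

/-- A `p`-subgroup containing all elements of order `p` of its centralizer satisfies the
transitivity hypothesis in a minimal simple group of odd order. -/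
theorem bg_transHyp_of_omega {G : Type u} [Group G] [Finite G] (hG : Cfsg.IsMinSimpleOddOrder G)
    (p : ℕ) [hp : Fact p.Prime] (A : Subgroup G) (hAp : IsPGroup p ↥A)
    (hA1 : A ≠ ⊥) (hAtop : A ≠ ⊤)
    (hΩ : ∀ x ∈ Subgroup.centralizer (A : Set G), orderOf x = p → x ∈ A) :
    Cfsg.TransitivityHypothesis A := by
  have hG' : Odd (Nat.card G) ∧ Cfsg.IsMinimalSimple G := hG
  have hms : IsSimpleGroup G ∧ ¬ IsMulCommutative G ∧
      ∀ H : Subgroup G, H ≠ ⊤ → Group.IsSolvable ↥H := hG'.2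
  have hpp : p.Prime := hp.out
  obtain ⟨k, hk⟩ := IsPGroup.iff_card.mp hAp
  have hk0 : k ≠ 0 := by
    rintro rfl
    rw [pow_zero] at hk
    exact hA1 (Subgroup.eq_bot_of_card_eq A hk)
  have hpA : p ∣ Nat.card ↥A := by
    rw [hk]
    exact dvd_pow_self p hk0
  have hp2 : p ≠ 2 := by
    intro hp2
    have h2 : 2 ∣ Nat.card G := by
      rw [← hp2]
      exact hpA.trans (Subgroup.card_subgroup_dvd_card A)
    exact (Nat.not_even_iff_odd.mpr hG'.1) (even_iff_two_dvd.mpr h2)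
  refine ⟨hA1, hAtop, ?_⟩
  intro X hX hAX
  have hXs : Group.IsSolvable ↥X := hms.2.2 X hX
  have hXc : Cfsg.IsPConstrained p ↥X := pconstr_of_solvable p hXs
  apply le_antisymm
  · apply sSup_le
    intro Y hY
    have hY' : Y ≤ X ∧
        (∀ r : ℕ, r.Prime → r ∣ Nat.card ↥Y → r ∈ Cfsg.primesNotDvd (Nat.card ↥A)) ∧
        A ≤ Subgroup.normalizer (Y : Set G) := hY
    obtain ⟨hYX, hYπ, hAY⟩ := hY'
    have hpY : ¬ p ∣ Nat.card ↥(Y.subgroupOf X) := by
      rw [Nat.card_congr (Subgroup.subgroupOfEquivOfLe hYX).toEquiv]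
      intro hdvd
      have h1 : p ∈ Cfsg.primesNotDvd (Nat.card ↥A) := hYπ p hpp hdvd
      have h1' : p.Prime ∧ ¬ p ∣ Nat.card ↥A := h1
      exact h1'.2 hpA
    have hA'p : IsPGroup p ↥(A.subgroupOf X) := hAp.comap_subtype
    have hΩ' : ∀ x ∈ Subgroup.centralizer ((A.subgroupOf X : Subgroup ↥X) : Set ↥X),
        orderOf x = p → x ∈ A.subgroupOf X := by
      intro x hx hxo
      rw [Subgroup.mem_subgroupOf]
      apply hΩ (x : G)
      · rw [Subgroup.mem_centralizer_iff]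
        intro a ha
        have hmem : (⟨a, hAX ha⟩ : ↥X) ∈ A.subgroupOf X := by
          rw [Subgroup.mem_subgroupOf]
          exact ha
        have h1 := Subgroup.mem_centralizer_iff.mp hx ⟨a, hAX ha⟩ hmem
        exact congrArg Subtype.val h1
      · rw [Subgroup.orderOf_coe]
        exact hxo
    have hA'Y' : A.subgroupOf X ≤
        Subgroup.normalizer ((Y.subgroupOf X : Subgroup ↥X) : Set ↥X) := by
      apply Cfsg.Agent.Lib.Helper4.le_normalizer_of_conj_mem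
      intro a ha y hy
      rw [Subgroup.mem_subgroupOf] at ha hy ⊢
      exact Cfsg.Agent.Lib.Helper4.conj_mem_of_mem_normalizer (hAY ha) hy
    have h2 := pconstr_inv_main p hp2 hXc (A.subgroupOf X) hA'p hΩ' (Y.subgroupOf X) hpY hA'Y'
    have h3 : Cfsg.pPrimeCore p ↥X ≤ Cfsg.piCore (Cfsg.primesNotDvd (Nat.card ↥A)) ↥X := by
      apply Cfsg.Agent.Lib.Helper3.le_piCore _ inferInstance
      intro r hr hdvd
      refine ⟨hr, ?_⟩
      intro hrA
      rw [hk] at hrA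
      have hrp : r = p := (Nat.prime_dvd_prime_iff_eq hr hpp).mp (hr.dvd_of_dvd_pow hrA)
      rw [hrp] at hdvd
      have hcop := pPrimeCore_card_coprime p ↥X
      exact hpp.one_lt.ne' (Nat.eq_one_of_dvd_coprimes hcop hdvd dvd_rfl)
    intro y hy
    have hy' : (⟨y, hYX hy⟩ : ↥X) ∈ Y.subgroupOf X := by
      rw [Subgroup.mem_subgroupOf]
      exact hy
    show y ∈ (Cfsg.piCore (Cfsg.primesNotDvd (Nat.card ↥A)) ↥X).map X.subtype
    exact ⟨⟨y, hYX hy⟩, h3 (h2 hy'), rfl⟩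
  · apply le_sSup
    refine ⟨piCoreOf_le_self _ _, piCoreOf_isPi _ _, ?_⟩
    exact Cfsg.Agent.Lib.Helper4.le_normalizer_of_conj_mem
      (fun a ha w hw => piCoreOf_conj_mem _ _ a (hAX ha) w hw)

/-- For `A ∈ SCN(P)` with `P` a Sylow `p`-subgroup, elements of order `p` centralizing `A`
lie in `A`. -/
theorem scn_omega {G : Type u} [Group G] [Finite G] (p : ℕ) [hp : Fact p.Prime]
    (P : Sylow p G) (A : Subgroup G) (hscn : Cfsg.IsSCN (P : Subgroup G) A) :
    ∀ x ∈ Subgroup.centralizer (A : Set G), orderOf x = p → x ∈ A := by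
  intro x hxc hxo
  have hscn' : A ≤ (P : Subgroup G) ∧ (P : Subgroup G) ≤ Subgroup.normalizer (A : Set G) ∧
      (P : Subgroup G) ⊓ Subgroup.centralizer (A : Set G) = A := hscn
  obtain ⟨hAP, hPN, hPC⟩ := hscn'
  have hxN : x ∈ Subgroup.normalizer (A : Set G) := Subgroup.centralizer_le_normalizer _ hxc
  have hT : IsPGroup p
      ↥(Subgroup.zpowers (⟨x, hxN⟩ : ↥(Subgroup.normalizer (A : Set G)))) := by
    apply IsPGroup.of_card (n := 1)
    rw [Nat.card_zpowers, Subgroup.orderOf_mk, hxo, pow_one]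
  obtain ⟨g, hg⟩ := Cfsg.Agent.Lib.Lead.sylow_conj_mem (P.subtype hPN) _ hT
  have h1 := hg ⟨x, hxN⟩ (Subgroup.mem_zpowers _)
  have h1' : g * ⟨x, hxN⟩ * g⁻¹ ∈
      ((P.subtype hPN : Sylow p ↥(Subgroup.normalizer (A : Set G))) :
        Subgroup ↥(Subgroup.normalizer (A : Set G))) := h1
  rw [Sylow.coe_subtype, Subgroup.mem_subgroupOf] at h1'
  have h2 : (g : G) * x * (g : G)⁻¹ ∈ (P : Subgroup G) := h1'
  have hginv : (g : G)⁻¹ ∈ Subgroup.normalizer (A : Set G) := Subgroup.inv_mem _ g.2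
  have h3 : (g : G) * x * (g : G)⁻¹ ∈ Subgroup.centralizer (A : Set G) := by
    rw [Subgroup.mem_centralizer_iff]
    intro a ha
    have ha' : (g : G)⁻¹ * a * (g : G)⁻¹⁻¹ ∈ A :=
      Cfsg.Agent.Lib.Helper4.conj_mem_of_mem_normalizer hginv ha
    have h4 := Subgroup.mem_centralizer_iff.mp hxc _ ha'
    calc a * ((g : G) * x * (g : G)⁻¹)
        = (g : G) * (((g : G)⁻¹ * a * (g : G)⁻¹⁻¹) * x) * (g : G)⁻¹ := by group
      _ = (g : G) * (x * ((g : G)⁻¹ * a * (g : G)⁻¹⁻¹)) * (g : G)⁻¹ := by rw [h4]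
      _ = (g : G) * x * (g : G)⁻¹ * a := by group
  have h5 : (g : G) * x * (g : G)⁻¹ ∈ A := (le_of_eq hPC) ⟨h2, h3⟩
  have h6 := Cfsg.Agent.Lib.Helper4.conj_mem_of_mem_normalizer hginv h5
  have h7 : (g : G)⁻¹ * ((g : G) * x * (g : G)⁻¹) * (g : G)⁻¹⁻¹ = x := by group
  rw [h7] at h6
  exact h6

end Cfsg.Agent.Lib.Helper2
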