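import Mathlib
import Cfsg.Prelude.Def_Involutions
import Cfsg.Agent.Lib.Helper2.InvFix
import Cfsg.Agent.Lib.Lead.SylowAux
import Cfsg.Agent.Lib.Lead.PmQ
import Cfsg.Agent.Lib.Helper7.MapConj

set_option autoImplicit false

namespace Cfsg.Agent.Lib.Helper2

variable {G : Type*} [Group G]

theorem smul_mk_eq_iff (H : Subgroup G) (i g : G) :
    i • (g : G ⧸ H) = (g : G ⧸ H) ↔ g⁻¹ * i * g ∈ H := by
  have h0 : i • (g : G ⧸ H) = ((i * g : G) : G ⧸ H) := rfl
  rw [h0, QuotientGroup.eq]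
  have h1 : (i * g)⁻¹ * g = (g⁻¹ * i * g)⁻¹ := by group
  rw [h1, inv_mem_iff]

theorem smul_mk_one_eq_iff (H : Subgroup G) (i : G) :
    i • ((1 : G) : G ⧸ H) = ((1 : G) : G ⧸ H) ↔ i ∈ H := by
  rw [smul_mk_eq_iff]
  simp

variable [Finite G]

theorem se_invol_fix_unique (H : Subgroup G) (hH : Cfsg.IsStronglyEmbedded H) (i : G)
    (hi : orderOf i = 2) (x y : G ⧸ H) (hx : i • x = x) (hy : i • y = y) : x = y := by
  obtain ⟨g, rfl⟩ := QuotientGroup.mk_surjective x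
  obtain ⟨g', rfl⟩ := QuotientGroup.mk_surjective y
  by_contra hne
  rw [smul_mk_eq_iff] at hx hy
  have hnot : g⁻¹ * g' ∉ H := by
    intro h; apply hne; exact QuotientGroup.eq.mpr h
  have hodd := hH.2.2 _ hnot
  have hmem2 : g⁻¹ * i * g ∈ H.map (MulAut.conj (g⁻¹ * g')).toMonoidHom := by
    rw [Cfsg.Agent.Lib.Helper7.mem_map_conj]
    have e : (g⁻¹ * g')⁻¹ * (g⁻¹ * i * g) * (g⁻¹ * g') = g'⁻¹ * i * g' := by group
    rw [e]; exact hy
  have hmem : g⁻¹ * i * g ∈ H ⊓ H.map (MulAut.conj (g⁻¹ * g')).toMonoidHom := ⟨hx, hmem2⟩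
  have h2 : orderOf (g⁻¹ * i * g) = 2 := by
    have h3 := orderOf_conj_two g⁻¹ hi
    rwa [inv_inv] at h3
  have hdvd : 2 ∣ Nat.card ↥(H ⊓ H.map (MulAut.conj (g⁻¹ * g')).toMonoidHom) := by
    have h3 : orderOf (⟨_, hmem⟩ : ↥(H ⊓ H.map (MulAut.conj (g⁻¹ * g')).toMonoidHom)) ∣
        Nat.card ↥(H ⊓ H.map (MulAut.conj (g⁻¹ * g')).toMonoidHom) := orderOf_dvd_natCard _
    rwa [Subgroup.orderOf_mk, h2] at h3
  exact (Nat.not_even_iff_odd.mpr hodd) (even_iff_two_dvd.mpr hdvd)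

theorem se_invol_fix_exists (H : Subgroup G) (hH : Cfsg.IsStronglyEmbedded H) (i : G)
    (hi : orderOf i = 2) : ∃ x : G ⧸ H, i • x = x := by
  haveI : Fact (Nat.Prime 2) := ⟨Nat.prime_two⟩
  obtain ⟨S⟩ := (Sylow.nonempty : Nonempty (Sylow 2 ↥H))
  have hS'p : IsPGroup 2 ↥((S : Subgroup ↥H).map H.subtype) := S.2.map _
  have hS'H : (S : Subgroup ↥H).map H.subtype ≤ H := Subgroup.map_subtype_le _
  have hS'ne : (S : Subgroup ↥H).map H.subtype ≠ ⊥ := by
    intro h0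
    have h1 : (S : Subgroup ↥H) = ⊥ := by
      rwa [Subgroup.map_eq_bot_iff_of_injective _ (Subgroup.subtype_injective H)] at h0
    exact S.ne_bot_of_dvd_card (even_iff_two_dvd.mp hH.2.1) h1
  obtain ⟨P, hP⟩ := hS'p.exists_le_sylow
  have hPeq : (P : Subgroup G) = (S : Subgroup ↥H).map H.subtype := by
    by_contra hne
    obtain ⟨g, hgP, hgN, hgS⟩ := Cfsg.Agent.Lib.Lead.exists_mem_normalizer_not_mem
      (P : Subgroup G) _ P.2 hP (Ne.symm hne)
    by_cases hgH : g ∈ H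
    · apply hgS
      have hK : IsPGroup 2 ↥(((P : Subgroup G) ⊓ H).subgroupOf H) :=
        (P.2.to_le inf_le_left).comap_subtype
      have hSK : (S : Subgroup ↥H) ≤ ((P : Subgroup G) ⊓ H).subgroupOf H := by
        intro y hy
        rw [Subgroup.mem_subgroupOf]
        exact ⟨hP (Subgroup.mem_map_of_mem _ hy), y.2⟩
      have hKS := S.3 hK hSK
      have hgK : (⟨g, hgH⟩ : ↥H) ∈ ((P : Subgroup G) ⊓ H).subgroupOf H := by
        rw [Subgroup.mem_subgroupOf]; exact ⟨hgP, hgH⟩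
      rw [hKS] at hgK
      exact ⟨⟨g, hgH⟩, hgK, rfl⟩
    · have hodd := hH.2.2 g hgH
      have hle : (S : Subgroup ↥H).map H.subtype ≤ H ⊓ H.map (MulAut.conj g).toMonoidHom := by
        intro y hy
        have h1 : g⁻¹ * y * g ∈ (S : Subgroup ↥H).map H.subtype := by
          have h0 := (Subgroup.mem_normalizer_iff.mp (Subgroup.inv_mem _ hgN) y).mp hy
          rwa [inv_inv] at h0
        have h2 : y ∈ H.map (MulAut.conj g).toMonoidHom := by
          rw [Cfsg.Agent.Lib.Helper7.mem_map_conj]; exact hS'H h1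
        exact ⟨hS'H hy, h2⟩
      have hdvd := Subgroup.card_dvd_of_le hle
      obtain ⟨n, hn⟩ := IsPGroup.iff_card.mp hS'p
      rw [hn] at hdvd
      have hn0 : n = 0 := by
        by_contra hn0
        have h3 : 2 ∣ Nat.card ↥(H ⊓ H.map (MulAut.conj g).toMonoidHom) :=
          dvd_trans (dvd_pow_self 2 hn0) hdvd
        exact (Nat.not_even_iff_odd.mpr hodd) (even_iff_two_dvd.mpr h3)
      rw [hn0, pow_zero] at hn
      exact hS'ne (Subgroup.card_eq_one.mp hn)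
  obtain ⟨g, hg⟩ := Cfsg.Agent.Lib.Lead.sylow_conj_mem P (Subgroup.zpowers i)
    (Cfsg.Agent.Lib.Lead.isPGroup_zpowers_invol hi)
  have h1 : g * i * g⁻¹ ∈ H := by
    have h2 : g * i * g⁻¹ ∈ (P : Subgroup G) := hg i (Subgroup.mem_zpowers i)
    rw [hPeq] at h2
    exact hS'H h2
  refine ⟨((g⁻¹ : G) : G ⧸ H), ?_⟩
  rw [smul_mk_eq_iff, inv_inv]; exact h1

/-- In the coset action on a strongly embedded subgroup every involution fixes exactly one
coset. -/
theorem se_invol_fix (H : Subgroup G) (hH : Cfsg.IsStronglyEmbedded H) :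
    ∀ i : G, orderOf i = 2 → ∃! x : G ⧸ H, i • x = x := by
  intro i hi
  obtain ⟨x, hx⟩ := se_invol_fix_exists H hH i hi
  exact ⟨x, hx, fun y hy => se_invol_fix_unique H hH i hi y x hy hx⟩

end Cfsg.Agent.Lib.Helper2
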