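import Mathlib
import Cfsg.Prelude.Def_Involutions
import Cfsg.Agent.Lib.Helper2.SEmb
import Cfsg.Agent.S1226
import Cfsg.Agent.S1224

set_option autoImplicit false

namespace Cfsg.Agent.Lib.Helper2

/-- Basic facts when all involution centralizers are elementary abelian and a Sylow
`2`-subgroup `T` is not normal. -/
theorem cit_facts {G : Type*} [Group G] [Finite G] (T : Sylow 2 G)
    (hnn : ¬ (T : Subgroup G).Normal)
    (hC : ∀ t : G, orderOf t = 2 → IsMulCommutative (Subgroup.centralizer ({t} : Set G)) ∧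
      ∀ c ∈ Subgroup.centralizer ({t} : Set G), c ^ 2 = 1) :
    (∀ s ∈ (T : Subgroup G), orderOf s = 2 → Subgroup.centralizer ({s} : Set G) = T) ∧
    (∀ s ∈ Subgroup.normalizer ((T : Subgroup G) : Set G), orderOf s = 2 →
      s ∈ (T : Subgroup G)) ∧
    (∀ a ∈ (T : Subgroup G), a ^ 2 = 1) ∧ (∃ z ∈ (T : Subgroup G), orderOf z = 2) := by
  classical
  haveI : Fact (Nat.Prime 2) := ⟨Nat.prime_two⟩
  have hTne : (T : Subgroup G) ≠ ⊥ := by
    intro h0; apply hnn; rw [h0]; infer_instance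
  haveI hnt : Nontrivial ↥(T : Subgroup G) := (Subgroup.nontrivial_iff_ne_bot _).mpr hTne
  haveI hcnt := T.2.center_nontrivial
  have hcp : IsPGroup 2 ↥(Subgroup.center ↥(T : Subgroup G)) := T.2.to_subgroup _
  obtain ⟨m, hm⟩ := IsPGroup.iff_card.mp hcp
  have h2dvd : 2 ∣ Nat.card ↥(Subgroup.center ↥(T : Subgroup G)) := by
    rw [hm]
    have hm0 : m ≠ 0 := by
      intro h0; rw [h0, pow_zero] at hm
      exact (Finite.one_lt_card (α := ↥(Subgroup.center ↥(T : Subgroup G)))).ne' hm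
    exact dvd_pow_self 2 hm0
  obtain ⟨x, hx⟩ := exists_prime_orderOf_dvd_card' 2 h2dvd
  have hzord : orderOf (((x : ↥(T : Subgroup G)) : G)) = 2 := by
    rw [Subgroup.orderOf_coe, Subgroup.orderOf_coe]; exact hx
  have hzT : ((x : ↥(T : Subgroup G)) : G) ∈ (T : Subgroup G) := (x : ↥(T : Subgroup G)).2
  have hTleCz : (T : Subgroup G) ≤ Subgroup.centralizer {((x : ↥(T : Subgroup G)) : G)} := by
    intro y hy
    rw [Subgroup.mem_centralizer_iff]
    intro h hh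
    rw [Set.mem_singleton_iff] at hh
    rw [hh]
    have h1 := Subgroup.mem_center_iff.mp x.2 ⟨y, hy⟩
    exact (congrArg Subtype.val h1).symm
  generalize ((x : ↥(T : Subgroup G)) : G) = z at hzord hzT hTleCz
  have hC2 : ∀ t : G, orderOf t = 2 → IsPGroup 2 ↥(Subgroup.centralizer ({t} : Set G)) := by
    intro t ht c
    refine ⟨1, ?_⟩
    apply Subtype.ext
    have h1 := (hC t ht).2 c.1 c.2
    simpa using h1
  have hTeq : ∀ t : G, orderOf t = 2 → (T : Subgroup G) ≤ Subgroup.centralizer {t} →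
      Subgroup.centralizer ({t} : Set G) = T := by
    intro t ht hle
    exact T.3 (hC2 t ht) hle
  have hCz := hTeq z hzord hTleCz
  have hTcomm : ∀ a ∈ (T : Subgroup G), ∀ b ∈ (T : Subgroup G), a * b = b * a := by
    intro a ha b hb
    rw [← hCz] at ha hb
    have h0 := (hC z hzord).1
    have h1 : (⟨a, ha⟩ : ↥(Subgroup.centralizer ({z} : Set G))) * ⟨b, hb⟩ = ⟨b, hb⟩ * ⟨a, ha⟩ :=
      h0.is_comm.comm _ _
    exact congrArg Subtype.val h1
  have hinv : ∀ s ∈ (T : Subgroup G), orderOf s = 2 → Subgroup.centralizer ({s} : Set G) = T := by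
    intro s hs hs2
    apply hTeq s hs2
    intro y hy
    rw [Subgroup.mem_centralizer_iff]
    intro h hh
    rw [Set.mem_singleton_iff] at hh
    rw [hh]
    exact hTcomm s hs y hy
  have hmemT : ∀ s ∈ Subgroup.normalizer ((T : Subgroup G) : Set G), orderOf s = 2 →
      s ∈ (T : Subgroup G) := by
    intro s hs hs2
    exact Cfsg.Agent.Lib.Lead.mem_sylow_of_normalizes T
      (Cfsg.Agent.Lib.Lead.isPGroup_zpowers_invol hs2) hs
  refine ⟨hinv, hmemT, ?_, ⟨z, hzT, hzord⟩⟩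
  intro a ha
  rw [← hCz] at ha
  exact (hC z hzord).2 a ha

/-- The structure of `H = N_G(T)` and `D = H ∩ H^u`. -/
theorem cit_D {G : Type*} [Group G] [Finite G] (T : Sylow 2 G)
    (hnc : ¬ IsCyclic (T : Subgroup G)) (hnn : ¬ (T : Subgroup G).Normal)
    (hC : ∀ t : G, orderOf t = 2 → IsMulCommutative (Subgroup.centralizer ({t} : Set G)) ∧
      ∀ c ∈ Subgroup.centralizer ({t} : Set G), c ^ 2 = 1)
    (H : Subgroup G) (hHdef : H = Subgroup.normalizer ((T : Subgroup G) : Set G))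
    (u : G) (hu : orderOf u = 2) (huH : u ∉ H) :
    (∀ d ∈ H ⊓ H.map (MulAut.conj u).toMonoidHom, u * d * u⁻¹ = d⁻¹) ∧
    Nat.card ↥(H ⊓ H.map (MulAut.conj u).toMonoidHom) = Nat.card (T : Subgroup G) - 1 ∧
    (∀ h ∈ H, ∃ d ∈ H ⊓ H.map (MulAut.conj u).toMonoidHom, ∃ τ ∈ (T : Subgroup G), h = d * τ) ∧
    (∀ d ∈ H ⊓ H.map (MulAut.conj u).toMonoidHom, d ∈ (T : Subgroup G) → d = 1) := by
  classical
  haveI : Fact (Nat.Prime 2) := ⟨Nat.prime_two⟩
  obtain ⟨hcent, hmemT, hexp, z, hzT, hz⟩ := cit_facts T hnn hC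
  have hSE : Cfsg.IsStronglyEmbedded H := by
    rw [hHdef]; exact Cfsg.Agent.S1226.result T hnc hnn hC
  have hTH : (T : Subgroup G) ≤ H := by rw [hHdef]; exact Subgroup.le_normalizer
  have hmemT' : ∀ s ∈ H, orderOf s = 2 → s ∈ (T : Subgroup G) := by rw [hHdef]; exact hmemT
  have hHN : ∀ h ∈ H, ∀ a ∈ (T : Subgroup G), h * a * h⁻¹ ∈ (T : Subgroup G) := by
    intro h hh a ha
    rw [hHdef] at hh
    exact (Subgroup.mem_normalizer_iff.mp hh a).mp ha
  have huu := invol_mul_self hu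
  have huinv := invol_inv hu
  have hDodd : Odd (Nat.card ↥(H ⊓ H.map (MulAut.conj u).toMonoidHom)) := hSE.2.2 u huH
  have hDT : ∀ d ∈ H ⊓ H.map (MulAut.conj u).toMonoidHom, d ∈ (T : Subgroup G) → d = 1 := by
    intro d hd hdT
    have h1 : d ^ 2 = 1 := hexp d hdT
    have h2 : d ^ Nat.card ↥(H ⊓ H.map (MulAut.conj u).toMonoidHom) = 1 := by
      have h3 : (⟨d, hd⟩ : ↥(H ⊓ H.map (MulAut.conj u).toMonoidHom)) ^
          Nat.card ↥(H ⊓ H.map (MulAut.conj u).toMonoidHom) = 1 := pow_card_eq_one'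
      exact congrArg Subtype.val h3
    have h4 : orderOf d ∣ 2 := orderOf_dvd_of_pow_eq_one h1
    have h5 : orderOf d ∣ Nat.card ↥(H ⊓ H.map (MulAut.conj u).toMonoidHom) :=
      orderOf_dvd_of_pow_eq_one h2
    exact orderOf_eq_one_iff.mp (Nat.eq_one_of_dvd_coprimes (Nat.coprime_two_left.mpr hDodd) h4 h5)
  have hxy : ((1 : G) : G ⧸ H) ≠ (u : G ⧸ H) := by
    intro h
    apply huH
    have h1 := QuotientGroup.eq.mp h
    simpa using h1
  have hc1 : Nat.card {i : G // orderOf i = 2 ∧ i • ((1 : G) : G ⧸ H) = (u : G ⧸ H)} =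
      Nat.card {t : G // orderOf t = 2 ∧ t ∈ H} := Cfsg.Agent.S1224.result H hSE _ _ hxy
  have hcardT1 : Nat.card ↥(((T : Subgroup G) : Set G) \ {1}) = Nat.card (T : Subgroup G) - 1 := by
    rw [Nat.card_coe_set_eq, Set.ncard_diff_singleton_of_mem (T : Subgroup G).one_mem]
    rfl
  have hc2 : Nat.card {t : G // orderOf t = 2 ∧ t ∈ H} = Nat.card (T : Subgroup G) - 1 := by
    have e : {t : G // orderOf t = 2 ∧ t ∈ H} ≃ ↥(((T : Subgroup G) : Set G) \ {1}) :=
      { toFun := fun t => ⟨t.1, hmemT' t.1 t.2.2 t.2.1,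
          fun h => invol_ne_one t.2.1 (Set.mem_singleton_iff.mp h)⟩
        invFun := fun a => ⟨a.1, orderOf_eq_two_of
          (fun h => a.2.2 (Set.mem_singleton_iff.mpr h))
          (by have h0 := hexp a.1 a.2.1; rwa [pow_two] at h0), hTH a.2.1⟩
        left_inv := fun t => rfl
        right_inv := fun a => rfl }
    rw [Nat.card_congr e, hcardT1]
  have hc3 : Nat.card {i : G // orderOf i = 2 ∧ i • ((1 : G) : G ⧸ H) = (u : G ⧸ H)} ≤
      Nat.card {d : G // d ∈ H ⊓ H.map (MulAut.conj u).toMonoidHom ∧ u * d * u⁻¹ = d⁻¹} := by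
    have hmem : ∀ w : {i : G // orderOf i = 2 ∧ i • ((1 : G) : G ⧸ H) = (u : G ⧸ H)},
        u⁻¹ * w.1 ∈ H ⊓ H.map (MulAut.conj u).toMonoidHom ∧
          u * (u⁻¹ * w.1) * u⁻¹ = (u⁻¹ * w.1)⁻¹ := by
      rintro ⟨w, hw, hwx⟩
      have hwinv := invol_inv hw
      have hwu : w⁻¹ * u ∈ H := by
        have h0 : w • ((1 : G) : G ⧸ H) = ((w * 1 : G) : G ⧸ H) := rfl
        rw [h0, mul_one] at hwx
        exact QuotientGroup.eq.mp hwx
      have hd1 : u⁻¹ * w ∈ H := by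
        have h1 := H.inv_mem hwu
        have e : (w⁻¹ * u)⁻¹ = u⁻¹ * w := by group
        rwa [e] at h1
      have hd2 : u⁻¹ * w ∈ H.map (MulAut.conj u).toMonoidHom := by
        rw [Cfsg.Agent.Lib.Helper7.mem_map_conj]
        have e : u⁻¹ * (u⁻¹ * w) * u = (u * u)⁻¹ * (w * u) := by group
        rw [e, huu, inv_one, one_mul]
        rw [hwinv] at hwu
        exact hwu
      refine ⟨⟨hd1, hd2⟩, ?_⟩
      show u * (u⁻¹ * w) * u⁻¹ = (u⁻¹ * w)⁻¹
      have e1 : u * (u⁻¹ * w) * u⁻¹ = w * u⁻¹ := by group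
      have e2 : (u⁻¹ * w)⁻¹ = w⁻¹ * u := by group
      rw [e1, e2, hwinv, huinv]
    refine Nat.card_le_card_of_injective (fun w => ⟨u⁻¹ * w.1, hmem w⟩) ?_
    intro w w' h
    apply Subtype.ext
    have h0 := Subtype.ext_iff.mp h
    have h1 : u⁻¹ * w.1 = u⁻¹ * w'.1 := h0
    exact mul_left_cancel h1
  have hKinj : Function.Injective
      (fun d : {d : G // d ∈ H ⊓ H.map (MulAut.conj u).toMonoidHom ∧ u * d * u⁻¹ = d⁻¹} =>
        (⟨d.1, d.2.1⟩ : ↥(H ⊓ H.map (MulAut.conj u).toMonoidHom))) := by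
    intro a b h
    have h0 := Subtype.ext_iff.mp h
    exact Subtype.ext h0
  have hc4 := Nat.card_le_card_of_injective _ hKinj
  have hφ : ∀ d : ↥(H ⊓ H.map (MulAut.conj u).toMonoidHom),
      d.1 * z * d.1⁻¹ ∈ ((T : Subgroup G) : Set G) \ {1} := by
    intro d
    refine ⟨hHN d.1 d.2.1 z hzT, ?_⟩
    intro h
    rw [Set.mem_singleton_iff] at h
    apply invol_ne_one hz
    have e : z = d.1⁻¹ * (d.1 * z * d.1⁻¹) * d.1 := by group
    rw [e, h]; group
  have hφinj : Function.Injective (fun d : ↥(H ⊓ H.map (MulAut.conj u).toMonoidHom) =>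
      (⟨d.1 * z * d.1⁻¹, hφ d⟩ : ↥(((T : Subgroup G) : Set G) \ {1}))) := by
    intro d d' h
    have h0 := Subtype.ext_iff.mp h
    have h1 : d.1 * z * d.1⁻¹ = d'.1 * z * d'.1⁻¹ := h0
    have h2 : d'.1⁻¹ * d.1 ∈ Subgroup.centralizer ({z} : Set G) := by
      rw [Subgroup.mem_centralizer_iff]
      intro y hy
      rw [Set.mem_singleton_iff] at hy
      rw [hy]
      calc z * (d'.1⁻¹ * d.1) = d'.1⁻¹ * (d'.1 * z * d'.1⁻¹) * d.1 := by group
        _ = d'.1⁻¹ * (d.1 * z * d.1⁻¹) * d.1 := by rw [h1]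
        _ = d'.1⁻¹ * d.1 * z := by group
    rw [hcent z hzT hz] at h2
    have h3 := hDT _ (Subgroup.mul_mem _ (Subgroup.inv_mem _ d'.2) d.2) h2
    apply Subtype.ext
    have e : d.1 = d'.1 * (d'.1⁻¹ * d.1) := by group
    rw [e, h3, mul_one]
  have hc5 := Nat.card_le_card_of_injective _ hφinj
  rw [hcardT1] at hc5
  have hcardD : Nat.card ↥(H ⊓ H.map (MulAut.conj u).toMonoidHom) = Nat.card (T : Subgroup G) - 1 :=
    le_antisymm hc5 (by rw [← hc2, ← hc1]; exact hc3.trans hc4)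
  have hcardK : Nat.card {d : G // d ∈ H ⊓ H.map (MulAut.conj u).toMonoidHom ∧
      u * d * u⁻¹ = d⁻¹} = Nat.card ↥(H ⊓ H.map (MulAut.conj u).toMonoidHom) :=
    le_antisymm hc4 (by rw [hcardD, ← hc2, ← hc1]; exact hc3)
  have hbijK := (Nat.bijective_iff_injective_and_card _).mpr ⟨hKinj, hcardK⟩
  have hbijφ := (Nat.bijective_iff_injective_and_card _).mpr
    ⟨hφinj, by rw [hcardD, hcardT1]⟩
  refine ⟨?_, hcardD, ?_, hDT⟩
  · intro d hd
    obtain ⟨k, hk⟩ := hbijK.2 ⟨d, hd⟩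
    have hk0 := Subtype.ext_iff.mp hk
    have hk1 : k.1 = d := hk0
    rw [← hk1]
    exact k.2.2
  · intro h hh
    have hmem : h * z * h⁻¹ ∈ ((T : Subgroup G) : Set G) \ {1} := by
      refine ⟨hHN h hh z hzT, ?_⟩
      intro h0
      rw [Set.mem_singleton_iff] at h0
      apply invol_ne_one hz
      have e : z = h⁻¹ * (h * z * h⁻¹) * h := by group
      rw [e, h0]; group
    obtain ⟨d, hd⟩ := hbijφ.2 ⟨h * z * h⁻¹, hmem⟩
    have hd0 := Subtype.ext_iff.mp hd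
    have hd1 : d.1 * z * d.1⁻¹ = h * z * h⁻¹ := hd0
    have h2 : d.1⁻¹ * h ∈ Subgroup.centralizer ({z} : Set G) := by
      rw [Subgroup.mem_centralizer_iff]
      intro y hy
      rw [Set.mem_singleton_iff] at hy
      rw [hy]
      calc z * (d.1⁻¹ * h) = d.1⁻¹ * (d.1 * z * d.1⁻¹) * h := by group
        _ = d.1⁻¹ * (h * z * h⁻¹) * h := by rw [hd1]
        _ = d.1⁻¹ * h * z := by group
    rw [hcent z hzT hz] at h2
    exact ⟨d.1, d.2, d.1⁻¹ * h, h2, by group⟩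

end Cfsg.Agent.Lib.Helper2
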