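import Mathlib
import Cfsg.Prelude.Def_Involutions
import Cfsg.Agent.Lib.Helper2.CIT

set_option autoImplicit false

namespace Cfsg.Agent.Lib.Helper2

theorem cit_card_invol {G : Type*} [Group G] [Finite G] (T : Sylow 2 G)
    (hnn : ¬ (T : Subgroup G).Normal)
    (hC : ∀ t : G, orderOf t = 2 → IsMulCommutative (Subgroup.centralizer ({t} : Set G)) ∧
      ∀ c ∈ Subgroup.centralizer ({t} : Set G), c ^ 2 = 1)
    (H : Subgroup G) (hHdef : H = Subgroup.normalizer ((T : Subgroup G) : Set G)) :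
    Nat.card {t : G // orderOf t = 2 ∧ t ∈ H} = Nat.card (T : Subgroup G) - 1 := by
  classical
  obtain ⟨hcent, hmemT, hexp, z, hzT, hz⟩ := cit_facts T hnn hC
  have hTH : (T : Subgroup G) ≤ H := by rw [hHdef]; exact Subgroup.le_normalizer
  have hmemT' : ∀ s ∈ H, orderOf s = 2 → s ∈ (T : Subgroup G) := by rw [hHdef]; exact hmemT
  have hcardT1 : Nat.card ↥(((T : Subgroup G) : Set G) \ {1}) = Nat.card (T : Subgroup G) - 1 := by
    rw [Nat.card_coe_set_eq, Set.ncard_diff_singleton_of_mem (T : Subgroup G).one_mem]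
    rfl
  have e : {t : G // orderOf t = 2 ∧ t ∈ H} ≃ ↥(((T : Subgroup G) : Set G) \ {1}) :=
    { toFun := fun t => ⟨t.1, hmemT' t.1 t.2.2 t.2.1,
        fun h => invol_ne_one t.2.1 (Set.mem_singleton_iff.mp h)⟩
      invFun := fun a => ⟨a.1, orderOf_eq_two_of
        (fun h => a.2.2 (Set.mem_singleton_iff.mpr h))
        (by have h0 := hexp a.1 a.2.1; rwa [pow_two] at h0), hTH a.2.1⟩
      left_inv := fun t => rfl
      right_inv := fun a => rfl }
  rw [Nat.card_congr e, hcardT1]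

/-- `D = H ∩ H^u` fixes only the cosets `H` and `uH`, and `|N_G(D)| ≤ 2 |D|`. -/
theorem cit_fix {G : Type*} [Group G] [Finite G] (T : Sylow 2 G)
    (hnc : ¬ IsCyclic (T : Subgroup G)) (hnn : ¬ (T : Subgroup G).Normal)
    (hC : ∀ t : G, orderOf t = 2 → IsMulCommutative (Subgroup.centralizer ({t} : Set G)) ∧
      ∀ c ∈ Subgroup.centralizer ({t} : Set G), c ^ 2 = 1)
    (H : Subgroup G) (hHdef : H = Subgroup.normalizer ((T : Subgroup G) : Set G))
    (u : G) (hu : orderOf u = 2) (huH : u ∉ H) :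
    (∀ p : G ⧸ H, p ≠ ((1 : G) : G ⧸ H) → (∀ d ∈ (H ⊓ H.map (MulAut.conj u).toMonoidHom), d • p = p) → p = (u : G ⧸ H)) ∧
    Nat.card ↥(Subgroup.normalizer (((H ⊓ H.map (MulAut.conj u).toMonoidHom) : Subgroup G) : Set G)) ≤ 2 * (Nat.card (T : Subgroup G) - 1) ∧
    u ∈ (Subgroup.normalizer (((H ⊓ H.map (MulAut.conj u).toMonoidHom) : Subgroup G) : Set G)) := by
  classical
  haveI : Fact (Nat.Prime 2) := ⟨Nat.prime_two⟩
  obtain ⟨hcent, hmemT, hexp, z, hzT, hz⟩ := cit_facts T hnn hC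
  obtain ⟨hinv, hcardD, hfact, hDT⟩ := cit_D T hnc hnn hC H hHdef u hu huH
  have hSE : Cfsg.IsStronglyEmbedded H := by
    rw [hHdef]; exact Cfsg.Agent.S1226.result T hnc hnn hC
  have hmemT' : ∀ s ∈ H, orderOf s = 2 → s ∈ (T : Subgroup G) := by rw [hHdef]; exact hmemT
  have hHN : ∀ h ∈ H, ∀ a ∈ (T : Subgroup G), h * a * h⁻¹ ∈ (T : Subgroup G) := by
    intro h hh a ha
    rw [hHdef] at hh
    exact (Subgroup.mem_normalizer_iff.mp hh a).mp ha
  have huu := invol_mul_self hu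
  have hinvolH := cit_card_invol T hnn hC H hHdef
  have hq : 3 ≤ Nat.card (T : Subgroup G) := by
    by_contra hlt
    push Not at hlt
    apply hnc
    have hpos : 0 < Nat.card (T : Subgroup G) := Nat.card_pos
    have h12 : Nat.card (T : Subgroup G) = 1 ∨ Nat.card (T : Subgroup G) = 2 := by omega
    rcases h12 with h | h
    · haveI : Subsingleton ↥(T : Subgroup G) := (Nat.card_eq_one_iff_unique.mp h).1
      infer_instance
    · exact isCyclic_of_prime_card h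
  obtain ⟨d₀, hd₀, hd₀1⟩ : ∃ d₀ ∈ (H ⊓ H.map (MulAut.conj u).toMonoidHom), d₀ ≠ 1 := by
    by_contra hcon
    push Not at hcon
    have h0 : (H ⊓ H.map (MulAut.conj u).toMonoidHom) = ⊥ := (Subgroup.eq_bot_iff_forall _).mpr hcon
    rw [h0] at hcardD
    simp at hcardD
    omega
  have hNH : ∀ n ∈ (Subgroup.normalizer (((H ⊓ H.map (MulAut.conj u).toMonoidHom) : Subgroup G) : Set G)), n ∈ H → n ∈ (H ⊓ H.map (MulAut.conj u).toMonoidHom) := by
    intro n hn hnH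
    obtain ⟨d, hd, τ, hτ, rfl⟩ := hfact n hnH
    have hτN : τ ∈ (Subgroup.normalizer (((H ⊓ H.map (MulAut.conj u).toMonoidHom) : Subgroup G) : Set G)) := by
      have e : τ = d⁻¹ * (d * τ) := by group
      rw [e]; exact Subgroup.mul_mem _ (Subgroup.inv_mem _ (Subgroup.le_normalizer hd)) hn
    have hτc : ∀ d' ∈ (H ⊓ H.map (MulAut.conj u).toMonoidHom), τ * d' * τ⁻¹ = d' := by
      intro d' hd'
      have h1 : τ * d' * τ⁻¹ * d'⁻¹ ∈ (H ⊓ H.map (MulAut.conj u).toMonoidHom) :=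
        Subgroup.mul_mem _ ((Subgroup.mem_normalizer_iff.mp hτN d').mp hd')
          (Subgroup.inv_mem _ hd')
      have h2 : τ * d' * τ⁻¹ * d'⁻¹ ∈ (T : Subgroup G) := by
        have e : τ * d' * τ⁻¹ * d'⁻¹ = τ * (d' * τ⁻¹ * d'⁻¹) := by group
        rw [e]; exact Subgroup.mul_mem _ hτ (hHN d' hd'.1 _ (Subgroup.inv_mem _ hτ))
      have h3 := hDT _ h1 h2
      calc τ * d' * τ⁻¹ = (τ * d' * τ⁻¹ * d'⁻¹) * d' := by group
        _ = d' := by rw [h3, one_mul]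
    have hτ1 : τ = 1 := by
      by_contra hne
      have hτ2 : orderOf τ = 2 := orderOf_eq_two_of hne
        (by have h0 := hexp τ hτ; rwa [pow_two] at h0)
      have h4 : d₀ ∈ Subgroup.centralizer ({τ} : Set G) := by
        rw [Subgroup.mem_centralizer_iff]
        intro y hy; rw [Set.mem_singleton_iff] at hy; rw [hy]
        have h5 := hτc d₀ hd₀
        calc τ * d₀ = (τ * d₀ * τ⁻¹) * τ := by group
          _ = d₀ * τ := by rw [h5]
      rw [hcent τ hτ hτ2] at h4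
      exact hd₀1 (hDT d₀ hd₀ h4)
    rw [hτ1, mul_one]; exact hd
  have huN : u ∈ (Subgroup.normalizer (((H ⊓ H.map (MulAut.conj u).toMonoidHom) : Subgroup G) : Set G)) := by
    rw [Subgroup.mem_normalizer_iff]
    intro d
    constructor
    · intro hd; rw [hinv d hd]; exact Subgroup.inv_mem _ hd
    · intro hd
      have h1 := hinv _ hd
      have e : u * (u * d * u⁻¹) * u⁻¹ = d := by
        have e0 : u * (u * d * u⁻¹) * u⁻¹ = (u * u) * d * (u * u)⁻¹ := by group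
        rw [e0, huu]; group
      rw [e] at h1
      rw [h1]; exact Subgroup.inv_mem _ hd
  have huC : u ∉ (Subgroup.centralizer (((H ⊓ H.map (MulAut.conj u).toMonoidHom) : Subgroup G) : Set G)) := by
    intro h
    have h1 := Subgroup.mem_centralizer_iff.mp h d₀ hd₀
    have h2 := hinv d₀ hd₀
    have h3 : d₀ * d₀ = 1 := by
      have e : u * d₀ * u⁻¹ = d₀ := by rw [← h1]; group
      rw [e] at h2
      calc d₀ * d₀ = d₀ * d₀⁻¹ := by rw [← h2]
        _ = 1 := mul_inv_cancel d₀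
    have h4 : orderOf d₀ = 2 := orderOf_eq_two_of hd₀1 h3
    exact hd₀1 (hDT d₀ hd₀ (hmemT' d₀ hd₀.1 h4))
  have hCN : 2 * Nat.card ↥(Subgroup.centralizer (((H ⊓ H.map (MulAut.conj u).toMonoidHom) : Subgroup G) : Set G)) ≤ Nat.card ↥(Subgroup.normalizer (((H ⊓ H.map (MulAut.conj u).toMonoidHom) : Subgroup G) : Set G)) := by
    have hle : (Subgroup.centralizer (((H ⊓ H.map (MulAut.conj u).toMonoidHom) : Subgroup G) : Set G)) ≤ (Subgroup.normalizer (((H ⊓ H.map (MulAut.conj u).toMonoidHom) : Subgroup G) : Set G)) := Subgroup.centralizer_le_normalizer _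
    obtain ⟨k, hk⟩ := Subgroup.card_dvd_of_le hle
    have hk2 : 2 ≤ k := by
      by_contra hlt
      push Not at hlt
      have hpos : 0 < Nat.card ↥(Subgroup.normalizer (((H ⊓ H.map (MulAut.conj u).toMonoidHom) : Subgroup G) : Set G)) := Nat.card_pos
      have hk01 : k = 0 ∨ k = 1 := by omega
      rcases hk01 with h | h
      · rw [h, mul_zero] at hk; omega
      · apply huC
        have h5 := Subgroup.eq_of_le_of_card_ge hle (by rw [hk, h, mul_one])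
        rw [h5]; exact huN
    rw [hk]; nlinarith
  have hWC : ∀ w : G, orderOf w = 2 → w • ((1 : G) : G ⧸ H) ≠ ((1 : G) : G ⧸ H) →
      (∀ d ∈ (H ⊓ H.map (MulAut.conj u).toMonoidHom), d • (w • ((1 : G) : G ⧸ H)) = w • ((1 : G) : G ⧸ H)) → u * w ∈ (Subgroup.centralizer (((H ⊓ H.map (MulAut.conj u).toMonoidHom) : Subgroup G) : Set G)) := by
    intro w hw hwx hwD
    have hwH : w ∉ H := fun h => hwx ((smul_mk_one_eq_iff H w).mpr h)
    obtain ⟨hinvw, hcardDw, -, -⟩ := cit_D T hnc hnn hC H hHdef w hw hwH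
    have hle : (H ⊓ H.map (MulAut.conj u).toMonoidHom) ≤ H ⊓ H.map (MulAut.conj w).toMonoidHom := by
      intro d hd
      have h1 := hwD d hd
      have h2 : w • ((1 : G) : G ⧸ H) = (w : G ⧸ H) := by
        show ((w * 1 : G) : G ⧸ H) = _
        rw [mul_one]
      rw [h2, smul_mk_eq_iff] at h1
      have h3 : d ∈ H.map (MulAut.conj w).toMonoidHom := by
        rw [Cfsg.Agent.Lib.Helper7.mem_map_conj]; exact h1
      exact ⟨hd.1, h3⟩
    rw [Subgroup.mem_centralizer_iff]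
    intro d hd
    have h1 := hinvw d (hle hd)
    have h2 := hinv d⁻¹ (Subgroup.inv_mem _ hd)
    rw [inv_inv] at h2
    have h1' : d⁻¹ = w * d * w⁻¹ := h1.symm
    calc d * (u * w) = (u * d⁻¹ * u⁻¹) * (u * w) := by rw [h2]
      _ = u * d⁻¹ * w := by group
      _ = u * (w * d * w⁻¹) * w := by rw [h1']
      _ = u * w * d := by group
  have hW1 : Nat.card {w : G // orderOf w = 2 ∧ w • ((1 : G) : G ⧸ H) ≠ ((1 : G) : G ⧸ H) ∧ ∀ d ∈ (H ⊓ H.map (MulAut.conj u).toMonoidHom), d • (w • ((1 : G) : G ⧸ H)) = w • ((1 : G) : G ⧸ H)} ≤ Nat.card ↥(Subgroup.centralizer (((H ⊓ H.map (MulAut.conj u).toMonoidHom) : Subgroup G) : Set G)) := by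
    refine Nat.card_le_card_of_injective
      (fun w => (⟨u * w.1, hWC w.1 w.2.1 w.2.2.1 w.2.2.2⟩ : ↥(Subgroup.centralizer (((H ⊓ H.map (MulAut.conj u).toMonoidHom) : Subgroup G) : Set G)))) ?_
    intro a b h
    have h0 := Subtype.ext_iff.mp h
    have h1 : u * a.1 = u * b.1 := h0
    exact Subtype.ext (mul_left_cancel h1)
  have hW2 : Nat.card {w : G // orderOf w = 2 ∧ w • ((1 : G) : G ⧸ H) ≠ ((1 : G) : G ⧸ H) ∧ ∀ d ∈ (H ⊓ H.map (MulAut.conj u).toMonoidHom), d • (w • ((1 : G) : G ⧸ H)) = w • ((1 : G) : G ⧸ H)} = Nat.card ↥{p : G ⧸ H | p ≠ ((1 : G) : G ⧸ H) ∧ ∀ d ∈ (H ⊓ H.map (MulAut.conj u).toMonoidHom), d • p = p} * (Nat.card (T : Subgroup G) - 1) := by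
    haveI : Fintype ↥{p : G ⧸ H | p ≠ ((1 : G) : G ⧸ H) ∧ ∀ d ∈ (H ⊓ H.map (MulAut.conj u).toMonoidHom), d • p = p} := Fintype.ofFinite _
    have e1 := (Equiv.sigmaFiberEquiv (fun w : {w : G // orderOf w = 2 ∧ w • ((1 : G) : G ⧸ H) ≠ ((1 : G) : G ⧸ H) ∧ ∀ d ∈ (H ⊓ H.map (MulAut.conj u).toMonoidHom), d • (w • ((1 : G) : G ⧸ H)) = w • ((1 : G) : G ⧸ H)} =>
      (⟨w.1 • ((1 : G) : G ⧸ H), w.2.2.1, w.2.2.2⟩ : ↥{p : G ⧸ H | p ≠ ((1 : G) : G ⧸ H) ∧ ∀ d ∈ (H ⊓ H.map (MulAut.conj u).toMonoidHom), d • p = p}))).symm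
    rw [Nat.card_congr e1, Nat.card_sigma]
    have hfib : ∀ p : ↥{p : G ⧸ H | p ≠ ((1 : G) : G ⧸ H) ∧ ∀ d ∈ (H ⊓ H.map (MulAut.conj u).toMonoidHom), d • p = p}, Nat.card {w : {w : G // orderOf w = 2 ∧ w • ((1 : G) : G ⧸ H) ≠ ((1 : G) : G ⧸ H) ∧ ∀ d ∈ (H ⊓ H.map (MulAut.conj u).toMonoidHom), d • (w • ((1 : G) : G ⧸ H)) = w • ((1 : G) : G ⧸ H)} //
        (⟨w.1 • ((1 : G) : G ⧸ H), w.2.2.1, w.2.2.2⟩ : ↥{p : G ⧸ H | p ≠ ((1 : G) : G ⧸ H) ∧ ∀ d ∈ (H ⊓ H.map (MulAut.conj u).toMonoidHom), d • p = p}) = p} = Nat.card (T : Subgroup G) - 1 := by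
      intro p
      have e2 : {w : {w : G // orderOf w = 2 ∧ w • ((1 : G) : G ⧸ H) ≠ ((1 : G) : G ⧸ H) ∧ ∀ d ∈ (H ⊓ H.map (MulAut.conj u).toMonoidHom), d • (w • ((1 : G) : G ⧸ H)) = w • ((1 : G) : G ⧸ H)} // (⟨w.1 • ((1 : G) : G ⧸ H), w.2.2.1, w.2.2.2⟩ : ↥{p : G ⧸ H | p ≠ ((1 : G) : G ⧸ H) ∧ ∀ d ∈ (H ⊓ H.map (MulAut.conj u).toMonoidHom), d • p = p}) = p} ≃
          {i : G // orderOf i = 2 ∧ i • ((1 : G) : G ⧸ H) = p.1} :=
        { toFun := fun w => ⟨w.1.1, w.1.2.1, Subtype.ext_iff.mp w.2⟩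
          invFun := fun i => ⟨⟨i.1, i.2.1, by rw [i.2.2]; exact p.2.1,
            by rw [i.2.2]; exact p.2.2⟩, Subtype.ext i.2.2⟩
          left_inv := fun w => rfl
          right_inv := fun i => rfl }
      rw [Nat.card_congr e2, Cfsg.Agent.S1224.result H hSE _ _ (Ne.symm p.2.1), hinvolH]
    rw [Finset.sum_congr rfl (fun p _ => hfib p), Finset.sum_const, Finset.card_univ,
      smul_eq_mul, ← Nat.card_eq_fintype_card]
  have hNcard : Nat.card ↥(Subgroup.normalizer (((H ⊓ H.map (MulAut.conj u).toMonoidHom) : Subgroup G) : Set G)) ≤ (Nat.card ↥{p : G ⧸ H | p ≠ ((1 : G) : G ⧸ H) ∧ ∀ d ∈ (H ⊓ H.map (MulAut.conj u).toMonoidHom), d • p = p} + 1) * (Nat.card (T : Subgroup G) - 1) := by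
    have h1 := Subgroup.card_mul_index (MulAction.stabilizer ↥(Subgroup.normalizer (((H ⊓ H.map (MulAut.conj u).toMonoidHom) : Subgroup G) : Set G)) ((1 : G) : G ⧸ H))
    rw [MulAction.index_stabilizer] at h1
    have hstab : Nat.card ↥(MulAction.stabilizer ↥(Subgroup.normalizer (((H ⊓ H.map (MulAut.conj u).toMonoidHom) : Subgroup G) : Set G)) ((1 : G) : G ⧸ H)) ≤ Nat.card (T : Subgroup G) - 1 := by
      rw [← hcardD]
      refine Nat.card_le_card_of_injective (fun n =>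
        (⟨n.1.1, hNH n.1.1 n.1.2 ((smul_mk_one_eq_iff H _).mp n.2)⟩ : ↥(H ⊓ H.map (MulAut.conj u).toMonoidHom))) ?_
      intro a b h
      have h0 := Subtype.ext_iff.mp h
      exact Subtype.ext (Subtype.ext h0)
    have horb : (MulAction.orbit ↥(Subgroup.normalizer (((H ⊓ H.map (MulAut.conj u).toMonoidHom) : Subgroup G) : Set G)) ((1 : G) : G ⧸ H)).ncard ≤ Nat.card ↥{p : G ⧸ H | p ≠ ((1 : G) : G ⧸ H) ∧ ∀ d ∈ (H ⊓ H.map (MulAut.conj u).toMonoidHom), d • p = p} + 1 := by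
      rw [Nat.card_coe_set_eq]
      refine le_trans (Set.ncard_le_ncard ?_ (Set.toFinite _)) (Set.ncard_insert_le ((1 : G) : G ⧸ H) _)
      rintro o ⟨n, rfl⟩
      by_cases ho : n • ((1 : G) : G ⧸ H) = ((1 : G) : G ⧸ H)
      · left; exact ho
      · right
        refine ⟨ho, ?_⟩
        intro d hd
        have h2 : (n : G)⁻¹ * d * n ∈ (H ⊓ H.map (MulAut.conj u).toMonoidHom) := by
          have h3 := (Subgroup.mem_normalizer_iff.mp (Subgroup.inv_mem _ n.2) d).mp hd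
          rwa [inv_inv] at h3
        have h4 : ((n : G)⁻¹ * d * n) • ((1 : G) : G ⧸ H) = ((1 : G) : G ⧸ H) := (smul_mk_one_eq_iff H _).mpr h2.1
        show d • ((n : G) • ((1 : G) : G ⧸ H)) = (n : G) • ((1 : G) : G ⧸ H)
        rw [smul_smul]
        have e : d * (n : G) = (n : G) * ((n : G)⁻¹ * d * n) := by group
        rw [e, mul_smul, h4]
    calc Nat.card ↥(Subgroup.normalizer (((H ⊓ H.map (MulAut.conj u).toMonoidHom) : Subgroup G) : Set G)) = Nat.card ↥(MulAction.stabilizer ↥(Subgroup.normalizer (((H ⊓ H.map (MulAut.conj u).toMonoidHom) : Subgroup G) : Set G)) ((1 : G) : G ⧸ H)) *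
          (MulAction.orbit ↥(Subgroup.normalizer (((H ⊓ H.map (MulAut.conj u).toMonoidHom) : Subgroup G) : Set G)) ((1 : G) : G ⧸ H)).ncard := h1.symm
      _ ≤ (Nat.card (T : Subgroup G) - 1) * (Nat.card ↥{p : G ⧸ H | p ≠ ((1 : G) : G ⧸ H) ∧ ∀ d ∈ (H ⊓ H.map (MulAut.conj u).toMonoidHom), d • p = p} + 1) := Nat.mul_le_mul hstab horb
      _ = (Nat.card ↥{p : G ⧸ H | p ≠ ((1 : G) : G ⧸ H) ∧ ∀ d ∈ (H ⊓ H.map (MulAut.conj u).toMonoidHom), d • p = p} + 1) * (Nat.card (T : Subgroup G) - 1) := mul_comm _ _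
  have hS1 : Nat.card ↥{p : G ⧸ H | p ≠ ((1 : G) : G ⧸ H) ∧ ∀ d ∈ (H ⊓ H.map (MulAut.conj u).toMonoidHom), d • p = p} ≤ 1 := by
    have hq1 : 0 < Nat.card (T : Subgroup G) - 1 := by omega
    have h1 : 2 * (Nat.card ↥{p : G ⧸ H | p ≠ ((1 : G) : G ⧸ H) ∧ ∀ d ∈ (H ⊓ H.map (MulAut.conj u).toMonoidHom), d • p = p} * (Nat.card (T : Subgroup G) - 1)) ≤
        (Nat.card ↥{p : G ⧸ H | p ≠ ((1 : G) : G ⧸ H) ∧ ∀ d ∈ (H ⊓ H.map (MulAut.conj u).toMonoidHom), d • p = p} + 1) * (Nat.card (T : Subgroup G) - 1) := by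
      rw [← hW2]
      exact le_trans (Nat.mul_le_mul_left 2 hW1) (le_trans hCN hNcard)
    have h2 : 2 * Nat.card ↥{p : G ⧸ H | p ≠ ((1 : G) : G ⧸ H) ∧ ∀ d ∈ (H ⊓ H.map (MulAut.conj u).toMonoidHom), d • p = p} * (Nat.card (T : Subgroup G) - 1) ≤
        (Nat.card ↥{p : G ⧸ H | p ≠ ((1 : G) : G ⧸ H) ∧ ∀ d ∈ (H ⊓ H.map (MulAut.conj u).toMonoidHom), d • p = p} + 1) * (Nat.card (T : Subgroup G) - 1) := by
      rw [mul_assoc]; exact h1
    have h3 := Nat.le_of_mul_le_mul_right h2 hq1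
    omega
  refine ⟨?_, ?_, huN⟩
  · intro p hp hpD
    rw [Nat.card_coe_set_eq, Set.ncard_le_one (Set.toFinite _)] at hS1
    have huS : (u : G ⧸ H) ∈ {p : G ⧸ H | p ≠ ((1 : G) : G ⧸ H) ∧ ∀ d ∈ (H ⊓ H.map (MulAut.conj u).toMonoidHom), d • p = p} := by
      refine ⟨?_, ?_⟩
      · intro h
        apply huH
        have h1 := QuotientGroup.eq.mp h
        simpa using h1
      · intro d hd
        rw [smul_mk_eq_iff]
        have h2 : d ∈ H.map (MulAut.conj u).toMonoidHom := hd.2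
        rw [Cfsg.Agent.Lib.Helper7.mem_map_conj] at h2
        exact h2
    exact hS1 p ⟨hp, hpD⟩ _ huS
  · calc Nat.card ↥(Subgroup.normalizer (((H ⊓ H.map (MulAut.conj u).toMonoidHom) : Subgroup G) : Set G)) ≤ (Nat.card ↥{p : G ⧸ H | p ≠ ((1 : G) : G ⧸ H) ∧ ∀ d ∈ (H ⊓ H.map (MulAut.conj u).toMonoidHom), d • p = p} + 1) * (Nat.card (T : Subgroup G) - 1) := hNcard
      _ ≤ 2 * (Nat.card (T : Subgroup G) - 1) := Nat.mul_le_mul_right _ (by omega)

end Cfsg.Agent.Lib.Helper2
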