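import Mathlib
import Cfsg.Prelude.Def_Involutions
import Cfsg.Agent.Lib.Helper2.CIT2
import Cfsg.Agent.Lib.Lead.SZ2
import Cfsg.Agent.Lib.Lead.SylowAux
import Cfsg.Agent.Lib.Helper7.MapConj
import Cfsg.Agent.S1225

set_option autoImplicit false

namespace Cfsg.Agent.Lib.Helper2

open scoped Pointwise

variable {G : Type*} [Group G]

theorem mk_ne_one_of_not_mem (H : Subgroup G) {u : G} (hu : u ∉ H) :
    ((u : G) : G ⧸ H) ≠ ((1 : G) : G ⧸ H) := by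
  intro h
  rw [QuotientGroup.eq] at h
  apply hu
  have h' : u⁻¹ ∈ H := by simpa using h
  exact (Subgroup.inv_mem_iff H).mp h'

theorem smul_mk_self_of_mem_conj (H : Subgroup G) {u d : G}
    (hd : d ∈ H.map (MulAut.conj u).toMonoidHom) :
    d • ((u : G) : G ⧸ H) = (u : G ⧸ H) := by
  rw [smul_mk_eq_iff]
  exact (Cfsg.Agent.Lib.Helper7.mem_map_conj H u d).mp hd

variable [Finite G]

/-- Every point other than `H` is `uH` for an involution `u`. -/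
theorem cit_exists_invol (T : Sylow 2 G)
    (hnc : ¬ IsCyclic (T : Subgroup G)) (hnn : ¬ (T : Subgroup G).Normal)
    (hC : ∀ t : G, orderOf t = 2 → IsMulCommutative (Subgroup.centralizer ({t} : Set G)) ∧
      ∀ c ∈ Subgroup.centralizer ({t} : Set G), c ^ 2 = 1)
    (H : Subgroup G) (hHdef : H = Subgroup.normalizer ((T : Subgroup G) : Set G))
    (y : G ⧸ H) (hy : y ≠ ((1 : G) : G ⧸ H)) :
    ∃ u : G, orderOf u = 2 ∧ u ∉ H ∧ y = ((u : G) : G ⧸ H) := by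
  obtain ⟨hcent, hmemT, hexp, z, hzT, hz⟩ := cit_facts T hnn hC
  have hSE : Cfsg.IsStronglyEmbedded H := by
    rw [hHdef]; exact Cfsg.Agent.S1226.result T hnc hnn hC
  have h1 := Cfsg.Agent.S1224.result H hSE ((1 : G) : G ⧸ H) y (Ne.symm hy)
  rw [cit_card_invol T hnn hC H hHdef] at h1
  have hT2 : 2 ≤ Nat.card (T : Subgroup G) := by
    have h2 := orderOf_dvd_natCard (⟨z, hzT⟩ : (T : Subgroup G))
    rw [Subgroup.orderOf_mk, hz] at h2
    exact Nat.le_of_dvd Nat.card_pos h2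
  have hpos : 0 < Nat.card {i : G // orderOf i = 2 ∧ i • ((1 : G) : G ⧸ H) = y} := by
    rw [h1]; omega
  obtain ⟨⟨u, hu, huy⟩⟩ := (Nat.card_pos_iff.mp hpos).1
  have huy' : ((u : G) : G ⧸ H) = y := by
    have h0 : u • ((1 : G) : G ⧸ H) = ((u * 1 : G) : G ⧸ H) := rfl
    rw [h0, mul_one] at huy; exact huy
  refine ⟨u, hu, ?_, huy'.symm⟩
  intro huH
  apply hy
  rw [← huy']
  exact (QuotientGroup.eq).mpr (by simpa using huH)

/-- `T` is transitive on the points other than `H`. -/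
theorem cit_T_trans (T : Sylow 2 G)
    (hnc : ¬ IsCyclic (T : Subgroup G)) (hnn : ¬ (T : Subgroup G).Normal)
    (hC : ∀ t : G, orderOf t = 2 → IsMulCommutative (Subgroup.centralizer ({t} : Set G)) ∧
      ∀ c ∈ Subgroup.centralizer ({t} : Set G), c ^ 2 = 1)
    (H : Subgroup G) (hHdef : H = Subgroup.normalizer ((T : Subgroup G) : Set G))
    (u : G) (hu : orderOf u = 2) (huH : u ∉ H)
    (y : G ⧸ H) (hy : y ≠ ((1 : G) : G ⧸ H)) :
    ∃ τ ∈ (T : Subgroup G), τ • ((u : G) : G ⧸ H) = y := by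
  haveI : Fact (Nat.Prime 2) := ⟨Nat.prime_two⟩
  have hTH : (T : Subgroup G) ≤ H := by rw [hHdef]; exact Subgroup.le_normalizer
  obtain ⟨u', hu', hu'H, rfl⟩ := cit_exists_invol T hnc hnn hC H hHdef y hy
  obtain ⟨-, hcardD, hfact, -⟩ := cit_D T hnc hnn hC H hHdef u hu huH
  obtain ⟨-, hcardD', -, -⟩ := cit_D T hnc hnn hC H hHdef u' hu' hu'H
  have hfixD := (cit_fix T hnc hnn hC H hHdef u hu huH).1
  have hDN : H ⊓ H.map (MulAut.conj u).toMonoidHom ≤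
      Subgroup.normalizer ((T : Subgroup G) : Set G) := by
    rw [← hHdef]; exact inf_le_left
  have hK : H ⊓ H.map (MulAut.conj u').toMonoidHom ≤
      (H ⊓ H.map (MulAut.conj u).toMonoidHom) ⊔ (T : Subgroup G) := by
    intro h hh
    obtain ⟨d, hd, τ, hτ, rfl⟩ := hfact h hh.1
    exact Subgroup.mul_mem_sup hd hτ
  have hcop : (Nat.card (T : Subgroup G)).Coprime
      (Nat.card ↥(H ⊓ H.map (MulAut.conj u).toMonoidHom)) := by
    rw [hcardD]
    have hpos : 0 < Nat.card (T : Subgroup G) := Nat.card_pos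
    obtain ⟨m, hm⟩ := Nat.exists_eq_succ_of_ne_zero hpos.ne'
    rw [hm]; simp
  haveI := T.2.isNilpotent
  have hsolv : Group.IsSolvable ↥(T : Subgroup G) := inferInstance
  obtain ⟨n, hn, hconj⟩ := Cfsg.Agent.Lib.Lead.szc (T : Subgroup G)
    (H ⊓ H.map (MulAut.conj u).toMonoidHom) (H ⊓ H.map (MulAut.conj u').toMonoidHom) hDN hK
    (hcardD'.trans hcardD.symm) hcop (Or.inl hsolv)
  refine ⟨n, hn, ?_⟩
  have hnH : n ∈ H := hTH hn
  have h1 : n⁻¹ • ((u' : G) : G ⧸ H) ≠ ((1 : G) : G ⧸ H) := by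
    intro h
    rw [inv_smul_eq_iff, (smul_mk_one_eq_iff H n).mpr hnH] at h
    exact mk_ne_one_of_not_mem H hu'H h
  have h2 : ∀ d ∈ H ⊓ H.map (MulAut.conj u).toMonoidHom,
      d • (n⁻¹ • ((u' : G) : G ⧸ H)) = n⁻¹ • ((u' : G) : G ⧸ H) := by
    intro d hd
    have hd' : n * d * n⁻¹ ∈ H ⊓ H.map (MulAut.conj u').toMonoidHom := by
      rw [← hconj]; exact Cfsg.Agent.Lib.Lead.conj_mem_conj_smul hd
    have h3 := smul_mk_self_of_mem_conj H hd'.2
    rw [smul_smul, eq_inv_smul_iff, smul_smul, ← mul_assoc]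
    exact h3
  have h4 := hfixD _ h1 h2
  rw [← h4, smul_inv_smul]

/-- `T` is semiregular on the points other than `H`. -/
theorem cit_T_semireg (T : Sylow 2 G)
    (hnc : ¬ IsCyclic (T : Subgroup G)) (hnn : ¬ (T : Subgroup G).Normal)
    (hC : ∀ t : G, orderOf t = 2 → IsMulCommutative (Subgroup.centralizer ({t} : Set G)) ∧
      ∀ c ∈ Subgroup.centralizer ({t} : Set G), c ^ 2 = 1)
    (H : Subgroup G) (hHdef : H = Subgroup.normalizer ((T : Subgroup G) : Set G))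
    {τ : G} (hτ : τ ∈ (T : Subgroup G)) {y : G ⧸ H} (hy : y ≠ ((1 : G) : G ⧸ H))
    (hfix : τ • y = y) : τ = 1 := by
  obtain ⟨hcent, hmemT, hexp, z, hzT, hz⟩ := cit_facts T hnn hC
  have hTH : (T : Subgroup G) ≤ H := by rw [hHdef]; exact Subgroup.le_normalizer
  have hSE : Cfsg.IsStronglyEmbedded H := by
    rw [hHdef]; exact Cfsg.Agent.S1226.result T hnc hnn hC
  by_contra h1
  have ho : orderOf τ = 2 := orderOf_eq_two_of h1 (by rw [← pow_two]; exact hexp τ hτ)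
  exact hy (se_invol_fix_unique H hSE τ ho y _ hfix ((smul_mk_one_eq_iff H τ).mpr (hTH hτ)))

/-- Every triple of distinct points can be moved to the reference triple `H, uH, τ0 u H`. -/
theorem cit_normal_form (T : Sylow 2 G)
    (hnc : ¬ IsCyclic (T : Subgroup G)) (hnn : ¬ (T : Subgroup G).Normal)
    (hC : ∀ t : G, orderOf t = 2 → IsMulCommutative (Subgroup.centralizer ({t} : Set G)) ∧
      ∀ c ∈ Subgroup.centralizer ({t} : Set G), c ^ 2 = 1)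
    (H : Subgroup G) (hHdef : H = Subgroup.normalizer ((T : Subgroup G) : Set G))
    (u : G) (hu : orderOf u = 2) (huH : u ∉ H)
    (τ0 : G) (hτ0T : τ0 ∈ (T : Subgroup G)) (hτ0 : orderOf τ0 = 2)
    (x1 x2 x3 : G ⧸ H) (h12 : x1 ≠ x2) (h13 : x1 ≠ x3) (h23 : x2 ≠ x3) :
    ∃ g : G, g • x1 = ((1 : G) : G ⧸ H) ∧ g • x2 = ((u : G) : G ⧸ H) ∧
      g • x3 = τ0 • ((u : G) : G ⧸ H) := by
  obtain ⟨hcent, hmemT, hexp, z, hzT, hz⟩ := cit_facts T hnn hC
  have hTH : (T : Subgroup G) ≤ H := by rw [hHdef]; exact Subgroup.le_normalizer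
  have hSE : Cfsg.IsStronglyEmbedded H := by
    rw [hHdef]; exact Cfsg.Agent.S1226.result T hnc hnn hC
  obtain ⟨g0, rfl⟩ := QuotientGroup.mk_surjective x1
  have e1 : g0⁻¹ • ((g0 : G) : G ⧸ H) = ((1 : G) : G ⧸ H) := by
    have h0 : g0⁻¹ • ((g0 : G) : G ⧸ H) = ((g0⁻¹ * g0 : G) : G ⧸ H) := rfl
    rw [h0, inv_mul_cancel]
  have hx2' : g0⁻¹ • x2 ≠ ((1 : G) : G ⧸ H) := by
    intro h
    exact h12 (smul_left_cancel _ (e1.trans h.symm))
  obtain ⟨τ1, hτ1, hτ1e⟩ := cit_T_trans T hnc hnn hC H hHdef u hu huH _ hx2'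
  have e2 : τ1⁻¹ • g0⁻¹ • x2 = ((u : G) : G ⧸ H) := by rw [← hτ1e, inv_smul_smul]
  have e1' : τ1⁻¹ • ((1 : G) : G ⧸ H) = ((1 : G) : G ⧸ H) :=
    (smul_mk_one_eq_iff H _).mpr (hTH (Subgroup.inv_mem _ hτ1))
  have f1 : (τ1⁻¹ * g0⁻¹) • ((g0 : G) : G ⧸ H) = ((1 : G) : G ⧸ H) := by
    rw [mul_smul, e1, e1']
  have f2 : (τ1⁻¹ * g0⁻¹) • x2 = ((u : G) : G ⧸ H) := by rw [mul_smul, e2]
  have hx3'1 : (τ1⁻¹ * g0⁻¹) • x3 ≠ ((1 : G) : G ⧸ H) := by
    intro h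
    exact h13 (smul_left_cancel _ (f1.trans h.symm))
  have hx3'u : (τ1⁻¹ * g0⁻¹) • x3 ≠ ((u : G) : G ⧸ H) := by
    intro h
    exact h23 (smul_left_cancel _ (f2.trans h.symm))
  obtain ⟨τ, hτ, hτe⟩ := cit_T_trans T hnc hnn hC H hHdef u hu huH _ hx3'1
  have hτ1' : τ ≠ 1 := by
    intro h
    rw [h, one_smul] at hτe
    exact hx3'u hτe.symm
  have hτo : orderOf τ = 2 := orderOf_eq_two_of hτ1' (by rw [← pow_two]; exact hexp τ hτ)
  obtain ⟨d, hd, hdτ⟩ :=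
    (Cfsg.Agent.S1225.result H hSE u hu huH τ τ0 hτo (hTH hτ) hτ0 (hTH hτ0T)).1
  have hd1 : d • ((1 : G) : G ⧸ H) = ((1 : G) : G ⧸ H) := (smul_mk_one_eq_iff H d).mpr hd.1
  have hdu : d • ((u : G) : G ⧸ H) = ((u : G) : G ⧸ H) := smul_mk_self_of_mem_conj H hd.2
  have e' : (d * τ * d⁻¹) • ((u : G) : G ⧸ H) = (d * τ) • ((u : G) : G ⧸ H) := by
    have e0 : (d * τ * d⁻¹) • (d • ((u : G) : G ⧸ H)) = (d * τ) • ((u : G) : G ⧸ H) := by
      rw [smul_smul]; congr 1; group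
    rw [hdu] at e0; exact e0
  refine ⟨d * (τ1⁻¹ * g0⁻¹), ?_, ?_, ?_⟩
  · rw [mul_smul, f1, hd1]
  · rw [mul_smul, f2, hdu]
  · rw [mul_smul, ← hτe, smul_smul, ← hdτ]
    exact e'.symm

end Cfsg.Agent.Lib.Helper2
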