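import Mathlib
import Cfsg.Prelude.Def_LieExceptional
import Cfsg.Agent.Lib.Lead.SylowAux
import Cfsg.Agent.Lib.Helper2.CNMaxNilp
import Cfsg.Agent.Lib.Helper2.CNFrob

set_option autoImplicit false

namespace Cfsg.Agent.Lib.Helper2

/-- In a CN-group, two maximal nilpotent subgroups whose orders share a prime are conjugate. -/
theorem cn_max_nilp_conj {G : Type*} [Group G] [Finite G] (hCN : Cfsg.IsCNGroup G)
    (H₁ H₂ : Subgroup G) (hH₁ : Group.IsNilpotent ↥H₁)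
    (hmax₁ : ∀ L : Subgroup G, Group.IsNilpotent L → H₁ ≤ L → L = H₁)
    (hH₂ : Group.IsNilpotent ↥H₂)
    (hmax₂ : ∀ L : Subgroup G, Group.IsNilpotent L → H₂ ≤ L → L = H₂)
    (p : ℕ) [Fact p.Prime] (hp₁ : p ∣ Nat.card H₁) (hp₂ : p ∣ Nat.card H₂) :
    ∃ g : G, H₂ = H₁.map (MulAut.conj g).toMonoidHom := by
  have hp : p.Prime := Fact.out
  have hA : ∀ (H : Subgroup G), (∀ L : Subgroup G, Group.IsNilpotent L → H ≤ L → L = H) →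
      ∀ z : G, z ≠ 1 → (∀ h ∈ H, z * h = h * z) → Subgroup.centralizer ({z} : Set G) = H := by
    intro H hmax z hz1 hz
    apply hmax _ (hCN z hz1)
    intro h hh
    rw [Subgroup.mem_centralizer_singleton_iff]
    exact (hz h hh).symm
  have hpel : ∀ {q : ℕ} (Q : Subgroup G), IsPGroup q Q → ∀ y ∈ Q, ∃ k : ℕ, y ^ (q ^ k) = 1 := by
    intro q Q hQ y hy
    obtain ⟨k, hk⟩ := hQ ⟨y, hy⟩
    exact ⟨k, by simpa using congrArg Subtype.val hk⟩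
  have hcauchy : ∀ (H : Subgroup G), p ∣ Nat.card H → ∀ Q : Subgroup G,
      (∀ x ∈ H, (∃ k : ℕ, x ^ (p ^ k) = 1) → x ∈ Q) → Q ≠ ⊥ := by
    intro H hpH Q hQa
    obtain ⟨x, hx⟩ := exists_prime_orderOf_dvd_card' (G := ↥H) p hpH
    have h2 : x ^ p = 1 := by rw [← hx]; exact pow_orderOf_eq_one x
    have h3 : (x : G) ^ p = 1 := by
      have := congrArg Subtype.val h2
      simpa using this
    have hxQ : (x : G) ∈ Q := hQa _ x.2 ⟨1, by rw [pow_one]; exact h3⟩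
    intro h
    rw [h, Subgroup.mem_bot] at hxQ
    have h1 : x = 1 := Subtype.ext hxQ
    rw [h1, orderOf_one] at hx
    exact hp.one_lt.ne hx
  obtain ⟨Q₁, hQ₁H, hQ₁p, hQ₁a, hQ₁b, hQ₁e, hQ₁f⟩ := nilp_sylow_data H₁ hH₁ p
  obtain ⟨Q₂, hQ₂H, hQ₂p, hQ₂a, hQ₂b, hQ₂e, hQ₂f⟩ := nilp_sylow_data H₂ hH₂ p
  have hQ₁ne := hcauchy H₁ hp₁ Q₁ hQ₁a
  have hQ₂ne := hcauchy H₂ hp₂ Q₂ hQ₂a
  obtain ⟨S₂, hS₂⟩ := hQ₂p.exists_le_sylow
  have hS₂H : (S₂ : Subgroup G) ≤ H₂ :=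
    cn_pgroup_le hCN H₂ hmax₂ Q₂ hQ₂p hQ₂a hQ₂b hQ₂ne S₂ S₂.2 hS₂
  obtain ⟨g, hg⟩ := Cfsg.Agent.Lib.Lead.sylow_conj_mem S₂ Q₁ hQ₁p
  have hgQ : ∀ y ∈ Q₁, g * y * g⁻¹ ∈ Q₂ := by
    intro y hy
    apply hQ₂a _ (hS₂H (hg y hy))
    obtain ⟨k, hk⟩ := hpel Q₁ hQ₁p y hy
    exact ⟨k, by rw [conj_pow, hk, mul_one, mul_inv_cancel]⟩
  obtain ⟨z₁, hz₁Q, hz₁1, hz₁c⟩ := exists_central_of_pgroup Q₁ hQ₁p hQ₁ne
  have hC₁ := hA H₁ hmax₁ z₁ hz₁1 (hQ₁b z₁ hz₁Q hz₁c)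
  obtain ⟨z₂, hz₂Q, hz₂1, hz₂c⟩ := exists_central_of_pgroup Q₂ hQ₂p hQ₂ne
  have hC₂ := hA H₂ hmax₂ z₂ hz₂1 (hQ₂b z₂ hz₂Q hz₂c)
  obtain ⟨w, hwdef⟩ : ∃ w : G, w = g⁻¹ * z₂ * g := ⟨_, rfl⟩
  have hwcomm : ∀ y ∈ Q₁, w * y = y * w := by
    intro y hy
    have h1 := hz₂c (g * y * g⁻¹) (hgQ y hy)
    rw [hwdef]
    have e1 : g⁻¹ * z₂ * g * y = g⁻¹ * (z₂ * (g * y * g⁻¹)) * g := by group
    have e2 : y * (g⁻¹ * z₂ * g) = g⁻¹ * (g * y * g⁻¹ * z₂) * g := by group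
    rw [e1, e2, h1]
  have hwH : w ∈ H₁ := by
    rw [← hC₁, Subgroup.mem_centralizer_singleton_iff]
    exact hwcomm z₁ hz₁Q
  have hwQ : w ∈ Q₁ := by
    apply hQ₁a w hwH
    obtain ⟨k, hk⟩ := hpel Q₂ hQ₂p z₂ hz₂Q
    refine ⟨k, ?_⟩
    have e : (g⁻¹ * z₂ * g) ^ (p ^ k) = g⁻¹ * z₂ ^ (p ^ k) * g := by
      have h2 := conj_pow (a := g⁻¹) (b := z₂) (i := p ^ k)
      rwa [inv_inv] at h2
    rw [hwdef, e, hk, mul_one, inv_mul_cancel]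
  have hw1 : w ≠ 1 := by
    intro h
    apply hz₂1
    rw [hwdef] at h
    have e : z₂ = g * (g⁻¹ * z₂ * g) * g⁻¹ := by group
    rw [e, h]
    group
  have hCw := hA H₁ hmax₁ w hw1 (hQ₁b w hwQ hwcomm)
  refine ⟨g, ?_⟩
  ext v
  rw [← hC₂, Subgroup.mem_centralizer_singleton_iff]
  constructor
  · intro hv
    refine Subgroup.mem_map.mpr ⟨g⁻¹ * v * g, ?_, ?_⟩
    · rw [← hCw, Subgroup.mem_centralizer_singleton_iff, hwdef]
      have e1 : g⁻¹ * v * g * (g⁻¹ * z₂ * g) = g⁻¹ * (v * z₂) * g := by group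
      have e2 : g⁻¹ * z₂ * g * (g⁻¹ * v * g) = g⁻¹ * (z₂ * v) * g := by group
      rw [e1, e2, hv]
    · show g * (g⁻¹ * v * g) * g⁻¹ = v
      group
  · intro hv
    obtain ⟨h, hh, hhv⟩ := Subgroup.mem_map.mp hv
    have hhv' : g * h * g⁻¹ = v := hhv
    rw [← hCw, Subgroup.mem_centralizer_singleton_iff, hwdef] at hh
    rw [← hhv']
    have e1 : g * h * g⁻¹ * z₂ = g * (h * (g⁻¹ * z₂ * g)) * g⁻¹ := by group
    have e2 : z₂ * (g * h * g⁻¹) = g * (g⁻¹ * z₂ * g * h) * g⁻¹ := by group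
    rw [e1, e2, hh]

/-- Statement form: conjugacy of maximal nilpotent subgroups and transitivity of the
commuting relation on primes, in a CN-group. -/
theorem cn_conj_main {G : Type*} [Group G] [Finite G] (hCN : Cfsg.IsCNGroup G) :
    (∀ H₁ H₂ : Subgroup G,
        (Group.IsNilpotent ↥H₁ ∧ ∀ L : Subgroup G, Group.IsNilpotent L → H₁ ≤ L → L = H₁) →
        (Group.IsNilpotent ↥H₂ ∧ ∀ L : Subgroup G, Group.IsNilpotent L → H₂ ≤ L → L = H₂) →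
        (∃ g : G, H₂ = H₁.map (MulAut.conj g).toMonoidHom) ∨
          (Nat.card H₁).Coprime (Nat.card H₂)) ∧
      ∀ (p q r : ℕ), p.Prime → q.Prime → r.Prime → ∀ (x y y' z : G), x ≠ 1 → y ≠ 1 → y' ≠ 1 →
        z ≠ 1 → IsPGroup p (Subgroup.zpowers x) → IsPGroup q (Subgroup.zpowers y) →
        IsPGroup q (Subgroup.zpowers y') → IsPGroup r (Subgroup.zpowers z) →
        x * y = y * x → y' * z = z * y' →
        ∃ x' z' : G, x' ≠ 1 ∧ z' ≠ 1 ∧ IsPGroup p (Subgroup.zpowers x') ∧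
          IsPGroup r (Subgroup.zpowers z') ∧ x' * z' = z' * x' := by
  have part1 : ∀ H₁ H₂ : Subgroup G,
      (Group.IsNilpotent ↥H₁ ∧ ∀ L : Subgroup G, Group.IsNilpotent L → H₁ ≤ L → L = H₁) →
      (Group.IsNilpotent ↥H₂ ∧ ∀ L : Subgroup G, Group.IsNilpotent L → H₂ ≤ L → L = H₂) →
      (∃ g : G, H₂ = H₁.map (MulAut.conj g).toMonoidHom) ∨
        (Nat.card H₁).Coprime (Nat.card H₂) := by
    rintro H₁ H₂ ⟨hH₁, hmax₁⟩ ⟨hH₂, hmax₂⟩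
    by_cases hcop : (Nat.card H₁).Coprime (Nat.card H₂)
    · exact Or.inr hcop
    · left
      obtain ⟨p, hp, hp₁, hp₂⟩ := Nat.Prime.not_coprime_iff_dvd.mp hcop
      haveI : Fact p.Prime := ⟨hp⟩
      exact cn_max_nilp_conj hCN H₁ H₂ hH₁ hmax₁ hH₂ hmax₂ p hp₁ hp₂
  refine ⟨part1, ?_⟩
  intro p q r hp hq hr x y y' z hx1 hy1 hy'1 hz1 hxp hyq hy'q hzr hxy hy'z
  haveI : Fact p.Prime := ⟨hp⟩
  haveI : Fact q.Prime := ⟨hq⟩
  haveI : Fact r.Prime := ⟨hr⟩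
  by_cases hpr : p = r
  · subst hpr
    exact ⟨x, x, hx1, hx1, hxp, hxp, rfl⟩
  have hex : ∀ N : Subgroup G, Group.IsNilpotent ↥N → ∃ H : Subgroup G, N ≤ H ∧
      Group.IsNilpotent ↥H ∧ ∀ L : Subgroup G, Group.IsNilpotent L → H ≤ L → L = H := by
    intro N hN
    obtain ⟨H, hNH, hHmax⟩ :=
      Finite.exists_le_maximal (p := fun L : Subgroup G => Group.IsNilpotent ↥L) hN
    exact ⟨H, hNH, hHmax.1, fun L hL hHL => le_antisymm (hHmax.2 hL hHL) hHL⟩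
  obtain ⟨H₁, hN₁, hH₁, hmax₁⟩ := hex _ (hCN y hy1)
  obtain ⟨H₂, hN₂, hH₂, hmax₂⟩ := hex _ (hCN y' hy'1)
  have hxH : x ∈ H₁ := hN₁ (Subgroup.mem_centralizer_singleton_iff.mpr hxy)
  have hyH : y ∈ H₁ := hN₁ (Subgroup.mem_centralizer_singleton_iff.mpr rfl)
  have hy'H : y' ∈ H₂ := hN₂ (Subgroup.mem_centralizer_singleton_iff.mpr rfl)
  have hzH : z ∈ H₂ := hN₂ (Subgroup.mem_centralizer_singleton_iff.mpr hy'z.symm)
  have hqdiv : ∀ (H : Subgroup G) (u : G), u ∈ H → u ≠ 1 → IsPGroup q (Subgroup.zpowers u) →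
      q ∣ Nat.card H := by
    intro H u hu hu1 huq
    obtain ⟨k, hk⟩ := IsPGroup.iff_card.mp huq
    rw [Nat.card_zpowers] at hk
    have h1 : orderOf u ∣ Nat.card H := Subgroup.orderOf_dvd_natCard _ hu
    have hk0 : k ≠ 0 := by
      rintro rfl
      rw [pow_zero] at hk
      exact hu1 (orderOf_eq_one_iff.mp hk)
    rw [hk] at h1
    exact (dvd_pow_self q hk0).trans h1
  have hq₁ := hqdiv H₁ y hyH hy1 hyq
  have hq₂ := hqdiv H₂ y' hy'H hy'1 hy'q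
  obtain ⟨g, hg⟩ := cn_max_nilp_conj hCN H₁ H₂ hH₁ hmax₁ hH₂ hmax₂ q hq₁ hq₂
  rw [hg] at hzH
  obtain ⟨z', hz'H, hz'⟩ := Subgroup.mem_map.mp hzH
  have hz'eq : g * z' * g⁻¹ = z := hz'
  have hz'1 : z' ≠ 1 := by
    intro h
    apply hz1
    rw [← hz'eq, h]
    group
  obtain ⟨kz, hkz⟩ := hzr ⟨z, Subgroup.mem_zpowers z⟩
  have hkz' : z ^ (r ^ kz) = 1 := by simpa using congrArg Subtype.val hkz
  have hz'r : z' ^ (r ^ kz) = 1 := by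
    have e : z' = g⁻¹ * z * g := by rw [← hz'eq]; group
    have e2 : (g⁻¹ * z * g) ^ (r ^ kz) = g⁻¹ * z ^ (r ^ kz) * g := by
      have h2 := conj_pow (a := g⁻¹) (b := z) (i := r ^ kz)
      rwa [inv_inv] at h2
    rw [e, e2, hkz', mul_one, inv_mul_cancel]
  obtain ⟨kx, hkx⟩ := hxp ⟨x, Subgroup.mem_zpowers x⟩
  have hkx' : x ^ (p ^ kx) = 1 := by simpa using congrArg Subtype.val hkx
  have hnp : ¬ p ∣ orderOf z' := by
    intro h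
    have h1 : orderOf z' ∣ r ^ kz := orderOf_dvd_of_pow_eq_one hz'r
    exact hpr ((Nat.prime_dvd_prime_iff_eq hp hr).mp (hp.dvd_of_dvd_pow (h.trans h1)))
  have hcomm : z' * x = x * z' := nilp_comm_of_coprime H₁ hH₁ p z' x hz'H hxH hnp ⟨kx, hkx'⟩
  exact ⟨x, z', hx1, hz'1, hxp, isPGroup_zpowers_of_pow_pow hz'r, hcomm.symm⟩

end Cfsg.Agent.Lib.Helper2
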