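import Mathlib
import Cfsg.Prelude
import Cfsg.Agent.S4218
import Cfsg.Agent.Lib.Lead.PQ
import Cfsg.Agent.Lib.Helper4.PCore
import Cfsg.Agent.Lib.Helper4.Normalizer
import Cfsg.Agent.Lib.Helper3.PPrimeCore
import Cfsg.Agent.Lib.Helper2.PComp
import Cfsg.Agent.Lib.Helper2.PSolvOfSolv

set_option autoImplicit false

namespace Cfsg.Agent.Lib.Helper2

universe u

/-- If all involution centralizers are solvable with trivial odd core, then every `2`-local
subgroup `H` satisfies `C_H(O_2(H)) ≤ O_2(H)`. -/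
theorem char2_of_invol_centralizers {G : Type u} [Group G] [Finite G]
    (hs : ∀ t : G, orderOf t = 2 → Group.IsSolvable (Subgroup.centralizer ({t} : Set G)))
    (hc : ∀ t : G, orderOf t = 2 →
      Cfsg.pPrimeCore 2 (Subgroup.centralizer ({t} : Set G)) = ⊥)
    (T : Subgroup G) (hT : IsPGroup 2 T) (hTne : T ≠ ⊥)
    (H : Subgroup G) (hHdef : H = Subgroup.normalizer (T : Set G)) :
    Subgroup.centralizer (Cfsg.pCore 2 ↥H : Set ↥H) ≤ Cfsg.pCore 2 ↥H := by
  classical
  haveI : Fact (Nat.Prime 2) := ⟨Nat.prime_two⟩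
  -- an involution in the centre of `T`
  obtain ⟨t, ht2, htT, htZ⟩ : ∃ t : G, orderOf t = 2 ∧ t ∈ T ∧ ∀ x ∈ T, x * t = t * x := by
    haveI : Nontrivial T := (Subgroup.nontrivial_iff_ne_bot T).2 hTne
    haveI : Nontrivial (Subgroup.center T) := hT.center_nontrivial
    have hZp : IsPGroup 2 (Subgroup.center T) := hT.to_subgroup _
    obtain ⟨k, hk⟩ := IsPGroup.iff_card.1 hZp
    have hk0 : k ≠ 0 := by
      rintro rfl
      rw [pow_zero] at hk
      have h1 := Finite.one_lt_card (α := Subgroup.center T)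
      omega
    have hdvd : 2 ∣ Nat.card (Subgroup.center T) := by rw [hk]; exact dvd_pow_self 2 hk0
    obtain ⟨c, hcord⟩ := exists_prime_orderOf_dvd_card' (G := Subgroup.center T) 2 hdvd
    refine ⟨((c : T) : G), ?_, (c : T).2, ?_⟩
    · rw [Subgroup.orderOf_coe, Subgroup.orderOf_coe]; exact hcord
    · intro x hx
      have h1 := Subgroup.mem_center_iff.1 c.2 ⟨x, hx⟩
      exact congrArg Subtype.val h1
  obtain ⟨C, hCdef⟩ : ∃ C : Subgroup G, C = Subgroup.centralizer ({t} : Set G) := ⟨_, rfl⟩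
  have hCmem : ∀ g : G, g ∈ C ↔ g * t = t * g := by
    intro g
    rw [hCdef, Subgroup.mem_centralizer_iff]
    constructor
    · intro h; exact (h t rfl).symm
    · intro h x hx
      rw [Set.mem_singleton_iff] at hx; rw [hx]; exact h.symm
  have hsC : Group.IsSolvable C := by rw [hCdef]; exact hs t ht2
  have hcC : Cfsg.pPrimeCore 2 C = ⊥ := by rw [hCdef]; exact hc t ht2
  have hCC := Cfsg.Agent.S4218.hh123 (isPSolvable_of_isSolvable 2 hsC) hcC
  obtain ⟨R, hRdef⟩ : ∃ R : Subgroup G, R = (Cfsg.pCore 2 ↥C).map C.subtype := ⟨_, rfl⟩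
  have hR1 : IsPGroup 2 R := by
    rw [hRdef]; exact (Cfsg.Agent.Lib.Helper4.pCore_isPGroup 2 ↥C).map _
  have hR3 : ∀ c ∈ C, ∀ r ∈ R, c * r * c⁻¹ ∈ R := by
    intro c hc r hr
    rw [hRdef] at hr ⊢
    obtain ⟨r', hr', rfl⟩ := Subgroup.mem_map.1 hr
    have hn := Cfsg.Agent.Lib.Helper4.pCore_normal 2 ↥C
    have h1 := hn.conj_mem r' hr' ⟨c, hc⟩
    exact Subgroup.mem_map.2 ⟨_, h1, rfl⟩
  have hR4 : ∀ c ∈ C, (∀ r ∈ R, c * r = r * c) → c ∈ R := by
    intro c hc hcr
    have h1 : (⟨c, hc⟩ : C) ∈ Subgroup.centralizer (Cfsg.pCore 2 ↥C : Set ↥C) := by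
      rw [Subgroup.mem_centralizer_iff]
      intro r' hr'
      apply Subtype.ext
      have h2 : (r' : G) ∈ R := by rw [hRdef]; exact Subgroup.mem_map_of_mem _ hr'
      exact (hcr _ h2).symm
    have h3 := hCC h1
    rw [hRdef]
    exact Subgroup.mem_map.2 ⟨_, h3, rfl⟩
  -- facts about `H`
  have hTH : T ≤ H := by rw [hHdef]; exact Subgroup.le_normalizer
  haveI hTn : (T.subgroupOf H).Normal := by rw [hHdef]; exact Subgroup.normal_in_normalizer
  have hHmem : ∀ e : G, (∀ x ∈ T, e * x = x * e) → e ∈ H := by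
    intro e he
    rw [hHdef, Subgroup.mem_normalizer_iff]
    intro x
    constructor
    · intro hx
      have h1 : e * x * e⁻¹ = x := by rw [he x hx]; group
      rw [h1]; exact hx
    · intro hx
      have h2 := he _ hx
      have h3 : e * x * e⁻¹ = x := by
        have h4 : e * (e * x * e⁻¹) = e * x := by rw [h2]; group
        exact mul_left_cancel h4
      rw [← h3]; exact hx
  obtain ⟨O, hOdef⟩ : ∃ O : Subgroup H, O = Cfsg.pCore 2 ↥H := ⟨_, rfl⟩
  rw [← hOdef]
  have hTO : T.subgroupOf H ≤ O := by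
    rw [hOdef]
    exact Cfsg.Agent.Lib.Helper4.le_pCore hTn hT.comap_subtype
  obtain ⟨Y, hYdef⟩ : ∃ Y : Subgroup H, Y = Subgroup.centralizer (O : Set ↥H) := ⟨_, rfl⟩
  rw [← hYdef]
  haveI hOn : O.Normal := by rw [hOdef]; exact Cfsg.Agent.Lib.Helper4.pCore_normal 2 ↥H
  haveI hYn : Y.Normal := by rw [hYdef]; infer_instance
  have hYO : ∀ y ∈ Y, ∀ o ∈ O, o * y = y * o := by
    intro y hy o ho
    rw [hYdef] at hy
    exact Subgroup.mem_centralizer_iff.1 hy o ho
  have hYT : ∀ y ∈ Y, ∀ x ∈ T, (y : G) * x = x * (y : G) := by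
    intro y hy x hx
    have h1 : (⟨x, hTH hx⟩ : H) ∈ O := hTO (Subgroup.mem_subgroupOf.2 hx)
    have h2 := hYO y hy _ h1
    exact (congrArg Subtype.val h2).symm
  have hYC : ∀ y ∈ Y, (y : G) ∈ C := fun y hy => (hCmem _).2 (hYT y hy t htT)
  haveI hYs : Group.IsSolvable Y := by
    let ψ : Y →* C :=
      { toFun := fun y => ⟨((y : H) : G), hYC y.1 y.2⟩
        map_one' := rfl
        map_mul' := fun a b => rfl }
    have hψ : Function.Injective ψ := by
      intro a b hab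
      have h0 : (ψ a).1 = (ψ b).1 := congrArg Subtype.val hab
      have h1 : ((a : H) : G) = ((b : H) : G) := h0
      exact Subtype.ext (Subtype.ext h1)
    haveI := hsC
    exact Group.isSolvable_of_isSolvable_injective hψ
  have hW : Cfsg.pPrimeCore 2 ↥Y = ⊥ := by
    haveI hchar : (Cfsg.pPrimeCore 2 ↥Y).Characteristic := pPrimeCore_characteristic' 2 ↥Y
    have hWn : ((Cfsg.pPrimeCore 2 ↥Y).map Y.subtype).Normal :=
      ConjAct.normal_of_characteristic_of_normal
    obtain ⟨W, hWdef⟩ : ∃ W : Subgroup G,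
        W = ((Cfsg.pPrimeCore 2 ↥Y).map Y.subtype).map H.subtype := ⟨_, rfl⟩
    have hWcard : (Nat.card W).Coprime 2 := by
      have h1 := Cfsg.Agent.Lib.Helper3.pPrimeCore_coprime Nat.prime_two ↥Y
      have h2 : Nat.card W = Nat.card (Cfsg.pPrimeCore 2 ↥Y) := by
        rw [hWdef, Subgroup.card_map_of_injective H.subtype_injective,
          Subgroup.card_map_of_injective Y.subtype_injective]
      rw [h2]; exact h1
    have hWmem : ∀ w ∈ W, ∃ y : Y, y ∈ Cfsg.pPrimeCore 2 ↥Y ∧ ((y : H) : G) = w := by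
      intro w hw
      rw [hWdef] at hw
      obtain ⟨w1, hw1, rfl⟩ := Subgroup.mem_map.1 hw
      obtain ⟨y, hy, rfl⟩ := Subgroup.mem_map.1 hw1
      exact ⟨y, hy, rfl⟩
    have hWH : ∀ h ∈ H, ∀ w ∈ W, h * w * h⁻¹ ∈ W := by
      intro h hh w hw
      rw [hWdef] at hw ⊢
      obtain ⟨w1, hw1, rfl⟩ := Subgroup.mem_map.1 hw
      have h1 := hWn.conj_mem w1 hw1 ⟨h, hh⟩
      exact Subgroup.mem_map.2 ⟨_, h1, rfl⟩
    have hWC : ∀ w ∈ W, w ∈ C := by
      intro w hw
      obtain ⟨y, _, rfl⟩ := hWmem w hw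
      exact hYC y.1 y.2
    have hWT : ∀ w ∈ W, ∀ x ∈ T, w * x = x * w := by
      intro w hw x hx
      obtain ⟨y, _, rfl⟩ := hWmem w hw
      exact hYT y.1 y.2 x hx
    have hWR : ∀ g : G, g ∈ W → g ∈ R → g = 1 := by
      intro g hgW hgR
      have h1 : orderOf g ∣ Nat.card W := by
        have h0 := orderOf_dvd_natCard (⟨g, hgW⟩ : W)
        rwa [← Subgroup.orderOf_coe] at h0
      obtain ⟨k, hk⟩ := hR1 ⟨g, hgR⟩
      have h2 : g ^ 2 ^ k = 1 := by
        have h0 := congrArg Subtype.val hk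
        rw [Subgroup.coe_pow, Subgroup.coe_one] at h0
        exact h0
      have h3 : orderOf g ∣ 2 ^ k := orderOf_dvd_of_pow_eq_one h2
      have h4 : orderOf g ∣ Nat.gcd (Nat.card W) (2 ^ k) := Nat.dvd_gcd h1 h3
      have h5 : Nat.gcd (Nat.card W) (2 ^ k) = 1 := Nat.Coprime.pow_right k hWcard
      rw [h5] at h4
      exact orderOf_eq_one_iff.1 (Nat.dvd_one.1 h4)
    have hTC : ∀ x ∈ T, x ∈ C := fun x hx => (hCmem x).2 (htZ x hx)
    have hpq := Cfsg.Agent.Lib.Lead.pq_lemma 2 T W hT hWcard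
      (by
        intro x hx
        rw [Subgroup.mem_centralizer_iff]
        intro w hw
        exact hWT w hw x hx)
      _ R rfl hR1
      (Cfsg.Agent.Lib.Helper4.le_normalizer_of_conj_mem
        (fun x hx r hr => hR3 x (hTC x hx) r hr))
      (Cfsg.Agent.Lib.Helper4.le_normalizer_of_conj_mem
        (fun w hw r hr => hR3 w (hWC w hw) r hr))
      (by
        rintro e ⟨heR, heT0⟩
        have heT1 : e ∈ Subgroup.centralizer (T : Set G) := heT0
        have heT := Subgroup.mem_centralizer_iff.1 heT1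
        show e ∈ Subgroup.centralizer (W : Set G)
        rw [Subgroup.mem_centralizer_iff]
        intro w hw
        have heH : e ∈ H := hHmem e (fun x hx => (heT x hx).symm)
        have h1 : e * w * e⁻¹ * w⁻¹ ∈ W := W.mul_mem (hWH e heH w hw) (W.inv_mem hw)
        have h2 : e * w * e⁻¹ * w⁻¹ ∈ R := by
          have h3 : w * e⁻¹ * w⁻¹ ∈ R := hR3 w (hWC w hw) _ (R.inv_mem heR)
          have h4 : e * w * e⁻¹ * w⁻¹ = e * (w * e⁻¹ * w⁻¹) := by group
          rw [h4]; exact R.mul_mem heR h3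
        have h5 := hWR _ h1 h2
        calc w * e = (e * w * e⁻¹ * w⁻¹)⁻¹ * (e * w) := by group
          _ = e * w := by rw [h5, inv_one, one_mul])
    have hWbot : ∀ w ∈ W, w = 1 := by
      intro w hw
      have h1 := Subgroup.mem_centralizer_iff.1 (hpq hw)
      exact hWR w hw (hR4 w (hWC w hw) (fun r hr => (h1 r hr).symm))
    rw [eq_bot_iff]
    intro y hy
    rw [Subgroup.mem_bot]
    have h1 : ((y : H) : G) ∈ W := by
      rw [hWdef]
      exact Subgroup.mem_map_of_mem _ (Subgroup.mem_map_of_mem _ hy)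
    have h2 := hWbot _ h1
    exact Subtype.ext (Subtype.ext h2)
  have hYY := Cfsg.Agent.S4218.hh123 (isPSolvable_of_isSolvable 2 hYs) hW
  haveI hchar2 : (Cfsg.pCore 2 ↥Y).Characteristic :=
    Cfsg.Agent.Lib.Helper4.pCore_characteristic 2 ↥Y
  have hAn : ((Cfsg.pCore 2 ↥Y).map Y.subtype).Normal :=
    ConjAct.normal_of_characteristic_of_normal
  have hAO : (Cfsg.pCore 2 ↥Y).map Y.subtype ≤ O := by
    rw [hOdef]
    exact Cfsg.Agent.Lib.Helper4.le_pCore hAn
      ((Cfsg.Agent.Lib.Helper4.pCore_isPGroup 2 ↥Y).map _)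
  have hYp : IsPGroup 2 Y := by
    intro y
    have h1 : y ∈ Subgroup.centralizer (Cfsg.pCore 2 ↥Y : Set ↥Y) := by
      rw [Subgroup.mem_centralizer_iff]
      intro r hr
      apply Subtype.ext
      have h2 : (r : H) ∈ O := hAO (Subgroup.mem_map_of_mem _ hr)
      exact hYO y.1 y.2 _ h2
    have h3 := hYY h1
    obtain ⟨k, hk⟩ := (Cfsg.Agent.Lib.Helper4.pCore_isPGroup 2 ↥Y) ⟨y, h3⟩
    refine ⟨k, ?_⟩
    have h4 := congrArg Subtype.val hk
    rw [Subgroup.coe_pow, Subgroup.coe_one] at h4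
    exact h4
  rw [hOdef]
  exact Cfsg.Agent.Lib.Helper4.le_pCore hYn hYp

end Cfsg.Agent.Lib.Helper2
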