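import Mathlib
import Cfsg.Prelude.Def_ChevStructure
import Cfsg.Prelude.Def_LieTypes
import Cfsg.Prelude.Def_ChevB2

set_option autoImplicit false

namespace Cfsg.Agent.Lib.Helper2

open Cfsg.Lie

theorem chev_list_cases {P : ChevalleyDatum → Prop} (D : ChevalleyDatum)
    (hD : D ∈ [chevG2, chevB2, chevD4, chevF4, chevE6, chevE7, chevE8])
    (h1 : P chevG2) (h2 : P chevB2) (h3 : P chevD4) (h4 : P chevF4) (h5 : P chevE6)
    (h6 : P chevE7) (h7 : P chevE8) : P D := by
  simp only [List.mem_cons, List.not_mem_nil, or_false] at hD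
  rcases hD with rfl | rfl | rfl | rfl | rfl | rfl | rfl <;> assumption

set_option maxRecDepth 100000 in
theorem chev_pos_or_neg (D : ChevalleyDatum)
    (hD : D ∈ [chevG2, chevB2, chevD4, chevF4, chevE6, chevE7, chevE8]) :
    ∀ r < D.nroots, D.IsPosRoot r ∨ D.IsNegRoot r := by
  apply chev_list_cases (P := fun D => ∀ r < D.nroots, D.IsPosRoot r ∨ D.IsNegRoot r) D hD <;>
    decide

set_option maxRecDepth 100000 in
theorem chev_neg_facts (D : ChevalleyDatum)
    (hD : D ∈ [chevG2, chevB2, chevD4, chevF4, chevE6, chevE7, chevE8]) :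
    ∀ r < D.nroots, D.negIdx.getD r 0 < D.nroots ∧ D.negIdx.getD r 0 ≠ r := by
  apply chev_list_cases
    (P := fun D => ∀ r < D.nroots, D.negIdx.getD r 0 < D.nroots ∧ D.negIdx.getD r 0 ≠ r) D hD <;>
    decide

theorem chainCoeff_fst_ne_zero (D : ChevalleyDatum) (r s u : ℕ) :
    ∀ km ∈ D.chainCoeff r s u, km.1 ≠ 0 := by
  intro km hkm
  unfold ChevalleyDatum.chainCoeff at hkm
  rw [List.mem_flatMap] at hkm
  obtain ⟨e, _, he⟩ := hkm
  rw [List.mem_map] at he
  obtain ⟨q, _, rfl⟩ := he
  exact Nat.succ_ne_zero _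

theorem xMat_zero (D : ChevalleyDatum) (F : Type*) [Field F] (r : Fin D.nroots) :
    D.xMat F r 0 = 1 := by
  ext row col
  rcases col with i | s
  · rcases row with i' | u
    · simp [ChevalleyDatum.xMat, Matrix.one_apply]
    · simp [ChevalleyDatum.xMat, Matrix.one_apply]
  · have hsum : ∀ u : ℕ, ((D.chainCoeff r.val s.val u).map
        fun km => ((km.2 : ℤ) : F) * (0 : F) ^ km.1).sum = 0 := by
      intro u
      apply List.sum_eq_zero
      intro x hx
      rw [List.mem_map] at hx
      obtain ⟨km, hkm, rfl⟩ := hx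
      rw [zero_pow (chainCoeff_fst_ne_zero D _ _ _ km hkm), mul_zero]
    rcases row with i | u
    · simp only [ChevalleyDatum.xMat, Matrix.of_apply, Matrix.one_apply]
      split_ifs <;> simp_all
    · simp only [ChevalleyDatum.xMat, Matrix.of_apply, Matrix.one_apply, hsum]
      split_ifs <;> simp_all

theorem xMat_apply_neg (D : ChevalleyDatum) (F : Type*) [Field F] (r s : Fin D.nroots) (t : F)
    (hsr : s ≠ r) (hs : s.val = D.negIdx.getD r.val 0) :
    D.xMat F r t (Sum.inr r) (Sum.inr s) = -(t ^ 2) := by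
  simp [ChevalleyDatum.xMat, hsr, hs, Ne.symm hsr]

theorem xMat_map (D : ChevalleyDatum) {F : Type*} [Field F] (f : F ≃+* F) (r : Fin D.nroots)
    (t : F) : (D.xMat F r t).map f = D.xMat F r (f t) := by
  ext row col
  rw [Matrix.map_apply]
  rcases col with i | s
  · rcases row with i' | u
    · simp only [ChevalleyDatum.xMat, Matrix.of_apply]
      split_ifs <;> simp
    · simp only [ChevalleyDatum.xMat, Matrix.of_apply]
      split_ifs <;> simp
  · have hsum : ∀ u : ℕ, f (((D.chainCoeff r.val s.val u).map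
        fun km => ((km.2 : ℤ) : F) * t ^ km.1).sum)
        = ((D.chainCoeff r.val s.val u).map fun km => ((km.2 : ℤ) : F) * (f t) ^ km.1).sum := by
      intro u
      rw [map_list_sum, List.map_map]
      congr 1
      apply List.map_congr_left
      intro km _
      simp
    rcases row with i | u
    · simp only [ChevalleyDatum.xMat, Matrix.of_apply]
      split_ifs <;> simp
    · simp only [ChevalleyDatum.xMat, Matrix.of_apply]
      split_ifs <;> simp [hsum]

end Cfsg.Agent.Lib.Helper2
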