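import Mathlib
import Cfsg.Agent.Lib.Helper2.Chev

set_option autoImplicit false

namespace Cfsg.Agent.Lib.Helper2

open Cfsg.Lie

section generic

variable {ι R : Type*} [Fintype ι] [DecidableEq ι] [Ring R]

/-- `N` is strictly triangular of depth `k` with respect to the rank function `ρ`: the entry
`(i, j)` vanishes unless `ρ i ≥ ρ j + k`. -/
def STk (ρ : ι → ℕ) (k : ℕ) (N : Matrix ι ι R) : Prop :=
  ∀ i j, ρ i < ρ j + k → N i j = 0

theorem STk_mono (ρ : ι → ℕ) {k k' : ℕ} (h : k ≤ k') {N : Matrix ι ι R} (hN : STk ρ k' N) :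
    STk ρ k N :=
  fun i j hij => hN i j (by omega)

theorem STk_zero (ρ : ι → ℕ) (k : ℕ) : STk ρ k (0 : Matrix ι ι R) := fun _ _ _ => rfl

theorem STk_one (ρ : ι → ℕ) : STk ρ 0 (1 : Matrix ι ι R) := by
  intro i j hij
  apply Matrix.one_apply_ne
  intro h
  rw [h] at hij
  omega

theorem STk_add (ρ : ι → ℕ) {k : ℕ} {M N : Matrix ι ι R} (hM : STk ρ k M) (hN : STk ρ k N) :
    STk ρ k (M + N) := by
  intro i j hij
  rw [Matrix.add_apply, hM i j hij, hN i j hij, add_zero]

theorem STk_neg (ρ : ι → ℕ) {k : ℕ} {M : Matrix ι ι R} (hM : STk ρ k M) : STk ρ k (-M) := by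
  intro i j hij
  rw [Matrix.neg_apply, hM i j hij, neg_zero]

theorem STk_sub (ρ : ι → ℕ) {k : ℕ} {M N : Matrix ι ι R} (hM : STk ρ k M) (hN : STk ρ k N) :
    STk ρ k (M - N) := by
  intro i j hij
  rw [Matrix.sub_apply, hM i j hij, hN i j hij, sub_zero]

theorem STk_mul (ρ : ι → ℕ) {a b : ℕ} {M N : Matrix ι ι R} (hM : STk ρ a M) (hN : STk ρ b N) :
    STk ρ (a + b) (M * N) := by
  intro i j hij
  rw [Matrix.mul_apply]
  apply Finset.sum_eq_zero
  intro l _
  by_cases h1 : ρ i < ρ l + a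
  · rw [hM i l h1, zero_mul]
  · rw [hN l j (by omega), mul_zero]

theorem STk_pow (ρ : ι → ℕ) {N : Matrix ι ι R} (hN : STk ρ 1 N) (k : ℕ) : STk ρ k (N ^ k) := by
  induction k with
  | zero => rw [pow_zero]; exact STk_one ρ
  | succ k ih => rw [pow_succ]; exact STk_mul ρ ih hN

theorem STk_eq_zero (ρ : ι → ℕ) (n : ℕ) (hρ : ∀ i, ρ i < n) {N : Matrix ι ι R}
    (hN : STk ρ n N) : N = 0 := by
  ext i j
  exact hN i j (by have := hρ i; omega)

theorem STk_sum (ρ : ι → ℕ) {k : ℕ} {α : Type*} (s : Finset α) (f : α → Matrix ι ι R)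
    (hf : ∀ a ∈ s, STk ρ k (f a)) : STk ρ k (∑ a ∈ s, f a) := by
  intro i j hij
  rw [Matrix.sum_apply]
  apply Finset.sum_eq_zero
  intro a ha
  exact hf a ha i j hij

theorem UT_mul (ρ : ι → ℕ) {M N : Matrix ι ι R} {k : ℕ} (hM : STk ρ (k + 1) (M - 1))
    (hN : STk ρ (k + 1) (N - 1)) : STk ρ (k + 1) (M * N - 1) := by
  have e : M * N - 1 = (M - 1) * (N - 1) + (M - 1) + (N - 1) := by noncomm_ring
  rw [e]
  exact STk_add ρ (STk_add ρ (STk_mono ρ (by omega) (STk_mul ρ hM hN)) hM) hN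

theorem UT_inv_eq (ρ : ι → ℕ) (n : ℕ) (hρ : ∀ i, ρ i < n + 1) (g : (Matrix ι ι R)ˣ)
    (hg : STk ρ 1 ((g : Matrix ι ι R) - 1)) :
    STk ρ 1 (((g⁻¹ : (Matrix ι ι R)ˣ) : Matrix ι ι R) - 1) := by
  obtain ⟨N, hN⟩ : ∃ N : Matrix ι ι R, N = (g : Matrix ι ι R) - 1 := ⟨_, rfl⟩
  rw [← hN] at hg
  have hx : STk ρ 1 (-N) := STk_neg ρ hg
  have hpow : (-N) ^ (n + 1) = 0 := STk_eq_zero ρ (n + 1) hρ (STk_pow ρ hx (n + 1))
  have hgeom := mul_neg_geom_sum (-N) (n + 1)
  rw [hpow, sub_zero] at hgeom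
  have hg1 : (1 : Matrix ι ι R) - -N = (g : Matrix ι ι R) := by rw [hN]; noncomm_ring
  rw [hg1] at hgeom
  have hinv : ((g⁻¹ : (Matrix ι ι R)ˣ) : Matrix ι ι R)
      = ∑ i ∈ Finset.range (n + 1), (-N) ^ i := by
    calc ((g⁻¹ : (Matrix ι ι R)ˣ) : Matrix ι ι R)
        = ((g⁻¹ : (Matrix ι ι R)ˣ) : Matrix ι ι R)
          * ((g : Matrix ι ι R) * ∑ i ∈ Finset.range (n + 1), (-N) ^ i) := by
          rw [hgeom, mul_one]
      _ = ∑ i ∈ Finset.range (n + 1), (-N) ^ i := by rw [← mul_assoc, Units.inv_mul, one_mul]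
  rw [hinv, Finset.sum_range_succ', pow_zero, add_sub_cancel_right]
  apply STk_sum
  intro a _
  exact STk_mono ρ (by omega) (STk_pow ρ hx (a + 1))

theorem STk_zero_of_UT (ρ : ι → ℕ) {M : Matrix ι ι R} (hM : STk ρ 1 (M - 1)) : STk ρ 0 M := by
  have e : M = (M - 1) + 1 := (sub_add_cancel M 1).symm
  have h1 : STk ρ 0 ((M - 1) + 1) := STk_add ρ (STk_mono ρ (by omega) hM) (STk_one ρ)
  rw [← e] at h1
  exact h1

theorem STk_commutator (ρ : ι → ℕ) (n : ℕ) (hρ : ∀ i, ρ i < n + 1) (k : ℕ)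
    (x g : (Matrix ι ι R)ˣ) (hx1 : STk ρ 1 ((x : Matrix ι ι R) - 1))
    (hx : STk ρ (k + 1) ((x : Matrix ι ι R) - 1)) (hg : STk ρ 1 ((g : Matrix ι ι R) - 1)) :
    STk ρ (k + 2) (((x * g * x⁻¹ * g⁻¹ : (Matrix ι ι R)ˣ) : Matrix ι ι R) - 1) := by
  have hxi := STk_zero_of_UT ρ (UT_inv_eq ρ n hρ x hx1)
  have hgi := STk_zero_of_UT ρ (UT_inv_eq ρ n hρ g hg)
  have e : ((x * g * x⁻¹ * g⁻¹ : (Matrix ι ι R)ˣ) : Matrix ι ι R) - 1
      = (((x : Matrix ι ι R) - 1) * ((g : Matrix ι ι R) - 1)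
          - ((g : Matrix ι ι R) - 1) * ((x : Matrix ι ι R) - 1))
        * ((x⁻¹ : (Matrix ι ι R)ˣ) : Matrix ι ι R) * ((g⁻¹ : (Matrix ι ι R)ˣ) : Matrix ι ι R) := by
    have h1 : ((x : Matrix ι ι R) - 1) * ((g : Matrix ι ι R) - 1)
        - ((g : Matrix ι ι R) - 1) * ((x : Matrix ι ι R) - 1)
        = (x : Matrix ι ι R) * (g : Matrix ι ι R) - (g : Matrix ι ι R) * (x : Matrix ι ι R) := by
      noncomm_ring
    have h2 : (g : Matrix ι ι R) * (x : Matrix ι ι R) * ((x⁻¹ : (Matrix ι ι R)ˣ) : Matrix ι ι R)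
        * ((g⁻¹ : (Matrix ι ι R)ˣ) : Matrix ι ι R) = 1 := by
      rw [mul_assoc (g : Matrix ι ι R), Units.mul_inv, mul_one, Units.mul_inv]
    rw [h1, sub_mul, sub_mul, h2]
    simp only [Units.val_mul]
  rw [e]
  have h3 : STk ρ (k + 1 + 1) (((x : Matrix ι ι R) - 1) * ((g : Matrix ι ι R) - 1)
      - ((g : Matrix ι ι R) - 1) * ((x : Matrix ι ι R) - 1)) :=
    STk_sub ρ (STk_mul ρ hx hg) (STk_mono ρ (by omega) (STk_mul ρ hg hx))
  have h4 := STk_mul ρ (STk_mul ρ h3 hxi) hgi
  exact STk_mono ρ (by omega) h4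

/-- A group of unitriangular matrices is nilpotent. -/
theorem nilpotent_of_UT (ρ : ι → ℕ) (n : ℕ) (hρ : ∀ i, ρ i < n + 1)
    (U : Subgroup (Matrix ι ι R)ˣ) (hU : ∀ u ∈ U, STk ρ 1 ((u : Matrix ι ι R) - 1)) :
    Group.IsNilpotent ↥U := by
  rw [Subgroup.nilpotent_iff_finite_descending_central_series]
  let H : ℕ → Subgroup ↥U := fun k =>
    { carrier := {u | STk ρ (k + 1) (((u : (Matrix ι ι R)ˣ) : Matrix ι ι R) - 1)}
      one_mem' := by
        show STk ρ (k + 1) ((((1 : ↥U) : (Matrix ι ι R)ˣ) : Matrix ι ι R) - 1)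
        rw [Subgroup.coe_one, Units.val_one, sub_self]
        exact STk_zero ρ (k + 1)
      mul_mem' := by
        intro a b ha hb
        show STk ρ (k + 1) ((((a * b : ↥U) : (Matrix ι ι R)ˣ) : Matrix ι ι R) - 1)
        rw [Subgroup.coe_mul, Units.val_mul]
        exact UT_mul ρ ha hb
      inv_mem' := by
        intro a ha
        show STk ρ (k + 1) ((((a⁻¹ : ↥U) : (Matrix ι ι R)ˣ) : Matrix ι ι R) - 1)
        rw [Subgroup.coe_inv]
        have hai := STk_zero_of_UT ρ (UT_inv_eq ρ n hρ (a : (Matrix ι ι R)ˣ) (hU _ a.2))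
        have e : (((a : (Matrix ι ι R)ˣ)⁻¹ : (Matrix ι ι R)ˣ) : Matrix ι ι R) - 1
            = -((((a : (Matrix ι ι R)ˣ)⁻¹ : (Matrix ι ι R)ˣ) : Matrix ι ι R)
              * (((a : (Matrix ι ι R)ˣ) : Matrix ι ι R) - 1)) := by
          rw [mul_sub, Units.inv_mul, mul_one, neg_sub]
        rw [e]
        have h1 := STk_mul ρ hai ha
        exact STk_neg ρ (STk_mono ρ (by omega) h1) }
  refine ⟨n, H, ⟨?_, ?_⟩, ?_⟩
  · rw [eq_top_iff]
    intro u _
    exact hU _ u.2
  · intro x k hx g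
    rw [commutatorElement_def]
    exact STk_commutator ρ n hρ k (x : (Matrix ι ι R)ˣ) (g : (Matrix ι ι R)ˣ) (hU _ x.2) hx
      (hU _ g.2)
  · rw [eq_bot_iff]
    intro u hu
    rw [Subgroup.mem_bot]
    have h0 : (((u : (Matrix ι ι R)ˣ) : Matrix ι ι R) - 1) = 0 := STk_eq_zero ρ (n + 1) hρ hu
    apply Subtype.ext
    apply Units.ext
    rw [Subgroup.coe_one, Units.val_one]
    exact sub_eq_zero.mp h0

end generic

section chev

/-- A rank function on the coordinate index set: negative roots, then the coroots, then the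
positive roots. -/
def chevRank (D : ChevalleyDatum) : D.Idx → ℕ
  | Sum.inl _ => D.nroots / 2
  | Sum.inr s => if s.val < D.nroots / 2 then s.val else s.val + 1

theorem chevRank_lt (D : ChevalleyDatum) (i : D.Idx) : chevRank D i < D.nroots + 1 := by
  rcases i with i | s
  · show D.nroots / 2 < D.nroots + 1
    omega
  · show (if s.val < D.nroots / 2 then s.val else s.val + 1) < D.nroots + 1
    have := s.isLt
    split_ifs <;> omega

set_option maxRecDepth 100000 in
theorem chev_pos_facts (D : ChevalleyDatum)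
    (hD : D ∈ [chevG2, chevB2, chevD4, chevF4, chevE6, chevE7, chevE8]) :
    ∀ r < D.nroots, D.IsPosRoot r → D.nroots / 2 ≤ r ∧ D.negIdx.getD r 0 < D.nroots / 2 := by
  apply chev_list_cases (P := fun D => ∀ r < D.nroots, D.IsPosRoot r →
    D.nroots / 2 ≤ r ∧ D.negIdx.getD r 0 < D.nroots / 2) D hD <;> decide

set_option maxRecDepth 100000 in
theorem chev_chain_facts (D : ChevalleyDatum)
    (hD : D ∈ [chevG2, chevB2, chevD4, chevF4, chevE6, chevE7, chevE8]) :
    ∀ r < D.nroots, D.IsPosRoot r →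
      ∀ e ∈ (D.chain.getD r #[]).toList, ∀ q ∈ e.2.toList, e.1 < q.1 := by
  apply chev_list_cases (P := fun D => ∀ r < D.nroots, D.IsPosRoot r →
    ∀ e ∈ (D.chain.getD r #[]).toList, ∀ q ∈ e.2.toList, e.1 < q.1) D hD <;> decide

theorem chev_rank_pos (D : ChevalleyDatum)
    (hD : D ∈ [chevG2, chevB2, chevD4, chevF4, chevE6, chevE7, chevE8]) : 0 < D.rank := by
  apply chev_list_cases (P := fun D => 0 < D.rank) D hD <;> decide

theorem chainCoeff_eq_nil (D : ChevalleyDatum) (r s u : ℕ)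
    (h : ∀ e ∈ (D.chain.getD r #[]).toList, ∀ q ∈ e.2.toList, e.1 < q.1) (hus : u ≤ s) :
    D.chainCoeff r s u = [] := by
  rw [List.eq_nil_iff_forall_not_mem]
  intro km hkm
  unfold ChevalleyDatum.chainCoeff at hkm
  rw [List.mem_flatMap] at hkm
  obtain ⟨e, he, hq⟩ := hkm
  rw [List.mem_filter] at he
  rw [List.mem_map] at hq
  obtain ⟨q, hq, _⟩ := hq
  rw [List.mem_filter] at hq
  have h1 := h e he.1 q.1 (List.fst_mem_of_mem_zipIdx hq.1)
  have h2 : e.1 = s := of_decide_eq_true he.2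
  have h3 : q.1.1 = u := of_decide_eq_true hq.2
  omega

variable (D : ChevalleyDatum) {F : Type*} [Field F]

theorem xMat_inl_inl (r : Fin D.nroots) (t : F) (i' i : Fin D.rank) :
    D.xMat F r t (Sum.inl i') (Sum.inl i) = if i' = i then 1 else 0 := rfl

theorem xMat_inr_inl (r : Fin D.nroots) (t : F) (u : Fin D.nroots) (i : Fin D.rank) :
    D.xMat F r t (Sum.inr u) (Sum.inl i)
      = if u = r then -(((D.cartanSR.getD i.val #[]).getD r.val 0 : ℤ) : F) * t else 0 := rfl

theorem xMat_inr_inr (r s : Fin D.nroots) (t : F) (u : Fin D.nroots) :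
    D.xMat F r t (Sum.inr u) (Sum.inr s) =
      if s = r then (if u = r then 1 else 0)
      else if s.val = D.negIdx.getD r.val 0 then
        (if u = s then 1 else if u = r then -(t ^ 2) else 0)
      else (if u = s then 1 else 0)
        + ((D.chainCoeff r.val s.val u.val).map fun km => ((km.2 : ℤ) : F) * t ^ km.1).sum :=
  rfl

theorem xMat_inl_inr (r s : Fin D.nroots) (t : F) (i : Fin D.rank) :
    D.xMat F r t (Sum.inl i) (Sum.inr s) =
      if s = r then 0
      else if s.val = D.negIdx.getD r.val 0 then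
        (((D.coroot.getD r.val #[]).getD i.val 0 : ℤ) : F) * t
      else 0 := rfl

theorem one_apply_inr_inr (u s : Fin D.nroots) :
    (1 : Matrix D.Idx D.Idx F) (Sum.inr u) (Sum.inr s) = if u = s then 1 else 0 := by
  simp [Matrix.one_apply]

theorem one_apply_inl_inl (i' i : Fin D.rank) :
    (1 : Matrix D.Idx D.Idx F) (Sum.inl i') (Sum.inl i) = if i' = i then 1 else 0 := by
  simp [Matrix.one_apply]

theorem one_apply_inr_inl (u : Fin D.nroots) (i : Fin D.rank) :
    (1 : Matrix D.Idx D.Idx F) (Sum.inr u) (Sum.inl i) = 0 := by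
  simp [Matrix.one_apply]

theorem one_apply_inl_inr (i : Fin D.rank) (s : Fin D.nroots) :
    (1 : Matrix D.Idx D.Idx F) (Sum.inl i) (Sum.inr s) = 0 := by
  simp [Matrix.one_apply]

theorem xMat_UT
    (hT1 : ∀ r < D.nroots, D.IsPosRoot r →
      D.nroots / 2 ≤ r ∧ D.negIdx.getD r 0 < D.nroots / 2)
    (hT2 : ∀ r < D.nroots, D.IsPosRoot r →
      ∀ e ∈ (D.chain.getD r #[]).toList, ∀ q ∈ e.2.toList, e.1 < q.1)
    (r : Fin D.nroots) (hr : D.IsPosRoot r.val) (t : F) :
    STk (chevRank D) 1 (D.xMat F r t - 1) := by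
  obtain ⟨hrN, hnegN⟩ := hT1 r.val r.isLt hr
  have hchain := hT2 r.val r.isLt hr
  have hρr : chevRank D (Sum.inr r) = r.val + 1 := by
    show (if r.val < D.nroots / 2 then r.val else r.val + 1) = r.val + 1
    rw [if_neg (by omega)]
  intro row col hlt
  rw [Matrix.sub_apply, sub_eq_zero]
  rcases col with i | s
  · rcases row with i' | u
    · rw [xMat_inl_inl, one_apply_inl_inl]
    · have hur : u ≠ r := by
        intro hur'
        have h1 : chevRank D (Sum.inl i) = D.nroots / 2 := rfl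
        rw [hur', hρr, h1] at hlt
        omega
      rw [xMat_inr_inl, one_apply_inr_inl, if_neg hur]
  · by_cases hsr : s = r
    · rcases row with i | u
      · rw [xMat_inl_inr, if_pos hsr, one_apply_inl_inr]
      · rw [xMat_inr_inr, if_pos hsr, one_apply_inr_inr, hsr]
    · by_cases hsneg : s.val = D.negIdx.getD r.val 0
      · have hsN : s.val < D.nroots / 2 := by rw [hsneg]; exact hnegN
        have hρs : chevRank D (Sum.inr s) = s.val := by
          show (if s.val < D.nroots / 2 then s.val else s.val + 1) = s.val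
          rw [if_pos hsN]
        rcases row with i | u
        · exfalso
          have h1 : chevRank D (Sum.inl i) = D.nroots / 2 := rfl
          rw [hρs, h1] at hlt
          omega
        · rw [xMat_inr_inr, if_neg hsr, if_pos hsneg, one_apply_inr_inr]
          by_cases h : u = s
          · rw [if_pos h, if_pos h]
          · have hur : u ≠ r := by
              intro hur'
              rw [hur', hρr, hρs] at hlt
              omega
            rw [if_neg h, if_neg h, if_neg hur]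
      · rcases row with i | u
        · rw [xMat_inl_inr, if_neg hsr, if_neg hsneg, one_apply_inl_inr]
        · have hus : u.val ≤ s.val := by
            by_contra hcon
            push Not at hcon
            have h1 : chevRank D (Sum.inr u)
                = (if u.val < D.nroots / 2 then u.val else u.val + 1) := rfl
            have h2 : chevRank D (Sum.inr s)
                = (if s.val < D.nroots / 2 then s.val else s.val + 1) := rfl
            rw [h1, h2] at hlt
            split_ifs at hlt <;> omega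
          rw [xMat_inr_inr, if_neg hsr, if_neg hsneg, one_apply_inr_inr,
            chainCoeff_eq_nil D r.val s.val u.val hchain hus, List.map_nil, List.sum_nil,
            add_zero]

/-- Every element of `U` is unitriangular with respect to `chevRank`. -/
theorem posUnipotent_UT (hD : D ∈ [chevG2, chevB2, chevD4, chevF4, chevE6, chevE7, chevE8])
    (g : GL D.Idx F) (hg : g ∈ D.posUnipotent F) :
    STk (chevRank D) 1 ((g : Matrix D.Idx D.Idx F) - 1) := by
  have hT1 := chev_pos_facts D hD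
  have hT2 := chev_chain_facts D hD
  unfold ChevalleyDatum.posUnipotent at hg
  induction hg using Subgroup.closure_induction with
  | mem x hx =>
    obtain ⟨r, t, hr, hx⟩ := hx
    rw [hx]
    unfold ChevalleyDatum.x
    rw [dif_pos hr.1]
    exact xMat_UT D hT1 hT2 ⟨r, hr.1⟩ hr t
  | one =>
    rw [Units.val_one, sub_self]
    exact STk_zero _ 1
  | mul x y _ _ hx hy =>
    rw [Units.val_mul]
    exact UT_mul _ hx hy
  | inv x _ hx =>
    exact UT_inv_eq _ D.nroots (chevRank_lt D) x hx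

end chev

end Cfsg.Agent.Lib.Helper2
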