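import Mathlib

set_option autoImplicit false

namespace Cfsg.Agent.Lib.Helper2

/-- If every point stabilizer has index divisible by `d`, then `d` divides the size of the set. -/
theorem dvd_card_of_dvd_stabilizer_index {N X : Type*} [Group N] [MulAction N X] [Finite X]
    (d : ℕ) (h : ∀ x : X, d ∣ (MulAction.stabilizer N x).index) : d ∣ Nat.card X := by
  classical
  haveI : Fintype (MulAction.orbitRel.Quotient N X) := Fintype.ofFinite _
  rw [Nat.card_congr (MulAction.selfEquivSigmaOrbits' N X), Nat.card_sigma]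
  apply Finset.dvd_sum
  intro ω _
  induction ω using Quotient.inductionOn' with
  | h x =>
    rw [MulAction.orbitRel.Quotient.orbit_mk, Nat.card_coe_set_eq, ← MulAction.index_stabilizer]
    exact h x

/-- Simultaneous conjugation by a subgroup `P` on pairs `(y, z)` of conjugates of `g`, `h` with
`z y⁻¹ ∈ P`. -/
@[reducible] def pairAct {G : Type*} [Group G] (P : Subgroup G) (g h : G) :
    MulAction ↥P {yz : G × G // IsConj g yz.1 ∧ IsConj h yz.2 ∧ yz.2 * yz.1⁻¹ ∈ P} where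
  smul x yz := ⟨((x : G) * yz.1.1 * (x : G)⁻¹, (x : G) * yz.1.2 * (x : G)⁻¹),
    yz.2.1.trans (isConj_iff.mpr ⟨(x : G), rfl⟩),
    yz.2.2.1.trans (isConj_iff.mpr ⟨(x : G), rfl⟩), by
      have h1 : (x : G) * yz.1.2 * (x : G)⁻¹ * ((x : G) * yz.1.1 * (x : G)⁻¹)⁻¹ =
          (x : G) * (yz.1.2 * yz.1.1⁻¹) * (x : G)⁻¹ := by group
      rw [h1]
      exact P.mul_mem (P.mul_mem x.2 yz.2.2.2) (P.inv_mem x.2)⟩
  one_smul := by
    intro yz
    apply Subtype.ext
    apply Prod.ext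
    · show ((1 : ↥P) : G) * yz.1.1 * ((1 : ↥P) : G)⁻¹ = yz.1.1
      rw [Subgroup.coe_one]; group
    · show ((1 : ↥P) : G) * yz.1.2 * ((1 : ↥P) : G)⁻¹ = yz.1.2
      rw [Subgroup.coe_one]; group
  mul_smul := by
    intro a b yz
    apply Subtype.ext
    apply Prod.ext
    · show ((a * b : ↥P) : G) * yz.1.1 * ((a * b : ↥P) : G)⁻¹ =
        (a : G) * ((b : G) * yz.1.1 * (b : G)⁻¹) * (a : G)⁻¹
      rw [Subgroup.coe_mul]; group
    · show ((a * b : ↥P) : G) * yz.1.2 * ((a * b : ↥P) : G)⁻¹ =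
        (a : G) * ((b : G) * yz.1.2 * (b : G)⁻¹) * (a : G)⁻¹
      rw [Subgroup.coe_mul]; group

theorem sylow_class_pairs {G : Type*} [Group G] [Finite G] (p : ℕ) [hp : Fact p.Prime]
    (P : Sylow p G) (g h : G) (S : Sylow p (Subgroup.centralizer ({g} : Set G))) :
    Nat.card P / Nat.card S ∣ Nat.card {yz : G × G // IsConj g yz.1 ∧ IsConj h yz.2 ∧
      yz.2 * yz.1⁻¹ ∈ (P : Subgroup G)} := by
  classical
  letI := pairAct (P : Subgroup G) g h
  apply dvd_card_of_dvd_stabilizer_index (N := ↥(P : Subgroup G))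
  rintro ⟨⟨y, z⟩, hy, hz, hzy⟩
  obtain ⟨c, hc0⟩ := isConj_iff.mp hy
  have hc : c * g * c⁻¹ = y := hc0
  obtain ⟨K, hK⟩ : ∃ K : Subgroup ↥(P : Subgroup G), K = MulAction.stabilizer ↥(P : Subgroup G)
      (⟨(y, z), hy, hz, hzy⟩ : {yz : G × G // IsConj g yz.1 ∧ IsConj h yz.2 ∧
        yz.2 * yz.1⁻¹ ∈ (P : Subgroup G)}) := ⟨_, rfl⟩
  rw [← hK]
  have hKy : ∀ k ∈ K, (k : G) * y * (k : G)⁻¹ = y := by
    intro k hk
    rw [hK] at hk
    have h1 := MulAction.mem_stabilizer_iff.mp hk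
    have h2 := congrArg (fun w : {yz : G × G // IsConj g yz.1 ∧ IsConj h yz.2 ∧
        yz.2 * yz.1⁻¹ ∈ (P : Subgroup G)} => w.1.1) h1
    exact h2
  have hmem : ∀ k : ↥K, c⁻¹ * ((k : ↥(P : Subgroup G)) : G) * c ∈
      Subgroup.centralizer ({g} : Set G) := by
    intro k
    rw [Subgroup.mem_centralizer_iff]
    intro w hw
    rw [Set.mem_singleton_iff] at hw
    rw [hw]
    have h1 := hKy k.1 k.2
    rw [← hc] at h1
    calc g * (c⁻¹ * ((k : ↥(P : Subgroup G)) : G) * c)
        = c⁻¹ * ((c * g * c⁻¹) * ((k : ↥(P : Subgroup G)) : G)) * c := by group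
      _ = c⁻¹ * ((((k : ↥(P : Subgroup G)) : G) * (c * g * c⁻¹) *
            ((k : ↥(P : Subgroup G)) : G)⁻¹) * ((k : ↥(P : Subgroup G)) : G)) * c := by rw [h1]
      _ = c⁻¹ * ((k : ↥(P : Subgroup G)) : G) * c * g := by group
  let φ : ↥K →* ↥(Subgroup.centralizer ({g} : Set G)) :=
    { toFun := fun k => ⟨c⁻¹ * ((k : ↥(P : Subgroup G)) : G) * c, hmem k⟩
      map_one' := by
        apply Subtype.ext
        show c⁻¹ * (((1 : ↥K) : ↥(P : Subgroup G)) : G) * c = 1
        rw [Subgroup.coe_one, Subgroup.coe_one]; group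
      map_mul' := by
        intro a b
        apply Subtype.ext
        show c⁻¹ * (((a * b : ↥K) : ↥(P : Subgroup G)) : G) * c =
          (c⁻¹ * ((a : ↥(P : Subgroup G)) : G) * c) * (c⁻¹ * ((b : ↥(P : Subgroup G)) : G) * c)
        rw [Subgroup.coe_mul, Subgroup.coe_mul]; group }
  have hφ : Function.Injective φ := by
    intro a b hab
    have h1 : c⁻¹ * ((a : ↥(P : Subgroup G)) : G) * c =
        c⁻¹ * ((b : ↥(P : Subgroup G)) : G) * c := congrArg Subtype.val hab
    have h2 : ((a : ↥(P : Subgroup G)) : G) = ((b : ↥(P : Subgroup G)) : G) :=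
      mul_left_cancel (mul_right_cancel h1)
    exact Subtype.ext (Subtype.ext h2)
  have hKp : IsPGroup p ↥K := IsPGroup.to_subgroup P.isPGroup' K
  have hRp : IsPGroup p ↥φ.range := hKp.of_equiv (MonoidHom.ofInjective hφ)
  obtain ⟨S', hS'⟩ := hRp.exists_le_sylow
  have h1 : Nat.card ↥K = Nat.card ↥φ.range := Nat.card_congr (MonoidHom.ofInjective hφ).toEquiv
  have h2 : Nat.card ↥φ.range ∣ Nat.card ↥(S' : Subgroup ↥(Subgroup.centralizer ({g} : Set G))) :=
    Subgroup.card_dvd_of_le hS'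
  have h3 : Nat.card ↥(S' : Subgroup ↥(Subgroup.centralizer ({g} : Set G))) = Nat.card S := by
    have e1 := Sylow.card_eq_multiplicity S'
    have e2 := Sylow.card_eq_multiplicity S
    exact e1.trans e2.symm
  have hKS : Nat.card ↥K ∣ Nat.card S := by
    rw [h1, ← h3]
    exact h2
  have hSP : Nat.card S ∣ Nat.card P := by
    obtain ⟨d, hd⟩ := IsPGroup.exists_card_eq S.isPGroup'
    have h8 : Nat.card S ∣ Nat.card G :=
      (Subgroup.card_subgroup_dvd_card (S : Subgroup ↥(Subgroup.centralizer ({g} : Set G)))).trans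
        (Subgroup.card_subgroup_dvd_card _)
    have e3 := Sylow.card_eq_multiplicity P
    have hd' : Nat.card S = p ^ d := hd
    rw [hd'] at h8 ⊢
    rw [e3]
    exact pow_dvd_pow p ((Nat.Prime.pow_dvd_iff_le_factorization hp.out Nat.card_pos.ne').mp h8)
  have hidx : Nat.card ↥K * K.index = Nat.card ↥(P : Subgroup G) := Subgroup.card_mul_index K
  obtain ⟨m, hm⟩ := hSP
  obtain ⟨t, ht⟩ := hKS
  have hSpos : 0 < Nat.card S := Nat.card_pos
  have hKpos : 0 < Nat.card ↥K := Nat.card_pos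
  have h5 : Nat.card P / Nat.card S = m := by
    rw [hm]
    exact Nat.mul_div_cancel_left m hSpos
  have h6 : K.index = t * m := by
    have h7 : Nat.card ↥K * K.index = Nat.card ↥K * (t * m) := by
      rw [hidx]
      show Nat.card P = _
      rw [hm, ht]
      ring
    exact Nat.eq_of_mul_eq_mul_left hKpos h7
  rw [h5, h6]
  exact dvd_mul_left m t

end Cfsg.Agent.Lib.Helper2
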