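import Mathlib
import Cfsg.Prelude.Def_OddOrderChar
import Cfsg.Agent.Lib.Lead.CharIsom
import Cfsg.Agent.Lib.Lead.CharFrob
import Cfsg.Agent.Lib.Lead.CharRing

set_option autoImplicit false

namespace Cfsg.Agent.Lib.Helper2

open Cfsg.Agent.Lib.Lead

open scoped ComplexConjugate

theorem classInner_neg_left {G : Type*} [Group G] [Fintype G] (φ ψ : G → ℂ) :
    Cfsg.classInner (-φ) ψ = -Cfsg.classInner φ ψ := by
  have h : -φ = (0 : G → ℂ) - φ := (zero_sub φ).symm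
  rw [h, classInner_sub_left, classInner_zero_left, zero_sub]

theorem classInner_neg_right {G : Type*} [Group G] [Fintype G] (φ ψ : G → ℂ) :
    Cfsg.classInner φ (-ψ) = -Cfsg.classInner φ ψ := by
  have h : -ψ = (0 : G → ℂ) - ψ := (zero_sub ψ).symm
  rw [h, classInner_sub_right, classInner_zero_right, zero_sub]

theorem irr_ne_neg_irr {G : Type*} [Group G] {a b : G → ℂ} (ha : Cfsg.IsIrrCharacter G a)
    (hb : Cfsg.IsIrrCharacter G b) : a ≠ -b := by
  intro h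
  obtain ⟨n, hn0, hn⟩ := irr_one ha
  obtain ⟨m, hm0, hm⟩ := irr_one hb
  have h1 : a 1 = -(b 1) := by rw [h]; rfl
  rw [hn, hm] at h1
  have h2 : ((n + m : ℕ) : ℂ) = 0 := by
    push_cast
    rw [h1]
    ring
  have h3 : n + m = 0 := by exact_mod_cast h2
  omega

theorem isGenChar_of_irr {G : Type*} [Group G] {a : G → ℂ} (ha : Cfsg.IsIrrCharacter G a) :
    Cfsg.IsGeneralizedCharacter G a :=
  ⟨a, 0, isCharacter_of_isIrrCharacter ha, isCharacter_zero, (sub_zero a).symm⟩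

theorem isGenChar_neg_irr {G : Type*} [Group G] {a : G → ℂ} (ha : Cfsg.IsIrrCharacter G a) :
    Cfsg.IsGeneralizedCharacter G (-a) :=
  ⟨0, a, isCharacter_zero, isCharacter_of_isIrrCharacter ha, (zero_sub a).symm⟩

theorem conjFun_conjFun {X : Type*} (χ : X → ℂ) : Cfsg.conjFun (Cfsg.conjFun χ) = χ := by
  funext x
  show conj (conj (χ x)) = χ x
  exact Complex.conj_conj _

theorem classInner_conjFun {G : Type*} [Group G] [Fintype G] (φ ψ : G → ℂ) :
    Cfsg.classInner (Cfsg.conjFun φ) (Cfsg.conjFun ψ) = conj (Cfsg.classInner φ ψ) :=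
  classInner_conj_conj φ ψ

/-- Existence of a coherence system. -/
theorem coherence_exists {L : Type*} [Group L] [Fintype L] {G : Type*} [Group G] [Fintype G]
    (S : Set (L → ℂ)) (hS : S.Nonempty) (hirr : ∀ χ ∈ S, Cfsg.IsIrrCharacter L χ)
    (hconj : ∀ χ ∈ S, Cfsg.conjFun χ ∈ S ∧ Cfsg.conjFun χ ≠ χ) (τ : (L → ℂ) → (G → ℂ))
    (hτ : Cfsg.IsLinearIsometryOn (Cfsg.zspanOn S {1}ᶜ) τ)
    (hτ1 : ∀ α ∈ Cfsg.zspanOn S {1}ᶜ, τ α 1 = 0) :
    ∃ R : (L → ℂ) → Finset (G → ℂ), Cfsg.IsCoherenceSystem S τ R := by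
  classical
  have hmemδ : ∀ χ ∈ S, χ - Cfsg.conjFun χ ∈ Cfsg.zspanOn S {1}ᶜ := by
    intro χ hχ
    refine ⟨Submodule.sub_mem _ (Submodule.subset_span hχ)
      (Submodule.subset_span (hconj χ hχ).1), ?_⟩
    intro x hx
    have hx1 : x = 1 := by
      by_contra hne
      exact hx hne
    rw [hx1]
    obtain ⟨n, -, hn⟩ := irr_one (hirr χ hχ)
    show χ 1 - conj (χ 1) = 0
    rw [hn, Complex.conj_natCast, sub_self]
  have hnorm : ∀ χ ∈ S, Cfsg.classInner (χ - Cfsg.conjFun χ) (χ - Cfsg.conjFun χ) = 2 := by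
    intro χ hχ
    have hc := hirr _ (hconj χ hχ).1
    have hne := (hconj χ hχ).2
    rw [classInner_sub_left, classInner_sub_right, classInner_sub_right,
      classInner_irr (hirr χ hχ) (hirr χ hχ), classInner_irr (hirr χ hχ) hc,
      classInner_irr hc (hirr χ hχ), classInner_irr hc hc, if_pos rfl, if_pos rfl,
      if_neg (fun h => hne h.symm), if_neg hne]
    norm_num
  have hex : ∀ χ : L → ℂ, ∃ a b : G → ℂ, χ ∈ S →
      (Cfsg.IsIrrCharacter G a ∧ Cfsg.IsIrrCharacter G b ∧ a ≠ b ∧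
        τ (χ - Cfsg.conjFun χ) = a - b) := by
    intro χ
    by_cases hχ : χ ∈ S
    · have hθ := hτ.2.2.2 _ (hmemδ χ hχ)
      have h2 : Cfsg.classInner (τ (χ - Cfsg.conjFun χ)) (τ (χ - Cfsg.conjFun χ)) = 2 := by
        rw [hτ.2.2.1 _ (hmemδ χ hχ) _ (hmemδ χ hχ)]
        exact hnorm χ hχ
      obtain ⟨a, b, hab, hθab⟩ := genChar_norm_two hθ h2 (hτ1 _ (hmemδ χ hχ))
      exact ⟨a, b, fun _ => ⟨a.2, b.2, fun h => hab (Subtype.ext h), hθab⟩⟩
    · exact ⟨0, 0, fun h => absurd h hχ⟩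
  choose a b hab using hex
  refine ⟨fun χ => {a χ, -b χ}, ?_⟩
  have hane : ∀ χ ∈ S, a χ ≠ -b χ := fun χ hχ =>
    irr_ne_neg_irr (hab χ hχ).1 (hab χ hχ).2.1
  have hRmem : ∀ χ : L → ℂ, ∀ α : G → ℂ, α ∈ ({a χ, -b χ} : Finset (G → ℂ)) →
      α = a χ ∨ α = -b χ := by
    intro χ α hα
    rw [Finset.mem_insert, Finset.mem_singleton] at hα
    exact hα
  refine
    { nonempty := hS
      isCharacter := fun χ hχ => isCharacter_of_isIrrCharacter (hirr χ hχ)
      conj_mem := fun χ hχ => (hconj χ hχ).1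
      conj_ne := fun χ hχ => (hconj χ hχ).2
      isometry := hτ
      map_one := hτ1
      orthogonal := ?_
      orthonormal := ?_
      virtual := ?_
      sum_eq := ?_
      disjoint := ?_ }
  · intro χ hχ φ hφ hne
    rw [classInner_irr (hirr χ hχ) (hirr φ hφ), if_neg hne]
  · intro χ hχ α hα β hβ
    obtain ⟨ha, hb, hne, -⟩ := hab χ hχ
    rcases hRmem χ α hα with rfl | rfl <;> rcases hRmem χ β hβ with rfl | rfl
    · rw [if_pos rfl, classInner_irr ha ha, if_pos rfl]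
    · rw [if_neg (hane χ hχ), classInner_neg_right, classInner_irr ha hb, if_neg hne, neg_zero]
    · rw [if_neg (fun h => hane χ hχ h.symm), classInner_neg_left, classInner_irr hb ha,
        if_neg (fun h => hne h.symm), neg_zero]
    · rw [if_pos rfl, classInner_neg_left, classInner_neg_right, classInner_irr hb hb,
        if_pos rfl, neg_neg]
  · intro χ hχ α hα
    obtain ⟨ha, hb, -, -⟩ := hab χ hχ
    rcases hRmem χ α hα with rfl | rfl
    · exact isGenChar_of_irr ha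
    · exact isGenChar_neg_irr hb
  · intro χ hχ
    rw [Finset.sum_pair (hane χ hχ), (hab χ hχ).2.2.2, sub_eq_add_neg]
  · intro χ hχ φ hφ h1 h2 α hα β hβ
    obtain ⟨ha, hb, hne, hθ⟩ := hab χ hχ
    obtain ⟨ha', hb', hne', hθ'⟩ := hab φ hφ
    have hcc : Cfsg.classInner (Cfsg.conjFun φ) (Cfsg.conjFun χ) = 0 := by
      rw [classInner_conjFun, h1, map_zero]
    have hcx : Cfsg.classInner (Cfsg.conjFun φ) χ = 0 := by
      have h3 := classInner_conjFun φ (Cfsg.conjFun χ)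
      rw [conjFun_conjFun, h2, map_zero] at h3
      exact h3
    have hzero : Cfsg.classInner (φ - Cfsg.conjFun φ) (χ - Cfsg.conjFun χ) = 0 := by
      rw [classInner_sub_left, classInner_sub_right, classInner_sub_right, h1, h2, hcx, hcc]
      ring
    have hzero' : Cfsg.classInner (a φ - b φ) (a χ - b χ) = 0 := by
      rw [← hθ, ← hθ', hτ.2.2.1 _ (hmemδ φ hφ) _ (hmemδ χ hχ)]
      exact hzero
    rw [classInner_sub_left, classInner_sub_right, classInner_sub_right,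
      classInner_irr ha' ha, classInner_irr ha' hb, classInner_irr hb' ha,
      classInner_irr hb' hb] at hzero'
    have key : a φ ≠ a χ ∧ a φ ≠ b χ ∧ b φ ≠ a χ ∧ b φ ≠ b χ := by
      by_cases e1 : a φ = a χ
      · exfalso
        have e2 : a φ ≠ b χ := fun h => hne (e1.symm.trans h)
        have e3 : b φ ≠ a χ := fun h => hne' (e1.trans h.symm)
        rw [if_pos e1, if_neg e2, if_neg e3] at hzero'
        by_cases e4 : b φ = b χ
        · rw [if_pos e4] at hzero'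
          norm_num at hzero'
        · rw [if_neg e4] at hzero'
          norm_num at hzero'
      · by_cases e4 : b φ = b χ
        · exfalso
          have e2 : a φ ≠ b χ := fun h => hne' (h.trans e4.symm)
          have e3 : b φ ≠ a χ := fun h => hne (h.symm.trans e4)
          rw [if_neg e1, if_neg e2, if_neg e3, if_pos e4] at hzero'
          norm_num at hzero'
        · rw [if_neg e1, if_neg e4] at hzero'
          by_cases e2 : a φ = b χ
          · exfalso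
            rw [if_pos e2] at hzero'
            by_cases e3 : b φ = a χ
            · rw [if_pos e3] at hzero'
              norm_num at hzero'
            · rw [if_neg e3] at hzero'
              norm_num at hzero'
          · by_cases e3 : b φ = a χ
            · exfalso
              rw [if_neg e2, if_pos e3] at hzero'
              norm_num at hzero'
            · exact ⟨e1, e2, e3, e4⟩
    obtain ⟨e1, e2, e3, e4⟩ := key
    rcases hRmem φ α hα with rfl | rfl <;> rcases hRmem χ β hβ with rfl | rfl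
    · rw [classInner_irr ha' ha, if_neg e1]
    · rw [classInner_neg_right, classInner_irr ha' hb, if_neg e2, neg_zero]
    · rw [classInner_neg_left, classInner_irr hb' ha, if_neg e3, neg_zero]
    · rw [classInner_neg_left, classInner_neg_right, classInner_irr hb' hb, if_neg e4,
        neg_zero, neg_zero]

/-- A linear isometry on `ℤ[S]` preserving "vanishing at 1" has a uniform sign. -/
theorem isometry_sign {G : Type*} [Group G] [Fintype G] (N : Subgroup G) [Fintype N]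
    (S : Set (N → ℂ)) (hirr : ∀ χ ∈ S, Cfsg.IsIrrCharacter N χ)
    (τ₁ : (N → ℂ) → (G → ℂ)) (hτ₁ : Cfsg.IsLinearIsometryOn (Cfsg.zspan S) τ₁)
    (h0 : ∀ α ∈ Cfsg.zspan S, α 1 = 0 → τ₁ α 1 = 0) :
    ∃ ε : ℂ, (ε = 1 ∨ ε = -1) ∧ (∀ χ ∈ S, Cfsg.IsIrrCharacter G (ε • τ₁ χ)) ∧
      (∀ χ ∈ S, ∀ ψ ∈ S, τ₁ χ = τ₁ ψ → χ = ψ) := by
  classical
  haveI : Fintype (Cfsg.IrrCharacter G) := Fintype.ofFinite _
  obtain ⟨hadd, hsmul, hinner, hvirt⟩ := hτ₁
  have hmem : ∀ χ ∈ S, χ ∈ Cfsg.zspan S := fun χ hχ => Submodule.subset_span hχ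
  have hsm : ∀ χ ∈ S, ∀ n : ℤ, n • χ ∈ Cfsg.zspan S := fun χ hχ n =>
    Submodule.smul_mem _ n (Submodule.subset_span hχ)
  have hpm : ∀ χ ∈ S, ∃ μ : Cfsg.IrrCharacter G,
      τ₁ χ = (μ : G → ℂ) ∨ τ₁ χ = -(μ : G → ℂ) := by
    intro χ hχ
    obtain ⟨z, hz⟩ := genChar_expansion (hvirt χ (hmem χ hχ))
    have h1 : Cfsg.classInner (τ₁ χ) (τ₁ χ) = 1 := by
      rw [hinner χ (hmem χ hχ) χ (hmem χ hχ)]
      exact classInner_irr_self (hirr χ hχ)
    exact isIrr_of_int_comb z (τ₁ χ) hz h1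
  -- no mixed signs
  have hmix : ∀ χ ∈ S, ∀ ψ ∈ S, ∀ μ ν : Cfsg.IrrCharacter G, τ₁ χ = (μ : G → ℂ) →
      τ₁ ψ = -(ν : G → ℂ) → False := by
    intro χ hχ ψ hψ μ ν hμ hν
    obtain ⟨n, hn0, hn⟩ := irr_one (hirr χ hχ)
    obtain ⟨m, hm0, hm⟩ := irr_one (hirr ψ hψ)
    obtain ⟨dμ, hdμ0, hdμ⟩ := irr_one μ.2
    obtain ⟨dν, hdν0, hdν⟩ := irr_one ν.2
    have hα : (m : ℤ) • χ + (-(n : ℤ)) • ψ ∈ Cfsg.zspan S :=
      Submodule.add_mem _ (hsm χ hχ m) (hsm ψ hψ (-(n : ℤ)))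
    have hα1 : ((m : ℤ) • χ + (-(n : ℤ)) • ψ) 1 = 0 := by
      rw [Pi.add_apply, Pi.smul_apply, Pi.smul_apply, zsmul_eq_mul, zsmul_eq_mul, hn, hm]
      push_cast
      ring
    have h1 := h0 _ hα hα1
    rw [hadd _ (hsm χ hχ m) _ (hsm ψ hψ (-(n : ℤ))), hsmul χ (hmem χ hχ) m,
      hsmul ψ (hmem ψ hψ) (-(n : ℤ)), hμ, hν, Pi.add_apply, Pi.smul_apply, Pi.smul_apply,
      zsmul_eq_mul, zsmul_eq_mul, Pi.neg_apply, hdμ, hdν] at h1
    have h2 : ((m * dμ + n * dν : ℕ) : ℂ) = 0 := by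
      push_cast
      push_cast at h1
      linear_combination h1
    have h3 : m * dμ + n * dν = 0 := by exact_mod_cast h2
    have h4 : 0 < m * dμ := Nat.mul_pos (Nat.pos_of_ne_zero hm0) (Nat.pos_of_ne_zero hdμ0)
    omega
  have hinj : ∀ χ ∈ S, ∀ ψ ∈ S, τ₁ χ = τ₁ ψ → χ = ψ := by
    intro χ hχ ψ hψ h
    have h1 : Cfsg.classInner χ ψ = 1 := by
      rw [← hinner χ (hmem χ hχ) ψ (hmem ψ hψ), ← h, hinner χ (hmem χ hχ) χ (hmem χ hχ)]
      exact classInner_irr_self (hirr χ hχ)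
    rw [classInner_irr (hirr χ hχ) (hirr ψ hψ)] at h1
    by_contra hne
    rw [if_neg hne] at h1
    exact zero_ne_one h1
  by_cases hpos : ∃ χ ∈ S, ∃ μ : Cfsg.IrrCharacter G, τ₁ χ = (μ : G → ℂ)
  · obtain ⟨χ₀, hχ₀, μ₀, hμ₀⟩ := hpos
    refine ⟨1, Or.inl rfl, ?_, hinj⟩
    intro χ hχ
    obtain ⟨μ, h | h⟩ := hpm χ hχ
    · rw [one_smul, h]
      exact μ.2
    · exact (hmix χ₀ hχ₀ χ hχ μ₀ μ hμ₀ h).elim
  · refine ⟨-1, Or.inr rfl, ?_, hinj⟩
    intro χ hχ
    obtain ⟨μ, h | h⟩ := hpm χ hχ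
    · exact (hpos ⟨χ, hχ, μ, h⟩).elim
    · rw [h, neg_smul, one_smul, neg_neg]
      exact μ.2

end Cfsg.Agent.Lib.Helper2
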