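import Mathlib
import Cfsg.Prelude
import Cfsg.Agent.Lib.Helper2.Quasi
import Cfsg.Agent.Lib.Helper2.Comp
import Cfsg.Agent.Lib.Helper2.Layer
import Cfsg.Agent.Lib.Helper2.PComp
import Cfsg.Agent.Lib.Helper3.PPrimeCore
import Cfsg.Agent.Lib.Helper4.Normalizer

set_option autoImplicit false

namespace Cfsg.Agent.Lib.Helper2

universe u

open scoped commutatorElement

/-- Membership in a conjugate subgroup. -/
theorem mem_map_conj2 {G : Type*} [Group G] (S : Subgroup G) (g y : G) :
    y ∈ S.map (MulAut.conj g).toMonoidHom ↔ g⁻¹ * y * g ∈ S := by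
  constructor
  · rintro ⟨s, hs, rfl⟩
    have h : g⁻¹ * ((MulAut.conj g).toMonoidHom s) * g = s := by
      show g⁻¹ * (g * s * g⁻¹) * g = s
      group
    rw [h]
    exact hs
  · intro h
    refine ⟨g⁻¹ * y * g, h, ?_⟩
    show g * (g⁻¹ * y * g) * g⁻¹ = y
    group

/-- Conjugating by a product. -/
theorem map_conj_mul2 {G : Type*} [Group G] (S : Subgroup G) (g h : G) :
    S.map (MulAut.conj (g * h)).toMonoidHom
      = (S.map (MulAut.conj h).toMonoidHom).map (MulAut.conj g).toMonoidHom := by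
  ext y
  rw [mem_map_conj2 S (g * h) y, mem_map_conj2 (S.map (MulAut.conj h).toMonoidHom) g y,
    mem_map_conj2 S h (g⁻¹ * y * g)]
  have h1 : (g * h)⁻¹ * y * (g * h) = h⁻¹ * (g⁻¹ * y * g) * h := by group
  rw [h1]

/-- Conjugating by the identity. -/
theorem map_conj_one2 {G : Type*} [Group G] (S : Subgroup G) :
    S.map (MulAut.conj (1 : G)).toMonoidHom = S := by
  ext y
  rw [mem_map_conj2 S 1 y]
  have h1 : (1 : G)⁻¹ * y * 1 = y := by group
  rw [h1]

/-- If `w` normalizes `S` then so does every power of `w`. -/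
theorem map_conj_pow_eq2 {G : Type*} [Group G] (S : Subgroup G) (w : G)
    (h : S.map (MulAut.conj w).toMonoidHom = S) (s : ℕ) :
    S.map (MulAut.conj (w ^ s)).toMonoidHom = S := by
  induction s with
  | zero =>
    rw [pow_zero]
    exact map_conj_one2 S
  | succ k ih =>
    rw [pow_succ, map_conj_mul2 S (w ^ k) w, h, ih]

/-- A cancellation step used below. -/
theorem comm_cancel_aux2 {G : Type*} [Group G] (A B l' : G) (h10 : l' * (A * B) = A * B * l')
    (h11 : l' * B = B * l') : A * l' = l' * A := by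
  calc A * l' = A * (l' * B) * B⁻¹ := by group
    _ = A * (B * l') * B⁻¹ := by rw [h11]
    _ = (A * B * l') * B⁻¹ := by group
    _ = (l' * (A * B)) * B⁻¹ := by rw [h10]
    _ = l' * A := by group

/-- Another commutation step used below. -/
theorem comm_cancel_aux3 {G : Type*} [Group G] (l δ u : G) (h1 : δ * u = u * δ)
    (h2 : δ * l = l * δ) : δ * (u⁻¹ * l) = (u⁻¹ * l) * δ := by
  calc δ * (u⁻¹ * l) = u⁻¹ * (u * δ) * u⁻¹ * l := by group
    _ = u⁻¹ * (δ * u) * u⁻¹ * l := by rw [h1]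
    _ = u⁻¹ * (δ * l) := by group
    _ = u⁻¹ * (l * δ) := by rw [h2]
    _ = (u⁻¹ * l) * δ := by group

/-- Let `G` be finite with `O_{p'}(G) = 1`, `x` of order `p`, and `L` a component with
`⁅L, ⟨x⟩⁆ ≠ L`. Then `L` centralizes `O_{p'}(C_G(x))`. -/
theorem comp_comm_pprime_core {G : Type u} [Group G] [Finite G] (p : ℕ) [hpF : Fact p.Prime]
    (hO : Cfsg.pPrimeCore p G = ⊥) (x : G) (hx : orderOf x = p) (L : Subgroup G)
    (hL : Cfsg.IsComponent L) (hne : ⁅L, Subgroup.zpowers x⁆ ≠ L) :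
    ⁅L, Cfsg.centralizerPPrimeCore p x⁆ = ⊥ := by
  have hp : p.Prime := hpF.out
  have hxp : x ^ p = 1 := by rw [← hx]; exact pow_orderOf_eq_one x
  have hperf : ⁅L, L⁆ = L := Subgroup.isPerfect_iff.mp hL.2.1
  have hLnt : Nontrivial ↥L := quasisimple_nontrivial hL.2
  have hLne : L ≠ ⊥ := by
    intro h
    obtain ⟨⟨a, ha⟩, ⟨b, hb⟩, hab⟩ := hLnt
    apply hab
    apply Subtype.ext
    show a = b
    have ha' : a ∈ (⊥ : Subgroup G) := by rw [← h]; exact ha
    have hb' : b ∈ (⊥ : Subgroup G) := by rw [← h]; exact hb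
    rw [Subgroup.mem_bot.mp ha', Subgroup.mem_bot.mp hb']
  -- three subgroups lemma for the perfect group `L`
  have hTS : ∀ S : Subgroup G, ⁅⁅L, S⁆, L⁆ = ⊥ → ⁅L, S⁆ = ⊥ := by
    intro S h
    have h2 : ⁅⁅S, L⁆, L⁆ = ⊥ := by rw [Subgroup.commutator_comm S L]; exact h
    have h3 : ⁅⁅L, L⁆, S⁆ = ⊥ := Subgroup.commutator_commutator_eq_bot_of_rotate h h2
    rw [hperf] at h3
    exact h3
  -- `L / Z(L)` cannot have exponent prime to `p`
  have hE : ∀ n : ℕ, n.Coprime p → (∀ l ∈ L, ∀ l' ∈ L, l ^ n * l' = l' * l ^ n) → False := by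
    intro n hn hcomm
    have h1 : (Nat.card (↥L ⧸ Subgroup.center ↥L)).Coprime p := by
      apply card_coprime_of_no_order_p
      intro q hq
      obtain ⟨l, rfl⟩ := QuotientGroup.mk_surjective q
      have h2 : ((l ^ n : ↥L) : ↥L ⧸ Subgroup.center ↥L) = 1 := by
        rw [QuotientGroup.eq_one_iff, Subgroup.mem_center_iff]
        intro l'
        apply Subtype.ext
        rw [Subgroup.coe_mul, Subgroup.coe_mul, Subgroup.coe_pow]
        exact (hcomm l.1 l.2 l'.1 l'.2).symm
      have h3 : (l : ↥L ⧸ Subgroup.center ↥L) ^ n = 1 := by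
        rw [← QuotientGroup.mk_pow]
        exact h2
      have h4 : (l : ↥L ⧸ Subgroup.center ↥L) ^ (p ^ 1) = 1 := by
        rw [pow_one]
        exact hq
      exact eq_one_of_pow_prime_pow_of_coprime p 1 n hn _ h4 h3
    have h5 : (Nat.card ↥L).Coprime p := quasisimple_card_coprime p hL.2 h1
    have h6 : L ≤ Cfsg.pPrimeCore p G := subnormal_pprime_le p L hL.1 h5
    rw [hO] at h6
    exact hLne (le_bot_iff.mp h6)
  -- the centralizer of `x` and its `p'`-core
  obtain ⟨C, hCdef⟩ : ∃ C : Subgroup G, C = Subgroup.centralizer ({x} : Set G) := ⟨_, rfl⟩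
  have hCmem : ∀ g : G, g ∈ C ↔ g * x = x * g := by
    intro g
    rw [hCdef, Subgroup.mem_centralizer_singleton_iff]
  obtain ⟨D, hDdef⟩ : ∃ D : Subgroup G, D = Cfsg.centralizerPPrimeCore p x := ⟨_, rfl⟩
  have hDeq : D = (Cfsg.pPrimeCore p ↥C).map C.subtype := by
    rw [hDdef]
    subst hCdef
    rfl
  rw [← hDdef]
  have hnC : (Cfsg.pPrimeCore p ↥C).Normal := Cfsg.Agent.Lib.Helper3.pPrimeCore_normal p ↥C
  have hD1 : D ≤ C := by
    rw [hDeq]
    rintro _ ⟨c, _, rfl⟩
    exact c.2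
  have hD2 : ∀ c ∈ C, ∀ d ∈ D, c * d * c⁻¹ ∈ D := by
    intro c hc d hd
    rw [hDeq] at hd ⊢
    obtain ⟨d', hd', rfl⟩ := hd
    exact ⟨(⟨c, hc⟩ : ↥C) * d' * (⟨c, hc⟩ : ↥C)⁻¹, hnC.conj_mem d' hd' ⟨c, hc⟩, rfl⟩
  have hD3 : (Nat.card ↥D).Coprime p := by
    rw [hDeq, Subgroup.card_map_of_injective C.subtype_injective]
    exact Cfsg.Agent.Lib.Helper3.pPrimeCore_coprime hp ↥C
  obtain ⟨n, hndef⟩ : ∃ n : ℕ, n = Nat.card ↥D := ⟨_, rfl⟩
  have hncop : n.Coprime p := by rw [hndef]; exact hD3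
  have hDn : ∀ d ∈ D, d ^ n = 1 := by
    intro d hd
    have h1 : (⟨d, hd⟩ : ↥D) ^ n = 1 := by rw [hndef]; exact pow_card_eq_one'
    have h2 := congrArg Subtype.val h1
    rw [Subgroup.coe_pow, Subgroup.coe_one] at h2
    exact h2
  have hzp : ∀ z ∈ Subgroup.zpowers x, ∃ k : ℕ, x ^ k = z := by
    intro z hz
    have h1 : z ∈ Submonoid.powers x :=
      (isOfFinOrder_of_finite x).mem_powers_iff_mem_zpowers.mpr hz
    exact (Submonoid.mem_powers_iff z x).mp h1
  by_cases hA : ∀ l ∈ L, x * l * x⁻¹ ∈ L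
  · -- Case A: `x` normalizes `L`
    have hcjx : L.map (MulAut.conj x).toMonoidHom = L := by
      apply Subgroup.eq_of_le_of_card_ge
      · rintro _ ⟨l, hl, rfl⟩
        exact hA l hl
      · rw [Subgroup.card_map_of_injective (MulAut.conj x).injective]
    have hznorm : ∀ z ∈ Subgroup.zpowers x, ∀ l ∈ L, z * l * z⁻¹ ∈ L := by
      intro z hz l hl
      obtain ⟨k, rfl⟩ := hzp z hz
      have h1 := map_conj_pow_eq2 L x hcjx k
      have h2 : x ^ k * l * (x ^ k)⁻¹ ∈ L.map (MulAut.conj (x ^ k)).toMonoidHom := ⟨l, hl, rfl⟩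
      rw [h1] at h2
      exact h2
    have hJL : ⁅L, Subgroup.zpowers x⁆ ≤ L := by
      rw [Subgroup.commutator_le]
      intro l hl z hz
      have h1 : ⁅l, z⁆ = l * (z * l⁻¹ * z⁻¹) := by
        rw [commutatorElement_def]
        group
      rw [h1]
      exact L.mul_mem hl (hznorm z hz l⁻¹ (L.inv_mem hl))
    have hJN : L ≤ Subgroup.normalizer ((⁅L, Subgroup.zpowers x⁆ : Subgroup G) : Set G) :=
      le_normalizer_commutator L (Subgroup.zpowers x)
    have hJn : ((⁅L, Subgroup.zpowers x⁆ : Subgroup G).subgroupOf L).Normal :=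
      (Subgroup.normal_subgroupOf_iff_le_normalizer hJL).mpr hJN
    have hJc : ⁅L, Subgroup.zpowers x⁆ = ⊥ := by
      apply hTS
      rcases quasisimple_normal hL.2 ((⁅L, Subgroup.zpowers x⁆ : Subgroup G).subgroupOf L)
        with h | h
      · exfalso
        rw [Subgroup.subgroupOf_eq_top] at h
        exact hne (le_antisymm hJL h)
      · rw [Subgroup.commutator_eq_bot_iff_le_centralizer]
        intro j hj
        rw [Subgroup.mem_centralizer_iff]
        intro l hl
        have h1 : (⟨j, hJL hj⟩ : ↥L) ∈ Subgroup.center ↥L :=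
          h (Subgroup.mem_subgroupOf.mpr hj)
        rw [Subgroup.mem_center_iff] at h1
        have h2 := congrArg Subtype.val (h1 ⟨l, hl⟩)
        exact h2
    have hLC : L ≤ C := by
      intro l hl
      rw [hCmem]
      have h1 : ⁅l, x⁆ ∈ ⁅L, Subgroup.zpowers x⁆ :=
        Subgroup.commutator_mem_commutator hl (Subgroup.mem_zpowers x)
      rw [hJc, Subgroup.mem_bot, commutatorElement_def] at h1
      calc l * x = (l * x * l⁻¹ * x⁻¹) * (x * l) := by group
        _ = x * l := by rw [h1, one_mul]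
    have hcomp : Cfsg.IsComponent (L.subgroupOf C) := isComponent_subgroupOf L C hLC hL
    rcases component_le_or_centralizes (L.subgroupOf C) (Cfsg.pPrimeCore p ↥C) hcomp
      hnC.isSubnormal with h | h
    · exfalso
      have h1 : (Nat.card ↥L).Coprime p := by
        have h2 : Nat.card ↥(L.subgroupOf C) ∣ Nat.card ↥(Cfsg.pPrimeCore p ↥C) :=
          Subgroup.card_dvd_of_le h
        have h3 : Nat.card ↥(L.subgroupOf C) = Nat.card ↥L :=
          Nat.card_congr (Subgroup.subgroupOfEquivOfLe hLC).toEquiv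
        rw [h3] at h2
        exact Nat.Coprime.coprime_dvd_left h2 (Cfsg.Agent.Lib.Helper3.pPrimeCore_coprime hp ↥C)
      have h6 : L ≤ Cfsg.pPrimeCore p G := subnormal_pprime_le p L hL.1 h1
      rw [hO] at h6
      exact hLne (le_bot_iff.mp h6)
    · rw [Subgroup.commutator_eq_bot_iff_le_centralizer]
      intro l hl
      rw [Subgroup.mem_centralizer_iff]
      intro d hd
      have hd' : d ∈ (Cfsg.pPrimeCore p ↥C).map C.subtype := by rw [← hDeq]; exact hd
      obtain ⟨d', hd'', rfl⟩ := hd'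
      have h1 := h (Subgroup.mem_subgroupOf.mpr hl : (⟨l, hLC hl⟩ : ↥C) ∈ L.subgroupOf C)
      rw [Subgroup.mem_centralizer_iff] at h1
      have h2 := congrArg Subtype.val (h1 d' hd'')
      exact h2
  · -- Case B: `x` moves `L`
    push Not at hA
    obtain ⟨l₀, hl₀, hl₀x⟩ := hA
    have hcjx : L.map (MulAut.conj x).toMonoidHom ≠ L := by
      intro h
      apply hl₀x
      have h2 : x * l₀ * x⁻¹ ∈ L.map (MulAut.conj x).toMonoidHom := ⟨l₀, hl₀, rfl⟩
      rw [h] at h2
      exact h2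
    have hmove : ∀ z ∈ Subgroup.zpowers x, z ≠ 1 → L.map (MulAut.conj z).toMonoidHom ≠ L := by
      intro z hz hz1 h
      obtain ⟨k, rfl⟩ := hzp z hz
      have hk : ¬ p ∣ k := by
        intro hpk
        obtain ⟨c, rfl⟩ := hpk
        apply hz1
        rw [pow_mul, hxp, one_pow]
      have hcop : Nat.Coprime k p :=
        Nat.Coprime.symm ((Nat.Prime.coprime_iff_not_dvd hp).mpr hk)
      obtain ⟨s, -, hs⟩ := Nat.exists_mul_mod_eq_one_of_coprime hcop hp.one_lt
      have h1 := map_conj_pow_eq2 L (x ^ k) h s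
      have h2 : (x ^ k) ^ s = x := by
        rw [← pow_mul]
        calc x ^ (k * s) = x ^ (k * s % orderOf x) := (pow_mod_orderOf x (k * s)).symm
          _ = x := by rw [hx, hs, pow_one]
      rw [h2] at h1
      exact hcjx h1
    obtain ⟨CL, hCLdef⟩ : ∃ CL : Subgroup G, CL = Subgroup.centralizer (L : Set G) := ⟨_, rfl⟩
    have hCLmem : ∀ g : G, g ∈ CL ↔ ∀ l ∈ L, l * g = g * l := by
      intro g
      rw [hCLdef]
      exact Subgroup.mem_centralizer_iff
    have hcomm_LC : ∀ a ∈ L, ∀ b ∈ CL, a * b = b * a :=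
      fun a ha b hb => (hCLmem b).mp hb a ha
    have horb : ∀ z ∈ Subgroup.zpowers x, z ≠ 1 → L.map (MulAut.conj z).toMonoidHom ≤ CL := by
      intro z hz hz1
      rw [hCLdef]
      exact components_commute _ L (isComponent_conj L hL z) hL (hmove z hz hz1)
    obtain ⟨M, hMdef⟩ : ∃ M : Subgroup G,
        M = ⨆ z : ↥(Subgroup.zpowers x), L.map (MulAut.conj (z : G)).toMonoidHom := ⟨_, rfl⟩
    have hLzM : ∀ z ∈ Subgroup.zpowers x, L.map (MulAut.conj z).toMonoidHom ≤ M := by
      intro z hz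
      rw [hMdef]
      exact le_iSup (fun z : ↥(Subgroup.zpowers x) => L.map (MulAut.conj (z : G)).toMonoidHom)
        ⟨z, hz⟩
    have hLM : L ≤ M := by
      have h1 := hLzM 1 (Subgroup.one_mem _)
      rw [map_conj_one2 L] at h1
      exact h1
    -- the `p`-th power of `l x⁻¹`
    have hexp : ∀ l ∈ L, ∃ m ∈ CL, m ∈ M ∧ (l * x⁻¹) ^ p = l * m := by
      intro l hl
      have hind : ∀ k : ℕ, k + 1 ≤ p →
          ∃ m ∈ CL, m ∈ M ∧ (l * x⁻¹) ^ (k + 1) * x ^ (k + 1) = l * m := by
        intro k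
        induction k with
        | zero =>
          intro _
          refine ⟨1, CL.one_mem, M.one_mem, ?_⟩
          simp
        | succ k ih =>
          intro hk
          obtain ⟨m, hm1, hm2, hm3⟩ := ih (by omega)
          have hz : (x ^ (k + 1))⁻¹ ∈ Subgroup.zpowers x :=
            Subgroup.inv_mem _ (Subgroup.pow_mem _ (Subgroup.mem_zpowers x) _)
          have hz1 : (x ^ (k + 1))⁻¹ ≠ 1 := by
            intro h
            rw [inv_eq_one] at h
            have h2 : orderOf x ∣ k + 1 := orderOf_dvd_of_pow_eq_one h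
            rw [hx] at h2
            have h3 := Nat.le_of_dvd (Nat.succ_pos k) h2
            omega
          have hmem : (x ^ (k + 1))⁻¹ * l * x ^ (k + 1)
              ∈ L.map (MulAut.conj ((x ^ (k + 1))⁻¹)).toMonoidHom := by
            refine ⟨l, hl, ?_⟩
            show (x ^ (k + 1))⁻¹ * l * ((x ^ (k + 1))⁻¹)⁻¹ = (x ^ (k + 1))⁻¹ * l * x ^ (k + 1)
            rw [inv_inv]
          refine ⟨m * ((x ^ (k + 1))⁻¹ * l * x ^ (k + 1)), CL.mul_mem hm1 (horb _ hz hz1 hmem),
            M.mul_mem hm2 (hLzM _ hz hmem), ?_⟩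
          have h4 : ∀ A : G, A * (l * x⁻¹) * (x ^ (k + 1) * x)
              = (A * x ^ (k + 1)) * ((x ^ (k + 1))⁻¹ * l * x ^ (k + 1)) := by
            intro A
            group
          rw [pow_succ (l * x⁻¹) (k + 1), pow_succ x (k + 1), h4, hm3, mul_assoc]
      obtain ⟨k, hk⟩ : ∃ k, p = k + 1 := ⟨p - 1, by have := hp.pos; omega⟩
      obtain ⟨m, hm1, hm2, hm3⟩ := hind k (by omega)
      refine ⟨m, hm1, hm2, ?_⟩
      rw [← hk, hxp, mul_one] at hm3
      exact hm3
    have hδC : ∀ l ∈ L, (l * x⁻¹) ^ p ∈ C := by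
      intro l hl
      obtain ⟨m, hm1, hm2, hm3⟩ := hexp l hl
      rw [hCmem]
      have h1 : (l * x⁻¹) ^ p * (l * x⁻¹) = (l * x⁻¹) * (l * x⁻¹) ^ p :=
        pow_mul_comm' (l * x⁻¹) p
      have h2 : (l * x⁻¹) ^ p * l = l * (l * x⁻¹) ^ p := by
        rw [hm3]
        have h3 : l * m = m * l := hcomm_LC l hl m hm1
        calc l * m * l = l * (m * l) := by group
          _ = l * (l * m) := by rw [h3]
      have h6 := comm_cancel_aux3 l ((l * x⁻¹) ^ p) (l * x⁻¹) h1 h2
      have h5 : (l * x⁻¹)⁻¹ * l = x := by group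
      rw [h5] at h6
      exact h6
    -- the subgroup `D₁` of `L`
    obtain ⟨D₁, hD₁mem⟩ : ∃ D₁ : Subgroup G,
        ∀ a : G, a ∈ D₁ ↔ (a ∈ L ∧ ∃ b ∈ CL, a * b ∈ D) :=
      ⟨{ carrier := {a | a ∈ L ∧ ∃ b ∈ CL, a * b ∈ D}
         one_mem' := ⟨L.one_mem, 1, CL.one_mem, by rw [mul_one]; exact D.one_mem⟩
         mul_mem' := by
           rintro a₁ a₂ ⟨ha₁, b₁, hb₁, h₁⟩ ⟨ha₂, b₂, hb₂, h₂⟩
           refine ⟨L.mul_mem ha₁ ha₂, b₁ * b₂, CL.mul_mem hb₁ hb₂, ?_⟩
           have h3 : a₁ * a₂ * (b₁ * b₂) = (a₁ * b₁) * (a₂ * b₂) := by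
             have h4 : a₂ * b₁ = b₁ * a₂ := hcomm_LC a₂ ha₂ b₁ hb₁
             calc a₁ * a₂ * (b₁ * b₂) = a₁ * (a₂ * b₁) * b₂ := by group
               _ = a₁ * (b₁ * a₂) * b₂ := by rw [h4]
               _ = (a₁ * b₁) * (a₂ * b₂) := by group
           rw [h3]
           exact D.mul_mem h₁ h₂
         inv_mem' := by
           rintro a ⟨ha, b, hb, h⟩
           refine ⟨L.inv_mem ha, b⁻¹, CL.inv_mem hb, ?_⟩
           have h3 : a⁻¹ * b⁻¹ = (a * b)⁻¹ := by
             have h4 : a * b = b * a := hcomm_LC a ha b hb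
             rw [h4]
             group
           rw [h3]
           exact D.inv_mem h }, fun a => Iff.rfl⟩
    have hD₁L : D₁ ≤ L := fun a ha => ((hD₁mem a).mp ha).1
    have hD₁N : L ≤ Subgroup.normalizer (D₁ : Set G) := by
      apply Cfsg.Agent.Lib.Helper4.le_normalizer_of_conj_mem
      intro l hl a ha
      obtain ⟨haL, b, hb, hab⟩ := (hD₁mem a).mp ha
      obtain ⟨m, hm1, hm2, hm3⟩ := hexp l hl
      rw [hD₁mem]
      refine ⟨L.mul_mem (L.mul_mem hl haL) (L.inv_mem hl), m * b * m⁻¹,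
        CL.mul_mem (CL.mul_mem hm1 hb) (CL.inv_mem hm1), ?_⟩
      have h1 : (l * m) * (a * b) * (l * m)⁻¹ ∈ D := by
        have h2 := hD2 ((l * x⁻¹) ^ p) (hδC l hl) (a * b) hab
        rw [hm3] at h2
        exact h2
      have h3 : l * a * l⁻¹ * (m * b * m⁻¹) = (l * m) * (a * b) * (l * m)⁻¹ := by
        have h4 : m * a = a * m := (hcomm_LC a haL m hm1).symm
        have h5 : (m * b * m⁻¹) * l⁻¹ = l⁻¹ * (m * b * m⁻¹) :=
          (hcomm_LC l⁻¹ (L.inv_mem hl) (m * b * m⁻¹)
            (CL.mul_mem (CL.mul_mem hm1 hb) (CL.inv_mem hm1))).symm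
        calc l * a * l⁻¹ * (m * b * m⁻¹) = l * a * (l⁻¹ * (m * b * m⁻¹)) := by group
          _ = l * a * ((m * b * m⁻¹) * l⁻¹) := by rw [h5]
          _ = l * (a * m) * b * m⁻¹ * l⁻¹ := by group
          _ = l * (m * a) * b * m⁻¹ * l⁻¹ := by rw [h4]
          _ = (l * m) * (a * b) * (l * m)⁻¹ := by group
      rw [h3]
      exact h1
    have hD₁n : (D₁.subgroupOf L).Normal :=
      (Subgroup.normal_subgroupOf_iff_le_normalizer hD₁L).mpr hD₁N
    have hD₁Z : ∀ a ∈ D₁, ∀ l ∈ L, l * a = a * l := by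
      rcases quasisimple_normal hL.2 (D₁.subgroupOf L) with h | h
      · exfalso
        rw [Subgroup.subgroupOf_eq_top] at h
        apply hE n hncop
        intro l hl l' hl'
        obtain ⟨_, b, hb, hab⟩ := (hD₁mem l).mp (h hl)
        have h1 : (l * b) ^ n = 1 := hDn _ hab
        have h2 : Commute l b := hcomm_LC l hl b hb
        rw [h2.mul_pow] at h1
        have h3 : l ^ n = (b ^ n)⁻¹ := eq_inv_of_mul_eq_one_left h1
        have h4 : l ^ n ∈ CL := by
          rw [h3]
          exact CL.inv_mem (CL.pow_mem hb n)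
        exact ((hCLmem _).mp h4 l' hl').symm
      · intro a ha l hl
        have h1 : (⟨a, hD₁L ha⟩ : ↥L) ∈ Subgroup.center ↥L :=
          h (Subgroup.mem_subgroupOf.mpr ha)
        rw [Subgroup.mem_center_iff] at h1
        have h2 := congrArg Subtype.val (h1 ⟨l, hl⟩)
        exact h2
    have hdz : ∀ d ∈ D, ∀ z ∈ Subgroup.zpowers x, d * z = z * d := by
      intro d hd z hz
      obtain ⟨k, rfl⟩ := hzp z hz
      have h1 : d * x = x * d := (hCmem d).mp (hD1 hd)
      have h2 : Commute d x := h1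
      exact (h2.pow_right k).eq
    -- every element of `D` normalizes `L`
    have hDnorm : ∀ d ∈ D, L.map (MulAut.conj d).toMonoidHom = L := by
      intro d hd
      by_contra hdL
      by_cases hex : ∃ z ∈ Subgroup.zpowers x,
          L.map (MulAut.conj d).toMonoidHom = L.map (MulAut.conj z).toMonoidHom
      · obtain ⟨z, hz, hdz'⟩ := hex
        have hz1 : z ≠ 1 := by
          intro h
          rw [h, map_conj_one2 L] at hdz'
          exact hdL hdz'
        have hpow : ∀ k : ℕ, L.map (MulAut.conj (d ^ k)).toMonoidHom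
            = L.map (MulAut.conj (z ^ k)).toMonoidHom := by
          intro k
          induction k with
          | zero => rw [pow_zero, pow_zero]
          | succ k ih =>
            have hc : d ^ k * z = z * d ^ k :=
              ((show Commute d z from hdz d hd z hz).pow_left k).eq
            rw [pow_succ d k, map_conj_mul2 L (d ^ k) d, hdz', ← map_conj_mul2 L (d ^ k) z, hc,
              map_conj_mul2 L z (d ^ k), ih, ← map_conj_mul2 L z (z ^ k), ← pow_succ' z k]
        have h1 := hpow n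
        rw [hDn d hd, map_conj_one2 L] at h1
        have hzn : z ^ n ≠ 1 := by
          intro h
          have h2 : orderOf z ∣ n := orderOf_dvd_of_pow_eq_one h
          have h3 : orderOf z = p := by
            have h4 : orderOf z ∣ orderOf x := orderOf_dvd_of_mem_zpowers hz
            rw [hx] at h4
            rcases (Nat.dvd_prime hp).mp h4 with h5 | h5
            · exact absurd (orderOf_eq_one_iff.mp h5) hz1
            · exact h5
          rw [h3] at h2
          have h6 : p ∣ Nat.gcd n p := Nat.dvd_gcd h2 dvd_rfl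
          have h7 : Nat.gcd n p = 1 := hncop
          rw [h7] at h6
          exact hp.one_lt.ne' (Nat.dvd_one.mp h6)
        exact hmove (z ^ n) (Subgroup.pow_mem _ hz n) hzn h1.symm
      · push Not at hex
        have h1 : ∀ z ∈ Subgroup.zpowers x, ∀ z' ∈ Subgroup.zpowers x,
            (L.map (MulAut.conj z).toMonoidHom).map (MulAut.conj d).toMonoidHom
              ≤ Subgroup.centralizer
                ((L.map (MulAut.conj z').toMonoidHom : Subgroup G) : Set G) := by
          intro z hz z' hz'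
          apply components_commute _ _ (isComponent_conj _ (isComponent_conj L hL z) d)
            (isComponent_conj L hL z')
          intro heq
          apply hex (z⁻¹ * z') (Subgroup.mul_mem _ (Subgroup.inv_mem _ hz) hz')
          have hc : d * z = z * d := hdz d hd z hz
          rw [← map_conj_mul2 L d z, hc, map_conj_mul2 L z d] at heq
          have h2 := congrArg (Subgroup.map (MulAut.conj z⁻¹).toMonoidHom) heq
          rw [← map_conj_mul2 (L.map (MulAut.conj d).toMonoidHom) z⁻¹ z, inv_mul_cancel z,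
            map_conj_one2, ← map_conj_mul2 L z⁻¹ z'] at h2
          exact h2
        have h3 : M.map (MulAut.conj d).toMonoidHom ≤ Subgroup.centralizer (M : Set G) := by
          rw [hMdef, Subgroup.map_iSup]
          apply iSup_le
          intro z
          rw [Subgroup.le_centralizer_iff]
          apply iSup_le
          intro z'
          rw [Subgroup.le_centralizer_iff]
          exact h1 z.1 z.2 z'.1 z'.2
        apply hE n hncop
        intro l hl l' hl'
        obtain ⟨m, hm1, hm2, hm3⟩ := hexp l hl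
        have hδM : l * m ∈ M := M.mul_mem (hLM hl) hm2
        have hδC' : l * m ∈ C := by rw [← hm3]; exact hδC l hl
        have he0 : d * (l * m) * d⁻¹ ∈ M.map (MulAut.conj d).toMonoidHom := ⟨l * m, hδM, rfl⟩
        have he := h3 he0
        rw [Subgroup.mem_centralizer_iff] at he
        have hc : d * (l * m) * d⁻¹ * (l * m)⁻¹ ∈ D := by
          have h4 : (l * m) * d⁻¹ * (l * m)⁻¹ ∈ D := hD2 (l * m) hδC' d⁻¹ (D.inv_mem hd)
          have h5 : d * (l * m) * d⁻¹ * (l * m)⁻¹ = d * ((l * m) * d⁻¹ * (l * m)⁻¹) := by group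
          rw [h5]
          exact D.mul_mem hd h4
        have hcn := hDn _ hc
        have hcomm1 : Commute (d * (l * m) * d⁻¹) (l * m)⁻¹ := by
          have h6 : (l * m) * (d * (l * m) * d⁻¹) = (d * (l * m) * d⁻¹) * (l * m) :=
            he (l * m) hδM
          exact Commute.inv_right (show Commute (d * (l * m) * d⁻¹) (l * m) from h6.symm)
        rw [hcomm1.mul_pow, inv_pow] at hcn
        have h7 : (d * (l * m) * d⁻¹) ^ n = (l * m) ^ n := by
          have h7' := eq_inv_of_mul_eq_one_left hcn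
          rw [inv_inv] at h7'
          exact h7'
        have h8 : ∀ y ∈ M, y * (l * m) ^ n = (l * m) ^ n * y := by
          intro y hy
          rw [← h7]
          exact ((show Commute y (d * (l * m) * d⁻¹) from he y hy).pow_right n).eq
        have h9 : (l * m) ^ n = l ^ n * m ^ n :=
          (show Commute l m from hcomm_LC l hl m hm1).mul_pow n
        have h10 := h8 l' (hLM hl')
        rw [h9] at h10
        have h11 : l' * m ^ n = m ^ n * l' := hcomm_LC l' hl' (m ^ n) (CL.pow_mem hm1 n)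
        exact comm_cancel_aux2 (l ^ n) (m ^ n) l' h10 h11
    -- conclusion
    apply hTS
    rw [Subgroup.commutator_eq_bot_iff_le_centralizer, Subgroup.commutator_le]
    intro l hl d hd
    have hdL := hDnorm d hd
    have hdN : d ∈ Subgroup.normalizer (L : Set G) :=
      Cfsg.Agent.Lib.Helper4.mem_normalizer_of_map_conj_eq hdL
    have hdconj : ∀ y ∈ L, d * y * d⁻¹ ∈ L :=
      fun y hy => Cfsg.Agent.Lib.Helper4.conj_mem_of_mem_normalizer hdN hy
    have hdconj' : ∀ y ∈ L, d⁻¹ * y * d ∈ L := by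
      intro y hy
      have h1 := Cfsg.Agent.Lib.Helper4.conj_mem_of_mem_normalizer (Subgroup.inv_mem _ hdN) hy
      rw [inv_inv] at h1
      exact h1
    have hdCL : ∀ c ∈ CL, d * c * d⁻¹ ∈ CL := by
      intro c hc
      rw [hCLmem]
      intro y hy
      have h1 : (d⁻¹ * y * d) * c = c * (d⁻¹ * y * d) := hcomm_LC _ (hdconj' y hy) c hc
      calc y * (d * c * d⁻¹) = d * ((d⁻¹ * y * d) * c) * d⁻¹ := by group
        _ = d * (c * (d⁻¹ * y * d)) * d⁻¹ := by rw [h1]
        _ = d * c * d⁻¹ * y := by group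
    obtain ⟨m, hm1, hm2, hm3⟩ := hexp l hl
    have hδC' : l * m ∈ C := by rw [← hm3]; exact hδC l hl
    have ha : d * l * d⁻¹ * l⁻¹ ∈ L := L.mul_mem (hdconj l hl) (L.inv_mem hl)
    have hb : d * m * d⁻¹ * m⁻¹ ∈ CL := CL.mul_mem (hdCL m hm1) (CL.inv_mem hm1)
    have hab : (d * l * d⁻¹ * l⁻¹) * (d * m * d⁻¹ * m⁻¹) ∈ D := by
      have h4 : (l * m) * d⁻¹ * (l * m)⁻¹ ∈ D := hD2 (l * m) hδC' d⁻¹ (D.inv_mem hd)
      have h5 : (d * l * d⁻¹ * l⁻¹) * (d * m * d⁻¹ * m⁻¹)
          = d * ((l * m) * d⁻¹ * (l * m)⁻¹) := by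
        have h6 : (d * m * d⁻¹ * m⁻¹) * l⁻¹ = l⁻¹ * (d * m * d⁻¹ * m⁻¹) :=
          (hcomm_LC l⁻¹ (L.inv_mem hl) _ hb).symm
        calc (d * l * d⁻¹ * l⁻¹) * (d * m * d⁻¹ * m⁻¹)
            = d * l * d⁻¹ * (l⁻¹ * (d * m * d⁻¹ * m⁻¹)) := by group
          _ = d * l * d⁻¹ * ((d * m * d⁻¹ * m⁻¹) * l⁻¹) := by rw [h6]
          _ = d * ((l * m) * d⁻¹ * (l * m)⁻¹) := by group
      rw [h5]
      exact D.mul_mem hd h4
    have haD₁ : d * l * d⁻¹ * l⁻¹ ∈ D₁ := (hD₁mem _).mpr ⟨ha, _, hb, hab⟩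
    have hcomm_eq : ⁅l, d⁆ = (d * l * d⁻¹ * l⁻¹)⁻¹ := by
      rw [commutatorElement_def]
      group
    rw [hcomm_eq, Subgroup.mem_centralizer_iff]
    intro y hy
    have h1 : y * (d * l * d⁻¹ * l⁻¹) = (d * l * d⁻¹ * l⁻¹) * y := hD₁Z _ haD₁ y hy
    exact ((show Commute y (d * l * d⁻¹ * l⁻¹) from h1).inv_right).eq

end Cfsg.Agent.Lib.Helper2
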