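import Mathlib
import Cfsg.Agent.Lib.Lead.SZ2
import Cfsg.Agent.Lib.Lead.SylowAux

set_option autoImplicit false

namespace Cfsg.Agent.Lib.Helper2

open scoped Pointwise

/-- Powers of an element of the coset `H g` lie in the cosets `H g ^ j`. -/
theorem coset_pow_mem {G : Type*} [Group G] (H : Subgroup G) (g : G)
    (hg : g ∈ Subgroup.normalizer (H : Set G)) (h : G) (hh : h ∈ H) (j : ℕ) :
    (h * g) ^ j * (g ^ j)⁻¹ ∈ H := by
  induction j with
  | zero => simp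
  | succ j ih =>
    have hgj : g ^ j ∈ Subgroup.normalizer (H : Set G) := Subgroup.pow_mem _ hg j
    have h1 : g ^ j * h * (g ^ j)⁻¹ ∈ H := (Subgroup.mem_normalizer_iff.mp hgj h).mp hh
    have h2 : (h * g) ^ (j + 1) * (g ^ (j + 1))⁻¹ =
        ((h * g) ^ j * (g ^ j)⁻¹) * (g ^ j * h * (g ^ j)⁻¹) := by
      rw [pow_succ, pow_succ]; group
    rw [h2]; exact H.mul_mem ih h1

/-- If `g` normalizes `H` and has order coprime to `|H|`, every element of `H g` is
`H`-conjugate to `c g` with `c ∈ C_H(g)`. -/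
theorem coset_conj_centralizer {G : Type*} [Group G] [Finite G] (H : Subgroup G) (g : G)
    (hg : g ∈ Subgroup.normalizer (H : Set G)) (hcop : Nat.Coprime (orderOf g) (Nat.card H))
    (h : G) (hh : h ∈ H) :
    ∃ x ∈ H, ∃ c ∈ H, c * g = g * c ∧ x * (h * g) * x⁻¹ = c * g := by
  have hmpos : 0 < orderOf g := orderOf_pos g
  have htriv : ∀ y : G, y ∈ Subgroup.zpowers g → y ∈ H → y = 1 := by
    intro y hy1 hy2
    have hdisj : Disjoint (Subgroup.zpowers g) H := by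
      apply Subgroup.disjoint_of_coprime_natCard
      rw [Nat.card_zpowers]; exact hcop
    have h1 : y ∈ Subgroup.zpowers g ⊓ H := ⟨hy1, hy2⟩
    rw [disjoint_iff.mp hdisj] at h1
    exact h1
  have hwm : (h * g) ^ orderOf g ∈ H := by
    have h1 := coset_pow_mem H g hg h hh (orderOf g)
    rw [pow_orderOf_eq_one, inv_one, mul_one] at h1
    exact h1
  have hwmn : (h * g) ^ (orderOf g * Nat.card H) = 1 := by
    rw [pow_mul]
    have h1 : (⟨(h * g) ^ orderOf g, hwm⟩ : H) ^ Nat.card H = 1 := pow_card_eq_one'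
    exact congrArg Subtype.val h1
  obtain ⟨s, hs1, hs2⟩ : ∃ s : ℕ, s ≡ 1 [MOD orderOf g] ∧ s ≡ 0 [MOD Nat.card H] :=
    ⟨(Nat.chineseRemainder hcop 1 0).1, (Nat.chineseRemainder hcop 1 0).2.1,
      (Nat.chineseRemainder hcop 1 0).2.2⟩
  obtain ⟨t, ht1, ht2⟩ : ∃ t : ℕ, t ≡ 0 [MOD orderOf g] ∧ t ≡ 1 [MOD Nat.card H] :=
    ⟨(Nat.chineseRemainder hcop 0 1).1, (Nat.chineseRemainder hcop 0 1).2.1,
      (Nat.chineseRemainder hcop 0 1).2.2⟩
  have hst : (h * g) ^ s * (h * g) ^ t = h * g := by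
    have h1 : s + t ≡ 1 [MOD orderOf g * Nat.card H] := by
      apply (Nat.modEq_and_modEq_iff_modEq_mul hcop).mp
      exact ⟨by simpa using hs1.add ht1, by simpa using hs2.add ht2⟩
    have h2 : s + t ≡ 1 [MOD orderOf (h * g)] :=
      h1.of_dvd (orderOf_dvd_of_pow_eq_one hwmn)
    have h3 := pow_eq_pow_iff_modEq.mpr h2
    rw [pow_one, pow_add] at h3
    exact h3
  have hcomm : (h * g) ^ s * (h * g) ^ t = (h * g) ^ t * (h * g) ^ s :=
    ((Commute.refl (h * g)).pow_pow s t).eq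
  have hu_coset : (h * g) ^ s * g⁻¹ ∈ H := by
    have h1 := coset_pow_mem H g hg h hh s
    have h2 : g ^ s = g := by
      have := pow_eq_pow_iff_modEq.mpr hs1
      rw [pow_one] at this
      exact this
    rw [h2] at h1
    exact h1
  have hv : (h * g) ^ t ∈ H := by
    obtain ⟨q, hq⟩ := (Nat.modEq_zero_iff_dvd).mp ht1
    rw [hq, pow_mul]
    exact H.pow_mem hwm q
  have hum : ((h * g) ^ s) ^ orderOf g = 1 := by
    obtain ⟨q, hq⟩ := (Nat.modEq_zero_iff_dvd).mp hs2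
    rw [hq, ← pow_mul, mul_comm, ← mul_assoc, pow_mul, hwmn, one_pow]
  have hord : orderOf ((h * g) ^ s) = orderOf g := by
    apply Nat.dvd_antisymm (orderOf_dvd_of_pow_eq_one hum)
    apply orderOf_dvd_of_pow_eq_one
    have h1 := coset_pow_mem H g hg _ hu_coset (orderOf ((h * g) ^ s))
    have h2 : (h * g) ^ s * g⁻¹ * g = (h * g) ^ s := by group
    rw [h2, pow_orderOf_eq_one, one_mul] at h1
    have h3 : g ^ orderOf ((h * g) ^ s) ∈ H := by
      have := H.inv_mem h1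
      rwa [inv_inv] at this
    exact htriv _ (Subgroup.pow_mem _ (Subgroup.mem_zpowers g) _) h3
  have hK : Subgroup.zpowers ((h * g) ^ s) ≤ Subgroup.zpowers g ⊔ H := by
    rw [Subgroup.zpowers_le]
    have h2 : (h * g) ^ s = g * (g⁻¹ * ((h * g) ^ s * g⁻¹) * g) := by group
    rw [h2]
    have hginv : g⁻¹ ∈ Subgroup.normalizer (H : Set G) := Subgroup.inv_mem _ hg
    have h3 := (Subgroup.mem_normalizer_iff.mp hginv _).mp hu_coset
    rw [inv_inv] at h3
    exact Subgroup.mul_mem _ (Subgroup.mem_sup_left (Subgroup.mem_zpowers g))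
      (Subgroup.mem_sup_right h3)
  have hHN : Subgroup.zpowers g ≤ Subgroup.normalizer (H : Set G) := by
    rw [Subgroup.zpowers_le]; exact hg
  have hcard : Nat.card (Subgroup.zpowers ((h * g) ^ s)) = Nat.card (Subgroup.zpowers g) := by
    rw [Nat.card_zpowers, Nat.card_zpowers, hord]
  have hcop' : (Nat.card H).Coprime (Nat.card (Subgroup.zpowers g)) := by
    rw [Nat.card_zpowers]; exact hcop.symm
  obtain ⟨n', hn', hconj⟩ := Cfsg.Agent.Lib.Lead.szc H (Subgroup.zpowers g)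
    (Subgroup.zpowers ((h * g) ^ s)) hHN hK hcard hcop' (Or.inr inferInstance)
  have h1 : (h * g) ^ s ∈ MulAut.conj n' • Subgroup.zpowers g := by
    rw [hconj]; exact Subgroup.mem_zpowers _
  rw [Cfsg.Agent.Lib.Lead.mem_conj_smul] at h1
  have h2 : n'⁻¹ * (h * g) ^ s * n' = g := by
    have h3 : (n'⁻¹ * (h * g) ^ s * n') * g⁻¹ ∈ H := by
      have h4 : (n'⁻¹ * (h * g) ^ s * n') * g⁻¹ =
          n'⁻¹ * ((h * g) ^ s * g⁻¹) * (g * n' * g⁻¹) := by group
      rw [h4]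
      exact H.mul_mem (H.mul_mem (H.inv_mem hn') hu_coset)
        ((Subgroup.mem_normalizer_iff.mp hg _).mp hn')
    have h5 := htriv _ (Subgroup.mul_mem _ h1 (Subgroup.inv_mem _ (Subgroup.mem_zpowers g))) h3
    exact mul_inv_eq_one.mp h5
  refine ⟨n'⁻¹, H.inv_mem hn', n'⁻¹ * (h * g) ^ t * n', ?_, ?_, ?_⟩
  · exact H.mul_mem (H.mul_mem (H.inv_mem hn') hv) hn'
  · have h6 : n'⁻¹ * (h * g) ^ t * n' * (n'⁻¹ * (h * g) ^ s * n') =
        n'⁻¹ * (h * g) ^ s * n' * (n'⁻¹ * (h * g) ^ t * n') := by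
      have e1 : n'⁻¹ * (h * g) ^ t * n' * (n'⁻¹ * (h * g) ^ s * n') =
          n'⁻¹ * ((h * g) ^ t * (h * g) ^ s) * n' := by group
      have e2 : n'⁻¹ * (h * g) ^ s * n' * (n'⁻¹ * (h * g) ^ t * n') =
          n'⁻¹ * ((h * g) ^ s * (h * g) ^ t) * n' := by group
      rw [e1, e2, hcomm]
    rw [h2] at h6
    exact h6
  · have e1 : n'⁻¹ * (h * g) * n'⁻¹⁻¹ = n'⁻¹ * ((h * g) ^ s * (h * g) ^ t) * n' := by
      rw [hst, inv_inv]
    rw [e1, hcomm]
    have e2 : n'⁻¹ * ((h * g) ^ t * (h * g) ^ s) * n' =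
        n'⁻¹ * (h * g) ^ t * n' * (n'⁻¹ * (h * g) ^ s * n') := by group
    rw [e2, h2]

end Cfsg.Agent.Lib.Helper2
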