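import Cfsg.Agent.Lib.Helper2.CoxEnum

set_option autoImplicit false

namespace Cfsg.Agent.Lib.Helper2

def ctG2T : List (List (List ℕ)) :=
  [[[1,2],[0,3],[4,0],[5,1],[2,6],[3,7],[8,4],[9,5],[6,10],[7,11],[11,8],[10,9]]]

def ctG2S : List (List (List ℕ)) :=
  [[[0,0],[1,0],[0,1],[0,1],[1,0],[1,0],[0,1],[0,1],[1,0],[1,0],[13,1],[12,1]]]

def ctG2P : List (List (List ℕ)) :=
  [[[0,0],[0,0],[0,1],[0,1],[0,0],[0,0],[0,1],[0,1],[0,0],[0,0],[0,1],[1,1]]]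

def ctG2W : List (List (List ℕ)) :=
  [[[],[0],[1],[0,1],[1,0],[0,1,0],[1,0,1],[0,1,0,1],[1,0,1,0],[0,1,0,1,0],[1,0,1,0,1],[0,1,0,1,0,1]]]

def ctG2M : List (List (List ℕ)) :=
  [[[1,6],[6,1]]]

set_option maxRecDepth 100000 in
theorem ct_g2_all : ceAll 2 12 (ceLk3 ctG2T) (ceLk3 ctG2S) (ceLk3 ctG2P) (ceLkW ctG2W) (ceLk3 ctG2M) := by
  decide +kernel

end Cfsg.Agent.Lib.Helper2
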