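import Cfsg.Agent.Lib.Helper2.CoxTabB2
import Cfsg.Agent.Lib.Helper2.CoxTabG2
import Cfsg.Agent.Lib.Helper2.CoxTabD4
import Cfsg.Agent.Lib.Helper2.CoxTabF4
import Cfsg.Prelude.Def_ChevStructure

set_option autoImplicit false

namespace Cfsg.Agent.Lib.Helper2

theorem ct_b2_mat : ∀ a b : Fin 2, (CoxeterMatrix.B 2) a b = ceLk3 ctB2M a.1 b.1 := by
  intro a b
  fin_cases a <;> fin_cases b <;> decide +kernel

theorem ct_b2_card : Nat.card (CoxeterMatrix.B 2).Group = 8 :=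
  ce_card (CoxeterMatrix.B 2) 8 (ceLk3 ctB2T) (ceLk3 ctB2S) (ceLk3 ctB2P) (ceLkW ctB2W) (ceLk3 ctB2M)
    ct_b2_mat ct_b2_all

theorem ct_g2_mat : ∀ a b : Fin 2, (CoxeterMatrix.G₂) a b = ceLk3 ctG2M a.1 b.1 := by
  intro a b
  fin_cases a <;> fin_cases b <;> decide +kernel

theorem ct_g2_card : Nat.card (CoxeterMatrix.G₂).Group = 12 :=
  ce_card (CoxeterMatrix.G₂) 12 (ceLk3 ctG2T) (ceLk3 ctG2S) (ceLk3 ctG2P) (ceLkW ctG2W) (ceLk3 ctG2M)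
    ct_g2_mat ct_g2_all

theorem ct_d4_mat : ∀ a b : Fin 4, (Cfsg.Lie.coxeterD4) a b = ceLk3 ctD4M a.1 b.1 := by
  intro a b
  fin_cases a <;> fin_cases b <;> decide +kernel

theorem ct_d4_card : Nat.card (Cfsg.Lie.coxeterD4).Group = 192 :=
  ce_card (Cfsg.Lie.coxeterD4) 192 (ceLk3 ctD4T) (ceLk3 ctD4S) (ceLk3 ctD4P) (ceLkW ctD4W) (ceLk3 ctD4M)
    ct_d4_mat ct_d4_all

theorem ct_f4_mat : ∀ a b : Fin 4, (CoxeterMatrix.F₄) a b = ceLk3 ctF4M a.1 b.1 := by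
  intro a b
  fin_cases a <;> fin_cases b <;> decide +kernel

theorem ct_f4_card : Nat.card (CoxeterMatrix.F₄).Group = 1152 :=
  ce_card (CoxeterMatrix.F₄) 1152 (ceLk3 ctF4T) (ceLk3 ctF4S) (ceLk3 ctF4P) (ceLkW ctF4W) (ceLk3 ctF4M)
    ct_f4_mat ct_f4_all

end Cfsg.Agent.Lib.Helper2
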