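import Mathlib

set_option autoImplicit false

namespace Cfsg.Agent.Lib.Helper2

/-- The relator word `(p b)^m`. -/
def ceRel (p b : ℕ) : ℕ → List ℕ
  | 0 => []
  | m + 1 => p :: b :: ceRel p b m

def ceFollow (tau : ℕ → ℕ → ℕ) : ℕ → List ℕ → ℕ
  | i, [] => i
  | i, b :: l => ceFollow tau (tau i b) l

def ceFolR (tau : ℕ → ℕ → ℕ) (x : ℕ) : List ℕ → ℕ
  | [] => x
  | b :: l => tau (ceFolR tau x l) b

def ceBefore (n N : ℕ) (tau ts : ℕ → ℕ → ℕ) (t : ℕ) : ℕ → List ℕ → Bool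
  | _, [] => true
  | i, b :: l =>
    ((decide (i < N) && decide (b < n)) && decide (ts i b < t)) && ceBefore n N tau ts t (tau i b) l

def ceEdge (n N : ℕ) (tau ts pp : ℕ → ℕ → ℕ) (wd : ℕ → List ℕ) (mm : ℕ → ℕ → ℕ) (i b : ℕ) : Prop :=
  tau i b < N ∧
  (wd (tau i b) = wd i ++ [b] ∨
   (pp i b < n ∧
    (ceRel (pp i b) b (mm (pp i b) b)).dropLast ++ [b] = ceRel (pp i b) b (mm (pp i b) b) ∧
    ceBefore n N tau ts (ts i b) (tau i b) (ceRel (pp i b) b (mm (pp i b) b)).dropLast = true ∧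
    ceFollow tau (tau i b) (ceRel (pp i b) b (mm (pp i b) b)).dropLast = i))

instance ceEdgeDec (n N : ℕ) (tau ts pp : ℕ → ℕ → ℕ) (wd : ℕ → List ℕ) (mm : ℕ → ℕ → ℕ) (i b : ℕ) :
    Decidable (ceEdge n N tau ts pp wd mm i b) := by
  unfold ceEdge; infer_instance

def ceAll (n N : ℕ) (tau ts pp : ℕ → ℕ → ℕ) (wd : ℕ → List ℕ) (mm : ℕ → ℕ → ℕ) : Prop :=
  0 < N ∧ wd 0 = [] ∧
  ∀ i ∈ List.range N, (∀ c ∈ wd i, c < n) ∧ ceFolR tau 0 (wd (ceFolR tau 0 (wd i))) = i ∧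
    ∀ b ∈ List.range n, ceEdge n N tau ts pp wd mm i b ∧
      ∀ a ∈ List.range n, ceFolR tau i (ceRel a b (mm a b)) = i

instance ceAllDec (n N : ℕ) (tau ts pp : ℕ → ℕ → ℕ) (wd : ℕ → List ℕ) (mm : ℕ → ℕ → ℕ) :
    Decidable (ceAll n N tau ts pp wd mm) := by
  unfold ceAll; infer_instance

def ceLk3 (X : List (List (List ℕ))) (i b : ℕ) : ℕ :=
  ((X.getD (i / 32) []).getD (i % 32) []).getD b 0

def ceLkW (X : List (List (List ℕ))) (i : ℕ) : List ℕ :=
  (X.getD (i / 32) []).getD (i % 32) []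

noncomputable def ceGen {n : ℕ} (M : CoxeterMatrix (Fin n)) (b : ℕ) : M.Group :=
  if h : b < n then M.toCoxeterSystem.simple ⟨b, h⟩ else 1

noncomputable def ceWp {n : ℕ} (M : CoxeterMatrix (Fin n)) (l : List ℕ) : M.Group :=
  (l.map (ceGen M)).prod

theorem ce_wp_nil {n : ℕ} (M : CoxeterMatrix (Fin n)) : ceWp M [] = 1 := by simp [ceWp]

theorem ce_wp_cons {n : ℕ} (M : CoxeterMatrix (Fin n)) (b : ℕ) (l : List ℕ) :
    ceWp M (b :: l) = ceGen M b * ceWp M l := by simp [ceWp]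

theorem ce_wp_append {n : ℕ} (M : CoxeterMatrix (Fin n)) (l l' : List ℕ) :
    ceWp M (l ++ l') = ceWp M l * ceWp M l' := by simp [ceWp]

theorem ce_wp_single {n : ℕ} (M : CoxeterMatrix (Fin n)) (b : ℕ) :
    ceWp M [b] = ceGen M b := by simp [ceWp]

theorem ce_rel_prod {n : ℕ} (M : CoxeterMatrix (Fin n)) (p b : ℕ) : ∀ m : ℕ,
    ceWp M (ceRel p b m) = (ceGen M p * ceGen M b) ^ m
  | 0 => by rw [pow_zero]; exact ce_wp_nil M
  | m + 1 => by
      rw [pow_succ', ← ce_rel_prod M p b m]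
      show ceWp M (p :: b :: ceRel p b m) = _
      rw [ce_wp_cons, ce_wp_cons, mul_assoc]

theorem ce_path {n : ℕ} (M : CoxeterMatrix (Fin n)) (N : ℕ) (tau ts : ℕ → ℕ → ℕ) (wd : ℕ → List ℕ)
    (t : ℕ)
    (ih : ∀ i < N, ∀ b < n, ts i b < t → ceWp M (wd i) * ceGen M b = ceWp M (wd (tau i b))) :
    ∀ (l : List ℕ) (j : ℕ), ceBefore n N tau ts t j l = true →
      ceWp M (wd j) * ceWp M l = ceWp M (wd (ceFollow tau j l))
  | [], j, _ => by
      show ceWp M (wd j) * ceWp M [] = ceWp M (wd j)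
      rw [ce_wp_nil, mul_one]
  | b :: l, j, h => by
      have h' : (((decide (j < N) && decide (b < n)) && decide (ts j b < t)) &&
          ceBefore n N tau ts t (tau j b) l) = true := h
      simp only [Bool.and_eq_true, decide_eq_true_eq] at h'
      obtain ⟨⟨⟨hj, hb⟩, ht⟩, hrest⟩ := h'
      have h1 := ih j hj b hb ht
      have h2 := ce_path M N tau ts wd t ih l (tau j b) hrest
      show ceWp M (wd j) * ceWp M (b :: l) = ceWp M (wd (ceFollow tau (tau j b) l))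
      rw [ce_wp_cons, ← mul_assoc, h1, h2]

theorem ce_sound {n : ℕ} (M : CoxeterMatrix (Fin n)) (N : ℕ) (tau ts pp : ℕ → ℕ → ℕ)
    (wd : ℕ → List ℕ) (mm : ℕ → ℕ → ℕ) (hM : ∀ a b : Fin n, M a b = mm a.1 b.1)
    (hall : ∀ i < N, ∀ b < n, ceEdge n N tau ts pp wd mm i b) :
    ∀ (t i : ℕ), i < N → ∀ b < n, ts i b = t →
      ceWp M (wd i) * ceGen M b = ceWp M (wd (tau i b)) := by
  intro t
  induction t using Nat.strong_induction_on with
  | _ t ih =>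
    intro i hi b hb hts
    obtain ⟨-, h⟩ := hall i hi b hb
    rcases h with h | ⟨hp, halt, hbef, hfol⟩
    · rw [h, ce_wp_append, ce_wp_single]
    · have hpath := ce_path M N tau ts wd (ts i b)
        (fun i' hi' b' hb' ht' => ih (ts i' b') (lt_of_lt_of_eq ht' hts) i' hi' b' hb' rfl) _ _ hbef
      rw [hfol] at hpath
      have hm : M ⟨pp i b, hp⟩ ⟨b, hb⟩ = mm (pp i b) b := hM ⟨pp i b, hp⟩ ⟨b, hb⟩
      have hr := M.toCoxeterSystem.simple_mul_simple_pow ⟨pp i b, hp⟩ ⟨b, hb⟩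
      rw [hm] at hr
      have hg1 : ceGen M (pp i b) = M.toCoxeterSystem.simple ⟨pp i b, hp⟩ := by
        unfold ceGen; exact dif_pos hp
      have hg2 : ceGen M b = M.toCoxeterSystem.simple ⟨b, hb⟩ := by
        unfold ceGen; exact dif_pos hb
      have hrel : ceWp M ((ceRel (pp i b) b (mm (pp i b) b)).dropLast) * ceGen M b = 1 := by
        rw [← ce_wp_single, ← ce_wp_append, halt, ce_rel_prod, hg1, hg2]
        exact hr
      rw [← hpath, mul_assoc, hrel, mul_one]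

def ceF (N : ℕ) (tau : ℕ → ℕ → ℕ) (b : ℕ) : Function.End (Fin N) :=
  fun x => if h : tau x.1 b < N then ⟨tau x.1 b, h⟩ else x

theorem ce_F_val (n N : ℕ) (tau : ℕ → ℕ → ℕ) (hcl : ∀ i < N, ∀ b < n, tau i b < N)
    (b : ℕ) (hb : b < n) (x : Fin N) : ((ceF N tau b) x).1 = tau x.1 b := by
  show (if h : tau x.1 b < N then (⟨tau x.1 b, h⟩ : Fin N) else x).1 = tau x.1 b
  rw [dif_pos (hcl x.1 x.2 b hb)]

theorem ce_pow_val (n N : ℕ) (tau : ℕ → ℕ → ℕ) (hcl : ∀ i < N, ∀ b < n, tau i b < N)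
    (a b : ℕ) (ha : a < n) (hb : b < n) :
    ∀ (m : ℕ) (x : Fin N),
      (((ceF N tau a * ceF N tau b) ^ m) x).1 = ceFolR tau x.1 (ceRel a b m)
  | 0, x => by rw [pow_zero]; rfl
  | m + 1, x => by
      rw [pow_succ']
      show ((ceF N tau a) ((ceF N tau b) (((ceF N tau a * ceF N tau b) ^ m) x))).1 =
        tau (tau (ceFolR tau x.1 (ceRel a b m)) b) a
      rw [ce_F_val n N tau hcl a ha, ce_F_val n N tau hcl b hb,
        ce_pow_val n N tau hcl a b ha hb m x]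

theorem ce_act {n : ℕ} (M : CoxeterMatrix (Fin n)) (N : ℕ) (tau : ℕ → ℕ → ℕ)
    (hcl : ∀ i < N, ∀ b < n, tau i b < N)
    (ψ : M.Group →* Function.End (Fin N))
    (hψ : ∀ b : Fin n, ψ (M.toCoxeterSystem.simple b) = ceF N tau b.1) :
    ∀ (l : List ℕ), (∀ c ∈ l, c < n) → ∀ x : Fin N,
      ((ψ (ceWp M l)) x).1 = ceFolR tau x.1 l
  | [], _, x => by rw [ce_wp_nil, map_one]; rfl
  | b :: l, hl, x => by
      have hb : b < n := hl b (by simp)
      have hg : ceGen M b = M.toCoxeterSystem.simple ⟨b, hb⟩ := by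
        unfold ceGen; exact dif_pos hb
      rw [ce_wp_cons, map_mul, hg, hψ]
      show ((ceF N tau b) ((ψ (ceWp M l)) x)).1 = tau (ceFolR tau x.1 l) b
      rw [ce_F_val n N tau hcl b hb,
        ce_act M N tau hcl ψ hψ l (fun c hc => hl c (List.mem_cons_of_mem _ hc)) x]

theorem ce_card {n : ℕ} (M : CoxeterMatrix (Fin n)) (N : ℕ) (tau ts pp : ℕ → ℕ → ℕ)
    (wd : ℕ → List ℕ) (mm : ℕ → ℕ → ℕ) (hM : ∀ a b : Fin n, M a b = mm a.1 b.1)
    (h : ceAll n N tau ts pp wd mm) : Nat.card M.Group = N := by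
  obtain ⟨hN, hw0, hall⟩ := h
  have hcl : ∀ i < N, ∀ b < n, tau i b < N := fun i hi b hb =>
    ((hall i (List.mem_range.2 hi)).2.2 b (List.mem_range.2 hb)).1.1
  have hedge : ∀ i < N, ∀ b < n, ceEdge n N tau ts pp wd mm i b := fun i hi b hb =>
    ((hall i (List.mem_range.2 hi)).2.2 b (List.mem_range.2 hb)).1
  have hrel : ∀ i < N, ∀ a < n, ∀ b < n, ceFolR tau i (ceRel a b (mm a b)) = i :=
    fun i hi a ha b hb =>
      ((hall i (List.mem_range.2 hi)).2.2 b (List.mem_range.2 hb)).2 a (List.mem_range.2 ha)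
  have hwd : ∀ i < N, ∀ c ∈ wd i, c < n := fun i hi => (hall i (List.mem_range.2 hi)).1
  have hinv : ∀ i < N, ceFolR tau 0 (wd (ceFolR tau 0 (wd i))) = i :=
    fun i hi => (hall i (List.mem_range.2 hi)).2.1
  have hsound := ce_sound M N tau ts pp wd mm hM hedge
  have hpow : ∀ (a b : Fin n) (x : Fin N),
      (((ceF N tau a.1 * ceF N tau b.1) ^ (M a b)) x) = x := by
    intro a b x
    apply Fin.ext
    rw [ce_pow_val n N tau hcl a.1 b.1 a.2 b.2, hM a b]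
    exact hrel x.1 x.2 a.1 a.2 b.1 b.2
  have hlift : M.IsLiftable (fun b : Fin n => ceF N tau b.1) := fun a b => funext (hpow a b)
  obtain ⟨ψ, hψ⟩ : ∃ ψ : M.Group →* Function.End (Fin N),
      ∀ b : Fin n, ψ (M.toCoxeterSystem.simple b) = ceF N tau b.1 :=
    ⟨M.toCoxeterSystem.lift ⟨_, hlift⟩, fun b => M.toCoxeterSystem.lift_apply_simple hlift b⟩
  have hinj : Function.Injective (fun i : Fin N => ceWp M (wd i.1)) := by
    intro i i' hii
    have h1 : ((ψ (ceWp M (wd i.1))) ⟨0, hN⟩).1 = ceFolR tau 0 (wd i.1) :=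
      ce_act M N tau hcl ψ hψ (wd i.1) (hwd i.1 i.2) ⟨0, hN⟩
    have h2 : ((ψ (ceWp M (wd i'.1))) ⟨0, hN⟩).1 = ceFolR tau 0 (wd i'.1) :=
      ce_act M N tau hcl ψ hψ (wd i'.1) (hwd i'.1 i'.2) ⟨0, hN⟩
    have h3 : ceFolR tau 0 (wd i.1) = ceFolR tau 0 (wd i'.1) :=
      h1.symm.trans ((congrArg (fun g => ((ψ g) ⟨0, hN⟩).1) hii).trans h2)
    have h4 := hinv i.1 i.2
    have h5 := hinv i'.1 i'.2
    rw [h3] at h4
    exact Fin.ext (h4.symm.trans h5)
  have hsurj : Function.Surjective (fun i : Fin N => ceWp M (wd i.1)) := by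
    intro g
    refine M.toCoxeterSystem.simple_induction_right
      (p := fun g => ∃ i : Fin N, ceWp M (wd i.1) = g) g ?_ ?_
    · exact ⟨⟨0, hN⟩, by show ceWp M (wd 0) = 1; rw [hw0]; exact ce_wp_nil M⟩
    · rintro w b ⟨i, rfl⟩
      refine ⟨⟨tau i.1 b.1, hcl i.1 i.2 b.1 b.2⟩, ?_⟩
      have h1 := hsound _ i.1 i.2 b.1 b.2 rfl
      have h2 : ceGen M b.1 = M.toCoxeterSystem.simple b := by
        unfold ceGen; exact dif_pos b.2
      show ceWp M (wd (tau i.1 b.1)) = ceWp M (wd i.1) * M.toCoxeterSystem.simple b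
      rw [← h1, h2]
  rw [← Nat.card_congr (Equiv.ofBijective _ ⟨hinj, hsurj⟩)]
  simp

end Cfsg.Agent.Lib.Helper2
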