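import Cfsg.Agent.Lib.Helper2.CoxEnum

set_option autoImplicit false

namespace Cfsg.Agent.Lib.Helper2

def ctB2T : List (List (List ℕ)) :=
  [[[1,2],[0,3],[4,0],[5,1],[2,6],[3,7],[7,4],[6,5]]]

def ctB2S : List (List (List ℕ)) :=
  [[[0,0],[1,0],[0,1],[0,1],[1,0],[1,0],[9,1],[8,1]]]

def ctB2P : List (List (List ℕ)) :=
  [[[0,0],[0,0],[0,1],[0,1],[0,0],[0,0],[0,1],[1,1]]]

def ctB2W : List (List (List ℕ)) :=
  [[[],[0],[1],[0,1],[1,0],[0,1,0],[1,0,1],[0,1,0,1]]]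

def ctB2M : List (List (List ℕ)) :=
  [[[1,4],[4,1]]]

set_option maxRecDepth 100000 in
theorem ct_b2_all : ceAll 2 8 (ceLk3 ctB2T) (ceLk3 ctB2S) (ceLk3 ctB2P) (ceLkW ctB2W) (ceLk3 ctB2M) := by
  decide +kernel

end Cfsg.Agent.Lib.Helper2
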