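import Mathlib

set_option autoImplicit false

namespace Cfsg.Agent.Lib.Helper2

theorem comm_of_isCyclic {Γ : Type*} [Group Γ] (H : Subgroup Γ) (hH : IsCyclic ↥H) :
    ∀ a ∈ H, ∀ b ∈ H, a * b = b * a := by
  haveI := hH
  obtain ⟨g, hg⟩ := IsCyclic.exists_generator (α := ↥H)
  intro a ha b hb
  obtain ⟨i, hi⟩ := Subgroup.mem_zpowers_iff.mp (hg ⟨a, ha⟩)
  obtain ⟨j, hj⟩ := Subgroup.mem_zpowers_iff.mp (hg ⟨b, hb⟩)
  have h1 : (⟨a, ha⟩ : ↥H) * ⟨b, hb⟩ = ⟨b, hb⟩ * ⟨a, ha⟩ := by
    rw [← hi, ← hj]; exact zpow_mul_comm g i j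
  exact congrArg Subtype.val h1

/-- In a finite cyclic subgroup `C`, every element whose `|L|`-th power is trivial lies in the
subgroup `L ≤ C`. -/
theorem mem_of_pow_card_eq_one_of_le_cyclic {G : Type*} [Group G] (C L : Subgroup G) [Finite C]
    (hC : IsCyclic ↥C) (hL : L ≤ C) (a : G) (haC : a ∈ C) (ham : a ^ Nat.card L = 1) :
    a ∈ L := by
  classical
  haveI := hC
  haveI : Fintype ↥C := Fintype.ofFinite _
  haveI : Finite ↥L :=
    Finite.of_injective (Subgroup.inclusion hL) (Subgroup.inclusion_injective hL)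
  have hm : 0 < Nat.card L := Nat.card_pos
  have hle : (Finset.univ.filter (fun b : ↥C => b ^ Nat.card L = 1)).card ≤ Nat.card L := by
    convert IsCyclic.card_pow_eq_one_le (α := ↥C) hm
  have hsub : (Finset.univ.filter (fun b : ↥C => (b : G) ∈ L))
      ⊆ (Finset.univ.filter (fun b : ↥C => b ^ Nat.card L = 1)) := by
    intro b hb
    rw [Finset.mem_filter] at hb ⊢
    refine ⟨Finset.mem_univ _, ?_⟩
    apply Subtype.ext
    have h0 := pow_card_eq_one' (G := ↥L) (x := ⟨(b : G), hb.2⟩)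
    have h1 : (b : G) ^ Nat.card L = 1 := congrArg Subtype.val h0
    exact h1
  have hcard : (Finset.univ.filter (fun b : ↥C => (b : G) ∈ L)).card = Nat.card L := by
    rw [← Fintype.card_subtype, ← Nat.card_eq_fintype_card]
    apply Nat.card_congr
    exact { toFun := fun b => ⟨(b.1 : G), b.2⟩
            invFun := fun l => ⟨⟨(l : G), hL l.2⟩, l.2⟩
            left_inv := fun b => rfl
            right_inv := fun l => rfl }
  have heq := Finset.eq_of_subset_of_card_le hsub (by rw [hcard]; exact hle)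
  have haT : (⟨a, haC⟩ : ↥C) ∈ (Finset.univ.filter (fun b : ↥C => b ^ Nat.card L = 1)) := by
    rw [Finset.mem_filter]
    exact ⟨Finset.mem_univ _, Subtype.ext ham⟩
  rw [← heq, Finset.mem_filter] at haT
  exact haT.2

/-- Subgroups of a finite cyclic subgroup are determined by their order. -/
theorem eq_of_card_eq_of_le_cyclic {G : Type*} [Group G] (C H K : Subgroup G) [Finite C]
    (hC : IsCyclic ↥C) (hH : H ≤ C) (hK : K ≤ C) (h : Nat.card H = Nat.card K) : H = K := by
  apply le_antisymm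
  · intro x hx
    apply mem_of_pow_card_eq_one_of_le_cyclic C K hC hK x (hH hx)
    rw [← h]
    have h0 := pow_card_eq_one' (G := ↥H) (x := ⟨x, hx⟩)
    have h1 : x ^ Nat.card H = 1 := congrArg Subtype.val h0
    exact h1
  · intro x hx
    apply mem_of_pow_card_eq_one_of_le_cyclic C H hC hH x (hK hx)
    rw [h]
    have h0 := pow_card_eq_one' (G := ↥K) (x := ⟨x, hx⟩)
    have h1 : x ^ Nat.card K = 1 := congrArg Subtype.val h0
    exact h1

end Cfsg.Agent.Lib.Helper2
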