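import Mathlib

set_option autoImplicit false

namespace Cfsg.Agent.Lib.Helper2

theorem card_le_sylow {G : Type*} [Group G] [Finite G] {p : ℕ} [Fact p.Prime] (S : Sylow p G)
    (H : Subgroup G) (hH : IsPGroup p H) : Nat.card H ≤ Nat.card (S : Subgroup G) := by
  obtain ⟨S', hS'⟩ := hH.exists_le_sylow
  exact (Subgroup.card_le_of_le hS').trans
    ((S'.card_eq_multiplicity).trans (S.card_eq_multiplicity).symm).le

theorem card_lt_of_le_of_mem {G : Type*} [Group G] {D H : Subgroup G} [Finite H] (hle : D ≤ H)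
    (x : G) (hx : x ∈ H) (hxD : x ∉ D) : Nat.card D < Nat.card H := by
  by_contra h
  push Not at h
  have h1 := Subgroup.eq_of_le_of_card_ge hle h
  exact hxD (h1 ▸ hx)

theorem sylow_ge_normal {G : Type*} [Group G] {p : ℕ} (S : Sylow p G) (D : Subgroup G)
    [D.Normal] (hD : IsPGroup p D) : D ≤ S := by
  have h1 : IsPGroup p ((S : Subgroup G) ⊔ D : Subgroup G) :=
    IsPGroup.to_sup_of_normal_right S.2 hD
  have h2 := S.is_maximal' h1 le_sup_left
  have h3 : D ≤ (S : Subgroup G) ⊔ D := le_sup_right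
  rw [h2] at h3
  exact h3

/-- Normalizers grow in `p`-groups. -/
theorem normalizer_grows {G : Type*} [Group G] [Finite G] {p : ℕ} [Fact p.Prime]
    (P : Subgroup G) (hP : IsPGroup p P) (D : Subgroup G) (hDP : D ≤ P) (hne : D ≠ P) :
    ∃ x ∈ P, x ∉ D ∧ x ∈ Subgroup.normalizer (D : Set G) := by
  haveI : Group.IsNilpotent ↥P := hP.isNilpotent
  have hnc : NormalizerCondition ↥P := Group.normalizerCondition_of_isNilpotent
  have hlt : D.subgroupOf P < ⊤ := by
    rw [lt_top_iff_ne_top]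
    intro h
    rw [Subgroup.subgroupOf_eq_top] at h
    exact hne (le_antisymm hDP h)
  obtain ⟨y, hyN, hyD⟩ := SetLike.exists_of_lt (hnc _ hlt)
  refine ⟨(y : G), y.2, hyD, ?_⟩
  rw [Subgroup.mem_normalizer_iff]
  intro g
  by_cases hg : g ∈ P
  · exact (Subgroup.mem_normalizer_iff.mp hyN) ⟨g, hg⟩
  · constructor
    · intro hgD; exact absurd (hDP hgD) hg
    · intro hgD
      exfalso; apply hg
      have h5 : (y : G) * g * (y : G)⁻¹ ∈ P := hDP hgD
      have e : g = (y : G)⁻¹ * ((y : G) * g * (y : G)⁻¹) * (y : G) := by group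
      rw [e]; exact P.mul_mem (P.mul_mem (P.inv_mem y.2) h5) y.2

end Cfsg.Agent.Lib.Helper2
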