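import Mathlib
import Cfsg.Agent.Lib.Helper4.DihedralHom
import Cfsg.Agent.Lib.Helper2.SylowInter
import Cfsg.Agent.Lib.Helper2.CyclicSub

set_option autoImplicit false

namespace Cfsg.Agent.Lib.Helper2

/-- A group in which every element squares to one is commutative. -/
theorem comm_of_sq_eq_one {T : Type*} [Group T] (h : ∀ x : T, x * x = 1) (a b : T) :
    a * b = b * a := by
  have h1 := h (a * b)
  have ha := h a
  have hb := h b
  calc a * b = a * (a * b * (a * b)) * b := by rw [h1, mul_one]
    _ = (a * a) * (b * a) * (b * b) := by group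
    _ = b * a := by rw [ha, hb, one_mul, mul_one]

/-- A non-commutative group of order 8 contains an element of order 4. -/
theorem exists_orderOf_four {T : Type*} [Group T] (h8 : Nat.card T = 8)
    (hnc : ¬ ∀ a b : T, a * b = b * a) : ∃ a : T, orderOf a = 4 := by
  haveI : Finite T := Nat.finite_of_card_ne_zero (by rw [h8]; norm_num)
  by_contra hcon
  push Not at hcon
  apply hnc
  apply comm_of_sq_eq_one
  intro x
  have h1 : orderOf x ∣ 2 ^ 3 := by
    have h0 := orderOf_dvd_natCard x
    rw [h8] at h0
    have e : (8 : ℕ) = 2 ^ 3 := by norm_num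
    rw [e] at h0
    exact h0
  obtain ⟨j, hj, hxj⟩ := (Nat.dvd_prime_pow Nat.prime_two).mp h1
  have hj2 : j ≠ 2 := by
    intro h2
    rw [h2] at hxj
    exact hcon x (hxj.trans (by norm_num))
  have hj3 : j ≠ 3 := by
    intro h3
    rw [h3] at hxj
    apply hcon (x ^ 2)
    rw [orderOf_pow' x (by norm_num : (2 : ℕ) ≠ 0), hxj]
    decide
  have hj01 : j = 0 ∨ j = 1 := by omega
  have hx2 : x ^ 2 = 1 := by
    apply orderOf_dvd_iff_pow_eq_one.mp
    rcases hj01 with h0 | h0
    · rw [hxj, h0]; norm_num
    · rw [hxj, h0]; norm_num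
  rw [← pow_two]; exact hx2

/-- A non-commutative group of order 8 with two distinct involutions is dihedral. -/
theorem dihedral_of_card_eight {T : Type*} [Group T] (h8 : Nat.card T = 8)
    (hnc : ¬ ∀ a b : T, a * b = b * a)
    (hinv : ∃ u v : T, orderOf u = 2 ∧ orderOf v = 2 ∧ u ≠ v) :
    Nonempty (T ≃* DihedralGroup 4) := by
  classical
  haveI : Finite T := Nat.finite_of_card_ne_zero (by rw [h8]; norm_num)
  obtain ⟨a, ha⟩ := exists_orderOf_four h8 hnc
  have ha4 : a ^ 4 = 1 := by rw [← ha]; exact pow_orderOf_eq_one a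
  have hAc : Nat.card (Subgroup.zpowers a) = 4 := by rw [Nat.card_zpowers, ha]
  have hAi : (Subgroup.zpowers a).index = 2 := by
    have h0 := (Subgroup.zpowers a).card_mul_index
    rw [hAc, h8] at h0
    omega
  have hAn : (Subgroup.zpowers a).Normal := Subgroup.normal_of_index_eq_two hAi
  have hAcyc : IsCyclic ↥(Subgroup.zpowers a) := inferInstance
  -- an involution outside `⟨a⟩`
  obtain ⟨b, hb2, hbA⟩ : ∃ b : T, orderOf b = 2 ∧ b ∉ Subgroup.zpowers a := by
    obtain ⟨u, v, hu, hv, huv⟩ := hinv
    by_contra hcon
    push Not at hcon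
    have huA := hcon u hu
    have hvA := hcon v hv
    have hzu : Nat.card (Subgroup.zpowers u) = 2 := by rw [Nat.card_zpowers, hu]
    have hzv : Nat.card (Subgroup.zpowers v) = 2 := by rw [Nat.card_zpowers, hv]
    have heq := eq_of_card_eq_of_le_cyclic (Subgroup.zpowers a) (Subgroup.zpowers u)
      (Subgroup.zpowers v) hAcyc ((Subgroup.zpowers_le).mpr huA) ((Subgroup.zpowers_le).mpr hvA)
      (hzu.trans hzv.symm)
    have hvu : v ∈ Subgroup.zpowers u := by rw [heq]; exact Subgroup.mem_zpowers v
    obtain ⟨n, hn⟩ := (Submonoid.mem_powers_iff v u).mp (mem_powers_iff_mem_zpowers.mpr hvu)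
    have hn' : u ^ (n % orderOf u) = v := by rw [pow_mod_orderOf]; exact hn
    rw [hu] at hn'
    rcases Nat.mod_two_eq_zero_or_one n with h0 | h1
    · rw [h0, pow_zero] at hn'
      rw [← hn', orderOf_one] at hv
      omega
    · rw [h1, pow_one] at hn'
      exact huv hn'
  have hbb : b * b = 1 := by rw [← pow_two, ← hb2]; exact pow_orderOf_eq_one b
  have hconj : b * a * b⁻¹ ∈ Subgroup.zpowers a := hAn.conj_mem a (Subgroup.mem_zpowers a) b
  obtain ⟨n, hn⟩ := (Submonoid.mem_powers_iff (b * a * b⁻¹) a).mp
    (mem_powers_iff_mem_zpowers.mpr hconj)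
  have hn' : a ^ (n % orderOf a) = b * a * b⁻¹ := by rw [pow_mod_orderOf]; exact hn
  rw [ha] at hn'
  have hlt : n % 4 < 4 := Nat.mod_lt _ (by norm_num)
  have hab : b * a * b⁻¹ = a⁻¹ := by
    obtain ⟨m, hm⟩ : ∃ m : ℕ, m = n % 4 := ⟨_, rfl⟩
    rw [← hm] at hn' hlt
    interval_cases m
    · exfalso
      rw [pow_zero] at hn'
      have h1 : a = 1 := by
        calc a = b⁻¹ * (b * a * b⁻¹) * b := by group
          _ = 1 := by rw [← hn']; group
      rw [h1, orderOf_one] at ha
      omega
    · exfalso
      rw [pow_one] at hn'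
      have hba : b * a = a * b := by
        calc b * a = (b * a * b⁻¹) * b := by group
          _ = a * b := by rw [← hn']
      have key : ∀ K : Subgroup T, Subgroup.zpowers a ≤ K → b ∈ K → K = ⊤ := by
        intro K hAK hbK
        have hlt' : Nat.card (Subgroup.zpowers a) < Nat.card K :=
          card_lt_of_le_of_mem hAK b hbK hbA
        have hd1 : Nat.card (Subgroup.zpowers a) ∣ Nat.card K := Subgroup.card_dvd_of_le hAK
        have hd2 : Nat.card K ∣ Nat.card T := Subgroup.card_subgroup_dvd_card K
        rw [hAc] at hlt' hd1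
        rw [h8] at hd2
        apply Subgroup.eq_top_of_card_eq
        rw [h8]
        have hle : Nat.card K ≤ 8 := Nat.le_of_dvd (by norm_num) hd2
        obtain ⟨c, hc⟩ := hd1
        omega
      have ha_central : ∀ g : T, g * a = a * g := by
        intro g
        have h1 : Subgroup.centralizer ({a} : Set T) = ⊤ := by
          apply key
          · rw [Subgroup.zpowers_le, Subgroup.mem_centralizer_iff]
            intro x hx
            rw [Set.mem_singleton_iff] at hx
            rw [hx]
          · rw [Subgroup.mem_centralizer_iff]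
            intro x hx
            rw [Set.mem_singleton_iff] at hx
            rw [hx]; exact hba.symm
        have h2 : g ∈ Subgroup.centralizer ({a} : Set T) := by
          rw [h1]; exact Subgroup.mem_top g
        exact (Subgroup.mem_centralizer_iff.mp h2 a (Set.mem_singleton a)).symm
      have hb_central : ∀ g : T, g * b = b * g := by
        intro g
        have h1 : Subgroup.centralizer ({b} : Set T) = ⊤ := by
          apply key
          · rw [Subgroup.zpowers_le, Subgroup.mem_centralizer_iff]
            intro x hx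
            rw [Set.mem_singleton_iff] at hx
            rw [hx]; exact hba
          · rw [Subgroup.mem_centralizer_iff]
            intro x hx
            rw [Set.mem_singleton_iff] at hx
            rw [hx]
        have h2 : g ∈ Subgroup.centralizer ({b} : Set T) := by
          rw [h1]; exact Subgroup.mem_top g
        exact (Subgroup.mem_centralizer_iff.mp h2 b (Set.mem_singleton b)).symm
      have hcen : Subgroup.center T = ⊤ := by
        apply key
        · rw [Subgroup.zpowers_le, Subgroup.mem_center_iff]
          exact ha_central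
        · rw [Subgroup.mem_center_iff]
          exact hb_central
      apply hnc
      intro x y
      have hx : x ∈ Subgroup.center T := by rw [hcen]; exact Subgroup.mem_top x
      exact ((Subgroup.mem_center_iff.mp hx) y).symm
    · exfalso
      have h1 : (b * a * b⁻¹) ^ 2 = 1 := by
        rw [← hn', ← pow_mul]
        exact ha4
      rw [conj_pow] at h1
      have h2 : a ^ 2 = 1 := by
        calc a ^ 2 = b⁻¹ * (b * a ^ 2 * b⁻¹) * b := by group
          _ = 1 := by rw [h1]; group
      have h3 := orderOf_dvd_of_pow_eq_one h2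
      rw [ha] at h3
      exact absurd h3 (by decide)
    · rw [← hn']
      apply eq_inv_of_mul_eq_one_left
      rw [← pow_succ]
      exact ha4
  have hinj := Cfsg.Agent.Lib.Helper4.dihedralLift_injective (n := 4) ha4 hbb hab ha hbA
  have hD : Nat.card (DihedralGroup 4) = 8 := DihedralGroup.nat_card.trans (by norm_num)
  have hbij : Function.Bijective (Cfsg.Agent.Lib.Helper4.dihedralLift 4 a b ha4 hbb hab) :=
    hinj.bijective_of_nat_card_le (le_of_eq (h8.trans hD.symm))
  exact ⟨(MulEquiv.ofBijective _ hbij).symm⟩

end Cfsg.Agent.Lib.Helper2
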