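import Mathlib
import Cfsg.Prelude
import Cfsg.Agent.Lib.Helper2.PSolvOfSolv
import Cfsg.Agent.Lib.Helper2.PLenClass
import Cfsg.Agent.Lib.Helper4.PReduced
import Cfsg.Agent.Lib.Helper7.ElemAbCount
import Cfsg.Agent.Lib.Lead.CharBurnside

set_option autoImplicit false

namespace Cfsg.Agent.Lib.Helper2

universe u

theorem exp6_pow_three {M : Type*} [Group M] (y : M) (h6 : y ^ 6 = 1) (j : ℕ)
    (h : y ^ 3 ^ j = 1) : y ^ 3 = 1 := by
  have h1 : orderOf y ∣ 3 ^ j := orderOf_dvd_of_pow_eq_one h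
  have h2 : orderOf y ∣ 2 * 3 := orderOf_dvd_of_pow_eq_one h6
  have h3 : Nat.Coprime (orderOf y) 2 :=
    Nat.Coprime.coprime_dvd_left h1 (Nat.Coprime.pow_left j (by norm_num))
  exact orderOf_dvd_iff_pow_eq_one.mp (h3.dvd_of_dvd_mul_left h2)

theorem exp6_pow_two {M : Type*} [Group M] (y : M) (h6 : y ^ 6 = 1) (k : ℕ)
    (h : y ^ 2 ^ k = 1) : y ^ 2 = 1 := by
  have h1 : orderOf y ∣ 2 ^ k := orderOf_dvd_of_pow_eq_one h
  have h2 : orderOf y ∣ 3 * 2 := orderOf_dvd_of_pow_eq_one h6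
  have h3 : Nat.Coprime (orderOf y) 3 :=
    Nat.Coprime.coprime_dvd_left h1 (Nat.Coprime.pow_left k (by norm_num))
  exact orderOf_dvd_iff_pow_eq_one.mp (h3.dvd_of_dvd_mul_left h2)

theorem exp6_eq_one_of_sq {M : Type*} [Group M] (a : M) (h2 : a * a = 1) (j : ℕ)
    (h3 : a ^ 3 ^ j = 1) : a = 1 := by
  have h1 : orderOf a ∣ 3 ^ j := orderOf_dvd_of_pow_eq_one h3
  have h2' : a ^ 2 = 1 := by rw [pow_two]; exact h2
  have h4 : orderOf a ∣ 2 := orderOf_dvd_of_pow_eq_one h2'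
  rcases (Nat.dvd_prime Nat.prime_two).mp h4 with h | h
  · exact orderOf_eq_one_iff.mp h
  · exfalso
    rw [h] at h1
    have h5 : 2 ∣ 3 := Nat.Prime.dvd_of_dvd_pow Nat.prime_two h1
    omega

/-- A finite group of exponent dividing 6 is solvable. -/
theorem exp6_solvable {G : Type u} [Group G] [Finite G] (h : ∀ x : G, x ^ 6 = 1) :
    Group.IsSolvable G := by
  have hn0 : Nat.card G ≠ 0 := Nat.card_pos.ne'
  have hprime : ∀ q : ℕ, q.Prime → q ∣ Nat.card G → q = 2 ∨ q = 3 := by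
    intro q hq hdvd
    haveI : Fact q.Prime := ⟨hq⟩
    obtain ⟨x, hx⟩ := exists_prime_orderOf_dvd_card' (G := G) q hdvd
    have h6 : q ∣ 2 * 3 := by rw [← hx]; exact orderOf_dvd_of_pow_eq_one (h x)
    rcases (Nat.Prime.dvd_mul hq).mp h6 with h2 | h3
    · left; exact (Nat.prime_dvd_prime_iff_eq hq Nat.prime_two).mp h2
    · right; exact (Nat.prime_dvd_prime_iff_eq hq Nat.prime_three).mp h3
  obtain ⟨m, hm⟩ : ∃ m, m = Nat.card G / 2 ^ (Nat.card G).factorization 2 := ⟨_, rfl⟩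
  have hsplit : 2 ^ (Nat.card G).factorization 2 * m = Nat.card G := by
    rw [hm]; exact Nat.ordProj_mul_ordCompl_eq_self _ 2
  have hm2 : ¬ 2 ∣ m := by rw [hm]; exact Nat.not_dvd_ordCompl Nat.prime_two hn0
  have hm0 : m ≠ 0 := by
    rintro rfl
    rw [mul_zero] at hsplit
    exact hn0 hsplit.symm
  have hm3 : m = 3 ^ m.primeFactorsList.length :=
    Nat.eq_prime_pow_of_unique_prime_dvd hm0 (fun {d} hd hdm => by
      have hdG : d ∣ Nat.card G := by rw [← hsplit]; exact Dvd.dvd.mul_left hdm _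
      rcases hprime d hd hdG with h2 | h3
      · exact absurd (h2 ▸ hdm) hm2
      · exact h3)
  exact Cfsg.Agent.Lib.Lead.burnside_paqb _ G 2 3 ((Nat.card G).factorization 2)
    m.primeFactorsList.length Nat.prime_two Nat.prime_three rfl (by rw [← hm3, hsplit])

/-- If a Sylow `p`-subgroup lies in the `2c`-th term of the upper `p`-series, the `p`-length is
at most `c`. -/
theorem plength_le_of_sylow_le {G : Type u} [Group G] [Finite G] (p : ℕ) [Fact p.Prime]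
    (S : Sylow p G) (c : ℕ) (hS : (S : Subgroup G) ≤ (Cfsg.upperPSeries p G (2 * c)).1) :
    Cfsg.PLengthLE p c G := by
  have hp : p.Prime := Fact.out
  unfold Cfsg.PLengthLE
  rw [upperPSeries_odd p G c]
  have htop : Cfsg.pPrimeCore p (G ⧸ (Cfsg.upperPSeries p G (2 * c)).1) = ⊤ := by
    rw [eq_top_iff]
    unfold Cfsg.pPrimeCore
    apply le_sSup
    refine ⟨inferInstance, ?_⟩
    rw [Subgroup.card_top]
    have hidx : Nat.card (G ⧸ (Cfsg.upperPSeries p G (2 * c)).1)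
        = (Cfsg.upperPSeries p G (2 * c)).1.index := rfl
    rw [hidx]
    have hdvd : (Cfsg.upperPSeries p G (2 * c)).1.index ∣ (S : Subgroup G).index :=
      Subgroup.index_dvd_of_le hS
    have hnd : ¬ p ∣ (Cfsg.upperPSeries p G (2 * c)).1.index :=
      fun h => S.not_dvd_index (dvd_trans h hdvd)
    exact Nat.Coprime.symm ((Nat.Prime.coprime_iff_not_dvd hp).mpr hnd)
  rw [htop, Subgroup.comap_top]

/-- The eigenspace argument: an involution `u` with `u·uˣ·uˣˣ` acting trivially on an abelian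
normal subgroup `A` of odd order on which `1 + x + x²` vanishes must centralize `A`. -/
theorem exp6_eigen_core {L : Type u} [Group L] (A : Subgroup L) [hAn : A.Normal]
    (hcomm : ∀ a ∈ A, ∀ b ∈ A, a * b = b * a)
    (hodd : ∀ a ∈ A, a * a = 1 → a = 1)
    (x u w t : L) (hw : w = x * u * x⁻¹) (ht : t = x * w * x⁻¹)
    (hu2 : u * u = 1) (hx3 : x * x * x = 1)
    (hc1 : ∀ a ∈ A, (u * w) * a * (u * w)⁻¹ = (w * u) * a * (w * u)⁻¹)
    (hc2 : ∀ a ∈ A, (u * w * t) * a * (u * w * t)⁻¹ = a)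
    (hi : ∀ a ∈ A, a * (x * a * x⁻¹) * (x * (x * a * x⁻¹) * x⁻¹) = 1) :
    ∀ a ∈ A, u * a * u⁻¹ = a := by
  have hUmul : ∀ a b : L, u * (a * b) * u⁻¹ = (u * a * u⁻¹) * (u * b * u⁻¹) := by
    intro a b; group
  have hWmul : ∀ a b : L, w * (a * b) * w⁻¹ = (w * a * w⁻¹) * (w * b * w⁻¹) := by
    intro a b; group
  have hWinv : ∀ a : L, w * a⁻¹ * w⁻¹ = (w * a * w⁻¹)⁻¹ := by intro a; group
  have hXinv : ∀ a : L, x * a⁻¹ * x⁻¹ = (x * a * x⁻¹)⁻¹ := by intro a; group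
  have hUU : ∀ a : L, u * (u * a * u⁻¹) * u⁻¹ = a := by
    intro a
    have h1 : u * (u * a * u⁻¹) * u⁻¹ = (u * u) * a * (u * u)⁻¹ := by group
    rw [h1, hu2, one_mul, inv_one, mul_one]
  have hw2 : w * w = 1 := by
    have h1 : w * w = x * (u * u) * x⁻¹ := by rw [hw]; group
    rw [h1, hu2, mul_one, mul_inv_cancel]
  have hWW : ∀ a : L, w * (w * a * w⁻¹) * w⁻¹ = a := by
    intro a
    have h1 : w * (w * a * w⁻¹) * w⁻¹ = (w * w) * a * (w * w)⁻¹ := by group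
    rw [h1, hw2, one_mul, inv_one, mul_one]
  have hxx : x * x = x⁻¹ := mul_eq_one_iff_eq_inv.mp hx3
  have hxt : x * t = u * x := by
    have h1 : x * t = (x * x) * (x * u * x⁻¹) * x⁻¹ := by rw [ht, hw]; group
    have h2 : x⁻¹ * (x * u * x⁻¹) * x⁻¹ = u * (x * x)⁻¹ := by group
    rw [h1, hxx, h2, hxx, inv_inv]
  have hB1 : ∀ a : L, w * (x * a * x⁻¹) * w⁻¹ = x * (u * a * u⁻¹) * x⁻¹ := by
    intro a; rw [hw]; group
  have hB3 : ∀ a : L, u * (x * a * x⁻¹) * u⁻¹ = x * (t * a * t⁻¹) * x⁻¹ := by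
    intro a
    have h1 : x * (t * a * t⁻¹) * x⁻¹ = (x * t) * a * (x * t)⁻¹ := by group
    rw [h1, hxt]; group
  have hF2 : ∀ a ∈ A, u * (w * a * w⁻¹) * u⁻¹ = w * (u * a * u⁻¹) * w⁻¹ := by
    intro a ha
    have h1 : u * (w * a * w⁻¹) * u⁻¹ = (u * w) * a * (u * w)⁻¹ := by group
    have h2 : w * (u * a * u⁻¹) * w⁻¹ = (w * u) * a * (w * u)⁻¹ := by group
    rw [h1, h2]; exact hc1 a ha
  have hF3 : ∀ a ∈ A, u * (w * (t * a * t⁻¹) * w⁻¹) * u⁻¹ = a := by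
    intro a ha
    have h1 : u * (w * (t * a * t⁻¹) * w⁻¹) * u⁻¹ = (u * w * t) * a * (u * w * t)⁻¹ := by group
    rw [h1]; exact hc2 a ha
  have hT : ∀ v ∈ A, t * v * t⁻¹ = w * (u * v * u⁻¹) * w⁻¹ := by
    intro v hv
    have h1 := hF3 v hv
    have h2 : w * (t * v * t⁻¹) * w⁻¹ = u * v * u⁻¹ := by
      have h := hUU (w * (t * v * t⁻¹) * w⁻¹)
      rw [h1] at h
      exact h.symm
    have h3 := hWW (t * v * t⁻¹)
    rw [h2] at h3
    exact h3.symm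
  have hE : ∀ v ∈ A, u * v * u⁻¹ = v⁻¹ → w * v * w⁻¹ = v → v = 1 := by
    intro v hv hUv hWv
    have hTv : t * v * t⁻¹ = v⁻¹ := by
      rw [hT v hv, hUv, hWinv, hWv]
    have hy : x * v * x⁻¹ ∈ A := hAn.conj_mem v hv x
    have hz : x * (x * v * x⁻¹) * x⁻¹ ∈ A := hAn.conj_mem _ hy x
    have h1 := hi v hv
    have hWY : w * (x * v * x⁻¹) * w⁻¹ = (x * v * x⁻¹)⁻¹ := by
      rw [hB1 v, hUv, hXinv]
    have hWZ : w * (x * (x * v * x⁻¹) * x⁻¹) * w⁻¹ = (x * (x * v * x⁻¹) * x⁻¹)⁻¹ := by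
      rw [hB1 (x * v * x⁻¹), hB3 v, hTv, hXinv, hXinv]
    have h2 : v * (x * v * x⁻¹)⁻¹ * (x * (x * v * x⁻¹) * x⁻¹)⁻¹ = 1 := by
      calc v * (x * v * x⁻¹)⁻¹ * (x * (x * v * x⁻¹) * x⁻¹)⁻¹
          = (w * v * w⁻¹) * (w * (x * v * x⁻¹) * w⁻¹) * (w * (x * (x * v * x⁻¹) * x⁻¹) * w⁻¹) := by
            rw [hWv, hWY, hWZ]
        _ = w * (v * (x * v * x⁻¹) * (x * (x * v * x⁻¹) * x⁻¹)) * w⁻¹ := by group
        _ = 1 := by rw [h1, mul_one, mul_inv_cancel]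
    have hyz := hcomm _ hy _ hz
    have e1 : (x * v * x⁻¹) * (x * (x * v * x⁻¹) * x⁻¹) = v⁻¹ := by
      rw [mul_assoc] at h1; exact eq_inv_of_mul_eq_one_right h1
    have e2 : (x * v * x⁻¹)⁻¹ * (x * (x * v * x⁻¹) * x⁻¹)⁻¹ = v⁻¹ := by
      rw [mul_assoc] at h2; exact eq_inv_of_mul_eq_one_right h2
    have e3 : (x * v * x⁻¹)⁻¹ * (x * (x * v * x⁻¹) * x⁻¹)⁻¹
        = ((x * v * x⁻¹) * (x * (x * v * x⁻¹) * x⁻¹))⁻¹ := by
      rw [hyz]; exact (mul_inv_rev _ _).symm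
    rw [e3, e1, inv_inv] at e2
    apply hodd v hv
    calc v * v = v * v⁻¹ := by rw [← e2]
      _ = 1 := mul_inv_cancel v
  have hM : ∀ v ∈ A, u * v * u⁻¹ = v⁻¹ → v = 1 := by
    intro v hv hUv
    have hWvA : w * v * w⁻¹ ∈ A := hAn.conj_mem v hv w
    have haA : v * (w * v * w⁻¹) ∈ A := A.mul_mem hv hWvA
    have hcm := hcomm v hv _ hWvA
    have hUa : u * (v * (w * v * w⁻¹)) * u⁻¹ = (v * (w * v * w⁻¹))⁻¹ := by
      have e : (w * v * w⁻¹ * v)⁻¹ = v⁻¹ * (w * v * w⁻¹)⁻¹ := mul_inv_rev _ _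
      rw [hUmul, hF2 v hv, hUv, hWinv, hcm, e]
    have hWa : w * (v * (w * v * w⁻¹)) * w⁻¹ = v * (w * v * w⁻¹) := by
      rw [hWmul, hWW, hcm]
    have ha1 := hE _ haA hUa hWa
    have hWv : w * v * w⁻¹ = v⁻¹ := eq_inv_of_mul_eq_one_right ha1
    have hTv : t * v * t⁻¹ = v := by
      rw [hT v hv, hUv, hWinv, hWv, inv_inv]
    have hv'A : x⁻¹ * v * x ∈ A := by
      have h := hAn.conj_mem v hv x⁻¹
      rwa [inv_inv] at h
    have hU' : u * (x⁻¹ * v * x) * u⁻¹ = (x⁻¹ * v * x)⁻¹ := by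
      have h1 : u * (x⁻¹ * v * x) * u⁻¹ = x⁻¹ * ((x * u * x⁻¹) * v * (x * u * x⁻¹)⁻¹) * x := by
        group
      rw [h1, ← hw, hWv]; group
    have hW' : w * (x⁻¹ * v * x) * w⁻¹ = x⁻¹ * v * x := by
      have h1 : w * (x⁻¹ * v * x) * w⁻¹ = x⁻¹ * ((x * w * x⁻¹) * v * (x * w * x⁻¹)⁻¹) * x := by
        group
      rw [h1, ← ht, hTv]
    have h1 := hE _ hv'A hU' hW'
    have h2 : v = x * (x⁻¹ * v * x) * x⁻¹ := by group
    rw [h2, h1, mul_one, mul_inv_cancel]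
  intro a ha
  have hUaA : u * a * u⁻¹ ∈ A := hAn.conj_mem a ha u
  have hcA : a * (u * a * u⁻¹)⁻¹ ∈ A := A.mul_mem ha (A.inv_mem hUaA)
  have hUc : u * (a * (u * a * u⁻¹)⁻¹) * u⁻¹ = (a * (u * a * u⁻¹)⁻¹)⁻¹ := by
    have e1 : u * (a * (u * a * u⁻¹)⁻¹) * u⁻¹
        = (u * a * u⁻¹) * (u * (u * a * u⁻¹) * u⁻¹)⁻¹ := by group
    have e2 : (a * (u * a * u⁻¹)⁻¹)⁻¹ = (u * a * u⁻¹) * a⁻¹ := by group
    rw [e1, e2, hUU]
  have h1 := hM _ hcA hUc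
  exact (mul_inv_eq_one.mp h1).symm

end Cfsg.Agent.Lib.Helper2
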