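import Mathlib
import Cfsg.Prelude
import Cfsg.Agent.Lib.Helper2.Exp6
import Cfsg.Agent.Lib.Helper2.UpperSeries
import Cfsg.Agent.S4218

set_option autoImplicit false

namespace Cfsg.Agent.Lib.Helper2

universe u

/-- In a group of exponent dividing 6, every element of order dividing 3 lies in `O_{3',3}`
(stated for a pair `N ≤ P` with `P/N = O_3(G/N)` self-centralizing). -/
theorem exp6_three_mem {G : Type u} [Group G] [Finite G] (h6 : ∀ g : G, g ^ 6 = 1)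
    (N P : Subgroup G) [hNn : N.Normal] [hPn : P.Normal]
    (hPdef : ∀ x, x ∈ P ↔ QuotientGroup.mk' N x ∈ Cfsg.pCore 3 (G ⧸ N))
    (hcent : Subgroup.centralizer (Cfsg.pCore 3 (G ⧸ N) : Set (G ⧸ N)) ≤ Cfsg.pCore 3 (G ⧸ N))
    (x : G) (hx : x ^ 3 = 1) : x ∈ P := by
  haveI : Fact (Nat.Prime 2) := ⟨Nat.prime_two⟩
  haveI : Fact (Nat.Prime 3) := ⟨Nat.prime_three⟩
  have hsolv : Group.IsSolvable G := exp6_solvable h6
  have hNP : N ≤ P := by
    intro n hn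
    rw [hPdef]
    have h1 : QuotientGroup.mk' N n = 1 := (QuotientGroup.eq_one_iff n).mpr hn
    rw [h1]; exact Subgroup.one_mem _
  have hpow : ∀ k ∈ P, ∃ j : ℕ, k ^ 3 ^ j ∈ N := by
    intro k hk
    have hk' := (hPdef k).mp hk
    obtain ⟨j, hj⟩ := (Cfsg.Agent.Lib.Helper4.pCore_isPGroup 3 (G ⧸ N)) ⟨_, hk'⟩
    have hj' : (QuotientGroup.mk' N k) ^ 3 ^ j = 1 := congrArg Subtype.val hj
    refine ⟨j, ?_⟩
    rw [← map_pow] at hj'
    exact (QuotientGroup.eq_one_iff _).mp hj'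
  have hfaith : ∀ g : G, (∀ a ∈ P, g * a * g⁻¹ * a⁻¹ ∈ Cfsg.Agent.S4218.Fr P N) → g ∈ P :=
    fun g => (Cfsg.Agent.S4218.main N P hNP hPdef hcent hpow g).mp
  have hO3 : Cfsg.pCore 3 (G ⧸ P) = ⊥ := by
    rw [Cfsg.Agent.Lib.Helper4.pCore_quotient_eq_bot_iff]
    intro D hD hDpow d hd
    rw [hPdef]
    have hn : (D.map (QuotientGroup.mk' N)).Normal :=
      Subgroup.Normal.map hD _ (QuotientGroup.mk'_surjective _)
    have hpg : IsPGroup 3 ↥(D.map (QuotientGroup.mk' N)) := by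
      intro y
      obtain ⟨e, he, hey⟩ := y.2
      obtain ⟨k, hk⟩ := hDpow e he
      obtain ⟨j, hj⟩ := hpow _ hk
      refine ⟨k + j, Subtype.ext ?_⟩
      rw [SubmonoidClass.coe_pow, Subgroup.coe_one, ← hey, pow_add, pow_mul, ← map_pow, ← map_pow]
      exact (QuotientGroup.eq_one_iff _).mpr hj
    exact Cfsg.Agent.Lib.Helper4.le_pCore hn hpg (Subgroup.mem_map_of_mem _ hd)
  by_contra hxP
  have hxxx : x * x * x = 1 := by rw [← pow_three']; exact hx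
  -- the quotient `G ⧸ P`
  have h6q : ∀ y : G ⧸ P, y ^ 6 = 1 := by
    intro y
    obtain ⟨g, rfl⟩ := QuotientGroup.mk'_surjective P y
    rw [← map_pow, h6, map_one]
  have hps2 : Cfsg.IsPSolvable 2 (G ⧸ P) := by
    haveI := hsolv
    exact isPSolvable_of_isSolvable 2 inferInstance
  have hO2 : Cfsg.pPrimeCore 2 (G ⧸ P) = ⊥ := by
    unfold Cfsg.pPrimeCore
    rw [sSup_eq_bot]
    rintro M ⟨hMn, hMc⟩
    have hMp : IsPGroup 3 ↥M := by
      intro g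
      refine ⟨1, ?_⟩
      rw [pow_one]
      have h1 : orderOf g ∣ Nat.card ↥M := orderOf_dvd_natCard g
      have h2 : Nat.Coprime (orderOf g) 2 := Nat.Coprime.coprime_dvd_left h1 hMc
      have h3 : g ^ 6 = 1 := by
        apply Subtype.ext
        rw [SubmonoidClass.coe_pow, Subgroup.coe_one]
        exact h6q _
      have h4 : orderOf g ∣ 2 * 3 := orderOf_dvd_of_pow_eq_one h3
      exact orderOf_dvd_iff_pow_eq_one.mp (h2.dvd_of_dvd_mul_left h4)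
    have hle := Cfsg.Agent.Lib.Helper4.le_pCore hMn hMp
    rw [hO3] at hle
    exact le_bot_iff.mp hle
  have hcent2 := Cfsg.Agent.S4218.hh123 hps2 hO2
  have hR2 : ∀ e ∈ Cfsg.pCore 2 (G ⧸ P), e * e = 1 := by
    intro e he
    obtain ⟨k, hk⟩ := (Cfsg.Agent.Lib.Helper4.pCore_isPGroup 2 (G ⧸ P)) ⟨e, he⟩
    have hk' : e ^ 2 ^ k = 1 := congrArg Subtype.val hk
    have h := exp6_pow_two e (h6q e) k hk'
    rw [pow_two] at h; exact h
  haveI hRn : (Cfsg.pCore 2 (G ⧸ P)).Normal := Cfsg.Agent.Lib.Helper4.pCore_normal 2 (G ⧸ P)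
  have hRcomm : ∀ a ∈ Cfsg.pCore 2 (G ⧸ P), ∀ b ∈ Cfsg.pCore 2 (G ⧸ P), a * b = b * a := by
    intro a ha b hb
    have h := hR2 (a * b) (Subgroup.mul_mem _ ha hb)
    symm
    calc b * a = (a * a) * (b * a) * (b * b) := by rw [hR2 a ha, hR2 b hb, one_mul, mul_one]
      _ = a * (a * b * (a * b)) * b := by group
      _ = a * b := by rw [h, mul_one]
  obtain ⟨xb, hxbdef⟩ : ∃ xb : G ⧸ P, xb = QuotientGroup.mk' P x := ⟨_, rfl⟩
  have hxb3 : xb * xb * xb = 1 := by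
    rw [hxbdef, ← map_mul, ← map_mul, hxxx, map_one]
  have hxb1 : xb ≠ 1 := by
    rw [hxbdef]
    exact fun h => hxP ((QuotientGroup.eq_one_iff x).mp h)
  have hxR : xb ∉ Cfsg.pCore 2 (G ⧸ P) := by
    intro hmem
    have h2 := hR2 _ hmem
    apply hxb1
    rw [h2, one_mul] at hxb3
    exact hxb3
  have hxC : xb ∉ Subgroup.centralizer (Cfsg.pCore 2 (G ⧸ P) : Set (G ⧸ P)) :=
    fun h => hxR (hcent2 h)
  rw [Subgroup.mem_centralizer_iff] at hxC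
  push_neg at hxC
  obtain ⟨e₁, he₁R, he₁x⟩ := hxC
  have he₁R' : e₁ ∈ Cfsg.pCore 2 (G ⧸ P) := he₁R
  obtain ⟨r, hr⟩ := QuotientGroup.mk'_surjective P e₁
  -- the elements e₂, e₃ of R
  obtain ⟨e₂, he₂def⟩ : ∃ e₂ : G ⧸ P, e₂ = xb * e₁ * xb⁻¹ := ⟨_, rfl⟩
  obtain ⟨e₃, he₃def⟩ : ∃ e₃ : G ⧸ P, e₃ = xb * e₂ * xb⁻¹ := ⟨_, rfl⟩
  have he₂R : e₂ ∈ Cfsg.pCore 2 (G ⧸ P) := by rw [he₂def]; exact hRn.conj_mem _ he₁R' _
  have he₃R : e₃ ∈ Cfsg.pCore 2 (G ⧸ P) := by rw [he₃def]; exact hRn.conj_mem _ he₂R _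
  have he₄ : xb * e₃ * xb⁻¹ = e₁ := by
    have h1 : xb * e₃ * xb⁻¹ = (xb * xb * xb) * e₁ * (xb * xb * xb)⁻¹ := by
      rw [he₃def, he₂def]; group
    rw [h1, hxb3, one_mul, inv_one, mul_one]
  -- the elements u, w, t of G
  obtain ⟨u, hudef⟩ : ∃ u : G, u = (r * (x * r * x⁻¹)) ^ 3 := ⟨_, rfl⟩
  obtain ⟨w, hwdef⟩ : ∃ w : G, w = x * u * x⁻¹ := ⟨_, rfl⟩
  obtain ⟨t, htdef⟩ : ∃ t : G, t = x * w * x⁻¹ := ⟨_, rfl⟩
  have hu2 : u * u = 1 := by
    rw [hudef, ← pow_add]; exact h6 _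
  have hπu : QuotientGroup.mk' P u = e₁ * e₂ := by
    have h1 : QuotientGroup.mk' P (r * (x * r * x⁻¹)) = e₁ * e₂ := by
      rw [map_mul, map_mul, map_mul, map_inv, hr, ← hxbdef, he₂def]
    rw [hudef, map_pow, h1, pow_three']
    have h2 := hR2 _ (Subgroup.mul_mem _ he₁R' he₂R)
    rw [h2, one_mul]
  have hπw : QuotientGroup.mk' P w = e₂ * e₃ := by
    rw [hwdef, map_mul, map_mul, map_inv, hπu, ← hxbdef, he₃def, he₂def]; group
  have hπt : QuotientGroup.mk' P t = e₃ * e₁ := by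
    rw [htdef, map_mul, map_mul, map_inv, hπw, ← hxbdef]
    have h1 : xb * (e₂ * e₃) * xb⁻¹ = (xb * e₂ * xb⁻¹) * (xb * e₃ * xb⁻¹) := by group
    rw [h1, he₄, ← he₃def]
  have huP : u ∉ P := by
    intro huP
    have h1 : QuotientGroup.mk' P u = 1 := (QuotientGroup.eq_one_iff u).mpr huP
    rw [hπu] at h1
    -- e₁ * e₂ = 1, so e₂ = e₁
    have h2 : e₂ = e₁⁻¹ := eq_inv_of_mul_eq_one_right h1
    have h3 : e₁⁻¹ = e₁ := inv_eq_of_mul_eq_one_left (hR2 e₁ he₁R')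
    rw [h3, he₂def] at h2
    -- xb * e₁ * xb⁻¹ = e₁
    apply he₁x
    have h4 := mul_inv_eq_iff_eq_mul.mp h2
    exact h4.symm
  have hc1P : u * w * u⁻¹ * w⁻¹ ∈ P := by
    apply (QuotientGroup.eq_one_iff _).mp
    have h1 : QuotientGroup.mk' P (u * w * u⁻¹ * w⁻¹) = 1 := by
      rw [map_mul, map_mul, map_mul, map_inv, map_inv, hπu, hπw]
      have hc := hRcomm _ (Subgroup.mul_mem _ he₁R' he₂R) _ (Subgroup.mul_mem _ he₂R he₃R)
      rw [hc]; group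
    exact h1
  have hc2P : u * w * t ∈ P := by
    apply (QuotientGroup.eq_one_iff _).mp
    have h1 : QuotientGroup.mk' P (u * w * t) = 1 := by
      rw [map_mul, map_mul, hπu, hπw, hπt]
      have h2 : e₁ * e₂ * (e₂ * e₃) * (e₃ * e₁) = e₁ * (e₂ * e₂) * (e₃ * e₃) * e₁ := by group
      rw [h2, hR2 e₂ he₂R, hR2 e₃ he₃R, mul_one, mul_one, hR2 e₁ he₁R']
    exact h1
  -- the quotient `G ⧸ F`
  obtain ⟨F, hFdef⟩ : ∃ F : Subgroup G, F = Cfsg.Agent.S4218.Fr P N := ⟨_, rfl⟩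
  haveI hFn : F.Normal := by rw [hFdef]; exact Cfsg.Agent.S4218.Fr_normal P N
  have hPNp : IsPGroup 3 (↥P ⧸ N.subgroupOf P) := by
    intro y
    obtain ⟨⟨g, hg⟩, rfl⟩ := QuotientGroup.mk'_surjective _ y
    obtain ⟨j, hj⟩ := hpow g hg
    refine ⟨j, ?_⟩
    rw [← map_pow]
    apply (QuotientGroup.eq_one_iff _).mpr
    rw [Subgroup.mem_subgroupOf]
    exact hj
  have hNF : N ≤ F := by
    intro n hn
    rw [hFdef, Cfsg.Agent.S4218.mem_Fr]
    refine ⟨hNP hn, ?_⟩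
    have h1 : (QuotientGroup.mk' (N.subgroupOf P)) ⟨n, hNP hn⟩ = 1 := by
      apply (QuotientGroup.eq_one_iff _).mpr
      rw [Subgroup.mem_subgroupOf]
      exact hn
    rw [h1]; exact Subgroup.one_mem _
  have hFcomm : ∀ a ∈ P, ∀ b ∈ P, (a * b)⁻¹ * (b * a) ∈ F := by
    intro a ha b hb
    rw [hFdef, Cfsg.Agent.S4218.mem_Fr]
    refine ⟨P.mul_mem (P.inv_mem (P.mul_mem ha hb)) (P.mul_mem hb ha), ?_⟩
    exact Cfsg.Agent.Lib.Helper7.comm_mem_frattini hPNp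
      ((QuotientGroup.mk' (N.subgroupOf P)) ⟨a, ha⟩) ((QuotientGroup.mk' (N.subgroupOf P)) ⟨b, hb⟩)
  obtain ⟨A, hAdef⟩ : ∃ A : Subgroup (G ⧸ F), A = P.map (QuotientGroup.mk' F) := ⟨_, rfl⟩
  haveI hAn : A.Normal := by
    rw [hAdef]; exact Subgroup.Normal.map hPn _ (QuotientGroup.mk'_surjective F)
  have hAmem : ∀ a ∈ P, QuotientGroup.mk' F a ∈ A := by
    intro a ha; rw [hAdef]; exact Subgroup.mem_map_of_mem _ ha
  have hAcomm : ∀ a ∈ A, ∀ b ∈ A, a * b = b * a := by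
    intro a ha b hb
    rw [hAdef] at ha hb
    obtain ⟨a₀, ha₀, rfl⟩ := ha
    obtain ⟨b₀, hb₀, rfl⟩ := hb
    have h1 : QuotientGroup.mk' F ((a₀ * b₀)⁻¹ * (b₀ * a₀)) = 1 :=
      (QuotientGroup.eq_one_iff _).mpr (hFcomm a₀ ha₀ b₀ hb₀)
    rw [map_mul, map_inv, map_mul, map_mul] at h1
    exact inv_mul_eq_one.mp h1
  have hA3 : ∀ a ∈ A, ∃ j : ℕ, a ^ 3 ^ j = 1 := by
    intro a ha
    rw [hAdef] at ha
    obtain ⟨a₀, ha₀, rfl⟩ := ha
    obtain ⟨j, hj⟩ := hpow a₀ ha₀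
    refine ⟨j, ?_⟩
    rw [← map_pow]
    exact (QuotientGroup.eq_one_iff _).mpr (hNF hj)
  have hAodd : ∀ a ∈ A, a * a = 1 → a = 1 := by
    intro a ha h2
    obtain ⟨j, hj⟩ := hA3 a ha
    exact exp6_eq_one_of_sq a h2 j hj
  have h6L : ∀ y : G ⧸ F, y ^ 6 = 1 := by
    intro y
    obtain ⟨g, rfl⟩ := QuotientGroup.mk'_surjective F y
    rw [← map_pow, h6, map_one]
  obtain ⟨x', hx'def⟩ : ∃ x' : G ⧸ F, x' = QuotientGroup.mk' F x := ⟨_, rfl⟩
  obtain ⟨u', hu'def⟩ : ∃ u' : G ⧸ F, u' = QuotientGroup.mk' F u := ⟨_, rfl⟩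
  obtain ⟨w', hw'def⟩ : ∃ w' : G ⧸ F, w' = QuotientGroup.mk' F w := ⟨_, rfl⟩
  obtain ⟨t', ht'def⟩ : ∃ t' : G ⧸ F, t' = QuotientGroup.mk' F t := ⟨_, rfl⟩
  have hw' : w' = x' * u' * x'⁻¹ := by
    rw [hw'def, hwdef, map_mul, map_mul, map_inv, ← hx'def, ← hu'def]
  have ht' : t' = x' * w' * x'⁻¹ := by
    rw [ht'def, htdef, map_mul, map_mul, map_inv, ← hx'def, ← hw'def]
  have hu2' : u' * u' = 1 := by rw [hu'def, ← map_mul, hu2, map_one]
  have hx3' : x' * x' * x' = 1 := by rw [hx'def, ← map_mul, ← map_mul, hxxx, map_one]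
  have hc1' : ∀ a ∈ A, (u' * w') * a * (u' * w')⁻¹ = (w' * u') * a * (w' * u')⁻¹ := by
    intro a ha
    have hcA : u' * w' * u'⁻¹ * w'⁻¹ ∈ A := by
      have h := hAmem _ hc1P
      rw [map_mul, map_mul, map_mul, map_inv, map_inv, ← hu'def, ← hw'def] at h
      exact h
    have hbA : (w' * u') * a * (w' * u')⁻¹ ∈ A := hAn.conj_mem a ha _
    have hcb := hAcomm _ hcA _ hbA
    calc (u' * w') * a * (u' * w')⁻¹
        = (u' * w' * u'⁻¹ * w'⁻¹) * ((w' * u') * a * (w' * u')⁻¹) * (u' * w' * u'⁻¹ * w'⁻¹)⁻¹ := by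
          group
      _ = ((w' * u') * a * (w' * u')⁻¹) * (u' * w' * u'⁻¹ * w'⁻¹) * (u' * w' * u'⁻¹ * w'⁻¹)⁻¹ := by
          rw [hcb]
      _ = (w' * u') * a * (w' * u')⁻¹ := by rw [mul_inv_cancel_right]
  have hc2' : ∀ a ∈ A, (u' * w' * t') * a * (u' * w' * t')⁻¹ = a := by
    intro a ha
    have hcA : u' * w' * t' ∈ A := by
      have h := hAmem _ hc2P
      rw [map_mul, map_mul, ← hu'def, ← hw'def, ← ht'def] at h
      exact h
    have hcb := hAcomm _ hcA a ha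
    rw [hcb, mul_inv_cancel_right]
  have hi' : ∀ a ∈ A, a * (x' * a * x'⁻¹) * (x' * (x' * a * x'⁻¹) * x'⁻¹) = 1 := by
    intro a ha
    have hbA : a * (x' * a * x'⁻¹) * (x' * (x' * a * x'⁻¹) * x'⁻¹) ∈ A :=
      A.mul_mem (A.mul_mem ha (hAn.conj_mem a ha x'))
        (hAn.conj_mem _ (hAn.conj_mem a ha x') x')
    obtain ⟨j, hj⟩ := hA3 _ hbA
    have hy3 : (a * x') ^ 3 = a * (x' * a * x'⁻¹) * (x' * (x' * a * x'⁻¹) * x'⁻¹) := by
      have h1 : (a * x') ^ 3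
          = a * (x' * a * x'⁻¹) * (x' * (x' * a * x'⁻¹) * x'⁻¹) * (x' * x' * x') := by
        rw [pow_three']; group
      rw [h1, hx3', mul_one]
    have hy : (a * x') ^ 3 ^ (j + 1) = 1 := by
      rw [pow_succ', pow_mul, hy3, hj]
    have h3 := exp6_pow_three (a * x') (h6L _) (j + 1) hy
    rw [← hy3]; exact h3
  have hcore := exp6_eigen_core A hAcomm hAodd x' u' w' t' hw' ht' hu2' hx3' hc1' hc2' hi'
  apply huP
  apply hfaith u
  intro a ha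
  rw [← hFdef]
  have h1 : QuotientGroup.mk' F (u * a * u⁻¹ * a⁻¹) = 1 := by
    rw [map_mul, map_mul, map_mul, map_inv, map_inv, ← hu'def, hcore _ (hAmem a ha),
      mul_inv_cancel]
  exact (QuotientGroup.eq_one_iff _).mp h1

/-- A finite group of exponent dividing 6 has 2-length and 3-length at most one. -/
theorem exp6_plength {G : Type u} [Group G] [Finite G] (h6 : ∀ x : G, x ^ 6 = 1) :
    Cfsg.PLengthLE 2 1 G ∧ Cfsg.PLengthLE 3 1 G := by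
  haveI : Fact (Nat.Prime 2) := ⟨Nat.prime_two⟩
  haveI : Fact (Nat.Prime 3) := ⟨Nat.prime_three⟩
  have hsolv : Group.IsSolvable G := exp6_solvable h6
  have hps2 : Cfsg.IsPSolvable 2 G := isPSolvable_of_isSolvable 2 hsolv
  have hps3 : Cfsg.IsPSolvable 3 G := isPSolvable_of_isSolvable 3 hsolv
  constructor
  · obtain ⟨S⟩ : Nonempty (Sylow 2 G) := inferInstance
    apply plength_le_class hps2 S 1
    rw [Subgroup.upperCentralSeries_one, eq_top_iff]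
    intro z _
    rw [Subgroup.mem_center_iff]
    intro g
    have hsq : ∀ a : ↥(S : Subgroup G), a * a = 1 := by
      intro a
      obtain ⟨k, hk⟩ := S.2 a
      have h6a : a ^ 6 = 1 := by
        apply Subtype.ext
        rw [SubmonoidClass.coe_pow, Subgroup.coe_one]
        exact h6 _
      have h := exp6_pow_two a h6a k hk
      rw [pow_two] at h; exact h
    calc g * z = (z * z) * (g * z) * (g * g) := by rw [hsq z, hsq g, one_mul, mul_one]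
      _ = z * (z * g * (z * g)) * g := by group
      _ = z * g := by rw [hsq (z * g), mul_one]
  · obtain ⟨S⟩ : Nonempty (Sylow 3 G) := inferInstance
    apply plength_le_of_sylow_le 3 S 1
    intro s hs
    obtain ⟨k, hk⟩ := S.2 ⟨s, hs⟩
    have hk' : s ^ 3 ^ k = 1 := congrArg Subtype.val hk
    have hs3 := exp6_pow_three s (h6 s) k hk'
    have hO : Cfsg.pPrimeCore 3 (G ⧸ (Cfsg.upperPSeries 3 G 1).1) = ⊥ :=
      pPrimeCore_quotient_comap_eq_bot 3 (Cfsg.upperPSeries 3 G 0).1 (Cfsg.upperPSeries 3 G 1).1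
        (upperPSeries_one 3 G)
    have hcent := Cfsg.Agent.S4218.hh123 (Cfsg.Agent.S4218.isPSolvable_quotient
      (Cfsg.upperPSeries 3 G 1).1 hps3) hO
    have hPdef : ∀ y, y ∈ (Cfsg.upperPSeries 3 G 2).1 ↔
        QuotientGroup.mk' (Cfsg.upperPSeries 3 G 1).1 y ∈
          Cfsg.pCore 3 (G ⧸ (Cfsg.upperPSeries 3 G 1).1) := by
      intro y
      rw [upperPSeries_two 3 G]
      exact Iff.rfl
    show s ∈ (Cfsg.upperPSeries 3 G 2).1
    exact exp6_three_mem h6 (Cfsg.upperPSeries 3 G 1).1 (Cfsg.upperPSeries 3 G 2).1 hPdef hcent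
      s hs3

end Cfsg.Agent.Lib.Helper2
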