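import Mathlib
import Cfsg.Prelude.Def_Balance
import Cfsg.Agent.Lib.Helper2.ExtLayer2
import Cfsg.Agent.Lib.Helper4.Normalizer
import Cfsg.Agent.Lib.Helper6.Index

set_option autoImplicit false

namespace Cfsg.Agent.Lib.Helper2

universe u

open Cfsg

/-- A conjugate (by any element of `X`) of a Sylow subgroup of a normal subgroup `M` is again a
Sylow subgroup of `M`. -/
theorem exists_sylow_conj {X : Type*} [Group X] [Finite X] (p : ℕ) [Fact p.Prime]
    (M : Subgroup X) [hM : M.Normal] (T : Sylow p ↥M) (g : X) :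
    ∃ T' : Sylow p ↥M, (T' : Subgroup ↥M).map M.subtype =
      ((T : Subgroup ↥M).map M.subtype).map (MulAut.conj g).toMonoidHom := by
  have hSM : ((T : Subgroup ↥M).map M.subtype).map (MulAut.conj g).toMonoidHom ≤ M := by
    rintro _ ⟨s, hs, rfl⟩
    obtain ⟨t, _, rfl⟩ := hs
    exact hM.conj_mem _ t.2 g
  have hcard : Nat.card ↥((((T : Subgroup ↥M).map M.subtype).map
      (MulAut.conj g).toMonoidHom).subgroupOf M) = p ^ (Nat.card ↥M).factorization p := by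
    rw [Nat.card_congr (Subgroup.subgroupOfEquivOfLe hSM).toEquiv,
      Subgroup.card_map_of_injective (MulAut.conj g).injective,
      Subgroup.card_map_of_injective M.subtype_injective]
    exact T.card_eq_multiplicity
  refine ⟨Sylow.ofCard _ hcard, ?_⟩
  rw [Sylow.coe_ofCard, Subgroup.map_subgroupOf_eq_of_le hSM]

/-- Two Sylow subgroups of `M` are conjugate by an element of `M`. -/
theorem sylow_map_eq_conj {X : Type*} [Group X] [Finite X] (p : ℕ) [Fact p.Prime]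
    (M : Subgroup X) (T T' : Sylow p ↥M) :
    ∃ m ∈ M, (T' : Subgroup ↥M).map M.subtype =
      ((T : Subgroup ↥M).map M.subtype).map (MulAut.conj m).toMonoidHom := by
  obtain ⟨g, hg⟩ := MulAction.exists_smul_eq ↥M T T'
  refine ⟨g.1, g.2, ?_⟩
  rw [← hg, Sylow.coe_subgroup_smul]
  ext x
  constructor
  · rintro ⟨y, hy, rfl⟩
    rw [SetLike.mem_coe, Cfsg.Agent.Lib.Lead.mem_conj_smul] at hy
    refine ⟨(g⁻¹ * y * g : ↥M), ⟨_, hy, rfl⟩, ?_⟩
    show g.1 * (g.1⁻¹ * y.1 * g.1) * g.1⁻¹ = y.1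
    group
  · rintro ⟨_, ⟨t, ht, rfl⟩, rfl⟩
    exact ⟨g * t * g⁻¹, Cfsg.Agent.Lib.Lead.conj_mem_conj_smul ht, rfl⟩

/-- `O_{p',p}(X) ≤ O_{p'}(X) S` for any Sylow `p`-subgroup `S` of a subgroup `M ≥ O_{p',p}(X)`. -/
theorem pPrimePCore_le_sup_sylow {X : Type u} [Group X] [Finite X] (p : ℕ) [Fact p.Prime]
    (M : Subgroup X) (hPM : Cfsg.pPrimePCore p X ≤ M) (T : Sylow p ↥M) :
    Cfsg.pPrimePCore p X ≤ Cfsg.pPrimeCore p X ⊔ (T : Subgroup ↥M).map M.subtype := by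
  obtain ⟨P₀⟩ : Nonempty (Sylow p ↥(Cfsg.pPrimePCore p X)) := inferInstance
  have hR := sylow_pPrimePCore_map p P₀
  have hRp : IsPGroup p ↥((((P₀ : Subgroup ↥(Cfsg.pPrimePCore p X)).map
      (Cfsg.pPrimePCore p X).subtype)).subgroupOf M) :=
    (P₀.2.map _).comap_of_injective M.subtype M.subtype_injective
  obtain ⟨m, hm⟩ := Cfsg.Agent.Lib.Lead.sylow_conj_mem T _ hRp
  intro x hx
  have hx1 : QuotientGroup.mk' (Cfsg.pPrimeCore p X) x ∈ Cfsg.pCore p (X ⧸ Cfsg.pPrimeCore p X) := hx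
  have hn : (Cfsg.pCore p (X ⧸ Cfsg.pPrimeCore p X)).Normal := Cfsg.pCore_normal p _
  have hx2 : (QuotientGroup.mk' (Cfsg.pPrimeCore p X) m.1)⁻¹ *
      QuotientGroup.mk' (Cfsg.pPrimeCore p X) x * (QuotientGroup.mk' (Cfsg.pPrimeCore p X) m.1) ∈
      Cfsg.pCore p (X ⧸ Cfsg.pPrimeCore p X) := by
    have := hn.conj_mem _ hx1 (QuotientGroup.mk' (Cfsg.pPrimeCore p X) m.1)⁻¹
    simpa using this
  rw [← hR] at hx2
  obtain ⟨r, hr, hrx⟩ := hx2
  have hrM : r ∈ M := hPM (by obtain ⟨r0, _, rfl⟩ := hr; exact r0.2)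
  have h1 := hm ⟨r, hrM⟩ (Subgroup.mem_subgroupOf.mpr hr)
  have h2 : QuotientGroup.mk' (Cfsg.pPrimeCore p X) (m.1 * r * m.1⁻¹) =
      QuotientGroup.mk' (Cfsg.pPrimeCore p X) x := by
    rw [map_mul, map_mul, hrx, map_inv]
    group
  have h3 : (m.1 * r * m.1⁻¹)⁻¹ * x ∈ Cfsg.pPrimeCore p X := QuotientGroup.eq.mp h2
  have h4 : x = (m.1 * r * m.1⁻¹) * ((m.1 * r * m.1⁻¹)⁻¹ * x) := by group
  rw [h4]
  exact Subgroup.mul_mem _ (Subgroup.mem_sup_right ⟨_, h1, rfl⟩) (Subgroup.mem_sup_left h3)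

/-- The extended `p`-layer can be computed from a single Sylow subgroup. -/
theorem extendedLayer_eq {X : Type u} [Group X] [Finite X] (p : ℕ) [Fact p.Prime]
    (T : Sylow p ↥(Cfsg.pLayer p X ⊔ Cfsg.pPrimePCore p X)) :
    Cfsg.pLayer p X ⊔ Cfsg.pPrimeCore p X ⊔
      (⨆ T' : Sylow p ↥(Cfsg.pLayer p X ⊔ Cfsg.pPrimePCore p X),
        cpc p ((T' : Subgroup ↥(Cfsg.pLayer p X ⊔ Cfsg.pPrimePCore p X)).map
          (Cfsg.pLayer p X ⊔ Cfsg.pPrimePCore p X).subtype)) =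
    Cfsg.pLayer p X ⊔ Cfsg.pPrimeCore p X ⊔
      cpc p ((T : Subgroup ↥(Cfsg.pLayer p X ⊔ Cfsg.pPrimePCore p X)).map
          (Cfsg.pLayer p X ⊔ Cfsg.pPrimePCore p X).subtype) := by
  have hLn : (Cfsg.pLayer p X).Normal := pLayer_normal p
  have hOn : (Cfsg.pPrimeCore p X).Normal := inferInstance
  -- the Sylow subgroup normalizes the right-hand side
  have hSN : (T : Subgroup ↥(Cfsg.pLayer p X ⊔ Cfsg.pPrimePCore p X)).map
      (Cfsg.pLayer p X ⊔ Cfsg.pPrimePCore p X).subtype ≤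
      Subgroup.normalizer ((Cfsg.pLayer p X ⊔ Cfsg.pPrimeCore p X ⊔
      cpc p ((T : Subgroup ↥(Cfsg.pLayer p X ⊔ Cfsg.pPrimePCore p X)).map
          (Cfsg.pLayer p X ⊔ Cfsg.pPrimePCore p X).subtype) : Subgroup X) : Set X) := by
    intro s hs
    apply Cfsg.Agent.Lib.Helper4.mem_normalizer_of_map_conj_eq
    rw [Subgroup.map_sup, Subgroup.map_sup,
      Cfsg.Agent.Lib.Helper4.map_conj_eq_of_mem_normalizer
        (by rw [Subgroup.normalizer_eq_top]; trivial : s ∈ Subgroup.normalizer (Cfsg.pLayer p X : Set X)),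
      Cfsg.Agent.Lib.Helper4.map_conj_eq_of_mem_normalizer
        (by rw [Subgroup.normalizer_eq_top]; trivial : s ∈ Subgroup.normalizer (Cfsg.pPrimeCore p X : Set X)),
      cpc_conj_of_eq p _ s
        (Cfsg.Agent.Lib.Helper4.map_conj_eq_of_mem_normalizer (Subgroup.le_normalizer hs))]
  have hMN : Cfsg.pLayer p X ⊔ Cfsg.pPrimePCore p X ≤
      Subgroup.normalizer ((Cfsg.pLayer p X ⊔ Cfsg.pPrimeCore p X ⊔
      cpc p ((T : Subgroup ↥(Cfsg.pLayer p X ⊔ Cfsg.pPrimePCore p X)).map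
          (Cfsg.pLayer p X ⊔ Cfsg.pPrimePCore p X).subtype) : Subgroup X) : Set X) := by
    refine sup_le ((le_sup_of_le_left le_sup_left).trans Subgroup.le_normalizer) ?_
    refine (pPrimePCore_le_sup_sylow p _ le_sup_right T).trans (sup_le ?_ hSN)
    exact (le_sup_of_le_left le_sup_right).trans Subgroup.le_normalizer
  apply le_antisymm
  · refine sup_le le_sup_left (iSup_le fun T' => ?_)
    obtain ⟨m, hm, hT'⟩ := sylow_map_eq_conj p _ T T'
    rw [hT', ← cpc_conj]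
    calc (cpc p ((T : Subgroup ↥(Cfsg.pLayer p X ⊔ Cfsg.pPrimePCore p X)).map
          (Cfsg.pLayer p X ⊔ Cfsg.pPrimePCore p X).subtype)).map (MulAut.conj m).toMonoidHom
        ≤ (Cfsg.pLayer p X ⊔ Cfsg.pPrimeCore p X ⊔
      cpc p ((T : Subgroup ↥(Cfsg.pLayer p X ⊔ Cfsg.pPrimePCore p X)).map
          (Cfsg.pLayer p X ⊔ Cfsg.pPrimePCore p X).subtype)).map (MulAut.conj m).toMonoidHom :=
          Subgroup.map_mono le_sup_right
      _ = _ := Cfsg.Agent.Lib.Helper4.map_conj_eq_of_mem_normalizer (hMN hm)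
  · exact sup_le le_sup_left (le_sup_of_le_right (le_iSup (fun T' : Sylow p ↥(Cfsg.pLayer p X ⊔ Cfsg.pPrimePCore p X) =>
        cpc p ((T' : Subgroup ↥(Cfsg.pLayer p X ⊔ Cfsg.pPrimePCore p X)).map
          (Cfsg.pLayer p X ⊔ Cfsg.pPrimePCore p X).subtype)) T))

/-- The join of the `O_{p'}(C_X(T))` over the Sylow subgroups `T` is normal. -/
theorem iSup_cpc_normal {X : Type u} [Group X] [Finite X] (p : ℕ) [Fact p.Prime] :
    (⨆ T' : Sylow p ↥(Cfsg.pLayer p X ⊔ Cfsg.pPrimePCore p X),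
        cpc p ((T' : Subgroup ↥(Cfsg.pLayer p X ⊔ Cfsg.pPrimePCore p X)).map
          (Cfsg.pLayer p X ⊔ Cfsg.pPrimePCore p X).subtype)).Normal := by
  have hLn : (Cfsg.pLayer p X).Normal := pLayer_normal p
  have hPn : (Cfsg.pPrimePCore p X).Normal := (Cfsg.pCore_normal p _).comap _
  have hMn : (Cfsg.pLayer p X ⊔ Cfsg.pPrimePCore p X).Normal := inferInstance
  rw [iSup]
  apply sSup_normal_of_conj_invariant
  rintro K ⟨T, rfl⟩ g
  obtain ⟨T', hT'⟩ := exists_sylow_conj p _ T g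
  refine ⟨T', ?_⟩
  show cpc p _ = (cpc p _).map _
  rw [cpc_conj, hT']

/-- The extended `p`-layer is normal. -/
theorem extendedLayer_normal {X : Type u} [Group X] [Finite X] (p : ℕ) [Fact p.Prime] :
    (Cfsg.pLayer p X ⊔ Cfsg.pPrimeCore p X ⊔
      (⨆ T' : Sylow p ↥(Cfsg.pLayer p X ⊔ Cfsg.pPrimePCore p X),
        cpc p ((T' : Subgroup ↥(Cfsg.pLayer p X ⊔ Cfsg.pPrimePCore p X)).map
          (Cfsg.pLayer p X ⊔ Cfsg.pPrimePCore p X).subtype))).Normal := by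
  have hLn : (Cfsg.pLayer p X).Normal := pLayer_normal p
  have h3 := iSup_cpc_normal (X := X) p
  infer_instance

theorem cpc_card_coprime {X : Type u} [Group X] [Finite X] (p : ℕ) [Fact p.Prime]
    (S : Subgroup X) : (Nat.card ↥(cpc p S)).Coprime p := by
  unfold cpc
  rw [Subgroup.card_map_of_injective (Subgroup.subtype_injective _)]
  exact pPrimeCore_card_coprime p _

/-- The extended `p`-layer is `L_{p'}(X) F` for a `p'`-subgroup `F` normalized by a Sylow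
`p`-subgroup of `X`. -/
theorem extendedLayer_exists_F {X : Type u} [Group X] [Finite X] (p : ℕ) [Fact p.Prime] :
    ∃ F : Subgroup X, (Nat.card ↥F).Coprime p ∧
      (∃ S : Sylow p X, (S : Subgroup X) ≤ Subgroup.normalizer (F : Set X)) ∧
      Cfsg.pLayer p X ⊔ Cfsg.pPrimeCore p X ⊔
      (⨆ T' : Sylow p ↥(Cfsg.pLayer p X ⊔ Cfsg.pPrimePCore p X),
        cpc p ((T' : Subgroup ↥(Cfsg.pLayer p X ⊔ Cfsg.pPrimePCore p X)).map
          (Cfsg.pLayer p X ⊔ Cfsg.pPrimePCore p X).subtype)) = Cfsg.pLayer p X ⊔ F := by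
  have hLn : (Cfsg.pLayer p X).Normal := pLayer_normal p
  have hPn : (Cfsg.pPrimePCore p X).Normal := (Cfsg.pCore_normal p _).comap _
  have hMn : (Cfsg.pLayer p X ⊔ Cfsg.pPrimePCore p X).Normal := inferInstance
  obtain ⟨T⟩ : Nonempty (Sylow p ↥(Cfsg.pLayer p X ⊔ Cfsg.pPrimePCore p X)) := inferInstance
  refine ⟨Cfsg.pPrimeCore p X ⊔ cpc p ((T : Subgroup ↥(Cfsg.pLayer p X ⊔ Cfsg.pPrimePCore p X)).map
          (Cfsg.pLayer p X ⊔ Cfsg.pPrimePCore p X).subtype), ?_, ?_, ?_⟩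
  · have h1 := Cfsg.Agent.Lib.Helper6.card_sup_dvd_mul (Cfsg.pPrimeCore p X)
      (cpc p ((T : Subgroup ↥(Cfsg.pLayer p X ⊔ Cfsg.pPrimePCore p X)).map
          (Cfsg.pLayer p X ⊔ Cfsg.pPrimePCore p X).subtype))
      (by rw [Subgroup.normalizer_eq_top]; exact le_top)
    exact Nat.Coprime.coprime_dvd_left h1
      (Nat.Coprime.mul_left (pPrimeCore_card_coprime p X) (cpc_card_coprime p _))
  · have hTp : IsPGroup p ↥((T : Subgroup ↥(Cfsg.pLayer p X ⊔ Cfsg.pPrimePCore p X)).map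
          (Cfsg.pLayer p X ⊔ Cfsg.pPrimePCore p X).subtype) := T.2.map _
    obtain ⟨S, hS⟩ := hTp.exists_le_sylow
    refine ⟨S, ?_⟩
    have hSM : ((S : Subgroup X) ⊓ (Cfsg.pLayer p X ⊔ Cfsg.pPrimePCore p X)).subgroupOf
        (Cfsg.pLayer p X ⊔ Cfsg.pPrimePCore p X) =
        (T : Subgroup ↥(Cfsg.pLayer p X ⊔ Cfsg.pPrimePCore p X)) := by
      apply T.is_maximal'
      · exact (S.2.to_le inf_le_left).comap_of_injective _ (Subgroup.subtype_injective _)
      · intro t ht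
        rw [Subgroup.mem_subgroupOf]
        exact ⟨hS ⟨t, ht, rfl⟩, t.2⟩
    have hST : (T : Subgroup ↥(Cfsg.pLayer p X ⊔ Cfsg.pPrimePCore p X)).map
          (Cfsg.pLayer p X ⊔ Cfsg.pPrimePCore p X).subtype =
        (S : Subgroup X) ⊓ (Cfsg.pLayer p X ⊔ Cfsg.pPrimePCore p X) := by
      rw [← hSM, Subgroup.map_subgroupOf_eq_of_le inf_le_right]
    intro s hs
    have hsn : s ∈ Subgroup.normalizer
        (((S : Subgroup X) ⊓ (Cfsg.pLayer p X ⊔ Cfsg.pPrimePCore p X) : Subgroup X) : Set X) := by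
      rw [Subgroup.mem_normalizer_iff]
      intro x
      rw [Subgroup.mem_inf, Subgroup.mem_inf]
      have h1 := Subgroup.mem_normalizer_iff.mp (Subgroup.le_normalizer hs) x
      have h2 : x ∈ Cfsg.pLayer p X ⊔ Cfsg.pPrimePCore p X ↔
          s * x * s⁻¹ ∈ Cfsg.pLayer p X ⊔ Cfsg.pPrimePCore p X := by
        constructor
        · intro h; exact hMn.conj_mem _ h s
        · intro h
          have := hMn.conj_mem _ h s⁻¹
          simpa [mul_assoc] using this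
      exact and_congr h1 h2
    apply Cfsg.Agent.Lib.Helper4.mem_normalizer_of_map_conj_eq
    rw [Subgroup.map_sup,
      Cfsg.Agent.Lib.Helper4.map_conj_eq_of_mem_normalizer
        (by rw [Subgroup.normalizer_eq_top]; trivial : s ∈ Subgroup.normalizer (Cfsg.pPrimeCore p X : Set X)),
      cpc_conj_of_eq p _ s (by
        rw [hST]
        exact Cfsg.Agent.Lib.Helper4.map_conj_eq_of_mem_normalizer hsn)]
  · rw [extendedLayer_eq p T, sup_assoc]

end Cfsg.Agent.Lib.Helper2
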