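import Mathlib
import Cfsg.Prelude
import Cfsg.Agent.Lib.Helper2.PQLayer2
import Cfsg.Agent.Lib.Helper2.FStar
import Cfsg.Agent.Lib.Helper4.FStarAct
import Cfsg.Agent.Lib.Helper3.PiCore
import Cfsg.Agent.Lib.Lead.PmQ

set_option autoImplicit false

namespace Cfsg.Agent.Lib.Helper2

universe u

theorem isPGroup_genFitting_of_equiv {A B : Type*} [Group A] [Group B] {p : ℕ} (e : A ≃* B)
    (h : IsPGroup p ↥(Cfsg.generalizedFittingSubgroup A)) :
    IsPGroup p ↥(Cfsg.generalizedFittingSubgroup B) := by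
  rw [← Cfsg.Agent.Lib.Helper4.genFitting_map_equiv e]
  exact h.map _

/-- `F*` of a normal subgroup is a `p`-group if `F*` of the group is. -/
theorem isPGroup_genFitting_of_normal {X : Type u} [Group X] [Finite X] {p : ℕ} (A : Subgroup X)
    [hA : A.Normal] (h : IsPGroup p ↥(Cfsg.generalizedFittingSubgroup X)) :
    IsPGroup p ↥(Cfsg.generalizedFittingSubgroup ↥A) := by
  have hsn : A.IsSubnormal := Subgroup.Normal.isSubnormal hA
  have hle : (Cfsg.generalizedFittingSubgroup ↥A).map A.subtype ≤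
      Cfsg.generalizedFittingSubgroup X := by
    unfold Cfsg.generalizedFittingSubgroup
    rw [Subgroup.map_sup]
    exact sup_le_sup (layer_map_subtype_le A hsn) (fitting_map_subtype_le A hsn)
  have h1 : IsPGroup p ↥((Cfsg.generalizedFittingSubgroup ↥A).map A.subtype) := h.to_le hle
  intro g
  obtain ⟨k, hk⟩ := h1 ⟨A.subtype g.1, ⟨g.1, g.2, rfl⟩⟩
  refine ⟨k, ?_⟩
  have hk' : ((g.1 : ↥A) : X) ^ (p ^ k) = 1 := congrArg Subtype.val hk
  apply Subtype.ext
  apply Subtype.ext
  show (((g ^ (p ^ k) : ↥(Cfsg.generalizedFittingSubgroup ↥A)) : ↥A) : X) = 1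
  rw [Subgroup.coe_pow, Subgroup.coe_pow]
  exact hk'

/-- If every element centralizing `O_p(G)` is a `p`-element, then `F*(C_G(P))` is a `p`-group
for every `p`-subgroup `P`. -/
theorem isPGroup_genFitting_centralizer {𝔾 : Type u} [Group 𝔾] [Finite 𝔾] (p : ℕ) [Fact p.Prime]
    (P : Subgroup 𝔾) (hP : IsPGroup p ↥P)
    (hstar : ∀ l ∈ Subgroup.centralizer (Cfsg.pCore p 𝔾 : Set 𝔾), ∃ k : ℕ, l ^ (p ^ k) = 1) :
    IsPGroup p ↥(Cfsg.generalizedFittingSubgroup ↥(Subgroup.centralizer (P : Set 𝔾))) := by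
  have key := pprime_layer_centralizes_pCore p P (Subgroup.normalizer (P : Set 𝔾)) hP
    Subgroup.le_normalizer le_rfl (inf_le_right.trans (Subgroup.centralizer_le_normalizer _))
  obtain ⟨h1, h2⟩ := no_comp_of_pElements (H := ↥(Subgroup.normalizer (P : Set 𝔾))) p (by
    intro l hl
    obtain ⟨k, hk⟩ := hstar (l : 𝔾) (key ⟨l, hl, rfl⟩)
    refine ⟨k, ?_⟩
    apply Subtype.ext
    rw [Subgroup.coe_pow]
    exact hk)
  have hN : IsPGroup p
      ↥(Cfsg.generalizedFittingSubgroup ↥(Subgroup.normalizer (P : Set 𝔾))) := by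
    rw [genFitting_eq_pCore_of_no_comp p h1 h2]
    exact pCore_isPGroup' p _
  have h3 := isPGroup_genFitting_of_normal
    ((Subgroup.centralizer (P : Set 𝔾)).subgroupOf (Subgroup.normalizer (P : Set 𝔾))) hN
  exact isPGroup_genFitting_of_equiv
    (Subgroup.subgroupOfEquivOfLe (Subgroup.centralizer_le_normalizer _)) h3

theorem normalizer_le_normalizer_genFittingOf {G : Type*} [Group G] (H : Subgroup G) :
    Subgroup.normalizer (H : Set G) ≤ Subgroup.normalizer
      (((Cfsg.generalizedFittingSubgroup ↥H).map H.subtype : Subgroup G) : Set G) := by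
  apply Cfsg.Agent.Lib.Helper4.le_normalizer_of_conj_mem
  rintro y hy _ ⟨f, hf, rfl⟩
  have hYH : Subgroup.zpowers y ≤ Subgroup.normalizer (H : Set G) := by
    rw [Subgroup.zpowers_le]; exact hy
  have h1 := Cfsg.Agent.Lib.Helper4.genFitting_map_equiv_le
    (Cfsg.Agent.Lib.Helper4.conjHom H (Subgroup.zpowers y) hYH ⟨y, Subgroup.mem_zpowers y⟩)
  exact ⟨_, h1 ⟨f, hf, rfl⟩, rfl⟩

theorem pow_mul_mem_of_normalizes {G : Type*} [Group G] (H : Subgroup G) {u h : G}
    (hu : u ∈ Subgroup.normalizer (H : Set G)) (hh : h ∈ H) (n : ℕ) :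
    ∃ h' ∈ H, (u * h) ^ n = u ^ n * h' := by
  induction n with
  | zero => exact ⟨1, H.one_mem, by simp⟩
  | succ n ih =>
    obtain ⟨h', hh', e⟩ := ih
    refine ⟨(u⁻¹ * h' * u) * h, H.mul_mem ?_ hh, ?_⟩
    · have h1 := Cfsg.Agent.Lib.Helper4.conj_mem_of_mem_normalizer (Subgroup.inv_mem _ hu) hh'
      rwa [inv_inv] at h1
    · rw [pow_succ, e, pow_succ]; group

/-- Normal case: `V ⊴ U` `p`-groups, `F*(C_G(V))` a `p`-group implies `F*(C_G(U))` a `p`-group. -/
theorem genFitting_cent_pgroup_normal {G : Type u} [Group G] [Finite G] {p : ℕ} [Fact p.Prime]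
    (U V : Subgroup G) (hVU : V ≤ U) (hUN : U ≤ Subgroup.normalizer (V : Set G))
    (hU : IsPGroup p U)
    (hV : IsPGroup p ↥(Cfsg.generalizedFittingSubgroup ↥(Subgroup.centralizer (V : Set G)))) :
    IsPGroup p ↥(Cfsg.generalizedFittingSubgroup ↥(Subgroup.centralizer (U : Set G))) := by
  have hUH : U ≤ Subgroup.normalizer ((Subgroup.centralizer (V : Set G) : Subgroup G) : Set G) := by
    apply Cfsg.Agent.Lib.Helper4.le_normalizer_of_conj_mem
    intro u hu c hc
    rw [Subgroup.mem_centralizer_iff] at hc ⊢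
    intro v hv
    have hv' : u⁻¹ * v * u ∈ V := by
      have h0 := Cfsg.Agent.Lib.Helper4.conj_mem_of_mem_normalizer (hUN (U.inv_mem hu)) hv
      rwa [inv_inv] at h0
    have h1 := hc _ hv'
    calc v * (u * c * u⁻¹) = u * ((u⁻¹ * v * u) * c) * u⁻¹ := by group
      _ = u * (c * (u⁻¹ * v * u)) * u⁻¹ := by rw [h1]
      _ = u * c * u⁻¹ * v := by group
  have hUX : U ≤ U ⊔ Subgroup.centralizer (V : Set G) := le_sup_left
  have hHX : Subgroup.centralizer (V : Set G) ≤ U ⊔ Subgroup.centralizer (V : Set G) := le_sup_right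
  have hYH : Subgroup.centralizer (U : Set G) ≤ Subgroup.centralizer (V : Set G) :=
    Subgroup.centralizer_le hVU
  have hXN : U ⊔ Subgroup.centralizer (V : Set G) ≤ Subgroup.normalizer
      (((Cfsg.generalizedFittingSubgroup ↥(Subgroup.centralizer (V : Set G))).map
        (Subgroup.centralizer (V : Set G)).subtype : Subgroup G) : Set G) :=
    sup_le (hUH.trans (normalizer_le_normalizer_genFittingOf _))
      (Subgroup.le_normalizer.trans (normalizer_le_normalizer_genFittingOf _))
  have hstar : ∀ l ∈ Subgroup.centralizer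
      (Cfsg.pCore p ↥(U ⊔ Subgroup.centralizer (V : Set G)) :
        Set ↥(U ⊔ Subgroup.centralizer (V : Set G))), ∃ k : ℕ, l ^ (p ^ k) = 1 := by
    intro l hl
    have hRle : ((Cfsg.generalizedFittingSubgroup ↥(Subgroup.centralizer (V : Set G))).map
        (Subgroup.centralizer (V : Set G)).subtype).subgroupOf
          (U ⊔ Subgroup.centralizer (V : Set G)) ≤
        Cfsg.pCore p ↥(U ⊔ Subgroup.centralizer (V : Set G)) := by
      apply le_sSup
      refine ⟨⟨fun r hr x => ?_⟩, (hV.map _).comap_subtype⟩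
      exact Cfsg.Agent.Lib.Helper4.conj_mem_of_mem_normalizer (hXN x.2) hr
    have hlR : ∀ r ∈ (Cfsg.generalizedFittingSubgroup ↥(Subgroup.centralizer (V : Set G))).map
        (Subgroup.centralizer (V : Set G)).subtype, r * (l : G) = (l : G) * r := by
      intro r hr
      have hrX : r ∈ U ⊔ Subgroup.centralizer (V : Set G) :=
        hHX (Subgroup.map_subtype_le _ hr)
      have h0 := Subgroup.mem_centralizer_iff.mp hl ⟨r, hrX⟩ (hRle hr)
      exact congrArg Subtype.val h0
    obtain ⟨u, hu, h, hh, hluh⟩ :=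
      Cfsg.Agent.Lib.Helper3.exists_mul_of_mem_sup_of_le_normalizer _ _ hUH l.2
    obtain ⟨a, ha⟩ := hU ⟨u, hu⟩
    have ha' : u ^ (p ^ a) = 1 := congrArg Subtype.val ha
    obtain ⟨h', hh', e⟩ := pow_mul_mem_of_normalizes _ (hUH hu) hh (p ^ a)
    rw [← hluh, ha', one_mul] at e
    have hcomm : ∀ f ∈ Cfsg.generalizedFittingSubgroup ↥(Subgroup.centralizer (V : Set G)),
        f * (⟨h', hh'⟩ : ↥(Subgroup.centralizer (V : Set G))) = ⟨h', hh'⟩ * f := by
      intro f hf
      apply Subtype.ext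
      show (f : G) * h' = h' * (f : G)
      rw [← e]
      exact ((show Commute (f : G) (l : G) from hlR _ ⟨f, hf, rfl⟩).pow_right _).eq
    have hmem : (⟨h', hh'⟩ : ↥(Subgroup.centralizer (V : Set G))) ∈
        Cfsg.generalizedFittingSubgroup ↥(Subgroup.centralizer (V : Set G)) := by
      apply centralizer_genFitting_le
      rw [Subgroup.mem_centralizer_iff]
      exact hcomm
    obtain ⟨b, hb⟩ := hV ⟨_, hmem⟩
    have hb' : h' ^ (p ^ b) = 1 := by
      have hb1 := congrArg (fun z : ↥(Cfsg.generalizedFittingSubgroup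
        ↥(Subgroup.centralizer (V : Set G))) => ((z : ↥(Subgroup.centralizer (V : Set G))) : G)) hb
      simpa using hb1
    refine ⟨a + b, ?_⟩
    apply Subtype.ext
    rw [Subgroup.coe_pow, pow_add, pow_mul, e, hb']
    rfl
  have hK := isPGroup_genFitting_centralizer (𝔾 := ↥(U ⊔ Subgroup.centralizer (V : Set G))) p
    (U.subgroupOf (U ⊔ Subgroup.centralizer (V : Set G))) hU.comap_subtype hstar
  have hC : Subgroup.centralizer
      ((U.subgroupOf (U ⊔ Subgroup.centralizer (V : Set G)) :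
        Subgroup ↥(U ⊔ Subgroup.centralizer (V : Set G))) :
          Set ↥(U ⊔ Subgroup.centralizer (V : Set G))) =
      (Subgroup.centralizer (U : Set G)).subgroupOf (U ⊔ Subgroup.centralizer (V : Set G)) := by
    ext c
    rw [Subgroup.mem_centralizer_iff, Subgroup.mem_subgroupOf, Subgroup.mem_centralizer_iff]
    constructor
    · intro h u hu
      exact congrArg Subtype.val (h ⟨u, hUX hu⟩ hu)
    · intro h u hu
      exact Subtype.ext (h u.1 hu)
  rw [hC] at hK
  exact isPGroup_genFitting_of_equiv (Subgroup.subgroupOfEquivOfLe (hYH.trans hHX)) hK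

theorem genFitting_cent_pgroup {G : Type u} [Group G] [Finite G] {p : ℕ} [Fact p.Prime]
    (U : Subgroup G) (hU : IsPGroup p U) :
    ∀ (d : ℕ) (V : Subgroup G), V ≤ U → Nat.card U - Nat.card V = d →
      IsPGroup p ↥(Cfsg.generalizedFittingSubgroup ↥(Subgroup.centralizer (V : Set G))) →
      IsPGroup p ↥(Cfsg.generalizedFittingSubgroup ↥(Subgroup.centralizer (U : Set G))) := by
  intro d
  induction d using Nat.strong_induction_on with
  | _ d ih =>
  intro V hVU hd hV
  by_cases hVeq : V = U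
  · subst hVeq; exact hV
  · obtain ⟨s, hsU, hsN, hsV⟩ :=
      Cfsg.Agent.Lib.Lead.exists_mem_normalizer_not_mem U V hU hVU hVeq
    have hV1 := genFitting_cent_pgroup_normal (U ⊓ Subgroup.normalizer (V : Set G)) V
      (le_inf hVU Subgroup.le_normalizer) inf_le_right (hU.to_le inf_le_left) hV
    have h1 : Nat.card V < Nat.card ↥(U ⊓ Subgroup.normalizer (V : Set G)) := by
      by_contra hge
      push Not at hge
      have heq := Subgroup.eq_of_le_of_card_ge
        (le_inf hVU (Subgroup.le_normalizer (H := V))) hge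
      apply hsV
      rw [heq]
      exact ⟨hsU, hsN⟩
    have h2 : Nat.card ↥(U ⊓ Subgroup.normalizer (V : Set G)) ≤ Nat.card U :=
      Subgroup.card_le_of_le inf_le_left
    exact ih (Nat.card U - Nat.card ↥(U ⊓ Subgroup.normalizer (V : Set G))) (by omega)
      (U ⊓ Subgroup.normalizer (V : Set G)) inf_le_left rfl hV1

end Cfsg.Agent.Lib.Helper2
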