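import Mathlib

set_option autoImplicit false

namespace Cfsg.Agent.Lib.Helper2

open Polynomial

/-- One step of the recursion `x, y ↦ y, 2y - x` inside the set of norm-one elements `a` with
`2 - a` of norm one, assumed closed under inversion. -/
theorem norm_step {K F : Type*} [Field K] [Field F] [Algebra K F] [Module.Finite K F]
    (E : Set F) (hE : ∀ a, a ∈ E ↔ (Algebra.norm K a = 1 ∧ Algebra.norm K (2 - a) = 1))
    (hinv : ∀ a ∈ E, a⁻¹ ∈ E) (x y : F) (hx : Algebra.norm K x = 1)
    (hy : Algebra.norm K y = 1) (hyx : y / x ∈ E) :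
    Algebra.norm K (2 * y - x) = 1 ∧ (2 * y - x) / y ∈ E := by
  have hnz : ∀ t : F, Algebra.norm K t = 1 → t ≠ 0 := by
    intro t ht h0
    rw [h0, Algebra.norm_zero] at ht
    exact zero_ne_one ht
  have hxne := hnz x hx
  have hyne := hnz y hy
  have h4 := (hE _).mp (hinv _ hyx)
  have e1 : (2 * y - x) / y = 2 - (y / x)⁻¹ := by
    rw [inv_div, sub_div, mul_div_assoc, div_self hyne, mul_one]
  have e2 : 2 - (2 * y - x) / y = (y / x)⁻¹ := by
    rw [e1, sub_sub_cancel]
  have hzyE : (2 * y - x) / y ∈ E := by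
    rw [hE]
    refine ⟨?_, ?_⟩
    · rw [e1]
      exact h4.2
    · rw [e2]
      exact h4.1
  refine ⟨?_, hzyE⟩
  have hz : 2 * y - x = ((2 * y - x) / y) * y := (div_mul_cancel₀ _ hyne).symm
  have h5 : Algebra.norm K (((2 * y - x) / y) * y) = 1 := by
    rw [map_mul, ((hE _).mp hzyE).1, hy, one_mul]
  rw [← hz] at h5
  exact h5

theorem norm_seq {K F : Type*} [Field K] [Field F] [Algebra K F] [Module.Finite K F]
    (E : Set F) (hE : ∀ a, a ∈ E ↔ (Algebra.norm K a = 1 ∧ Algebra.norm K (2 - a) = 1))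
    (hinv : ∀ a ∈ E, a⁻¹ ∈ E) (a : F) (ha : a ∈ E) :
    ∀ k : ℕ, Algebra.norm K (1 + (k : F) * (a - 1)) = 1 := by
  have hstep : ∀ k : ℕ, Algebra.norm K (1 + (k : F) * (a - 1)) = 1 ∧
      Algebra.norm K (1 + ((k + 1 : ℕ) : F) * (a - 1)) = 1 ∧
      (1 + ((k + 1 : ℕ) : F) * (a - 1)) / (1 + (k : F) * (a - 1)) ∈ E := by
    intro k
    induction k with
    | zero =>
      have h0 : (1 : F) + ((0 : ℕ) : F) * (a - 1) = 1 := by
        push_cast
        ring
      have h1 : (1 : F) + ((0 + 1 : ℕ) : F) * (a - 1) = a := by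
        push_cast
        ring
      rw [h0, h1, div_one, map_one]
      exact ⟨rfl, ((hE a).mp ha).1, ha⟩
    | succ k ih =>
      obtain ⟨hx, hy, hyx⟩ := ih
      have hrec : (1 : F) + ((k + 1 + 1 : ℕ) : F) * (a - 1) =
          2 * (1 + ((k + 1 : ℕ) : F) * (a - 1)) - (1 + (k : F) * (a - 1)) := by
        push_cast
        ring
      obtain ⟨h5, h6⟩ := norm_step E hE hinv _ _ hx hy hyx
      rw [hrec]
      exact ⟨hy, h5, h6⟩
  intro k
  exact (hstep k).1

/-- If `N(1 + k c) = 1` for every natural `k` in the field with `p ^ q` elements, with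
`c ≠ 0`, then `p ≤ q`. -/
theorem le_of_norm_one_add_natCast_mul (p q : ℕ) [Fact p.Prime] (hq0 : q ≠ 0)
    (c : GaloisField p q) (hc : c ≠ 0)
    (h : ∀ k : ℕ, Algebra.norm (ZMod p) (1 + (k : GaloisField p q) * c) = 1) : p ≤ q := by
  classical
  obtain ⟨hpoly, hdef⟩ : ∃ hpoly : (GaloisField p q)[X],
      hpoly = ∏ σ : GaloisField p q ≃ₐ[ZMod p] GaloisField p q, (C (σ c) * X + C 1) :=
    ⟨_, rfl⟩
  have heval : ∀ k : ℕ, hpoly.eval (k : GaloisField p q) = 1 := by
    intro k
    rw [hdef, Polynomial.eval_prod]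
    have h1 := Algebra.norm_eq_prod_automorphisms (ZMod p) (1 + (k : GaloisField p q) * c)
    rw [h k, map_one] at h1
    refine Eq.trans ?_ h1.symm
    apply Finset.prod_congr rfl
    intro σ _
    simp only [Polynomial.eval_add, Polynomial.eval_mul, Polynomial.eval_C, Polynomial.eval_X,
      Polynomial.eval_one, map_add, map_one, map_mul, map_natCast]
    ring
  have hσc : ∀ σ : GaloisField p q ≃ₐ[ZMod p] GaloisField p q, σ c ≠ 0 := by
    intro σ
    exact (map_ne_zero_iff σ σ.injective).mpr hc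
  have hdeg : hpoly.natDegree = q := by
    rw [hdef, Polynomial.natDegree_prod]
    · rw [Finset.sum_congr rfl (fun σ _ => Polynomial.natDegree_linear (b := 1) (hσc σ))]
      rw [Finset.sum_const, Finset.card_univ, smul_eq_mul, mul_one, Fintype.card_eq_nat_card,
        IsGalois.card_aut_eq_finrank, GaloisField.finrank p hq0]
    · intro σ _
      apply Polynomial.ne_zero_of_natDegree_gt (n := 0)
      rw [Polynomial.natDegree_linear (hσc σ)]
      exact one_pos
  have hdeg' : (hpoly - C 1).natDegree = q := by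
    rw [Polynomial.natDegree_sub_C, hdeg]
  have hg0 : hpoly - C 1 ≠ 0 := by
    apply Polynomial.ne_zero_of_natDegree_gt (n := 0)
    rw [hdeg']
    exact Nat.pos_of_ne_zero hq0
  have hZ : ((Finset.range p).image (fun k : ℕ => (k : GaloisField p q))).val ⊆
      (hpoly - C 1).roots := by
    intro x hx
    rw [Finset.mem_val, Finset.mem_image] at hx
    obtain ⟨k, -, rfl⟩ := hx
    rw [Polynomial.mem_roots hg0, Polynomial.IsRoot.def, Polynomial.eval_sub,
      Polynomial.eval_C, heval k, sub_self]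
  have hcard : ((Finset.range p).image (fun k : ℕ => (k : GaloisField p q))).card = p := by
    rw [Finset.card_image_of_injOn, Finset.card_range]
    intro i hi j hj hij
    have hi' : i < p := Finset.mem_range.mp hi
    have hj' : j < p := Finset.mem_range.mp hj
    have h1 : (i : GaloisField p q) = (j : GaloisField p q) := hij
    have h2 := (CharP.natCast_eq_natCast (GaloisField p q) p).mp h1
    exact Nat.ModEq.eq_of_lt_of_lt h2 hi' hj'
  have h3 := Polynomial.card_le_degree_of_subset_roots hZ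
  rw [hcard, hdeg'] at h3
  exact h3

end Cfsg.Agent.Lib.Helper2
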