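import Mathlib
import Cfsg.Agent.Lib.Lead.OmegaOdd
import Cfsg.Agent.Lib.Helper3.PGroup
import Cfsg.Agent.Lib.Helper2.PrimeDegree

set_option autoImplicit false

namespace Cfsg.Agent.Lib.Helper2

section TrHom

variable {P E : Type*} [Group P] [AddCommGroup E] [DistribMulAction P E]

/-- The sum of the first `n` powers of `a` acting on `E`. -/
noncomputable def trHom (n : ℕ) (a : P) : E →+ E :=
  ∑ i ∈ Finset.range n, DistribMulAction.toAddMonoidHom E (a ^ i)

theorem trHom_apply (n : ℕ) (a : P) (x : E) :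
    trHom n a x = ∑ i ∈ Finset.range n, (a ^ i) • x := by
  unfold trHom
  rw [AddMonoidHom.finset_sum_apply]
  rfl

theorem trHom_fixed (n : ℕ) (a : P) (han : a ^ n = 1) (x : E) :
    a • trHom n a x = trHom n a x := by
  rw [trHom_apply, Finset.smul_sum]
  have h1 := Finset.sum_range_succ' (fun i => (a ^ i) • x) n
  have h2 := Finset.sum_range_succ (fun i => (a ^ i) • x) n
  rw [h2] at h1
  simp only [han, pow_zero] at h1
  have h3 : ∑ i ∈ Finset.range n, a • (a ^ i) • x =
      ∑ i ∈ Finset.range n, (a ^ (i + 1)) • x := by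
    apply Finset.sum_congr rfl
    intro i _
    rw [pow_succ', mul_smul]
  rw [h3]
  exact (add_right_cancel h1).symm

theorem pow_smul_of_fixed (a : P) (x : E) (h : a • x = x) (i : ℕ) : (a ^ i) • x = x := by
  induction i with
  | zero => rw [pow_zero, one_smul]
  | succ k ih => rw [pow_succ, mul_smul, h, ih]

theorem trHom_of_fixed (n : ℕ) (a : P) (x : E) (h : a • x = x) : trHom n a x = n • x := by
  rw [trHom_apply, Finset.sum_congr rfl (fun i _ => pow_smul_of_fixed a x h i), Finset.sum_const,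
    Finset.card_range]

theorem trHom_comm (n : ℕ) (a h : P) (hc : h * a = a * h) (x : E) :
    trHom n a (h • x) = h • trHom n a x := by
  rw [trHom_apply, trHom_apply, Finset.smul_sum]
  apply Finset.sum_congr rfl
  intro i _
  have hc' : Commute h a := hc
  rw [← mul_smul, ← mul_smul, (hc'.pow_right i).eq]

theorem tor_pow {p : ℕ} (htor : ∀ e : E, p • e = 0 → e = 0) (k : ℕ) (e : E)
    (h : (p ^ k) • e = 0) : e = 0 := by
  induction k generalizing e with
  | zero => rwa [pow_zero, one_nsmul] at h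
  | succ n ih =>
    rw [pow_succ, mul_nsmul'] at h
    exact htor e (ih (p • e) h)

end TrHom

section Main

variable {P E : Type*} [Group P] [Finite P] [AddCommGroup E] [Finite E] [DistribMulAction P E]

/-- A nontrivial central element has no nonzero fixed vector. -/
theorem central_fpf [FaithfulSMul P E] {p : ℕ} [Fact p.Prime] (hP : IsPGroup p P)
    (htor : ∀ e : E, p • e = 0 → e = 0)
    (hconst : ∀ a b : E, a ≠ 0 → b ≠ 0 →
      Nat.card (MulAction.stabilizer P a) = Nat.card (MulAction.stabilizer P b))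
    (z : P) (hz : z ∈ Subgroup.center P) (hz1 : z ≠ 1) (v : E) (hv : z • v = v) : v = 0 := by
  by_contra hv0
  obtain ⟨k, hk⟩ := hP z
  obtain ⟨n, hn⟩ : ∃ n : ℕ, n = p ^ k := ⟨_, rfl⟩
  rw [← hn] at hk
  have htn : ∀ e : E, n • e = 0 → e = 0 := by
    intro e he
    rw [hn] at he
    exact tor_pow htor k e he
  obtain ⟨w₀, hw₀⟩ : ∃ w₀ : E, z • w₀ ≠ w₀ := by
    by_contra hall
    push Not at hall
    apply hz1
    apply FaithfulSMul.eq_of_smul_eq_smul (α := E)
    intro e
    rw [hall e, one_smul]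
  have hTfix : ∀ x : E, z • trHom n z x = trHom n z x := trHom_fixed n z hk
  obtain ⟨w, hwdef⟩ : ∃ w : E, w = n • w₀ - trHom n z w₀ := ⟨_, rfl⟩
  have hTw : trHom n z w = 0 := by
    rw [hwdef, map_sub, map_nsmul, trHom_of_fixed n z _ (hTfix w₀), sub_self]
  have hw0 : w ≠ 0 := by
    intro h0
    rw [h0] at hwdef
    have h1 : n • w₀ = trHom n z w₀ := sub_eq_zero.mp hwdef.symm
    have h2 : z • (n • w₀) = n • w₀ := by rw [h1]; exact hTfix w₀
    have h3 : n • (z • w₀ - w₀) = 0 := by
      rw [smul_sub, smul_comm n z w₀, h2, sub_self]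
    exact hw₀ (sub_eq_zero.mp (htn _ h3))
  have hzc : ∀ h : P, h * z = z * h := fun h => Subgroup.mem_center_iff.mp hz h
  have hvw0 : v + w ≠ 0 := by
    intro h0
    have h1 : trHom n z (v + w) = 0 := by rw [h0, map_zero]
    rw [map_add, hTw, add_zero, trHom_of_fixed n z v hv] at h1
    exact hv0 (htn v h1)
  have hsub1 : MulAction.stabilizer P (v + w) ≤ MulAction.stabilizer P v := by
    intro h hh
    rw [MulAction.mem_stabilizer_iff] at hh ⊢
    have h1 : trHom n z (h • (v + w)) = trHom n z (v + w) := by rw [hh]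
    rw [trHom_comm n z h (hzc h), map_add, hTw, add_zero, trHom_of_fixed n z v hv] at h1
    have h2 : n • (h • v - v) = 0 := by
      rw [smul_sub, smul_comm n h v, h1, sub_self]
    exact sub_eq_zero.mp (htn _ h2)
  have hsub2 : MulAction.stabilizer P (v + w) ≤ MulAction.stabilizer P w := by
    intro h hh
    have hhv := hsub1 hh
    rw [MulAction.mem_stabilizer_iff] at hh hhv ⊢
    rw [smul_add, hhv] at hh
    exact add_left_cancel hh
  have he1 : MulAction.stabilizer P (v + w) = MulAction.stabilizer P v :=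
    Subgroup.eq_of_le_of_card_ge hsub1 (le_of_eq (hconst v (v + w) hv0 hvw0))
  have he2 : MulAction.stabilizer P (v + w) = MulAction.stabilizer P w :=
    Subgroup.eq_of_le_of_card_ge hsub2 (le_of_eq (hconst w (v + w) hw0 hvw0))
  have hzw : z ∈ MulAction.stabilizer P w := by
    rw [← he2, he1]
    exact MulAction.mem_stabilizer_iff.mpr hv
  rw [MulAction.mem_stabilizer_iff] at hzw
  have h1 := trHom_of_fixed n z w hzw
  rw [hTw] at h1
  exact hw0 (htn w h1.symm)

theorem sup_zpowers_eq_of_card_sq {P : Type*} [Group P] [Finite P] {p : ℕ} (hp : p.Prime)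
    (U : Subgroup P) (hU : Nat.card U = p ^ 2) (a b : P) (ha : a ∈ U) (hb : b ∈ U) (ha1 : a ≠ 1)
    (hap : a ^ p = 1) (hb' : b ∉ Subgroup.zpowers a) :
    Subgroup.zpowers a ⊔ Subgroup.zpowers b = U := by
  haveI : Fact p.Prime := ⟨hp⟩
  have hle : Subgroup.zpowers a ⊔ Subgroup.zpowers b ≤ U :=
    sup_le (Subgroup.zpowers_le.mpr ha) (Subgroup.zpowers_le.mpr hb)
  have hca : Nat.card (Subgroup.zpowers a) = p := by
    rw [Nat.card_zpowers]
    exact orderOf_eq_prime hap ha1
  have hd1 : Nat.card ↥(Subgroup.zpowers a ⊔ Subgroup.zpowers b) ∣ p ^ 2 := by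
    rw [← hU]; exact Subgroup.card_dvd_of_le hle
  have hd2 : p ∣ Nat.card ↥(Subgroup.zpowers a ⊔ Subgroup.zpowers b) := by
    have h := Subgroup.card_dvd_of_le
      (le_sup_left : Subgroup.zpowers a ≤ Subgroup.zpowers a ⊔ Subgroup.zpowers b)
    rw [hca] at h
    exact h
  obtain ⟨j, hj, hcj⟩ := (Nat.dvd_prime_pow hp).mp hd1
  have hne : Nat.card ↥(Subgroup.zpowers a ⊔ Subgroup.zpowers b) ≠ p := by
    intro h
    have h1 : Subgroup.zpowers a = Subgroup.zpowers a ⊔ Subgroup.zpowers b :=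
      Subgroup.eq_of_le_of_card_ge le_sup_left (by rw [h, hca])
    apply hb'
    have h2 : b ∈ Subgroup.zpowers a ⊔ Subgroup.zpowers b :=
      Subgroup.mem_sup_right (Subgroup.mem_zpowers b)
    rw [← h1] at h2
    exact h2
  apply Subgroup.eq_of_le_of_card_ge hle
  rw [hU]
  interval_cases j
  · exfalso
    rw [hcj, pow_zero] at hd2
    exact hp.one_lt.ne' (Nat.dvd_one.mp hd2)
  · exfalso
    apply hne
    rw [hcj, pow_one]
  · rw [hcj]

/-- Under the constant-stabilizer hypothesis (and no `p`-torsion), `P` is cyclic. -/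
theorem cyclic_of_const_stab [FaithfulSMul P E] {p : ℕ} [Fact p.Prime] (hp2 : p ≠ 2)
    (hP : IsPGroup p P) (htor : ∀ e : E, p • e = 0 → e = 0)
    (hconst : ∀ a b : E, a ≠ 0 → b ≠ 0 →
      Nat.card (MulAction.stabilizer P a) = Nat.card (MulAction.stabilizer P b))
    (e₀ : E) (he₀ : e₀ ≠ 0) : IsCyclic P := by
  by_contra hnc
  have hp : p.Prime := Fact.out
  obtain ⟨U, hUn, ⟨hUc, hUp⟩, hUcard⟩ := Cfsg.Agent.Lib.Lead.exists_normal_elemAb_sq hp2 hP hnc
  haveI := hUn
  have hfz : ∀ c ∈ Subgroup.center P, c ≠ 1 → ∀ v : E, c • v = v → v = 0 :=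
    fun c hc hc1 v hv => central_fpf hP htor hconst c hc hc1 v hv
  have hUcomm : ∀ x ∈ U, ∀ y ∈ U, x * y = y * x := by
    intro x hx y hy
    have h1 := hUc.is_comm.comm (⟨x, hx⟩ : ↥U) ⟨y, hy⟩
    exact congrArg Subtype.val h1
  have hUbot : U ≠ ⊥ := by
    intro h
    rw [h, Subgroup.card_bot] at hUcard
    have h2 : 2 ≤ p := hp.two_le
    nlinarith
  obtain ⟨z, hzU, hz1, hzc⟩ :=
    Cfsg.Agent.Lib.Helper3.exists_ne_one_mem_center_of_normal hP U hUbot
  have hzp : z ^ p = 1 := hUp z hzU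
  have hoz : orderOf z = p := orderOf_eq_prime hzp hz1
  have hKF : ∀ a' ∈ U, a' ≠ 1 → ∀ b' ∈ U, b' ∉ Subgroup.zpowers a' →
      ∀ x : E, a' • x = x → b' • x = x → x = 0 := by
    intro a' ha' ha'1 b' hb' hb'n x hax hbx
    have hsup := sup_zpowers_eq_of_card_sq hp U hUcard a' b' ha' hb' ha'1 (hUp a' ha') hb'n
    have hle : Subgroup.zpowers a' ⊔ Subgroup.zpowers b' ≤ MulAction.stabilizer P x :=
      sup_le (Subgroup.zpowers_le.mpr (MulAction.mem_stabilizer_iff.mpr hax))
        (Subgroup.zpowers_le.mpr (MulAction.mem_stabilizer_iff.mpr hbx))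
    rw [hsup] at hle
    exact hfz z hzc hz1 x (MulAction.mem_stabilizer_iff.mp (hle hzU))
  have hF : ∀ a' ∈ U, a' ≠ 1 → ∀ b' ∈ U, b' ∉ Subgroup.zpowers a' →
      ∀ x : E, b' • x = x → trHom p a' x = 0 := by
    intro a' ha' ha'1 b' hb' hb'n x hbx
    apply hKF a' ha' ha'1 b' hb' hb'n
    · exact trHom_fixed p a' (hUp a' ha') x
    · rw [← trHom_comm p a' b' (hUcomm b' hb' a' ha'), hbx]
  have hA : ∃ a ∈ U, a ≠ 1 ∧ ∃ v : E, v ≠ 0 ∧ a • v = v := by
    by_contra hno
    push Not at hno
    obtain ⟨u, huU, hunz⟩ : ∃ u ∈ U, u ∉ Subgroup.zpowers z := by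
      by_contra hall
      push Not at hall
      have hle : U ≤ Subgroup.zpowers z := fun x hx => hall x hx
      have h1 := Subgroup.card_le_of_le hle
      rw [hUcard, Nat.card_zpowers, hoz] at h1
      have h2 : 2 ≤ p := hp.two_le
      nlinarith
    have hT0 : ∀ j : ℕ, trHom p (u * z ^ j) e₀ = 0 := by
      intro j
      by_contra hne
      have hmem : u * z ^ j ∈ U := U.mul_mem huU (U.pow_mem hzU j)
      have hne1 : u * z ^ j ≠ 1 := by
        intro h
        apply hunz
        have h2 : u = (z ^ j)⁻¹ := eq_inv_of_mul_eq_one_left h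
        rw [h2]
        exact Subgroup.inv_mem _ (Subgroup.pow_mem _ (Subgroup.mem_zpowers z) j)
      exact hno _ hmem hne1 _ hne (trHom_fixed p _ (hUp _ hmem) e₀)
    have hsum : ∑ j ∈ Finset.range p, trHom p (u * z ^ j) e₀ = 0 :=
      Finset.sum_eq_zero (fun j _ => hT0 j)
    have hsum2 : ∑ j ∈ Finset.range p, trHom p (u * z ^ j) e₀ =
        ∑ i ∈ Finset.range p, (u ^ i) • trHom p (z ^ i) e₀ := by
      have h1 : ∀ j ∈ Finset.range p, trHom p (u * z ^ j) e₀ =
          ∑ i ∈ Finset.range p, (u ^ i) • ((z ^ i) ^ j) • e₀ := by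
        intro j _
        rw [trHom_apply]
        apply Finset.sum_congr rfl
        intro i _
        have hc : Commute u (z ^ j) := hUcomm u huU (z ^ j) (U.pow_mem hzU j)
        have e1 : (z ^ j) ^ i = (z ^ i) ^ j := by
          rw [← pow_mul, ← pow_mul, mul_comm j i]
        rw [hc.mul_pow, mul_smul, e1]
      rw [Finset.sum_congr rfl h1, Finset.sum_comm]
      apply Finset.sum_congr rfl
      intro i _
      rw [trHom_apply, Finset.smul_sum]
    rw [hsum2] at hsum
    rw [Finset.sum_eq_single 0] at hsum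
    · rw [pow_zero, pow_zero, one_smul, trHom_of_fixed p (1 : P) e₀ (one_smul P e₀)] at hsum
      exact he₀ (htor e₀ hsum)
    · intro i hi hi0
      have hzi1 : z ^ i ≠ 1 := by
        intro h
        have h2 : p ∣ i := by rw [← hoz]; exact orderOf_dvd_of_pow_eq_one h
        have h3 : i < p := Finset.mem_range.mp hi
        exact absurd (Nat.le_of_dvd (Nat.pos_of_ne_zero hi0) h2) (not_le.mpr h3)
      have hzic : z ^ i ∈ Subgroup.center P := Subgroup.pow_mem _ hzc i
      have hzip : (z ^ i) ^ p = 1 := by rw [← pow_mul, mul_comm, pow_mul, hzp, one_pow]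
      have h4 : trHom p (z ^ i) e₀ = 0 := hfz _ hzic hzi1 _ (trHom_fixed p _ hzip e₀)
      rw [h4, smul_zero]
    · intro h
      exact absurd (Finset.mem_range.mpr hp.pos) h
  obtain ⟨a, haU, ha1, v₀, hv₀, hav₀⟩ := hA
  have hap : a ^ p = 1 := hUp a haU
  have hcza : Nat.card (Subgroup.zpowers a) = p := by
    rw [Nat.card_zpowers]; exact orderOf_eq_prime hap ha1
  obtain ⟨g, hg⟩ : ∃ g : P, g * a * g⁻¹ ∉ Subgroup.zpowers a := by
    by_contra hall
    push Not at hall
    have hnorm : (Subgroup.zpowers a).Normal := by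
      constructor
      intro n hn g
      obtain ⟨k, rfl⟩ := Subgroup.mem_zpowers_iff.mp hn
      rw [← conj_zpow]
      exact Subgroup.zpow_mem _ (hall g) k
    haveI := hnorm
    have hbot : Subgroup.zpowers a ≠ ⊥ := by
      intro h
      exact ha1 (Subgroup.zpowers_eq_bot.mp h)
    obtain ⟨c, hcz, hc1, hcc⟩ :=
      Cfsg.Agent.Lib.Helper3.exists_ne_one_mem_center_of_normal hP (Subgroup.zpowers a) hbot
    have hle : Subgroup.zpowers a ≤ MulAction.stabilizer P v₀ :=
      Subgroup.zpowers_le.mpr (MulAction.mem_stabilizer_iff.mpr hav₀)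
    exact hv₀ (hfz c hcc hc1 v₀ (MulAction.mem_stabilizer_iff.mp (hle hcz)))
  obtain ⟨b, hbdef⟩ : ∃ b : P, b = g * a * g⁻¹ := ⟨_, rfl⟩
  rw [← hbdef] at hg
  have hbU : b ∈ U := by rw [hbdef]; exact hUn.conj_mem a haU g
  obtain ⟨v₁, hv₁def⟩ : ∃ v₁ : E, v₁ = g • v₀ := ⟨_, rfl⟩
  have hv₁ : v₁ ≠ 0 := by
    intro h
    rw [hv₁def] at h
    exact hv₀ ((smul_eq_zero_iff_eq g).mp h)
  have hbv₁ : b • v₁ = v₁ := by
    rw [hbdef, hv₁def, ← mul_smul, inv_mul_cancel_right, mul_smul, hav₀]
  have hKab : ∀ x : E, a • x = x → b • x = x → x = 0 := hKF a haU ha1 b hbU hg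
  have hTv₀ : trHom p a v₀ = p • v₀ := trHom_of_fixed p a v₀ hav₀
  have hTv₁ : trHom p a v₁ = 0 := hF a haU ha1 b hbU hg v₁ hbv₁
  have hgen : ∀ c ∈ Subgroup.zpowers a, c ≠ 1 → a ∈ Subgroup.zpowers c := by
    intro c hc hc1
    rw [zpowers_eq_of_card_prime (Subgroup.zpowers a) hp hcza c hc hc1]
    exact Subgroup.mem_zpowers a
  have hodd : ∀ h : P, ∀ x : E, (h * h) • x = x → h • x = x := by
    intro h x hx
    obtain ⟨k, hk⟩ := hP h
    have hpodd : Odd (p ^ k) := (hp.odd_of_ne_two hp2).pow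
    obtain ⟨m, hm⟩ := hpodd
    have he : 2 * (m + 1) = 2 * m + 1 + 1 := by ring
    have h2 : (h * h) ^ (m + 1) = h ^ (2 * m + 1) * h := by
      rw [← pow_two, ← pow_mul, he, pow_succ]
    have h3 : (h * h) ^ (m + 1) = h := by
      rw [h2, ← hm, hk, one_mul]
    have h4 := pow_smul_of_fixed (h * h) x hx (m + 1)
    rw [h3] at h4
    exact h4
  have hb1 : b ≠ 1 := by
    intro h1
    apply hg
    rw [h1]
    exact Subgroup.one_mem _
  have hK2 : ∀ h : P, h • (v₀ + v₁) = v₀ + v₁ → h • v₀ = v₀ := by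
    intro h hh
    obtain ⟨a', ha'def⟩ : ∃ a' : P, a' = h * a * h⁻¹ := ⟨_, rfl⟩
    obtain ⟨b', hb'def⟩ : ∃ b' : P, b' = h * b * h⁻¹ := ⟨_, rfl⟩
    have ha'U : a' ∈ U := by rw [ha'def]; exact hUn.conj_mem a haU h
    have hb'U : b' ∈ U := by rw [hb'def]; exact hUn.conj_mem b hbU h
    have ha'1 : a' ≠ 1 := by
      intro h1
      rw [ha'def] at h1
      apply ha1
      have h2 : a = h⁻¹ * (h * a * h⁻¹) * h := by group
      rw [h2, h1]
      group
    have hb'1 : b' ≠ 1 := by
      intro h1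
      rw [hb'def] at h1
      apply hb1
      have h2 : b = h⁻¹ * (h * b * h⁻¹) * h := by group
      rw [h2, h1]
      group
    have ha'v : a' • (h • v₀) = h • v₀ := by
      rw [ha'def, ← mul_smul, inv_mul_cancel_right, mul_smul, hav₀]
    have hb'v : b' • (h • v₁) = h • v₁ := by
      rw [hb'def, ← mul_smul, inv_mul_cancel_right, mul_smul, hbv₁]
    have hsum : trHom p a (h • v₀) + trHom p a (h • v₁) = p • v₀ := by
      have e1 : trHom p a (h • v₀) + trHom p a (h • v₁) = trHom p a (h • (v₀ + v₁)) := by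
        rw [smul_add, map_add]
      rw [e1, hh, map_add, hTv₀, hTv₁, add_zero]
    have hhsum : h • v₀ + h • v₁ = v₀ + v₁ := by rw [← smul_add]; exact hh
    by_cases hca : a' ∈ Subgroup.zpowers a
    · have h1 : a ∈ Subgroup.zpowers a' := hgen a' hca ha'1
      have h2 : a • (h • v₀) = h • v₀ := by
        have hle : Subgroup.zpowers a' ≤ MulAction.stabilizer P (h • v₀) :=
          Subgroup.zpowers_le.mpr (MulAction.mem_stabilizer_iff.mpr ha'v)
        exact MulAction.mem_stabilizer_iff.mp (hle h1)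
      have h3 : b' ∉ Subgroup.zpowers a := by
        intro hb'a
        have h4 : Subgroup.zpowers a' = Subgroup.zpowers a :=
          zpowers_eq_of_card_prime (Subgroup.zpowers a) hp hcza a' hca ha'1
        rw [← h4] at hb'a
        obtain ⟨k, hk⟩ := Subgroup.mem_zpowers_iff.mp hb'a
        apply hg
        rw [Subgroup.mem_zpowers_iff]
        refine ⟨k, ?_⟩
        rw [ha'def, hb'def, conj_zpow] at hk
        have h5 : a ^ k = h⁻¹ * (h * a ^ k * h⁻¹) * h := by group
        rw [h5, hk]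
        group
      have h6 : trHom p a (h • v₁) = 0 := hF a haU ha1 b' hb'U h3 _ hb'v
      rw [h6, add_zero, trHom_of_fixed p a _ h2] at hsum
      have h7 : p • (h • v₀ - v₀) = 0 := by rw [smul_sub, hsum, sub_self]
      exact sub_eq_zero.mp (htor _ h7)
    · exfalso
      have h1 : trHom p a (h • v₀) = 0 := hF a haU ha1 a' ha'U hca _ ha'v
      rw [h1, zero_add] at hsum
      by_cases hcb : b' ∈ Subgroup.zpowers a
      · have h2 : a ∈ Subgroup.zpowers b' := hgen b' hcb hb'1
        have h3 : a • (h • v₁) = h • v₁ := by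
          have hle : Subgroup.zpowers b' ≤ MulAction.stabilizer P (h • v₁) :=
            Subgroup.zpowers_le.mpr (MulAction.mem_stabilizer_iff.mpr hb'v)
          exact MulAction.mem_stabilizer_iff.mp (hle h2)
        rw [trHom_of_fixed p a _ h3] at hsum
        have h4 : p • (h • v₁ - v₀) = 0 := by rw [smul_sub, hsum, sub_self]
        have h5 : h • v₁ = v₀ := sub_eq_zero.mp (htor _ h4)
        have h6 : h • v₀ = v₁ := by
          have e := hhsum
          rw [h5, add_comm (h • v₀) v₀] at e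
          exact add_left_cancel e
        have h7 : (h * h) • v₀ = v₀ := by rw [mul_smul, h6, h5]
        have h8 : h • v₀ = v₀ := hodd h v₀ h7
        have h9 : v₁ = v₀ := h6.symm.trans h8
        have h10 : b • v₀ = v₀ := by
          have e := hbv₁
          rw [h9] at e
          exact e
        exact hv₀ (hKab v₀ hav₀ h10)
      · have h2 : trHom p a (h • v₁) = 0 := hF a haU ha1 b' hb'U hcb _ hb'v
        rw [h2] at hsum
        exact hv₀ (htor v₀ hsum.symm)
  have hvv0 : v₀ + v₁ ≠ 0 := by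
    intro h0
    have h1 : v₁ = -v₀ := eq_neg_of_add_eq_zero_right h0
    have h2 : a • v₁ = v₁ := by rw [h1, smul_neg, hav₀]
    exact hv₁ (hKab v₁ h2 hbv₁)
  have hsub1 : MulAction.stabilizer P (v₀ + v₁) ≤ MulAction.stabilizer P v₀ := by
    intro h hh
    rw [MulAction.mem_stabilizer_iff] at hh ⊢
    exact hK2 h hh
  have hsub2 : MulAction.stabilizer P (v₀ + v₁) ≤ MulAction.stabilizer P v₁ := by
    intro h hh
    have hhv := hsub1 hh
    rw [MulAction.mem_stabilizer_iff] at hh hhv ⊢
    rw [smul_add, hhv] at hh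
    exact add_left_cancel hh
  have he1 : MulAction.stabilizer P (v₀ + v₁) = MulAction.stabilizer P v₀ :=
    Subgroup.eq_of_le_of_card_ge hsub1 (le_of_eq (hconst v₀ (v₀ + v₁) hv₀ hvv0))
  have he2 : MulAction.stabilizer P (v₀ + v₁) = MulAction.stabilizer P v₁ :=
    Subgroup.eq_of_le_of_card_ge hsub2 (le_of_eq (hconst v₁ (v₀ + v₁) hv₁ hvv0))
  have haw : a ∈ MulAction.stabilizer P v₁ := by
    rw [← he2, he1]
    exact MulAction.mem_stabilizer_iff.mpr hav₀
  exact hv₁ (hKab v₁ (MulAction.mem_stabilizer_iff.mp haw) hbv₁)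

/-- Statement form: a `p`-group (`p` odd) acting faithfully with constant stabilizer orders
on the nonzero vectors of an elementary abelian `q`-group is cyclic and acts freely. -/
theorem fpf_cyclic_main [FaithfulSMul P E]
    {p q : ℕ} [Fact p.Prime] (hp2 : p ≠ 2) (hP : IsPGroup p P) (hq : q.Prime)
    (hE : ∀ e : E, q • e = 0)
    (hconst : ∀ a b : E, a ≠ 0 → b ≠ 0 →
      Nat.card (MulAction.stabilizer P a) = Nat.card (MulAction.stabilizer P b)) :
    IsCyclic P ∧ ∀ g : P, g ≠ 1 → ∀ a : E, g • a = a → a = 0 := by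
  have hp : p.Prime := Fact.out
  have htriv : (∀ g : P, ∀ e : E, g • e = e) →
      IsCyclic P ∧ ∀ g : P, g ≠ 1 → ∀ a : E, g • a = a → a = 0 := by
    intro hall
    have h1 : ∀ g : P, g = 1 := by
      intro g
      apply FaithfulSMul.eq_of_smul_eq_smul (α := E)
      intro e
      rw [hall g e, one_smul]
    haveI : Subsingleton P := ⟨fun x y => by rw [h1 x, h1 y]⟩
    exact ⟨isCyclic_of_subsingleton, fun g hg => absurd (h1 g) hg⟩
  by_cases hE0 : ∀ e : E, e = 0
  · apply htriv
    intro g e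
    rw [hE0 e, smul_zero]
  push Not at hE0
  obtain ⟨e₀, he₀⟩ := hE0
  by_cases hfix : ∃ v : E, v ≠ 0 ∧ ∀ g : P, g • v = v
  · obtain ⟨v, hv0, hv⟩ := hfix
    apply htriv
    intro g e
    by_cases he : e = 0
    · rw [he, smul_zero]
    · have h1 : MulAction.stabilizer P v = ⊤ := by
        rw [eq_top_iff]
        intro x _
        exact MulAction.mem_stabilizer_iff.mpr (hv x)
      have h2 : MulAction.stabilizer P e = ⊤ := by
        apply Subgroup.eq_top_of_card_eq
        rw [hconst e v he hv0, h1, Subgroup.card_top]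
      have h3 : g ∈ MulAction.stabilizer P e := by rw [h2]; exact Subgroup.mem_top g
      exact MulAction.mem_stabilizer_iff.mp h3
  · have hno : ∀ v : E, v ≠ 0 → ∃ g : P, g • v ≠ v := by
      intro v hv
      by_contra hc
      push Not at hc
      exact hfix ⟨v, hv, hc⟩
    have hqp : q ≠ p := by
      intro hqp
      have hmod := hP.card_modEq_card_fixedPoints E
      have hdvdE : p ∣ Nat.card E := by
        have h1 : addOrderOf e₀ ∣ q := addOrderOf_dvd_of_nsmul_eq_zero (hE e₀)
        have h2 : addOrderOf e₀ = q := by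
          rcases (Nat.dvd_prime hq).mp h1 with h | h
          · exact absurd (AddMonoid.addOrderOf_eq_one_iff.mp h) he₀
          · exact h
        rw [← hqp, ← h2]
        exact addOrderOf_dvd_natCard e₀
      have hdvdF : p ∣ Nat.card (MulAction.fixedPoints P E) :=
        Nat.modEq_zero_iff_dvd.mp (hmod.symm.trans (Nat.modEq_zero_iff_dvd.mpr hdvdE))
      have hsub : ∀ x : MulAction.fixedPoints P E, x = ⟨0, fun g => smul_zero g⟩ := by
        intro x
        apply Subtype.ext
        by_contra hx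
        obtain ⟨g, hg⟩ := hno x.1 hx
        exact hg (x.2 g)
      haveI : Subsingleton (MulAction.fixedPoints P E) :=
        ⟨fun x y => by rw [hsub x, hsub y]⟩
      haveI : Nonempty (MulAction.fixedPoints P E) := ⟨⟨0, fun g => smul_zero g⟩⟩
      have hc1 : Nat.card (MulAction.fixedPoints P E) = 1 :=
        Nat.card_eq_one_iff_unique.mpr ⟨inferInstance, inferInstance⟩
      rw [hc1] at hdvdF
      exact hp.one_lt.ne' (Nat.dvd_one.mp hdvdF)
    have htor : ∀ e : E, p • e = 0 → e = 0 := by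
      intro e he
      have h1 : addOrderOf e ∣ p := addOrderOf_dvd_of_nsmul_eq_zero he
      have h2 : addOrderOf e ∣ q := addOrderOf_dvd_of_nsmul_eq_zero (hE e)
      have h3 : addOrderOf e ∣ Nat.gcd p q := Nat.dvd_gcd h1 h2
      have h4 : Nat.gcd p q = 1 := (Nat.coprime_primes hp hq).mpr (Ne.symm hqp)
      rw [h4, Nat.dvd_one] at h3
      exact AddMonoid.addOrderOf_eq_one_iff.mp h3
    have hcyc : IsCyclic P := cyclic_of_const_stab hp2 hP htor hconst e₀ he₀
    refine ⟨hcyc, ?_⟩
    intro g hg a hga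
    haveI := hcyc
    have hgc : g ∈ Subgroup.center P :=
      Subgroup.mem_center_iff.mpr
        (fun x => (IsCyclic.isMulCommutative (α := P)).is_comm.comm x g)
    exact central_fpf hP htor hconst g hgc hg a hga

end Main

end Cfsg.Agent.Lib.Helper2
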