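import Mathlib
import Cfsg.Prelude.Def_SolvableStructure
import Cfsg.Agent.Lib.Helper1.SS
import Cfsg.Agent.Lib.Helper1.CLT

set_option autoImplicit false

namespace Cfsg.Agent.Lib.Helper2

open Cfsg.Agent.Lib.Helper1

universe u

theorem orderOf_dvd_card_of_mem {X : Type*} [Group X] (Hs : Subgroup X) {u : X} (hu : u ∈ Hs) :
    orderOf u ∣ Nat.card Hs := by
  have h1 := orderOf_dvd_natCard (⟨u, hu⟩ : Hs)
  rwa [← Subgroup.orderOf_coe] at h1

/-- stability: an element of order prime to `p` centralizing `Z` (of exponent `p`) and acting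
trivially on `Q` modulo `Z` centralizes `Q`. -/
theorem centralizes_of_stab {X : Type*} [Group X] [Finite X] (p : ℕ) (Z Q : Subgroup X)
    (u : X) (hu : (orderOf u).Coprime p) (hZp : ∀ c ∈ Z, c ^ p = 1)
    (hZ : ∀ c ∈ Z, u * c = c * u) (hQ : ∀ x ∈ Q, u * x * u⁻¹ * x⁻¹ ∈ Z) :
    ∀ x ∈ Q, u * x = x * u := by
  intro x hx
  obtain ⟨c, hc⟩ : ∃ c, c = u * x * u⁻¹ * x⁻¹ := ⟨_, rfl⟩
  have hcZ : c ∈ Z := by rw [hc]; exact hQ x hx
  have hcu : u * c = c * u := hZ c hcZ
  have key : ∀ k : ℕ, u ^ k * x * (u ^ k)⁻¹ = c ^ k * x := by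
    intro k
    induction k with
    | zero => simp
    | succ k ih =>
      have h1 : u ^ (k + 1) * x * (u ^ (k + 1))⁻¹ = u * (u ^ k * x * (u ^ k)⁻¹) * u⁻¹ := by
        rw [pow_succ']; group
      rw [h1, ih]
      have h2 : u * c ^ k = c ^ k * u := ((show Commute u c from hcu).pow_right k).eq
      calc u * (c ^ k * x) * u⁻¹ = (u * c ^ k) * x * u⁻¹ := by group
        _ = c ^ k * u * x * u⁻¹ := by rw [h2]
        _ = c ^ k * (u * x * u⁻¹ * x⁻¹) * x := by group
        _ = c ^ k * c * x := by rw [← hc]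
        _ = c ^ (k + 1) * x := by rw [pow_succ]
  have h3 := key (orderOf u)
  rw [pow_orderOf_eq_one] at h3
  have h4 : c ^ orderOf u = 1 := by
    have h41 : c ^ orderOf u * x = 1 * x := by rw [← h3]; group
    exact mul_right_cancel h41
  have h5 : c ^ p = 1 := hZp c hcZ
  have h6 : c = 1 := by
    have h7 : orderOf c ∣ orderOf u := orderOf_dvd_of_pow_eq_one h4
    have h8 : orderOf c ∣ p := orderOf_dvd_of_pow_eq_one h5
    have h9 : orderOf c ∣ Nat.gcd (orderOf u) p := Nat.dvd_gcd h7 h8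
    rw [hu.gcd_eq_one] at h9
    exact orderOf_eq_one_iff.1 (Nat.dvd_one.1 h9)
  rw [h6] at hc
  calc u * x = (u * x * u⁻¹ * x⁻¹) * x * u := by group
    _ = x * u := by rw [← hc]; group

/-- In a supersolvable group, for a subgroup `Hs` of order prime to `p` and a normal
`p`-subgroup `Q`: the `(p-1)`-th powers and the commutators of elements of `Hs` centralize `Q`. -/
theorem ss_pprime_act : ∀ n : ℕ, ∀ (X : Type u) [Group X] [Finite X] (p : ℕ) [Fact p.Prime]
    (Q Hs : Subgroup X), Nat.card Q = n → Cfsg.IsSupersolvable X → Q.Normal → IsPGroup p Q →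
    (Nat.card Hs).Coprime p →
    (∀ h ∈ Hs, ∀ x ∈ Q, h ^ (p - 1) * x = x * h ^ (p - 1)) ∧
    (∀ h1 ∈ Hs, ∀ h2 ∈ Hs, ∀ x ∈ Q,
      (h1 * h2 * h1⁻¹ * h2⁻¹) * x = x * (h1 * h2 * h1⁻¹ * h2⁻¹)) := by
  intro n
  induction n using Nat.strong_induction_on with
  | _ n ih =>
    intro X _ _ p _ Q Hs hn hss hQn hQp hcop
    have hp := Fact.out (p := p.Prime)
    by_cases hQb : Q = ⊥
    · subst hQb
      refine ⟨fun h _ x hx => ?_, fun h1 _ h2 _ x hx => ?_⟩
      · rw [Subgroup.mem_bot] at hx; subst hx; simp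
      · rw [Subgroup.mem_bot] at hx; subst hx; simp
    obtain ⟨Z, hZn, hZQ, hZc⟩ := exists_normal_prime_card_le _ X rfl hss Q hQn hQb
    haveI := hZn
    have hZp : Nat.card Z = p := by
      have h1 : IsPGroup p Z := hQp.to_le hZQ
      obtain ⟨k, hk⟩ := IsPGroup.iff_card.1 h1
      have hk0 : k ≠ 0 := by
        rintro rfl
        rw [pow_zero] at hk
        rw [hk] at hZc
        exact Nat.not_prime_one hZc
      have hpd : p ∣ Nat.card Z := by rw [hk]; exact dvd_pow_self p hk0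
      exact ((Nat.prime_dvd_prime_iff_eq hp hZc).1 hpd).symm
    have hZexp : ∀ c ∈ Z, c ^ p = 1 := by
      intro c hc
      have h1 : (⟨c, hc⟩ : Z) ^ Nat.card Z = 1 := pow_card_eq_one'
      rw [hZp] at h1
      have h2 := congrArg Subtype.val h1
      rw [Subgroup.coe_pow, Subgroup.coe_one] at h2
      exact h2
    obtain ⟨z, hzZ, hz1⟩ : ∃ z ∈ Z, z ≠ 1 := by
      by_contra hcon
      push Not at hcon
      have h1 : Z = ⊥ := (Subgroup.eq_bot_iff_forall Z).2 hcon
      rw [h1, Subgroup.card_bot] at hZp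
      exact hp.one_lt.ne hZp
    have hzo : orderOf z = p := by
      have h1 : orderOf z ∣ p := orderOf_dvd_of_pow_eq_one (hZexp z hzZ)
      rcases (Nat.dvd_prime hp).1 h1 with h2 | h2
      · exact absurd (orderOf_eq_one_iff.1 h2) hz1
      · exact h2
    have hZz : Subgroup.zpowers z = Z := by
      apply Subgroup.eq_of_le_of_card_ge ((Subgroup.zpowers_le).2 hzZ)
      rw [Nat.card_zpowers, hzo, hZp]
    have hZpow : ∀ c ∈ Z, ∃ k : ℕ, c = z ^ k := by
      intro c hc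
      rw [← hZz] at hc
      have h1 : c ∈ Submonoid.powers z :=
        (isOfFinOrder_of_finite z).mem_powers_iff_mem_zpowers.2 hc
      obtain ⟨k, hk⟩ := (Submonoid.mem_powers_iff c z).1 h1
      exact ⟨k, hk.symm⟩
    have hconj : ∀ g : X, ∃ r : ℕ, g * z * g⁻¹ = z ^ r :=
      fun g => hZpow _ (hZn.conj_mem z hzZ g)
    have hconjk : ∀ g : X, ∀ r : ℕ, g * z * g⁻¹ = z ^ r →
        ∀ k : ℕ, g ^ k * z * (g ^ k)⁻¹ = z ^ (r ^ k) := by
      intro g r hr k
      induction k with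
      | zero => simp
      | succ k ih =>
        have h1 : g ^ (k + 1) * z * (g ^ (k + 1))⁻¹ = g * (g ^ k * z * (g ^ k)⁻¹) * g⁻¹ := by
          rw [pow_succ']; group
        rw [h1, ih]
        have h2 : g * z ^ (r ^ k) * g⁻¹ = (g * z * g⁻¹) ^ (r ^ k) := conj_pow.symm
        rw [h2, hr, ← pow_mul, pow_succ']
    have hu1 : ∀ g : X, g ^ (p - 1) * z = z * g ^ (p - 1) := by
      intro g
      obtain ⟨r, hr⟩ := hconj g
      have h1 := hconjk g r hr (p - 1)
      have hr0 : ¬ p ∣ r := by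
        intro hd
        obtain ⟨t, rfl⟩ := hd
        have h6 : z ^ (p * t) = 1 := by rw [pow_mul, hZexp z hzZ, one_pow]
        rw [h6] at hr
        apply hz1
        have h7 : z = g⁻¹ * (g * z * g⁻¹) * g := by group
        rw [h7, hr]; group
      have h2 : r ^ (p - 1) ≡ 1 [MOD p] := by
        have h3 : ((r : ZMod p)) ≠ 0 := by
          intro h0
          exact hr0 ((ZMod.natCast_eq_zero_iff r p).1 h0)
        have h4 := ZMod.pow_card_sub_one_eq_one h3
        rw [← ZMod.natCast_eq_natCast_iff]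
        push_cast
        exact h4
      have h5 : z ^ (r ^ (p - 1)) = z ^ 1 := by
        rw [pow_eq_pow_iff_modEq, hzo]; exact h2
      rw [h5, pow_one] at h1
      calc g ^ (p - 1) * z = (g ^ (p - 1) * z * (g ^ (p - 1))⁻¹) * g ^ (p - 1) := by group
        _ = z * g ^ (p - 1) := by rw [h1]
    have hu2 : ∀ g1 g2 : X,
        (g1 * g2 * g1⁻¹ * g2⁻¹) * z = z * (g1 * g2 * g1⁻¹ * g2⁻¹) := by
      intro g1 g2
      have hcm : ∀ c ∈ Z, g1 * (g2 * c * g2⁻¹) * g1⁻¹ = g2 * (g1 * c * g1⁻¹) * g2⁻¹ := by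
        intro c hc
        obtain ⟨k, rfl⟩ := hZpow c hc
        obtain ⟨r1, hr1⟩ := hconj g1
        obtain ⟨r2, hr2⟩ := hconj g2
        have e1 : g2 * z ^ k * g2⁻¹ = z ^ (r2 * k) := by rw [← conj_pow, hr2, ← pow_mul]
        have e2 : g1 * z ^ k * g1⁻¹ = z ^ (r1 * k) := by rw [← conj_pow, hr1, ← pow_mul]
        have e3 : g1 * z ^ (r2 * k) * g1⁻¹ = z ^ (r1 * (r2 * k)) := by
          rw [← conj_pow, hr1, ← pow_mul]
        have e4 : g2 * z ^ (r1 * k) * g2⁻¹ = z ^ (r2 * (r1 * k)) := by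
          rw [← conj_pow, hr2, ← pow_mul]
        rw [e1, e2, e3, e4]
        congr 1; ring
      have hc' : (g2 * g1)⁻¹ * z * (g2 * g1) ∈ Z := by
        have h0 := hZn.conj_mem z hzZ (g2 * g1)⁻¹
        rwa [inv_inv] at h0
      have h1 := hcm _ hc'
      have h2 : g2 * (g1 * ((g2 * g1)⁻¹ * z * (g2 * g1)) * g1⁻¹) * g2⁻¹ = z := by group
      rw [h2] at h1
      calc (g1 * g2 * g1⁻¹ * g2⁻¹) * z
          = (g1 * (g2 * ((g2 * g1)⁻¹ * z * (g2 * g1)) * g2⁻¹) * g1⁻¹)
              * (g1 * g2 * g1⁻¹ * g2⁻¹) := by group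
        _ = z * (g1 * g2 * g1⁻¹ * g2⁻¹) := by rw [h1]
    have hπs : Function.Surjective (QuotientGroup.mk' Z) := QuotientGroup.mk'_surjective Z
    have hlt : Nat.card (Q.map (QuotientGroup.mk' Z)) < n := by
      have h1 := card_comap_mk' Z (Q.map (QuotientGroup.mk' Z))
      have h2 : (Q.map (QuotientGroup.mk' Z)).comap (QuotientGroup.mk' Z) = Q := by
        rw [Subgroup.comap_map_eq, QuotientGroup.ker_mk']
        exact sup_eq_left.2 hZQ
      rw [h2, hZp, hn] at h1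
      have h3 : 0 < Nat.card (Q.map (QuotientGroup.mk' Z)) := Nat.card_pos
      have h4 := hp.two_le
      nlinarith
    obtain ⟨ih1, ih2⟩ := ih (Nat.card (Q.map (QuotientGroup.mk' Z))) hlt (X ⧸ Z) p
      (Q.map (QuotientGroup.mk' Z)) (Hs.map (QuotientGroup.mk' Z)) rfl (ss_quotient hss Z)
      (hQn.map (QuotientGroup.mk' Z) hπs) (hQp.map (QuotientGroup.mk' Z))
      (Nat.Coprime.coprime_dvd_left (Subgroup.card_map_dvd Hs (QuotientGroup.mk' Z)) hcop)
    have hker : ∀ u x : X, (QuotientGroup.mk' Z) u * (QuotientGroup.mk' Z) x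
        = (QuotientGroup.mk' Z) x * (QuotientGroup.mk' Z) u → u * x * u⁻¹ * x⁻¹ ∈ Z := by
      intro u x hux
      rw [← QuotientGroup.eq_one_iff]
      show (QuotientGroup.mk' Z) (u * x * u⁻¹ * x⁻¹) = 1
      rw [map_mul, map_mul, map_mul, map_inv, map_inv, hux]
      group
    have hfin : ∀ u ∈ Hs, u * z = z * u →
        (∀ x ∈ Q, (QuotientGroup.mk' Z) u * (QuotientGroup.mk' Z) x
          = (QuotientGroup.mk' Z) x * (QuotientGroup.mk' Z) u) → ∀ x ∈ Q, u * x = x * u := by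
      intro u huH huz hux
      apply centralizes_of_stab p Z Q u
      · exact Nat.Coprime.coprime_dvd_left (orderOf_dvd_card_of_mem Hs huH) hcop
      · exact hZexp
      · intro c hc
        obtain ⟨k, rfl⟩ := hZpow c hc
        exact ((show Commute u z from huz).pow_right k).eq
      · intro x hx
        exact hker u x (hux x hx)
    refine ⟨fun h hh x hx => ?_, fun h1 hh1 h2 hh2 x hx => ?_⟩
    · apply hfin (h ^ (p - 1)) (Hs.pow_mem hh _) (hu1 h) _ x hx
      intro x' hx'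
      have h0 := ih1 ((QuotientGroup.mk' Z) h) (Subgroup.mem_map_of_mem _ hh)
        ((QuotientGroup.mk' Z) x') (Subgroup.mem_map_of_mem _ hx')
      rw [map_pow]; exact h0
    · apply hfin (h1 * h2 * h1⁻¹ * h2⁻¹)
        (Hs.mul_mem (Hs.mul_mem (Hs.mul_mem hh1 hh2) (Hs.inv_mem hh1)) (Hs.inv_mem hh2))
        (hu2 h1 h2) _ x hx
      intro x' hx'
      have h0 := ih2 ((QuotientGroup.mk' Z) h1) (Subgroup.mem_map_of_mem _ hh1)
        ((QuotientGroup.mk' Z) h2) (Subgroup.mem_map_of_mem _ hh2)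
        ((QuotientGroup.mk' Z) x') (Subgroup.mem_map_of_mem _ hx')
      rw [map_mul, map_mul, map_mul, map_inv, map_inv]; exact h0

end Cfsg.Agent.Lib.Helper2
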