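import Mathlib

set_option autoImplicit false

namespace Cfsg.Agent.Lib.Helper2

/-- The product of `X - a` over the prime field is `X ^ p - X`. -/
theorem prod_X_sub_C_zmod (p : ℕ) [Fact p.Prime] :
    ∏ a : ZMod p, (Polynomial.X - Polynomial.C a)
      = (Polynomial.X ^ p - Polynomial.X : Polynomial (ZMod p)) := by
  have hp := Fact.out (p := p.Prime)
  have h1 := FiniteField.roots_X_pow_card_sub_X (ZMod p)
  rw [ZMod.card] at h1
  have h2 := FiniteField.X_pow_card_sub_X_natDegree_eq (ZMod p) hp.one_lt
  have h3 : (Polynomial.X ^ p - Polynomial.X : Polynomial (ZMod p)).Monic := by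
    apply Polynomial.monic_X_pow_sub
    rw [Polynomial.degree_X]
    exact_mod_cast hp.one_lt
  have h4 : Multiset.card (Polynomial.X ^ p - Polynomial.X : Polynomial (ZMod p)).roots
      = (Polynomial.X ^ p - Polynomial.X : Polynomial (ZMod p)).natDegree := by
    rw [h1, h2]
    simp
  have h5 := Polynomial.prod_multiset_X_sub_C_of_monic_of_roots_card_eq h3 h4
  rw [h1] at h5
  rw [← h5]
  simp

/-- A linear map over the prime field with `f ^ (p - 1) = 1` has an eigenvector. -/
theorem exists_eigen_lin {p : ℕ} [Fact p.Prime] {V : Type*} [AddCommGroup V] [Module (ZMod p) V]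
    [Nontrivial V] (f : Module.End (ZMod p) V) (hf : f ^ (p - 1) = 1) :
    ∃ v : V, v ≠ 0 ∧ ∃ a : ZMod p, f v = a • v := by
  classical
  have hp := Fact.out (p := p.Prime)
  by_contra hcon
  push Not at hcon
  have hinj : ∀ a : ZMod p, Function.Injective
      (f - algebraMap (ZMod p) (Module.End (ZMod p) V) a) := by
    intro a
    rw [injective_iff_map_eq_zero]
    intro v hv
    by_contra hv0
    apply hcon v hv0 a
    have h1 : (f - algebraMap (ZMod p) (Module.End (ZMod p) V) a) v = f v - a • v := by
      simp [Module.algebraMap_end_apply]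
    rw [h1] at hv
    exact sub_eq_zero.1 hv
  have key : ∀ s : Finset (ZMod p), Function.Injective
      (Polynomial.aeval f (∏ a ∈ s, (Polynomial.X - Polynomial.C a))) := by
    intro s
    induction s using Finset.induction_on with
    | empty =>
      rw [Finset.prod_empty, map_one]
      exact Function.injective_id
    | insert a s ha ih =>
      rw [Finset.prod_insert ha, map_mul]
      have h1 : Polynomial.aeval f (Polynomial.X - Polynomial.C a)
          = f - algebraMap (ZMod p) (Module.End (ZMod p) V) a := by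
        simp
      rw [h1]
      exact (hinj a).comp ih
  have h0 : Polynomial.aeval f (Polynomial.X ^ p - Polynomial.X : Polynomial (ZMod p)) = 0 := by
    have h2 : f ^ p = f := by
      have h3 : (p - 1) + 1 = p := by have := hp.one_lt; omega
      have h4 : f ^ ((p - 1) + 1) = f := by rw [pow_succ, hf, one_mul]
      rw [h3] at h4
      exact h4
    simp [h2]
  have h5 := key Finset.univ
  rw [prod_X_sub_C_zmod, h0] at h5
  obtain ⟨v, hv⟩ := exists_ne (0 : V)
  exact hv (h5 (by simp))

/-- An endomorphism `σ` of a commutative group of exponent `p` with `σ ^ (p - 1) = 1` maps some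
nontrivial element to a power of itself. -/
theorem exists_eigen_abs {V : Type*} [CommGroup V] [Nontrivial V] (p : ℕ) [Fact p.Prime]
    (hexp : ∀ a : V, a ^ p = 1) (σ : V →* V) (hσ : ∀ a : V, σ^[p - 1] a = a) :
    ∃ y : V, y ≠ 1 ∧ ∃ l : ℕ, σ y = y ^ l := by
  have hexp' : ∀ x : Additive V, p • x = 0 := fun x => by
    show Additive.ofMul ((Additive.toMul x) ^ p) = 0
    rw [hexp]; rfl
  letI md : Module (ZMod p) (Additive V) := AddCommGroup.zmodModule (n := p) hexp'
  let f : Additive V →ₗ[ZMod p] Additive V :=
    AddMonoidHom.toZModLinearMap p (MonoidHom.toAdditive σ)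
  have hfv : ∀ v : Additive V, f v = Additive.ofMul (σ (Additive.toMul v)) := fun v => rfl
  have hit : ∀ k : ℕ, ∀ v : Additive V, f^[k] v = Additive.ofMul (σ^[k] (Additive.toMul v)) := by
    intro k
    induction k with
    | zero => intro v; rfl
    | succ k ih =>
      intro v
      rw [Function.iterate_succ_apply', Function.iterate_succ_apply', ih, hfv]
      rfl
  have hf1 : f ^ (p - 1) = 1 := by
    apply LinearMap.ext
    intro v
    rw [Module.End.pow_apply, hit, hσ]
    rfl
  obtain ⟨v, hv, a, ha⟩ := exists_eigen_lin (p := p) f hf1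
  refine ⟨Additive.toMul v, ?_, a.val, ?_⟩
  · intro h1
    apply hv
    have h2 : Additive.ofMul (Additive.toMul v) = Additive.ofMul (1 : V) := by rw [h1]
    exact h2
  · have h1 : a • v = a.val • v := by
      conv_lhs => rw [← ZMod.natCast_zmod_val a]
      rw [Nat.cast_smul_eq_nsmul]
    rw [h1, hfv] at ha
    have h2 : Additive.toMul (Additive.ofMul (σ (Additive.toMul v)))
        = Additive.toMul (a.val • v) := by
      rw [ha]
    exact h2

/-- An element `h` normalizing an abelian subgroup `N` of exponent `p`, with `h ^ (p - 1)`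
centralizing `N`, conjugates some nontrivial element of `N` to a power of itself. -/
theorem exists_eigen_conj {G : Type*} [Group G] (p : ℕ) [Fact p.Prime] (N : Subgroup G)
    (hcomm : ∀ a ∈ N, ∀ b ∈ N, a * b = b * a) (hexp : ∀ a ∈ N, a ^ p = 1) (hne : N ≠ ⊥)
    (h : G) (hnorm : ∀ a ∈ N, h * a * h⁻¹ ∈ N)
    (hpow : ∀ a ∈ N, h ^ (p - 1) * a = a * h ^ (p - 1)) :
    ∃ y ∈ N, y ≠ 1 ∧ ∃ l : ℕ, h * y * h⁻¹ = y ^ l := by
  letI cg : CommGroup N :=
    { (inferInstance : Group N) with mul_comm := fun a b => Subtype.ext (hcomm a a.2 b b.2) }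
  haveI : Nontrivial N := (Subgroup.nontrivial_iff_ne_bot N).2 hne
  let σ : N →* N :=
    { toFun := fun a => ⟨h * a.1 * h⁻¹, hnorm a.1 a.2⟩
      map_one' := by
        apply Subtype.ext
        show h * 1 * h⁻¹ = 1
        group
      map_mul' := by
        intro a b
        apply Subtype.ext
        show h * (a.1 * b.1) * h⁻¹ = (h * a.1 * h⁻¹) * (h * b.1 * h⁻¹)
        group }
  have hit : ∀ k : ℕ, ∀ a : N, ((σ^[k] a : N) : G) = h ^ k * a.1 * (h ^ k)⁻¹ := by
    intro k
    induction k with
    | zero => intro a; simp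
    | succ k ih =>
      intro a
      rw [Function.iterate_succ_apply']
      show h * ((σ^[k] a : N) : G) * h⁻¹ = _
      rw [ih, pow_succ']
      group
  obtain ⟨y, hy, l, hl⟩ := exists_eigen_abs (V := N) p
    (fun a => Subtype.ext (by
      show (a.1) ^ p = 1
      exact hexp a.1 a.2)) σ
    (fun a => Subtype.ext (by
      rw [hit]
      have h1 := hpow a.1 a.2
      rw [h1]
      group))
  refine ⟨y.1, y.2, fun h1 => hy (Subtype.ext h1), l, ?_⟩
  have h2 := congrArg Subtype.val hl
  exact h2

end Cfsg.Agent.Lib.Helper2
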