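import Mathlib
import Cfsg.Prelude.Def_SolvableStructure
import Cfsg.Agent.Lib.Helper1.SS
import Cfsg.Agent.Lib.Helper1.CLT
import Cfsg.Agent.Lib.Helper1.MaxPrime
import Cfsg.Agent.Lib.Helper1.MinNormal
import Cfsg.Agent.Lib.Lead.SZ2
import Cfsg.Agent.Lib.Lead.SylowAux
import Cfsg.Agent.Lib.Helper2.HuppertEig
import Cfsg.Agent.Lib.Helper2.HuppertAct

set_option autoImplicit false

namespace Cfsg.Agent.Lib.Helper2

open Cfsg.Agent.Lib.Helper1 Cfsg.Agent.Lib.Lead

open scoped Pointwise

universe u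

/-- Huppert: a finite group all of whose maximal subgroups have prime index is supersolvable. -/
theorem huppert_aux : ∀ n : ℕ, ∀ (G : Type u) [Group G] [Finite G], Nat.card G = n →
    (∀ M : Subgroup G, IsCoatom M → M.index.Prime) → Cfsg.IsSupersolvable G := by
  intro n
  induction n using Nat.strong_induction_on with
  | _ n ih =>
    intro G _ _ hn h
    classical
    by_cases hnt : Nontrivial G
    swap
    · rw [not_nontrivial_iff_subsingleton] at hnt
      haveI := hnt
      exact ss_of_subsingleton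
    haveI := hnt
    -- quotients by nontrivial normal subgroups are supersolvable
    have hquot : ∀ K : Subgroup G, ∀ hK : K.Normal, K ≠ ⊥ → Cfsg.IsSupersolvable (G ⧸ K) := by
      intro K hK hKne
      haveI := hK
      have hf := QuotientGroup.mk'_surjective K
      have hlt : Nat.card (G ⧸ K) < n := by
        have h1 := card_quotient_mul K
        have h2 : 1 < Nat.card K := (Subgroup.one_lt_card_iff_ne_bot K).2 hKne
        have h5 : 0 < Nat.card (G ⧸ K) := Nat.card_pos
        rw [← hn, ← h1]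
        nlinarith
      apply ih _ hlt (G ⧸ K) rfl
      intro M hM
      have h1 := h _ (Subgroup.isCoatom_comap_of_surjective hf hM)
      rwa [Subgroup.index_comap_of_surjective _ hf] at h1
    haveI hsolv : Group.IsSolvable G := solvable_of_max_prime_index _ G rfl h
    obtain ⟨p, hp, hpd, hmax⟩ := exists_max_prime (n := Nat.card G) Finite.one_lt_card
    haveI : Fact p.Prime := ⟨hp⟩
    obtain P : Sylow p G := default
    haveI hPn : (P : Subgroup G).Normal := sylow_normal_of_max_prime_index h p hmax P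
    have hPne : (P : Subgroup G) ≠ ⊥ := by
      intro hb
      have h2 : p ∣ Nat.card (P : Subgroup G) := P.dvd_card_of_dvd_card hpd
      rw [hb, Subgroup.card_bot] at h2
      exact hp.one_lt.ne' (Nat.dvd_one.1 h2)
    obtain ⟨N, hNn, hNP, hNne, hNmin⟩ := exists_minimal_normal_le (P : Subgroup G) hPn hPne
    haveI := hNn
    -- a second normal subgroup meeting `N` trivially: embed into the product of quotients
    by_cases hU : ∃ K : Subgroup G, K.Normal ∧ K ≠ ⊥ ∧ K ⊓ N = ⊥
    · obtain ⟨K, hKn, hKne, hKN⟩ := hU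
      haveI := hKn
      have s1 := hquot K hKn hKne
      have s2 := hquot N hNn hNne
      have s3 := ss_prod s1 s2
      have hfinj : Function.Injective
          ((QuotientGroup.mk' K).prod (QuotientGroup.mk' N)) := by
        rw [← MonoidHom.ker_eq_bot_iff, eq_bot_iff]
        intro g hg
        rw [MonoidHom.mem_ker] at hg
        have h1 : (QuotientGroup.mk' K) g = 1 := congrArg Prod.fst hg
        have h2 : (QuotientGroup.mk' N) g = 1 := congrArg Prod.snd hg
        have h3 : g ∈ K := (QuotientGroup.eq_one_iff g).1 h1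
        have h4 : g ∈ N := (QuotientGroup.eq_one_iff g).1 h2
        have h5 : g ∈ K ⊓ N := ⟨h3, h4⟩
        rw [hKN] at h5
        exact h5
      have s4 := ss_subgroup s3 ((QuotientGroup.mk' K).prod (QuotientGroup.mk' N)).range
      exact ss_of_surjective (MonoidHom.ofInjective hfinj).symm.toMonoidHom
        (MonoidHom.ofInjective hfinj).symm.surjective s4
    have hUniq : ∀ K : Subgroup G, K.Normal → K ≠ ⊥ → N ≤ K := by
      intro K hKn hKne
      by_contra hNK
      apply hU
      refine ⟨K, hKn, hKne, ?_⟩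
      haveI := hKn
      rcases hNmin (K ⊓ N) inferInstance inf_le_right with h1 | h1
      · exact h1
      · exfalso
        have h2 : K ⊓ N ≤ K := inf_le_left
        rw [h1] at h2
        exact hNK h2
    -- `N` is abelian of exponent `p` and central in `P`
    have hcomm := minNormal_comm N hNne hNmin
    have hNp : IsPGroup p N := P.isPGroup'.to_le hNP
    obtain ⟨kN, hkN⟩ := IsPGroup.iff_card.1 hNp
    have hNexp : ∀ x ∈ N, x ^ p = 1 := by
      apply minNormal_exponent N hNmin hcomm p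
      have hk0 : kN ≠ 0 := by
        rintro rfl
        rw [pow_zero] at hkN
        exact hNne (Subgroup.card_eq_one.1 hkN)
      rw [hkN]; exact dvd_pow_self p hk0
    have hNcent : ∀ y ∈ N, ∀ x ∈ (P : Subgroup G), x * y = y * x := by
      obtain ⟨b, hbN, hb1, hbc⟩ :=
        exists_central_of_normal_pgroup (P : Subgroup G) N P.isPGroup' hNP hNne
      have hKn : (N ⊓ Subgroup.centralizer ((P : Subgroup G) : Set G)).Normal := inferInstance
      rcases hNmin _ hKn inf_le_left with h1 | h1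
      · exfalso
        have h2 : b ∈ N ⊓ Subgroup.centralizer ((P : Subgroup G) : Set G) :=
          ⟨hbN, Subgroup.mem_centralizer_iff.2 (fun x hx => hbc x hx)⟩
        rw [h1] at h2
        exact hb1 h2
      · intro y hy x hx
        have h2 : y ∈ N ⊓ Subgroup.centralizer ((P : Subgroup G) : Set G) := by
          rw [h1]; exact hy
        exact Subgroup.mem_centralizer_iff.1 h2.2 x hx
    -- a complement `H` of `P`
    obtain ⟨H, hH⟩ := Subgroup.exists_right_complement'_of_coprime P.card_coprime_index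
    have hHcard : (P : Subgroup G).index = Nat.card H := hH.symm.index_eq_card
    have hHcop : (Nat.card H).Coprime p := by
      rw [← hHcard]
      exact Nat.Coprime.symm ((Nat.Prime.coprime_iff_not_dvd hp).2 P.not_dvd_index)
    have hdec : ∀ g : G, ∃ x ∈ (P : Subgroup G), ∃ h' ∈ H, g = x * h' := by
      intro g
      obtain ⟨⟨x, h'⟩, hxh⟩ := hH.2 g
      exact ⟨x.1, x.2, h'.1, h'.2, hxh.symm⟩
    -- the case `P = N`
    have caseA : (P : Subgroup G) ≤ N → Cfsg.IsSupersolvable G := by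
      intro hPN
      have hHtop : H ≠ ⊤ := by
        intro ht
        have h1 : Nat.card H = Nat.card G := by rw [ht]; exact Subgroup.card_top
        have h2 := (P : Subgroup G).card_mul_index
        rw [hHcard, h1] at h2
        have h3 : Nat.card (P : Subgroup G) = 1 := by
          have h4 : 0 < Nat.card G := Nat.card_pos
          nlinarith
        exact hPne (Subgroup.card_eq_one.1 h3)
      obtain ⟨M, hM, hHM⟩ := (eq_top_or_exists_le_coatom H).resolve_left hHtop
      have hMidx := h M hM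
      have hMN : (M ⊓ N).Normal := by
        constructor
        intro y hy g
        obtain ⟨x, hx, h', hh', rfl⟩ := hdec g
        have hxN : x ∈ N := hPN hx
        have h1 : h' * y * h'⁻¹ ∈ N := hNn.conj_mem y hy.2 h'
        have h2 : h' * y * h'⁻¹ ∈ M :=
          M.mul_mem (M.mul_mem (hHM hh') hy.1) (M.inv_mem (hHM hh'))
        have h3 : x * h' * y * (x * h')⁻¹ = h' * y * h'⁻¹ := by
          have h4 := hcomm x hxN (h' * y * h'⁻¹) h1
          calc x * h' * y * (x * h')⁻¹ = (x * (h' * y * h'⁻¹)) * x⁻¹ := by group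
            _ = ((h' * y * h'⁻¹) * x) * x⁻¹ := by rw [h4]
            _ = h' * y * h'⁻¹ := by group
        rw [h3]
        exact ⟨h2, h1⟩
      rcases hNmin (M ⊓ N) hMN inf_le_right with h1 | h1
      · have hsup : M ⊔ N = ⊤ := by
          rw [eq_top_iff, ← hH.sup_eq_top]
          exact sup_le (hPN.trans le_sup_right) (hHM.trans le_sup_left)
        have e1 := relIndex_of_sup_eq_top M N hsup
        rw [← Subgroup.inf_relIndex_right, h1, Subgroup.relIndex_bot_left] at e1
        have hprime : (Nat.card N).Prime := by rw [e1]; exact hMidx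
        haveI : Fact (Nat.card N).Prime := ⟨hprime⟩
        haveI : IsCyclic N := isCyclic_of_prime_card rfl
        exact ss_of_cyclic_normal N (hquot N hNn hNne)
      · exfalso
        have h2 : N ≤ M := by
          have h0 : M ⊓ N ≤ M := inf_le_left
          rwa [h1] at h0
        have h3 : (⊤ : Subgroup G) ≤ M := by
          rw [← hH.sup_eq_top]
          exact sup_le (hPN.trans h2) hHM
        exact hM.1 (eq_top_iff.2 h3)
    by_cases hPN : (P : Subgroup G) ≤ N
    · exact caseA hPN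
    -- the action of `H` on `P / N`
    have sN := hquot N hNn hNne
    obtain ⟨hA1, hA2⟩ := ss_pprime_act _ (G ⧸ N) p
      ((P : Subgroup G).map (QuotientGroup.mk' N)) (H.map (QuotientGroup.mk' N)) rfl sN
      (hPn.map (QuotientGroup.mk' N) (QuotientGroup.mk'_surjective N))
      (P.isPGroup'.map (QuotientGroup.mk' N))
      (Nat.Coprime.coprime_dvd_left (Subgroup.card_map_dvd H (QuotientGroup.mk' N)) hHcop)
    have hker : ∀ u x : G, (QuotientGroup.mk' N) u * (QuotientGroup.mk' N) x
        = (QuotientGroup.mk' N) x * (QuotientGroup.mk' N) u → u * x * u⁻¹ * x⁻¹ ∈ N := by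
      intro u x hux
      rw [← QuotientGroup.eq_one_iff]
      show (QuotientGroup.mk' N) (u * x * u⁻¹ * x⁻¹) = 1
      rw [map_mul, map_mul, map_mul, map_inv, map_inv, hux]
      group
    obtain ⟨D, hDH, hD1, hD2, hD3, hD4⟩ : ∃ D : Subgroup G, D ≤ H ∧
        (∀ h' ∈ H, h' ^ (p - 1) ∈ D) ∧ (∀ h1 ∈ H, ∀ h2 ∈ H, h1 * h2 * h1⁻¹ * h2⁻¹ ∈ D) ∧
        (∀ h' ∈ H, ∀ d ∈ D, h' * d * h'⁻¹ ∈ D) ∧
        (∀ d ∈ D, ∀ x ∈ (P : Subgroup G), d * x * d⁻¹ * x⁻¹ ∈ N) := by
      haveI hmapn : ((P : Subgroup G).map (QuotientGroup.mk' N)).Normal :=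
        hPn.map (QuotientGroup.mk' N) (QuotientGroup.mk'_surjective N)
      obtain ⟨C, hCdef⟩ : ∃ C : Subgroup G, C = (Subgroup.centralizer
          ((((P : Subgroup G).map (QuotientGroup.mk' N)) : Subgroup (G ⧸ N)) :
            Set (G ⧸ N))).comap (QuotientGroup.mk' N) := ⟨_, rfl⟩
      have hCn : C.Normal := by rw [hCdef]; infer_instance
      have hmemC : ∀ g : G, g ∈ C ↔ ∀ x ∈ (P : Subgroup G),
          (QuotientGroup.mk' N) g * (QuotientGroup.mk' N) x
            = (QuotientGroup.mk' N) x * (QuotientGroup.mk' N) g := by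
        intro g
        rw [hCdef, Subgroup.mem_comap, Subgroup.mem_centralizer_iff]
        constructor
        · intro hg x hx
          exact (hg _ (Subgroup.mem_map_of_mem _ hx)).symm
        · intro hg q hq
          obtain ⟨x, hx, rfl⟩ := Subgroup.mem_map.1 hq
          exact (hg x hx).symm
      refine ⟨C ⊓ H, inf_le_right, ?_, ?_, ?_, ?_⟩
      · intro h' hh'
        refine ⟨(hmemC _).2 ?_, H.pow_mem hh' _⟩
        intro x hx
        have h0 := hA1 ((QuotientGroup.mk' N) h') (Subgroup.mem_map_of_mem _ hh')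
          ((QuotientGroup.mk' N) x) (Subgroup.mem_map_of_mem _ hx)
        rw [map_pow]; exact h0
      · intro h1 hh1 h2 hh2
        refine ⟨(hmemC _).2 ?_,
          H.mul_mem (H.mul_mem (H.mul_mem hh1 hh2) (H.inv_mem hh1)) (H.inv_mem hh2)⟩
        intro x hx
        have h0 := hA2 ((QuotientGroup.mk' N) h1) (Subgroup.mem_map_of_mem _ hh1)
          ((QuotientGroup.mk' N) h2) (Subgroup.mem_map_of_mem _ hh2)
          ((QuotientGroup.mk' N) x) (Subgroup.mem_map_of_mem _ hx)
        rw [map_mul, map_mul, map_mul, map_inv, map_inv]; exact h0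
      · intro h' hh' d hd
        exact ⟨hCn.conj_mem d hd.1 h', H.mul_mem (H.mul_mem hh' hd.2) (H.inv_mem hh')⟩
      · intro d hd x hx
        exact hker d x ((hmemC d).1 hd.1 x hx)
    have hDcop : (Nat.card D).Coprime p :=
      Nat.Coprime.coprime_dvd_left (Subgroup.card_dvd_of_le hDH) hHcop
    have hDP : ∀ g : G, g ∈ D → g ∈ (P : Subgroup G) → g = 1 := by
      intro g hgD hgP
      have h1 : orderOf g ∣ Nat.card D := orderOf_dvd_card_of_mem D hgD
      obtain ⟨k, hk⟩ := P.isPGroup' ⟨g, hgP⟩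
      have h2 : g ^ p ^ k = 1 := by
        have h0 := congrArg Subtype.val hk
        rw [Subgroup.coe_pow, Subgroup.coe_one] at h0
        exact h0
      have h3 : orderOf g ∣ p ^ k := orderOf_dvd_of_pow_eq_one h2
      have h4 : orderOf g ∣ Nat.gcd (Nat.card D) (p ^ k) := Nat.dvd_gcd h1 h3
      have h5 : Nat.gcd (Nat.card D) (p ^ k) = 1 := Nat.Coprime.pow_right k hDcop
      rw [h5] at h4
      exact orderOf_eq_one_iff.1 (Nat.dvd_one.1 h4)
    -- `P = C_P(D) N`
    have hsplit : ∀ x ∈ (P : Subgroup G), ∃ n' ∈ N, ∃ y ∈ (P : Subgroup G),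
        (∀ d ∈ D, y * d = d * y) ∧ x = n' * y := by
      intro x hx
      have hK : MulAut.conj x • D ≤ D ⊔ N := by
        intro w hw
        rw [Lead.mem_conj_smul] at hw
        have h1 := hD4 _ hw x hx
        have h2 : w = (x⁻¹ * w * x * x * (x⁻¹ * w * x)⁻¹ * x⁻¹)⁻¹ * (x⁻¹ * w * x) := by group
        rw [h2]
        exact Subgroup.mul_mem _ (Subgroup.mem_sup_right (N.inv_mem h1))
          (Subgroup.mem_sup_left hw)
      have hDnorm : D ≤ Subgroup.normalizer (N : Set G) := by
        rw [Subgroup.normalizer_eq_top_iff.2 hNn]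
        exact le_top
      have hcopND : (Nat.card N).Coprime (Nat.card D) := by
        rw [hkN]
        exact (Nat.Coprime.pow_right kN hDcop).symm
      obtain ⟨n', hn', hconj⟩ := szc N D (MulAut.conj x • D) hDnorm hK (card_conj_smul x D)
        hcopND (Or.inl inferInstance)
      have hyP : n'⁻¹ * x ∈ (P : Subgroup G) :=
        (P : Subgroup G).mul_mem ((P : Subgroup G).inv_mem (hNP hn')) hx
      refine ⟨n', hn', n'⁻¹ * x, hyP, ?_, by group⟩
      intro d hd
      have h3 : x * d * x⁻¹ ∈ MulAut.conj x • D := by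
        rw [Lead.mem_conj_smul]
        have h0 : x⁻¹ * (x * d * x⁻¹) * x = d := by group
        rw [h0]; exact hd
      rw [← hconj, Lead.mem_conj_smul] at h3
      have h4 : n'⁻¹ * (x * d * x⁻¹) * n' * d⁻¹ ∈ D := D.mul_mem h3 (D.inv_mem hd)
      have h5 : n'⁻¹ * (x * d * x⁻¹) * n' * d⁻¹ ∈ (P : Subgroup G) := by
        have h6 : d * (n'⁻¹ * x)⁻¹ * d⁻¹ ∈ (P : Subgroup G) :=
          hPn.conj_mem _ ((P : Subgroup G).inv_mem hyP) d
        have h7 : n'⁻¹ * (x * d * x⁻¹) * n' * d⁻¹
            = (n'⁻¹ * x) * (d * (n'⁻¹ * x)⁻¹ * d⁻¹) := by group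
        rw [h7]
        exact (P : Subgroup G).mul_mem hyP h6
      have h8 := hDP _ h4 h5
      calc n'⁻¹ * x * d = (n'⁻¹ * (x * d * x⁻¹) * n' * d⁻¹) * d * (n'⁻¹ * x) := by group
        _ = d * (n'⁻¹ * x) := by rw [h8, one_mul]
    -- `K = C_P(D)` is normal in `G`
    obtain ⟨K, hKdef⟩ : ∃ K : Subgroup G,
        K = (P : Subgroup G) ⊓ Subgroup.centralizer (D : Set G) := ⟨_, rfl⟩
    have hKmem : ∀ g : G, g ∈ K ↔ g ∈ (P : Subgroup G) ∧ ∀ d ∈ D, g * d = d * g := by
      intro g
      rw [hKdef, Subgroup.mem_inf, Subgroup.mem_centralizer_iff]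
      constructor
      · rintro ⟨h1, h2⟩; exact ⟨h1, fun d hd => (h2 d hd).symm⟩
      · rintro ⟨h1, h2⟩; exact ⟨h1, fun d hd => (h2 d hd).symm⟩
    have hKn : K.Normal := by
      constructor
      intro w hw g
      rw [hKmem] at hw ⊢
      obtain ⟨x, hx, h', hh', rfl⟩ := hdec g
      obtain ⟨n', hn', y, hy, hyD, rfl⟩ := hsplit x hx
      have hw'P : h' * w * h'⁻¹ ∈ (P : Subgroup G) := hPn.conj_mem w hw.1 h'
      have hw'D : ∀ d ∈ D, (h' * w * h'⁻¹) * d = d * (h' * w * h'⁻¹) := by
        intro d hd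
        have h1 : h'⁻¹ * d * h' ∈ D := by
          have h0 := hD3 h'⁻¹ (H.inv_mem hh') d hd
          rwa [inv_inv] at h0
        have h2 := hw.2 _ h1
        calc (h' * w * h'⁻¹) * d = h' * (w * (h'⁻¹ * d * h')) * h'⁻¹ := by group
          _ = h' * ((h'⁻¹ * d * h') * w) * h'⁻¹ := by rw [h2]
          _ = d * (h' * w * h'⁻¹) := by group
      have hmem : y * (h' * w * h'⁻¹) * y⁻¹ ∈ (P : Subgroup G) :=
        (P : Subgroup G).mul_mem ((P : Subgroup G).mul_mem hy hw'P)
          ((P : Subgroup G).inv_mem hy)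
      have e1 : n' * y * h' * w * (n' * y * h')⁻¹ = y * (h' * w * h'⁻¹) * y⁻¹ := by
        have h0 := hNcent n' hn' _ hmem
        calc n' * y * h' * w * (n' * y * h')⁻¹
            = n' * (y * (h' * w * h'⁻¹) * y⁻¹) * n'⁻¹ := by group
          _ = (y * (h' * w * h'⁻¹) * y⁻¹) * n' * n'⁻¹ := by rw [h0]
          _ = y * (h' * w * h'⁻¹) * y⁻¹ := by group
      rw [e1]
      refine ⟨hmem, ?_⟩
      intro d hd
      have a1 := hyD d hd
      have a2 := hw'D d hd
      have a3 : y⁻¹ * d = d * y⁻¹ := by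
        calc y⁻¹ * d = y⁻¹ * (d * y) * y⁻¹ := by group
          _ = y⁻¹ * (y * d) * y⁻¹ := by rw [a1]
          _ = d * y⁻¹ := by group
      calc y * (h' * w * h'⁻¹) * y⁻¹ * d = y * (h' * w * h'⁻¹) * (y⁻¹ * d) := by group
        _ = y * (h' * w * h'⁻¹) * (d * y⁻¹) := by rw [a3]
        _ = y * ((h' * w * h'⁻¹) * d) * y⁻¹ := by group
        _ = y * (d * (h' * w * h'⁻¹)) * y⁻¹ := by rw [a2]
        _ = (y * d) * (h' * w * h'⁻¹) * y⁻¹ := by group
        _ = (d * y) * (h' * w * h'⁻¹) * y⁻¹ := by rw [a1]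
        _ = d * (y * (h' * w * h'⁻¹) * y⁻¹) := by group
    by_cases hKb : K = ⊥
    · exfalso
      apply hPN
      intro x hx
      obtain ⟨n', hn', y, hy, hyD, rfl⟩ := hsplit x hx
      have h1 : y ∈ K := (hKmem y).2 ⟨hy, hyD⟩
      rw [hKb, Subgroup.mem_bot] at h1
      rw [h1, mul_one]; exact hn'
    have hNK : N ≤ K := hUniq K hKn hKb
    have hDN : ∀ d ∈ D, ∀ y ∈ N, d * y = y * d :=
      fun d hd y hy => (((hKmem y).1 (hNK hy)).2 d hd).symm
    -- every element of `H` acts on `N` as a power map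
    have hscalar : ∀ h' ∈ H, ∃ l : ℕ, ∀ y ∈ N, h' * y * h'⁻¹ = y ^ l := by
      intro h' hh'
      obtain ⟨y₀, hy₀N, hy₀1, l, hl⟩ := exists_eigen_conj p N hcomm hNexp hNne h'
        (fun a ha => hNn.conj_mem a ha h') (fun a ha => hDN _ (hD1 h' hh') a ha)
      refine ⟨l, ?_⟩
      let E : Subgroup G :=
        { carrier := {y | y ∈ N ∧ h' * y * h'⁻¹ = y ^ l}
          one_mem' := ⟨N.one_mem, by simp⟩
          mul_mem' := by
            rintro a b ⟨ha, ha'⟩ ⟨hb, hb'⟩
            refine ⟨N.mul_mem ha hb, ?_⟩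
            have hc : Commute a b := hcomm a ha b hb
            rw [hc.mul_pow, ← ha', ← hb']; group
          inv_mem' := by
            rintro a ⟨ha, ha'⟩
            refine ⟨N.inv_mem ha, ?_⟩
            rw [inv_pow, ← ha']; group }
      have hEmem : ∀ y : G, y ∈ E ↔ y ∈ N ∧ h' * y * h'⁻¹ = y ^ l := fun y => Iff.rfl
      have hEn : E.Normal := by
        constructor
        intro y hy g
        rw [hEmem] at hy ⊢
        obtain ⟨x, hx, h'', hh'', rfl⟩ := hdec g
        have h1 : h'' * y * h''⁻¹ ∈ N := hNn.conj_mem y hy.1 h''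
        have h2 : x * h'' * y * (x * h'')⁻¹ = h'' * y * h''⁻¹ := by
          have h4 := hNcent _ h1 x hx
          calc x * h'' * y * (x * h'')⁻¹ = (x * (h'' * y * h''⁻¹)) * x⁻¹ := by group
            _ = ((h'' * y * h''⁻¹) * x) * x⁻¹ := by rw [h4]
            _ = h'' * y * h''⁻¹ := by group
        rw [h2]
        refine ⟨h1, ?_⟩
        have hu := hD2 h' hh' h'' hh''
        have h5 : h'' * y ^ l * h''⁻¹ ∈ N := hNn.conj_mem _ (N.pow_mem hy.1 l) h''
        have h6 := hDN _ hu _ h5
        calc h' * (h'' * y * h''⁻¹) * h'⁻¹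
            = (h' * h'' * h'⁻¹ * h''⁻¹) * (h'' * (h' * y * h'⁻¹) * h''⁻¹)
                * (h' * h'' * h'⁻¹ * h''⁻¹)⁻¹ := by group
          _ = (h' * h'' * h'⁻¹ * h''⁻¹) * (h'' * y ^ l * h''⁻¹)
                * (h' * h'' * h'⁻¹ * h''⁻¹)⁻¹ := by rw [hy.2]
          _ = (h'' * y ^ l * h''⁻¹) * (h' * h'' * h'⁻¹ * h''⁻¹)
                * (h' * h'' * h'⁻¹ * h''⁻¹)⁻¹ := by rw [h6]
          _ = h'' * y ^ l * h''⁻¹ := by group
          _ = (h'' * y * h''⁻¹) ^ l := conj_pow.symm
      rcases hNmin E hEn (fun y hy => hy.1) with h1 | h1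
      · exfalso
        have h0 : y₀ ∈ E := ⟨hy₀N, hl⟩
        rw [h1] at h0
        exact hy₀1 h0
      · intro y hy
        have h0 : y ∈ E := by rw [h1]; exact hy
        exact h0.2
    -- `N` is cyclic
    obtain ⟨y₁, hy₁N, hy₁1⟩ : ∃ y ∈ N, y ≠ 1 := by
      by_contra hcon
      push Not at hcon
      exact hNne ((Subgroup.eq_bot_iff_forall N).2 hcon)
    have hZn : (Subgroup.zpowers y₁).Normal := by
      constructor
      intro w hw g
      obtain ⟨k, rfl⟩ := Subgroup.mem_zpowers_iff.1 hw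
      obtain ⟨x, hx, h', hh', rfl⟩ := hdec g
      obtain ⟨l, hl⟩ := hscalar h' hh'
      have hwN : y₁ ^ k ∈ N := N.zpow_mem hy₁N k
      have h1 : h' * y₁ ^ k * h'⁻¹ ∈ N := hNn.conj_mem _ hwN h'
      have h2 : x * h' * y₁ ^ k * (x * h')⁻¹ = h' * y₁ ^ k * h'⁻¹ := by
        have h4 := hNcent _ h1 x hx
        calc x * h' * y₁ ^ k * (x * h')⁻¹ = (x * (h' * y₁ ^ k * h'⁻¹)) * x⁻¹ := by group
          _ = ((h' * y₁ ^ k * h'⁻¹) * x) * x⁻¹ := by rw [h4]
          _ = h' * y₁ ^ k * h'⁻¹ := by group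
      rw [h2, hl _ hwN]
      exact Subgroup.pow_mem _ (Subgroup.zpow_mem _ (Subgroup.mem_zpowers y₁) k) l
    have hZeq : Subgroup.zpowers y₁ = N := by
      rcases hNmin _ hZn ((Subgroup.zpowers_le).2 hy₁N) with h1 | h1
      · exfalso
        have h0 : y₁ ∈ Subgroup.zpowers y₁ := Subgroup.mem_zpowers y₁
        rw [h1] at h0
        exact hy₁1 h0
      · exact h1
    haveI : IsCyclic N := by rw [← hZeq]; infer_instance
    exact ss_of_cyclic_normal N (hquot N hNn hNne)

end Cfsg.Agent.Lib.Helper2
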