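import Mathlib
import Cfsg.Prelude.Def_TwoFusion
import Cfsg.Agent.Lib.Helper2.Basic

set_option autoImplicit false

namespace Cfsg.Agent.Lib.Helper2

/-- In the group generated by two involutions `a`, `b`, the involution `a` inverts powers of `a * b`. -/
theorem invol_mul_pow {G : Type*} [Group G] (a b : G) (ha : a * a = 1) (hb : b * b = 1) (k : ℕ) :
    a * (a * b) ^ k = ((a * b) ^ k)⁻¹ * a := by
  induction k with
  | zero => simp
  | succ k ih =>
    have hbinv : b⁻¹ = b := inv_eq_of_mul_eq_one_left hb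
    have hainv : a⁻¹ = a := inv_eq_of_mul_eq_one_left ha
    calc a * (a * b) ^ (k + 1) = (a * (a * b) ^ k) * (a * b) := by rw [pow_succ, mul_assoc]
      _ = ((a * b) ^ k)⁻¹ * a * (a * b) := by rw [ih]
      _ = ((a * b) ^ k)⁻¹ * b := by
        rw [mul_assoc, ← mul_assoc a a b, ha, one_mul]
      _ = ((a * b) ^ (k + 1))⁻¹ * a := by
        rw [pow_succ', mul_inv_rev, mul_inv_rev, hbinv, hainv]
        simp only [mul_assoc]
        rw [ha, mul_one]

/-- The second involution also inverts powers of `a * b`. -/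
theorem invol_mul_pow' {G : Type*} [Group G] (a b : G) (ha : a * a = 1) (hb : b * b = 1) (k : ℕ) :
    b * (a * b) ^ k = ((a * b) ^ k)⁻¹ * b := by
  induction k with
  | zero => simp
  | succ k ih =>
    have hbinv : b⁻¹ = b := inv_eq_of_mul_eq_one_left hb
    have hainv : a⁻¹ = a := inv_eq_of_mul_eq_one_left ha
    calc b * (a * b) ^ (k + 1) = (b * (a * b) ^ k) * (a * b) := by rw [pow_succ, mul_assoc]
      _ = ((a * b) ^ k)⁻¹ * b * (a * b) := by rw [ih]
      _ = ((a * b) ^ (k + 1))⁻¹ * b := by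
        rw [pow_succ', mul_inv_rev, mul_inv_rev, hbinv, hainv]
        simp only [mul_assoc]

/-- `a * (r^k)⁻¹ = r^k * a` for `r = a * b`. -/
theorem invol_mul_pow_inv {G : Type*} [Group G] (a b : G) (ha : a * a = 1) (hb : b * b = 1) (k : ℕ) :
    a * ((a * b) ^ k)⁻¹ = (a * b) ^ k * a := by
  have h := invol_mul_pow a b ha hb k
  have : (a * b) ^ k * (a * (a * b) ^ k) * ((a * b) ^ k)⁻¹ = (a * b) ^ k * (((a * b) ^ k)⁻¹ * a) * ((a * b) ^ k)⁻¹ := by
    rw [h]
  simp only [mul_assoc, mul_inv_cancel, mul_one, mul_inv_cancel_left] at this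
  exact this.symm

/-- `b * (r^k)⁻¹ = r^k * b` for `r = a * b`. -/
theorem invol_mul_pow_inv' {G : Type*} [Group G] (a b : G) (ha : a * a = 1) (hb : b * b = 1) (k : ℕ) :
    b * ((a * b) ^ k)⁻¹ = (a * b) ^ k * b := by
  have h := invol_mul_pow' a b ha hb k
  have : (a * b) ^ k * (b * (a * b) ^ k) * ((a * b) ^ k)⁻¹ = (a * b) ^ k * (((a * b) ^ k)⁻¹ * b) * ((a * b) ^ k)⁻¹ := by
    rw [h]
  simp only [mul_assoc, mul_inv_cancel, mul_one, mul_inv_cancel_left] at this
  exact this.symm

/-- The product of an isolated involution with any of its conjugates has odd order. -/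
theorem isolated_mul_conj_odd {G : Type*} [Group G] [Finite G] (a : G) (ha : a * a = 1)
    (hiso : ∀ g : G, Commute a (g * a * g⁻¹) → g * a * g⁻¹ = a) (h : G) :
    Odd (orderOf (a * (h * a * h⁻¹))) := by
  set b := h * a * h⁻¹ with hb_def
  have hb : b * b = 1 := by
    rw [hb_def]
    calc h * a * h⁻¹ * (h * a * h⁻¹) = h * (a * a) * h⁻¹ := by simp [mul_assoc]
      _ = 1 := by rw [ha]; simp
  set r := a * b with hr
  by_contra hodd
  rw [Nat.not_odd_iff_even] at hodd
  obtain ⟨m, hm⟩ := hodd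
  have hnpos : 0 < orderOf r := orderOf_pos r
  have hmpos : 0 < m := by omega
  have hmlt : m < orderOf r := by omega
  set u := r ^ m with hu
  have hu1 : u ≠ 1 := pow_ne_one_of_lt_orderOf hmpos.ne' hmlt
  have huu : u * u = 1 := by
    rw [hu, ← pow_add, ← hm, pow_orderOf_eq_one]
  have huinv : u⁻¹ = u := inv_eq_of_mul_eq_one_left huu
  have hau : a * u = u * a := by
    have := invol_mul_pow a b ha hb m
    rw [← hr, ← hu, huinv] at this
    exact this
  -- u * a commutes with a
  have hcomm : Commute a (u * a) := by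
    show a * (u * a) = u * a * a
    rw [← mul_assoc, hau]
  apply hu1
  rcases Nat.even_or_odd m with ⟨j, hj⟩ | ⟨j, hj⟩
  · -- u * a = r^j * a * (r^j)⁻¹
    have e : r ^ j * a * (r ^ j)⁻¹ = u * a := by
      rw [mul_assoc, hr, invol_mul_pow_inv a b ha hb j, ← mul_assoc, ← pow_add, ← hr, ← hj]
    have h1 := hiso (r ^ j) (by rw [e]; exact hcomm)
    rw [e] at h1
    exact mul_right_cancel (h1.trans (one_mul a).symm)
  · -- u * a = (r^j * a * h) * a * (r^j * a * h)⁻¹
    have hainv : a⁻¹ = a := inv_eq_of_mul_eq_one_left ha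
    have e : (r ^ j * a * h) * a * (r ^ j * a * h)⁻¹ = u * a := by
      have e1 : (r ^ j * a * h) * a * (r ^ j * a * h)⁻¹ = r ^ j * (a * b * (a * (r ^ j)⁻¹)) := by
        rw [hb_def]
        simp only [mul_inv_rev, hainv, mul_assoc]
      rw [e1, hr, invol_mul_pow_inv a b ha hb j, ← hr]
      have e2 : r ^ j * (r * (r ^ j * a)) = r ^ (2 * j + 1) * a := by
        rw [← mul_assoc, ← mul_assoc, ← pow_succ, ← pow_add]
        congr 2
        omega
      rw [e2, ← hj]
    have h1 := hiso (r ^ j * a * h) (by rw [e]; exact hcomm)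
    rw [e] at h1
    exact mul_right_cancel (h1.trans (one_mul a).symm)

/-- An isolated involution is conjugate to each of its conjugates by a power of their product,
and that power is inverted by the involution and has odd order. -/
theorem isolated_conj_by_pow {G : Type*} [Group G] [Finite G] (a : G) (ha : a * a = 1)
    (hiso : ∀ g : G, Commute a (g * a * g⁻¹) → g * a * g⁻¹ = a) (h : G) :
    ∃ k : ℕ, (a * (h * a * h⁻¹)) ^ k * a * ((a * (h * a * h⁻¹)) ^ k)⁻¹ = h * a * h⁻¹ ∧
      a * (a * (h * a * h⁻¹)) ^ k * a⁻¹ = ((a * (h * a * h⁻¹)) ^ k)⁻¹ ∧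
      Odd (orderOf ((a * (h * a * h⁻¹)) ^ k)) := by
  have hodd := isolated_mul_conj_odd a ha hiso h
  set b := h * a * h⁻¹ with hb_def
  have hb : b * b = 1 := by
    rw [hb_def]
    calc h * a * h⁻¹ * (h * a * h⁻¹) = h * (a * a) * h⁻¹ := by simp [mul_assoc]
      _ = 1 := by rw [ha]; simp
  have hainv : a⁻¹ = a := inv_eq_of_mul_eq_one_left ha
  have hbinv : b⁻¹ = b := inv_eq_of_mul_eq_one_left hb
  obtain ⟨k, hk⟩ := hodd
  refine ⟨k, ?_, ?_, ?_⟩
  · rw [mul_assoc, invol_mul_pow_inv a b ha hb k, ← mul_assoc, ← pow_add]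
    have e : (a * b) ^ (k + k) * (a * b) = 1 := by
      rw [← pow_succ]
      have : k + k + 1 = orderOf (a * b) := by omega
      rw [this, pow_orderOf_eq_one]
    have e2 : (a * b) ^ (k + k) = (a * b)⁻¹ := eq_inv_of_mul_eq_one_left e
    rw [e2, mul_inv_rev, hainv, hbinv, mul_assoc, ha, mul_one]
  · rw [invol_mul_pow a b ha hb k, hainv, mul_assoc, ha, mul_one]
  · have hdvd : orderOf ((a * b) ^ k) ∣ orderOf (a * b) := orderOf_pow_dvd k
    have : Odd (orderOf (a * b)) := ⟨k, hk⟩
    exact Odd.of_dvd_nat this hdvd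

/-- Unfolding of `IsIsolatedInvolution`. -/
theorem isolated_unfold {G : Type*} [Group G] (z : G) (hz : Cfsg.IsIsolatedInvolution z) :
    z * z = 1 ∧ ∀ g : G, Commute z (g * z * g⁻¹) → g * z * g⁻¹ = z := by
  obtain ⟨h2, hiso⟩ := hz
  refine ⟨?_, hiso⟩
  have := pow_orderOf_eq_one z
  rw [h2, pow_two] at this
  exact this

end Cfsg.Agent.Lib.Helper2
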