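import Mathlib
import Cfsg.Prelude.Def_TwoFusion
import Cfsg.Agent.Lib.Helper2.Isolated

set_option autoImplicit false

namespace Cfsg.Agent.Lib.Helper2

/-- A conjugate of an involution squares to one. -/
theorem conj_mul_self_eq_one {G : Type*} [Group G] (a g : G) (ha : a * a = 1) :
    (g * a * g⁻¹) * (g * a * g⁻¹) = 1 := by
  calc g * a * g⁻¹ * (g * a * g⁻¹) = g * (a * a) * g⁻¹ := by simp [mul_assoc]
    _ = 1 := by rw [ha]; simp

/-- A conjugate of an isolated involution is isolated. -/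
theorem isolated_conj {G : Type*} [Group G] (z : G)
    (hiso : ∀ g : G, Commute z (g * z * g⁻¹) → g * z * g⁻¹ = z) (g : G) :
    ∀ x : G, Commute (g * z * g⁻¹) (x * (g * z * g⁻¹) * x⁻¹) →
      x * (g * z * g⁻¹) * x⁻¹ = g * z * g⁻¹ := by
  intro x hc
  have h1 : Commute z (g⁻¹ * x * g * z * (g⁻¹ * x * g)⁻¹) := by
    have := hc.eq
    show z * _ = _ * z
    have e : g⁻¹ * ((g * z * g⁻¹) * (x * (g * z * g⁻¹) * x⁻¹)) * g
        = g⁻¹ * ((x * (g * z * g⁻¹) * x⁻¹) * (g * z * g⁻¹)) * g := by rw [this]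
    simp only [mul_assoc, mul_inv_rev, inv_inv, inv_mul_cancel_left, inv_mul_cancel, mul_one] at e ⊢
    exact e
  have h2 := hiso _ h1
  calc x * (g * z * g⁻¹) * x⁻¹ = g * (g⁻¹ * x * g * z * (g⁻¹ * x * g)⁻¹) * g⁻¹ := by
        simp [mul_assoc]
    _ = g * z * g⁻¹ := by rw [h2]

/-- If `x ^ 2` commutes with `r` and `x` has odd order then `x` commutes with `r`. -/
theorem commute_of_sq_commute_of_odd {G : Type*} [Group G] (x r : G) (hodd : Odd (orderOf x))
    (h : Commute (x * x) r) : Commute x r := by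
  obtain ⟨m, hm⟩ := hodd
  have e : x = (x * x) ^ (m + 1) := by
    rw [← pow_two, ← pow_mul]
    have : 2 * (m + 1) = orderOf x + 1 := by omega
    rw [this, pow_succ, pow_orderOf_eq_one, one_mul]
  rw [e]
  exact h.pow_left _

/-- An element of odd order squaring to one is trivial. -/
theorem eq_one_of_sq_eq_one_of_odd {G : Type*} [Group G] (r : G) (hodd : Odd (orderOf r))
    (h : r * r = 1) : r = 1 := by
  have h2 : orderOf r ∣ 2 := orderOf_dvd_of_pow_eq_one (by rw [pow_two]; exact h)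
  have h1 : orderOf r = 1 := by
    have hle : orderOf r ≤ 2 := Nat.le_of_dvd (by norm_num) h2
    obtain ⟨m, hm⟩ := hodd
    interval_cases hr : orderOf r
    · omega
    · rfl
    · omega
  exact orderOf_eq_one_iff.mp h1

end Cfsg.Agent.Lib.Helper2
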