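import Mathlib
import Cfsg.Prelude.Def_TwoFusion
import Cfsg.Agent.Lib.Helper2.Isolated2

set_option autoImplicit false

namespace Cfsg.Agent.Lib.Helper2

/-- An isolated involution is central in every Sylow 2-subgroup containing it. -/
theorem isolated_sylow_le_centralizer {G : Type*} [Group G] [Finite G] (z : G) (hzz : z * z = 1)
    (hiso : ∀ g : G, Commute z (g * z * g⁻¹) → g * z * g⁻¹ = z) (S : Sylow 2 G)
    (hzS : z ∈ (S : Subgroup G)) : (S : Subgroup G) ≤ Subgroup.centralizer ({z} : Set G) := by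
  intro s hs
  have hzinv : z⁻¹ = z := inv_eq_of_mul_eq_one_left hzz
  have hodd := isolated_mul_conj_odd z hzz hiso s
  have hmem : z * (s * z * s⁻¹) ∈ (S : Subgroup G) :=
    mul_mem hzS (mul_mem (mul_mem hs hzS) (inv_mem hs))
  obtain ⟨k, hk⟩ := S.isPGroup' ⟨_, hmem⟩
  have hk' : (z * (s * z * s⁻¹)) ^ (2 ^ k) = 1 := by
    have := congrArg Subtype.val hk
    simpa using this
  have h1 : orderOf (z * (s * z * s⁻¹)) ∣ 2 ^ k := orderOf_dvd_of_pow_eq_one hk'
  have h2 : Nat.Coprime (orderOf (z * (s * z * s⁻¹))) (2 ^ k) :=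
    Nat.Coprime.pow_right k (Nat.coprime_two_right.mpr hodd)
  have h3 : orderOf (z * (s * z * s⁻¹)) = 1 := Nat.Coprime.eq_one_of_dvd h2 h1
  have h4 : z * (s * z * s⁻¹) = 1 := orderOf_eq_one_iff.mp h3
  have h5 : s * z * s⁻¹ = z := by
    have := eq_inv_of_mul_eq_one_right h4
    rw [hzinv] at this
    exact this
  rw [Subgroup.mem_centralizer_iff]
  intro w hw
  rw [Set.mem_singleton_iff] at hw
  subst hw
  have : s * w * s⁻¹ * s = w * s := by rw [h5]
  simp only [mul_assoc, inv_mul_cancel, mul_one] at this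
  exact this.symm

/-- The centralizer of an isolated involution has odd index. -/
theorem isolated_centralizer_index_odd {G : Type*} [Group G] [Finite G] (z : G) (hzz : z * z = 1)
    (hiso : ∀ g : G, Commute z (g * z * g⁻¹) → g * z * g⁻¹ = z) :
    Odd (Subgroup.centralizer ({z} : Set G)).index := by
  have : Fact (Nat.Prime 2) := ⟨Nat.prime_two⟩
  have hp : IsPGroup 2 (Subgroup.zpowers z) := by
    rintro ⟨x, hx⟩
    refine ⟨1, ?_⟩
    obtain ⟨i, rfl⟩ := Subgroup.mem_zpowers_iff.mp hx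
    apply Subtype.ext
    show (z ^ i) ^ (2 ^ 1) = 1
    rw [pow_one, ← zpow_natCast, ← zpow_mul, mul_comm, zpow_mul, zpow_natCast, pow_two, hzz, one_zpow]
  obtain ⟨S, hS⟩ := hp.exists_le_sylow
  have hzS : z ∈ (S : Subgroup G) := hS (Subgroup.mem_zpowers z)
  have hle := isolated_sylow_le_centralizer z hzz hiso S hzS
  have hdvd := Subgroup.index_dvd_of_le hle
  have hnd : ¬ 2 ∣ (S : Subgroup G).index := S.not_dvd_index
  rw [← Nat.not_even_iff_odd, even_iff_two_dvd]
  exact fun h => hnd (h.trans hdvd)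

end Cfsg.Agent.Lib.Helper2
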