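import Mathlib
import Cfsg.Prelude.Def_Transfer

set_option autoImplicit false

namespace Cfsg.Agent.Lib.Helper2

/-- Conjugation preserves the order of an element. -/
theorem orderOf_conj_eq {G : Type*} [Group G] (g x : G) : orderOf (g * x * g⁻¹) = orderOf x := by
  have := orderOf_injective (MulAut.conj g).toMonoidHom (MulAut.conj g).injective x
  simpa using this

/-- `O^p(G)` is normal. -/
theorem pRes_normal (p : ℕ) (G : Type*) [Group G] : (Cfsg.pResidual p G).Normal := by
  constructor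
  intro n hn g
  unfold Cfsg.pResidual at hn ⊢
  induction hn using Subgroup.closure_induction with
  | mem x hx =>
    apply Subgroup.subset_closure
    show Nat.Coprime (orderOf (g * x * g⁻¹)) p
    rw [orderOf_conj_eq]
    exact hx
  | one => simp
  | mul x y _ _ hx hy =>
    have : g * (x * y) * g⁻¹ = (g * x * g⁻¹) * (g * y * g⁻¹) := by simp [mul_assoc]
    rw [this]
    exact mul_mem hx hy
  | inv x _ hx =>
    have : g * x⁻¹ * g⁻¹ = (g * x * g⁻¹)⁻¹ := by simp [mul_assoc]
    rw [this]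
    exact inv_mem hx

/-- Elements of order prime to `p` lie in `O^p(G)`. -/
theorem mem_pRes_of_coprime {p : ℕ} {G : Type*} [Group G] {g : G}
    (h : Nat.Coprime (orderOf g) p) : g ∈ Cfsg.pResidual p G :=
  Subgroup.subset_closure h

/-- The quotient by a normal subgroup containing `O^p(G)` is a `p`-group. -/
theorem quotient_isPGroup_of_pRes_le (p : ℕ) [hp : Fact p.Prime] (G : Type*) [Group G] [Finite G]
    (N : Subgroup G) [N.Normal] (hN : Cfsg.pResidual p G ≤ N) : IsPGroup p (G ⧸ N) := by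
  intro x
  obtain ⟨g, rfl⟩ := QuotientGroup.mk_surjective x
  obtain ⟨e, m, hm, hgm⟩ := Nat.exists_eq_pow_mul_and_not_dvd (orderOf_pos g).ne' p hp.out.ne_one
  refine ⟨e, ?_⟩
  have h1 : (g ^ (p ^ e)) ^ m = 1 := by
    rw [← pow_mul, ← hgm, pow_orderOf_eq_one]
  have h2 : orderOf (g ^ (p ^ e)) ∣ m := orderOf_dvd_of_pow_eq_one h1
  have h3 : Nat.Coprime (orderOf (g ^ (p ^ e))) p := by
    have : Nat.Coprime m p := ((Nat.Prime.coprime_iff_not_dvd hp.out).mpr hm).symm
    exact Nat.Coprime.coprime_dvd_left h2 this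
  have h4 : g ^ (p ^ e) ∈ N := hN (mem_pRes_of_coprime h3)
  rw [← QuotientGroup.mk_pow]
  exact (QuotientGroup.eq_one_iff _).mpr h4

/-- A homomorphism to a `p`-group kills `O^p(G)`. -/
theorem pRes_le_ker {p : ℕ} {G : Type*} [Group G] {A : Type*} [Group A] (hA : IsPGroup p A)
    (V : G →* A) : Cfsg.pResidual p G ≤ V.ker := by
  unfold Cfsg.pResidual
  rw [Subgroup.closure_le]
  intro g hg
  have hg' : Nat.Coprime (orderOf g) p := hg
  show g ∈ V.ker
  rw [MonoidHom.mem_ker]
  obtain ⟨k, hk⟩ := hA (V g)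
  have h1 : orderOf (V g) ∣ p ^ k := orderOf_dvd_of_pow_eq_one hk
  have h2 : orderOf (V g) ∣ orderOf g := orderOf_map_dvd V g
  have h3 : Nat.Coprime (orderOf g) (p ^ k) := Nat.Coprime.pow_right k hg'
  have h4 : orderOf (V g) = 1 := Nat.eq_one_of_dvd_coprimes h3 h2 h1
  exact orderOf_eq_one_iff.mp h4

/-- In a `p`-group, an element whose `n`-th power is trivial with `n` prime to `p` is trivial. -/
theorem eq_one_of_pow_eq_one_of_coprime {p : ℕ} {A : Type*} [Group A] (hA : IsPGroup p A)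
    (a : A) (n : ℕ) (hn : Nat.Coprime n p) (h : a ^ n = 1) : a = 1 := by
  obtain ⟨k, hk⟩ := hA a
  have h1 : orderOf a ∣ p ^ k := orderOf_dvd_of_pow_eq_one hk
  have h2 : orderOf a ∣ n := orderOf_dvd_of_pow_eq_one h
  have h3 : Nat.Coprime n (p ^ k) := Nat.Coprime.pow_right k hn
  exact orderOf_eq_one_iff.mp (Nat.eq_one_of_dvd_coprimes h3 h2 h1)

/-- The image of `O^p(H)` in `G` lies in `O^p(G)`. -/
theorem pRes_subgroup_le (p : ℕ) {G : Type*} [Group G] (H : Subgroup G) :
    (Cfsg.pResidual p H).map H.subtype ≤ Cfsg.pResidual p G := by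
  rw [Subgroup.map_le_iff_le_comap]
  unfold Cfsg.pResidual
  rw [Subgroup.closure_le]
  intro x hx
  have hx' : Nat.Coprime (orderOf x) p := hx
  show (H.subtype x) ∈ Subgroup.closure {g : G | Nat.Coprime (orderOf g) p}
  apply Subgroup.subset_closure
  show Nat.Coprime (orderOf (x : G)) p
  rw [Subgroup.orderOf_coe]
  exact hx'

/-- Transfer into an abelian group along a left transversal `K` of `H` that is stable under
conjugation by `H`: the restriction of the transfer to `H` is the `index`-th power of `ϕ`. -/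
theorem transfer_eq_pow_index_of_stable_transversal {G : Type*} [Group G] (H : Subgroup G)
    [H.FiniteIndex] {A : Type*} [CommGroup A] (ϕ : H →* A) (K : Set G)
    (hK : ∀ g : G, ∃! k : G, k ∈ K ∧ g⁻¹ * k ∈ H)
    (hKc : ∀ c ∈ H, ∀ k ∈ K, c⁻¹ * k * c ∈ K) (c : H) :
    MonoidHom.transfer ϕ (c : G) = ϕ c ^ H.index := by
  classical
  have hq : ∀ q : G ⧸ H, ∃ k : G, k ∈ K ∧ (QuotientGroup.mk k : G ⧸ H) = q := by
    intro q
    induction q using QuotientGroup.induction_on with
    | H g =>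
      obtain ⟨k, ⟨hk, hkg⟩, -⟩ := hK g
      exact ⟨k, hk, (QuotientGroup.eq.mpr hkg).symm⟩
  choose f hfK hf using hq
  have huniq : ∀ k ∈ K, ∀ q, (QuotientGroup.mk k : G ⧸ H) = q → k = f q := by
    intro k hk q hkq
    obtain ⟨k0, -, hu⟩ := hK k
    have h1 : k = k0 := hu k ⟨hk, by simp [H.one_mem]⟩
    have h2 : f q = k0 := hu (f q) ⟨hfK q, QuotientGroup.eq.mp (hkq.trans (hf q).symm)⟩
    rw [h1, h2]
  let T : H.LeftTransversal := ⟨Set.range f, Subgroup.isComplement_range_left hf⟩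
  rw [MonoidHom.transfer_def ϕ T]
  unfold Subgroup.leftTransversals.diff
  simp only []
  let _ := H.fintypeQuotientOfFiniteIndex
  have hidx : H.index = Fintype.card (G ⧸ H) := by
    rw [Subgroup.index, Nat.card_eq_fintype_card]
  rw [hidx, ← Finset.card_univ, ← Finset.prod_const]
  refine Finset.prod_congr rfl (fun q _ => congrArg ϕ (Subtype.ext ?_))
  show (↑(T.2.leftQuotientEquiv q))⁻¹ * ↑(((c : G) • T).2.leftQuotientEquiv q) = (c : G)
  rw [Subgroup.smul_apply_eq_smul_apply_inv_smul]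
  have e1 : ∀ q, (T.2.leftQuotientEquiv q : G) = f q :=
    fun q => Subgroup.IsComplement.leftQuotientEquiv_apply hf q
  rw [e1, e1, smul_eq_mul]
  have e2 : f ((c : G)⁻¹ • q) = (c : G)⁻¹ * f q * c := by
    symm
    apply huniq _ (hKc c c.2 _ (hfK q))
    have h3 : (c : G)⁻¹ • q = (QuotientGroup.mk ((c : G)⁻¹ * f q) : G ⧸ H) := by
      conv_lhs => rw [← hf q]
      rfl
    rw [h3, QuotientGroup.eq]
    have : ((c : G)⁻¹ * f q * c)⁻¹ * ((c : G)⁻¹ * f q) = (c : G)⁻¹ := by group
    rw [this]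
    exact H.inv_mem c.2
  rw [e2]
  group

end Cfsg.Agent.Lib.Helper2
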