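import Mathlib
import Cfsg.Prelude.Def_TwoFusion
import Cfsg.Agent.Lib.Helper2.Isolated3
import Cfsg.Agent.Lib.Helper2.PRes

set_option autoImplicit false

namespace Cfsg.Agent.Lib.Helper2

/-- If `x` inverts `y` then `x` inverts every power of `y`. -/
theorem inverts_pow {G : Type*} [Group G] (x y : G) (h : x * y * x⁻¹ = y⁻¹) (k : ℕ) :
    x * y ^ k * x⁻¹ = (y ^ k)⁻¹ := by
  rw [← conj_pow, h, inv_pow]

/-- If `x` inverts `y` then `x * y = y⁻¹ * x`. -/
theorem inverts_mul {G : Type*} [Group G] (x y : G) (h : x * y * x⁻¹ = y⁻¹) :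
    x * y = y⁻¹ * x := by
  rw [← h]; simp [mul_assoc]

/-- If `x` inverts `y` then `x * y⁻¹ = y * x`. -/
theorem inverts_mul_inv {G : Type*} [Group G] (x y : G) (h : x * y * x⁻¹ = y⁻¹) :
    x * y⁻¹ = y * x := by
  have h2 : x * y⁻¹ * x⁻¹ = y := by
    calc x * y⁻¹ * x⁻¹ = (x * y * x⁻¹)⁻¹ := by simp [mul_assoc]
      _ = y⁻¹⁻¹ := by rw [h]
      _ = y := inv_inv y
  calc x * y⁻¹ = x * y⁻¹ * x⁻¹ * x := by simp [mul_assoc]
    _ = y * x := by rw [h2]

/-- The midpoint construction for two involutions `p` and `s * p * s⁻¹` whose product has odd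
order: there is an element `w` of odd order, inverted by both `p` and `s`, such that
`w * p * w⁻¹` commutes with `s`. -/
theorem exists_midpoint {G : Type*} [Group G] (p s : G) (hpp : p * p = 1) (hss : s * s = 1)
    (hodd : Odd (orderOf (p * (s * p * s⁻¹)))) :
    ∃ w : G, Odd (orderOf w) ∧ p * w * p⁻¹ = w⁻¹ ∧ s * w * s⁻¹ = w⁻¹ ∧
      Commute s (w * p * w⁻¹) := by
  have hpinv : p⁻¹ = p := inv_eq_of_mul_eq_one_left hpp
  have hsinv : s⁻¹ = s := inv_eq_of_mul_eq_one_left hss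
  have hyy : (s * p * s⁻¹) * (s * p * s⁻¹) = 1 := conj_mul_self_eq_one p s hpp
  have hsy : s * (s * p * s⁻¹) * s⁻¹ = p := by
    rw [hsinv]
    calc s * (s * p * s) * s = (s * s) * p * (s * s) := by simp only [mul_assoc]
      _ = p := by rw [hss, one_mul, mul_one]
  generalize hy : s * p * s⁻¹ = y at *
  have hyinv : y⁻¹ = y := inv_eq_of_mul_eq_one_left hyy
  obtain ⟨j, hj⟩ := hodd
  -- p and s invert r = p * y
  have hpr : p * (p * y) * p⁻¹ = (p * y)⁻¹ := by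
    rw [mul_inv_rev, hyinv, hpinv, ← mul_assoc, hpp, one_mul]
  have hsr : s * (p * y) * s⁻¹ = (p * y)⁻¹ := by
    rw [mul_inv_rev, hyinv, hpinv]
    calc s * (p * y) * s⁻¹ = (s * p * s⁻¹) * (s * y * s⁻¹) := by simp only [mul_assoc, inv_mul_cancel_left]
      _ = y * p := by rw [hy, hsy]
  have hyr : y = (p * y)⁻¹ * p := by
    rw [mul_inv_rev, hyinv, hpinv, mul_assoc, hpp, mul_one]
  have hrodd : Odd (orderOf (p * y)) := ⟨j, hj⟩
  have hrpow : (p * y) ^ (2 * j + 1) = 1 := by rw [← hj]; exact pow_orderOf_eq_one _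
  generalize p * y = r at *
  have hw4 : (r ^ (j * (j + 1))) ^ 4 = r⁻¹ := by
    apply eq_inv_of_mul_eq_one_left
    rw [← pow_mul, ← pow_succ]
    have : j * (j + 1) * 4 + 1 = (2 * j + 1) * (2 * j + 1) := by ring
    rw [this, pow_mul, hrpow, one_pow]
  have hpw := inverts_pow p r hpr (j * (j + 1))
  have hsw := inverts_pow s r hsr (j * (j + 1))
  have hwodd : Odd (orderOf (r ^ (j * (j + 1)))) :=
    Odd.of_dvd_nat hrodd (orderOf_pow_dvd _)
  generalize r ^ (j * (j + 1)) = w at *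
  refine ⟨w, hwodd, hpw, hsw, ?_⟩
  -- s * (w p w⁻¹) * s⁻¹ = w⁻¹ y w = w p w⁻¹
  have h1 : p * w⁻¹ = w * p := inverts_mul_inv p w hpw
  have h2 : p * w = w⁻¹ * p := inverts_mul p w hpw
  have h3 : y = w ^ 4 * p := by rw [hw4]; exact hyr
  have h4 : s * (w * p * w⁻¹) * s⁻¹ = w * p * w⁻¹ := by
    calc s * (w * p * w⁻¹) * s⁻¹ = (s * w * s⁻¹) * (s * p * s⁻¹) * (s * w * s⁻¹)⁻¹ := by
          simp only [mul_assoc, mul_inv_rev, inv_inv, inv_mul_cancel_left]
      _ = w⁻¹ * (w ^ 4 * p) * w := by rw [hsw, hy, h3, inv_inv]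
      _ = w * w * w * (p * w) := by
          have : w⁻¹ * w ^ 4 = w * w * w := by
            rw [pow_succ, pow_succ, pow_succ, pow_one]; simp only [mul_assoc, inv_mul_cancel_left]
          rw [← mul_assoc w⁻¹, this]; simp only [mul_assoc]
      _ = w * w * (w * w⁻¹) * p := by rw [h2]; simp only [mul_assoc]
      _ = w * (w * p) := by rw [mul_inv_cancel, mul_one, mul_assoc]
      _ = w * p * w⁻¹ := by rw [mul_assoc w p w⁻¹, h1]
  show s * (w * p * w⁻¹) = w * p * w⁻¹ * s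
  calc s * (w * p * w⁻¹) = s * (w * p * w⁻¹) * s⁻¹ * s := by simp [mul_assoc]
    _ = w * p * w⁻¹ * s := by rw [h4]

end Cfsg.Agent.Lib.Helper2
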