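import Mathlib
import Cfsg.Prelude.Def_Transfer
import Cfsg.Prelude.Def_Balance
import Cfsg.Agent.Lib.Lead.SylowAux
import Cfsg.Agent.Lib.Helper1.ThompsonJ
import Cfsg.Agent.Lib.Helper7.MapConj

set_option autoImplicit false

namespace Cfsg.Agent.Lib.Helper2

open scoped Pointwise

universe u

section KConn

variable {G : Type u} [Group G] {p : ℕ}

/-- The edge relation of the commuting graph on elementary abelian `p`-subgroups of order at
least `p`. -/
def kRel (p : ℕ) (A B : Subgroup G) : Prop :=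
  Cfsg.IsElementaryAbelian p A ∧ p ^ 1 ≤ Nat.card ↥A ∧ Cfsg.IsElementaryAbelian p B ∧
    p ^ 1 ≤ Nat.card ↥B ∧ ∀ a ∈ A, ∀ b ∈ B, a * b = b * a

theorem isKConnected_one_iff : Cfsg.IsKConnected p 1 G ↔
    ∀ E E' : Subgroup G, Cfsg.IsElementaryAbelian p E → p ^ 1 ≤ Nat.card ↥E →
      Cfsg.IsElementaryAbelian p E' → p ^ 1 ≤ Nat.card ↥E' →
      Relation.ReflTransGen (kRel p) E E' := Iff.rfl

theorem conj_map_one (A : Subgroup G) : A.map (MulAut.conj (1 : G)).toMonoidHom = A := by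
  ext y
  rw [Cfsg.Agent.Lib.Helper7.mem_map_conj]
  simp

theorem conj_map_mul (g h : G) (A : Subgroup G) :
    (A.map (MulAut.conj h).toMonoidHom).map (MulAut.conj g).toMonoidHom
      = A.map (MulAut.conj (g * h)).toMonoidHom := by
  ext y
  rw [Cfsg.Agent.Lib.Helper7.mem_map_conj, Cfsg.Agent.Lib.Helper7.mem_map_conj,
    Cfsg.Agent.Lib.Helper7.mem_map_conj]
  have e : h⁻¹ * (g⁻¹ * y * g) * h = (g * h)⁻¹ * y * (g * h) := by group
  rw [e]

theorem conj_map_card (g : G) (A : Subgroup G) :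
    Nat.card ↥(A.map (MulAut.conj g).toMonoidHom) = Nat.card ↥A :=
  Subgroup.card_map_of_injective (MulAut.conj g).injective

theorem kRel_conj (g : G) {A B : Subgroup G} (h : kRel p A B) :
    kRel p (A.map (MulAut.conj g).toMonoidHom) (B.map (MulAut.conj g).toMonoidHom) := by
  obtain ⟨hA, hA1, hB, hB1, hc⟩ := h
  refine ⟨Cfsg.Agent.Lib.Helper1.ea_map _ hA, ?_, Cfsg.Agent.Lib.Helper1.ea_map _ hB, ?_, ?_⟩
  · rw [conj_map_card]; exact hA1
  · rw [conj_map_card]; exact hB1
  · rintro _ ⟨a, ha, rfl⟩ _ ⟨b, hb, rfl⟩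
    rw [← map_mul, ← map_mul, hc a ha b hb]

theorem kRel_symm {A B : Subgroup G} (h : kRel p A B) : kRel p B A := by
  obtain ⟨hA, hA1, hB, hB1, hc⟩ := h
  exact ⟨hB, hB1, hA, hA1, fun b hb a ha => (hc a ha b hb).symm⟩

theorem conn_conj (g : G) {A B : Subgroup G} (h : Relation.ReflTransGen (kRel p) A B) :
    Relation.ReflTransGen (kRel p) (A.map (MulAut.conj g).toMonoidHom)
      (B.map (MulAut.conj g).toMonoidHom) := by
  induction h with
  | refl => exact Relation.ReflTransGen.refl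
  | tail _ hbc ih => exact Relation.ReflTransGen.tail ih (kRel_conj g hbc)

theorem conn_symm {A B : Subgroup G} (h : Relation.ReflTransGen (kRel p) A B) :
    Relation.ReflTransGen (kRel p) B A := by
  induction h with
  | refl => exact Relation.ReflTransGen.refl
  | tail _ hbc ih => exact Relation.ReflTransGen.head (kRel_symm hbc) ih

theorem p_dvd_card_of_ea [Finite G] [Fact p.Prime] {A : Subgroup G}
    (hA : Cfsg.IsElementaryAbelian p A) (hA1 : p ^ 1 ≤ Nat.card ↥A) : p ∣ Nat.card ↥A := by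
  have hp : p.Prime := Fact.out
  rcases (Cfsg.Agent.Lib.Helper1.ea_isPGroup hA).card_eq_or_dvd with h | h
  · rw [h, pow_one] at hA1
    have := hp.two_le
    omega
  · exact h

theorem ea_zpowers_of_order [Fact p.Prime] (y : G) (hy : orderOf y = p) :
    Cfsg.IsElementaryAbelian p (Subgroup.zpowers y) ∧
      p ^ 1 ≤ Nat.card ↥(Subgroup.zpowers y) := by
  refine ⟨Cfsg.Agent.Lib.Helper1.ea_zpowers y ?_, ?_⟩
  · have h0 := pow_orderOf_eq_one y
    rw [hy] at h0
    exact h0
  · exact le_of_eq (by rw [Nat.card_zpowers, hy, pow_one])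

theorem conn_of_le_pGroup [Finite G] [Fact p.Prime] (P : Subgroup G) (hP : IsPGroup p P)
    {A B : Subgroup G} (hA : Cfsg.IsElementaryAbelian p A) (hA1 : p ^ 1 ≤ Nat.card ↥A)
    (hB : Cfsg.IsElementaryAbelian p B) (hB1 : p ^ 1 ≤ Nat.card ↥B) (hAP : A ≤ P)
    (hBP : B ≤ P) : Relation.ReflTransGen (kRel p) A B := by
  have hp : p.Prime := Fact.out
  have hPnt : Nontrivial ↥P := by
    rw [← Finite.one_lt_card_iff_nontrivial]
    have h1 := Nat.le_of_dvd Nat.card_pos (Subgroup.card_dvd_of_le hAP)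
    rw [pow_one] at hA1
    have := hp.two_le
    omega
  haveI := hPnt
  haveI hZnt : Nontrivial (Subgroup.center ↥P) := hP.center_nontrivial
  have hdvd : p ∣ Nat.card (Subgroup.center ↥P) := by
    have hZ : IsPGroup p (Subgroup.center ↥P) := hP.to_subgroup _
    rcases hZ.card_eq_or_dvd with h | h
    · exfalso
      have h2 := Finite.one_lt_card_iff_nontrivial.mpr hZnt
      omega
    · exact h
  obtain ⟨z, hz⟩ := exists_prime_orderOf_dvd_card' p hdvd
  have hz0 : orderOf (((z : ↥P) : G)) = p := by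
    rw [Subgroup.orderOf_coe, Subgroup.orderOf_coe]; exact hz
  obtain ⟨hZ, hZ1⟩ := ea_zpowers_of_order (((z : ↥P) : G)) hz0
  have hcent : Subgroup.zpowers (((z : ↥P) : G)) ≤ Subgroup.centralizer (P : Set G) := by
    rw [Subgroup.zpowers_le, Subgroup.mem_centralizer_iff]
    intro x hx
    have h1 := Subgroup.mem_center_iff.mp z.2 ⟨x, hx⟩
    exact congrArg Subtype.val h1
  have h1 : kRel p A (Subgroup.zpowers (((z : ↥P) : G))) :=
    ⟨hA, hA1, hZ, hZ1, fun a ha b hb =>
      (Subgroup.mem_centralizer_iff.mp (hcent hb)) a (hAP ha)⟩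
  have h2 : kRel p (Subgroup.zpowers (((z : ↥P) : G))) B :=
    ⟨hZ, hZ1, hB, hB1, fun a ha b hb =>
      ((Subgroup.mem_centralizer_iff.mp (hcent ha)) b (hBP hb)).symm⟩
  exact Relation.ReflTransGen.head h1 (Relation.ReflTransGen.single h2)

theorem not_isKConnected_of_strongly_embedded [Finite G] [Fact p.Prime] (H : Subgroup G)
    (hH : H ≠ ⊤) (hp : p ∣ Nat.card ↥H)
    (hg : ∀ g : G, g ∉ H → ¬ p ∣ Nat.card ↥(H ⊓ H.map (MulAut.conj g).toMonoidHom)) :
    ¬ Cfsg.IsKConnected p 1 G := by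
  intro hconn
  rw [isKConnected_one_iff] at hconn
  obtain ⟨y, hy⟩ := exists_prime_orderOf_dvd_card' p hp
  have hy0 : orderOf (y : G) = p := by rw [Subgroup.orderOf_coe]; exact hy
  obtain ⟨hE, hE1⟩ := ea_zpowers_of_order (y : G) hy0
  have hEH : Subgroup.zpowers (y : G) ≤ H := Subgroup.zpowers_le.mpr y.2
  have key : ∀ B : Subgroup G,
      Relation.ReflTransGen (kRel p) (Subgroup.zpowers (y : G)) B → B ≤ H := by
    intro B hB
    induction hB with
    | refl => exact hEH
    | tail _ hAB ih =>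
      obtain ⟨hA, hA1, -, -, hc⟩ := hAB
      intro b hb
      by_contra hbH
      apply hg b hbH
      refine (p_dvd_card_of_ea hA hA1).trans (Subgroup.card_dvd_of_le ?_)
      intro a ha
      refine Subgroup.mem_inf.mpr ⟨ih ha, ?_⟩
      rw [Cfsg.Agent.Lib.Helper7.mem_map_conj]
      have e : b⁻¹ * a * b = a := by rw [mul_assoc, hc a ha b hb]; group
      rw [e]; exact ih ha
  obtain ⟨g, hgH⟩ : ∃ g : G, g ∉ H := by
    by_contra hall
    push_neg at hall
    exact hH ((Subgroup.eq_top_iff' H).mpr hall)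
  have hE' := Cfsg.Agent.Lib.Helper1.ea_map (MulAut.conj g).toMonoidHom hE
  have hE'1 : p ^ 1 ≤ Nat.card
      ↥((Subgroup.zpowers (y : G)).map (MulAut.conj g).toMonoidHom) := by
    rw [conj_map_card]; exact hE1
  have h1 := key _ (hconn _ _ hE hE1 hE' hE'1)
  apply hg g hgH
  refine (p_dvd_card_of_ea hE' hE'1).trans (Subgroup.card_dvd_of_le ?_)
  exact le_inf h1 (Subgroup.map_mono hEH)

theorem exists_strongly_embedded_of_not_isKConnected [Finite G] [Fact p.Prime]
    (h : ¬ Cfsg.IsKConnected p 1 G) :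
    ∃ H : Subgroup G, H ≠ ⊤ ∧ p ∣ Nat.card ↥H ∧
      ∀ g : G, g ∉ H → ¬ p ∣ Nat.card ↥(H ⊓ H.map (MulAut.conj g).toMonoidHom) := by
  rw [isKConnected_one_iff] at h
  push_neg at h
  obtain ⟨E, E', hE, hE1, hE', hE'1, hnot⟩ := h
  let H : Subgroup G :=
    { carrier := {g | Relation.ReflTransGen (kRel p) E (E.map (MulAut.conj g).toMonoidHom)}
      one_mem' := by
        show Relation.ReflTransGen (kRel p) E (E.map (MulAut.conj (1 : G)).toMonoidHom)
        exact Eq.subst (motive := fun X => Relation.ReflTransGen (kRel p) E X)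
          (conj_map_one E).symm Relation.ReflTransGen.refl
      mul_mem' := fun {g k} hg hk => by
        have hg' : Relation.ReflTransGen (kRel p) E (E.map (MulAut.conj g).toMonoidHom) := hg
        have hk' : Relation.ReflTransGen (kRel p) E (E.map (MulAut.conj k).toMonoidHom) := hk
        have h1 := conn_conj g hk'
        rw [conj_map_mul] at h1
        show Relation.ReflTransGen (kRel p) E (E.map (MulAut.conj (g * k)).toMonoidHom)
        exact Relation.ReflTransGen.trans hg' h1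
      inv_mem' := fun {g} hg => by
        have hg' : Relation.ReflTransGen (kRel p) E (E.map (MulAut.conj g).toMonoidHom) := hg
        have h1 := conn_conj g⁻¹ hg'
        rw [conj_map_mul, inv_mul_cancel, conj_map_one] at h1
        show Relation.ReflTransGen (kRel p) E (E.map (MulAut.conj g⁻¹).toMonoidHom)
        exact conn_symm h1 }
  have hmem : ∀ g : G, g ∈ H ↔
      Relation.ReflTransGen (kRel p) E (E.map (MulAut.conj g).toMonoidHom) := fun g => Iff.rfl
  have hEH : E ≤ H := by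
    intro e he
    rw [hmem]
    have e1 : E.map (MulAut.conj e).toMonoidHom = E := by
      ext y
      rw [Cfsg.Agent.Lib.Helper7.mem_map_conj]
      constructor
      · intro hy
        have e2 : y = e * (e⁻¹ * y * e) * e⁻¹ := by group
        rw [e2]
        exact E.mul_mem (E.mul_mem he hy) (E.inv_mem he)
      · intro hy
        exact E.mul_mem (E.mul_mem (E.inv_mem he) hy) he
    exact Eq.subst (motive := fun X => Relation.ReflTransGen (kRel p) E X) e1.symm
      Relation.ReflTransGen.refl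
  have claimA : ∀ X : Subgroup G, Cfsg.IsElementaryAbelian p X → p ^ 1 ≤ Nat.card ↥X →
      X ≤ H → Relation.ReflTransGen (kRel p) E X := by
    intro X hX hX1 hXH
    have hEp : IsPGroup p ↥(E.subgroupOf H) :=
      (Cfsg.Agent.Lib.Helper1.ea_isPGroup hE).comap_subtype
    have hXp : IsPGroup p ↥(X.subgroupOf H) :=
      (Cfsg.Agent.Lib.Helper1.ea_isPGroup hX).comap_subtype
    obtain ⟨P', hP'⟩ := hEp.exists_le_sylow
    obtain ⟨k, hk⟩ := Cfsg.Agent.Lib.Lead.sylow_conj_mem P' (X.subgroupOf H) hXp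
    have hPp : IsPGroup p ↥((P' : Subgroup ↥H).map H.subtype) := P'.2.map H.subtype
    have hEP : E ≤ (P' : Subgroup ↥H).map H.subtype := by
      intro e he
      exact ⟨⟨e, hEH he⟩, hP' (Subgroup.mem_subgroupOf.mpr he), rfl⟩
    have hXP : X.map (MulAut.conj (k : G)).toMonoidHom ≤ (P' : Subgroup ↥H).map H.subtype := by
      rintro _ ⟨x, hx, rfl⟩
      refine ⟨k * ⟨x, hXH hx⟩ * k⁻¹, hk _ (Subgroup.mem_subgroupOf.mpr hx), ?_⟩
      simp [MulAut.conj_apply]
    have hX' := Cfsg.Agent.Lib.Helper1.ea_map (MulAut.conj (k : G)).toMonoidHom hX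
    have hX'1 : p ^ 1 ≤ Nat.card ↥(X.map (MulAut.conj (k : G)).toMonoidHom) := by
      rw [conj_map_card]; exact hX1
    have h1 := conn_of_le_pGroup _ hPp hE hE1 hX' hX'1 hEP hXP
    have h2 := conn_conj (k : G)⁻¹ h1
    rw [conj_map_mul, inv_mul_cancel, conj_map_one] at h2
    have hk' : ((k : G))⁻¹ ∈ H := H.inv_mem k.2
    exact Relation.ReflTransGen.trans ((hmem _).mp hk') h2
  have hHtop : H ≠ ⊤ := by
    intro htop
    apply hnot
    obtain ⟨P, hP⟩ := (Cfsg.Agent.Lib.Helper1.ea_isPGroup hE).exists_le_sylow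
    obtain ⟨P', hP'⟩ := (Cfsg.Agent.Lib.Helper1.ea_isPGroup hE').exists_le_sylow
    obtain ⟨g, hg⟩ := MulAction.exists_smul_eq G P P'
    have hgH : g ∈ H := by rw [htop]; exact Subgroup.mem_top g
    have hEg : E.map (MulAut.conj g).toMonoidHom ≤ (P' : Subgroup G) := by
      rintro _ ⟨e, he, rfl⟩
      have h1 : g * e * g⁻¹ ∈ MulAut.conj g • (P : Subgroup G) :=
        Cfsg.Agent.Lib.Lead.conj_mem_conj_smul (hP he)
      rw [← Sylow.coe_subgroup_smul, hg] at h1
      simpa [MulAut.conj_apply] using h1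
    have hEg' := Cfsg.Agent.Lib.Helper1.ea_map (MulAut.conj g).toMonoidHom hE
    have hEg1 : p ^ 1 ≤ Nat.card ↥(E.map (MulAut.conj g).toMonoidHom) := by
      rw [conj_map_card]; exact hE1
    have h2 := conn_of_le_pGroup _ P'.2 hEg' hEg1 hE' hE'1 hEg hP'
    exact Relation.ReflTransGen.trans ((hmem g).mp hgH) h2
  refine ⟨H, hHtop, (p_dvd_card_of_ea hE hE1).trans (Subgroup.card_dvd_of_le hEH), ?_⟩
  intro g hgH hdvd
  apply hgH
  obtain ⟨y, hy⟩ := exists_prime_orderOf_dvd_card' p hdvd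
  have hy0 : orderOf (y : G) = p := by rw [Subgroup.orderOf_coe]; exact hy
  obtain ⟨hX, hX1⟩ := ea_zpowers_of_order (y : G) hy0
  obtain ⟨hyH, hyHg⟩ := Subgroup.mem_inf.mp y.2
  have hXH : Subgroup.zpowers (y : G) ≤ H := Subgroup.zpowers_le.mpr hyH
  have hXHg : Subgroup.zpowers (y : G) ≤ H.map (MulAut.conj g).toMonoidHom :=
    Subgroup.zpowers_le.mpr hyHg
  have h1 := claimA _ hX hX1 hXH
  have hX'H : (Subgroup.zpowers (y : G)).map (MulAut.conj g⁻¹).toMonoidHom ≤ H := by
    intro w hw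
    rw [Cfsg.Agent.Lib.Helper7.mem_map_conj] at hw
    have hw2 := hXHg hw
    rw [Cfsg.Agent.Lib.Helper7.mem_map_conj] at hw2
    have e : g⁻¹ * (g⁻¹⁻¹ * w * g⁻¹) * g = w := by group
    rw [e] at hw2
    exact hw2
  have hX' := Cfsg.Agent.Lib.Helper1.ea_map (MulAut.conj g⁻¹).toMonoidHom hX
  have hX'1 : p ^ 1 ≤ Nat.card
      ↥((Subgroup.zpowers (y : G)).map (MulAut.conj g⁻¹).toMonoidHom) := by
    rw [conj_map_card]; exact hX1
  have h2 := claimA _ hX' hX'1 hX'H
  have h3 := conn_conj g h2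
  rw [conj_map_mul, mul_inv_cancel, conj_map_one] at h3
  rw [hmem]
  exact Relation.ReflTransGen.trans h1 (conn_symm h3)

end KConn

end Cfsg.Agent.Lib.Helper2
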