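import Mathlib
import Cfsg.Agent.Lib.Lead.SZ
import Cfsg.Agent.Lib.Lead.SZ2
import Cfsg.Agent.Lib.Lead.SylowAux
import Cfsg.Agent.Lib.Lead.CoprimeAction

set_option autoImplicit false

namespace Cfsg.Agent.Lib.Helper2

open Cfsg.Agent.Lib.Lead

open scoped Pointwise

/-- `G = K U` with `K` normal, `H ≤ U` of order coprime to `K`: conjugates of `H` inside `U`. -/
theorem ku_conj_factor {G : Type*} [Group G] [Finite G] [Group.IsSolvable G] (K U H : Subgroup G)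
    [hKn : K.Normal] (hKU : K ⊔ U = ⊤) (hH : H ≤ U) (hcop : (Nat.card H).Coprime (Nat.card K))
    (g : G) (hg : ∀ h ∈ H, g * h * g⁻¹ ∈ U) :
    ∃ u ∈ U, ∃ c ∈ K ⊓ Subgroup.centralizer (H : Set G), g = u * c := by
  have hgtop : g ∈ K ⊔ U := by rw [hKU]; exact Subgroup.mem_top g
  obtain ⟨k', hk', u, hu, hku⟩ := Subgroup.mem_sup_of_normal_left.mp hgtop
  obtain ⟨k, hkdef⟩ : ∃ k : G, k = u⁻¹ * k' * u := ⟨_, rfl⟩
  have hk : k ∈ K := by
    rw [hkdef]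
    have h1 := hKn.conj_mem k' hk' u⁻¹
    rw [inv_inv] at h1
    exact h1
  have hguk : g = u * k := by rw [hkdef, ← hku]; group
  have hkH : ∀ h ∈ H, k * h * k⁻¹ ∈ U := by
    intro h hh
    have h1 : k * h * k⁻¹ = u⁻¹ * (g * h * g⁻¹) * u := by rw [hguk]; group
    rw [h1]
    exact U.mul_mem (U.mul_mem (U.inv_mem hu) (hg h hh)) hu
  -- Schur–Zassenhaus conjugacy inside `(K ⊓ U) H`
  have hHN : H ≤ Subgroup.normalizer ((K ⊓ U : Subgroup G) : Set G) := by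
    intro h hh
    rw [Subgroup.mem_normalizer_iff]
    intro x
    constructor
    · intro hx
      exact ⟨hKn.conj_mem x hx.1 h, U.mul_mem (U.mul_mem (hH hh) hx.2) (U.inv_mem (hH hh))⟩
    · intro hx
      have h1 : x = h⁻¹ * (h * x * h⁻¹) * h⁻¹⁻¹ := by group
      rw [h1]
      exact ⟨hKn.conj_mem _ hx.1 h⁻¹,
        U.mul_mem (U.mul_mem (U.inv_mem (hH hh)) hx.2) (U.inv_mem (U.inv_mem (hH hh)))⟩
  have hK' : MulAut.conj k • H ≤ H ⊔ (K ⊓ U) := by
    intro x hx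
    rw [mem_conj_smul] at hx
    have h1 : x = (k * (k⁻¹ * x * k) * k⁻¹ * (k⁻¹ * x * k)⁻¹) * (k⁻¹ * x * k) := by group
    rw [h1]
    apply Subgroup.mul_mem _ (Subgroup.mem_sup_right _) (Subgroup.mem_sup_left hx)
    refine ⟨?_, ?_⟩
    · have h2 : k * (k⁻¹ * x * k) * k⁻¹ * (k⁻¹ * x * k)⁻¹ =
          k * ((k⁻¹ * x * k) * k⁻¹ * (k⁻¹ * x * k)⁻¹) := by group
      rw [h2]
      exact K.mul_mem hk (hKn.conj_mem _ (K.inv_mem hk) _)
    · exact U.mul_mem (hkH _ hx) (U.inv_mem (hH hx))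
  have hcard : Nat.card ↥(MulAut.conj k • H) = Nat.card ↥H := card_conj_smul k H
  have hcop' : (Nat.card ↥(K ⊓ U : Subgroup G)).Coprime (Nat.card ↥H) :=
    (Nat.Coprime.coprime_dvd_right (Subgroup.card_dvd_of_le inf_le_left) hcop).symm
  obtain ⟨n, hn, hnH⟩ := szc (K ⊓ U) H (MulAut.conj k • H) hHN hK' hcard hcop'
    (Or.inr inferInstance)
  obtain ⟨c, hcdef⟩ : ∃ c : G, c = n⁻¹ * k := ⟨_, rfl⟩
  have hcK : c ∈ K := by rw [hcdef]; exact K.mul_mem (K.inv_mem hn.1) hk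
  have hcH : ∀ a ∈ H, c⁻¹ * a * c ∈ H := by
    intro a ha
    have h1 : n * a * n⁻¹ ∈ MulAut.conj k • H := by
      rw [← hnH]
      exact conj_mem_conj_smul ha
    rw [mem_conj_smul] at h1
    have h2 : c⁻¹ * a * c = k⁻¹ * (n * a * n⁻¹) * k := by rw [hcdef]; group
    rw [h2]
    exact h1
  have hHK : H ≤ Subgroup.normalizer (K : Set G) := by
    rw [Subgroup.normalizer_eq_top_iff.mpr hKn]
    exact le_top
  have hcC : c ∈ Subgroup.centralizer (H : Set G) :=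
    mem_centralizer_of_normalizes H K hHK hcop c hcK hcH
  refine ⟨u * n, U.mul_mem hu hn.2, c, ⟨hcK, hcC⟩, ?_⟩
  rw [hguk, hcdef]
  group

/-- `G' ≤ K U'` when `G = K U` with `K` normal. -/
theorem commutator_le_sup_of_sup_eq_top {G : Type*} [Group G] (K U : Subgroup G)
    [hKn : K.Normal] (hKU : K ⊔ U = ⊤) : commutator G ≤ K ⊔ ⁅U, U⁆ := by
  rw [commutator_def, Subgroup.commutator_le]
  intro g₁ _ g₂ _
  show g₁ * g₂ * g₁⁻¹ * g₂⁻¹ ∈ K ⊔ ⁅U, U⁆
  have h1 : g₁ ∈ K ⊔ U := by rw [hKU]; exact Subgroup.mem_top g₁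
  have h2 : g₂ ∈ K ⊔ U := by rw [hKU]; exact Subgroup.mem_top g₂
  obtain ⟨k₁, hk₁, u₁, hu₁, rfl⟩ := Subgroup.mem_sup_of_normal_left.mp h1
  obtain ⟨k₂, hk₂, u₂, hu₂, rfl⟩ := Subgroup.mem_sup_of_normal_left.mp h2
  have e1 : QuotientGroup.mk' K k₁ = 1 := (QuotientGroup.eq_one_iff k₁).mpr hk₁
  have e2 : QuotientGroup.mk' K k₂ = 1 := (QuotientGroup.eq_one_iff k₂).mpr hk₂
  have hφ1 : QuotientGroup.mk' K (k₁ * u₁) = QuotientGroup.mk' K u₁ := by
    rw [map_mul, e1, one_mul]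
  have hφ2 : QuotientGroup.mk' K (k₂ * u₂) = QuotientGroup.mk' K u₂ := by
    rw [map_mul, e2, one_mul]
  have h3 : QuotientGroup.mk' K (k₁ * u₁ * (k₂ * u₂) * (k₁ * u₁)⁻¹ * (k₂ * u₂)⁻¹) =
      QuotientGroup.mk' K (u₁ * u₂ * u₁⁻¹ * u₂⁻¹) := by
    rw [map_mul, map_mul, map_mul, map_inv, map_inv, hφ1, hφ2, map_mul, map_mul, map_mul,
      map_inv, map_inv]
  obtain ⟨z, hz, hzeq⟩ := (QuotientGroup.mk'_eq_mk' K).mp h3
  have hc : u₁ * u₂ * u₁⁻¹ * u₂⁻¹ ∈ ⁅U, U⁆ := Subgroup.commutator_mem_commutator hu₁ hu₂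
  have h4 : k₁ * u₁ * (k₂ * u₂) * (k₁ * u₁)⁻¹ * (k₂ * u₂)⁻¹ =
      (u₁ * u₂ * u₁⁻¹ * u₂⁻¹) * z⁻¹ := by
    rw [← hzeq]; group
  rw [h4]
  exact Subgroup.mul_mem _ (Subgroup.mem_sup_right hc) (Subgroup.mem_sup_left (K.inv_mem hz))

/-- `H ∩ G' = H ∩ U'` when `G = K U`, `K` normal and `H ≤ U` of order coprime to `K`. -/
theorem ku_inf_commutator {G : Type*} [Group G] [Finite G] (K U H : Subgroup G)
    [hKn : K.Normal] (hKU : K ⊔ U = ⊤) (hH : H ≤ U) (hcop : (Nat.card H).Coprime (Nat.card K)) :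
    H ⊓ commutator G = H ⊓ ⁅U, U⁆ := by
  apply le_antisymm
  · intro x hx
    refine ⟨hx.1, ?_⟩
    have hxU : x ∈ U := hH hx.1
    have h1 : x ∈ K ⊔ ⁅U, U⁆ := commutator_le_sup_of_sup_eq_top K U hKU hx.2
    obtain ⟨k, hk, u', hu', hku⟩ := Subgroup.mem_sup_of_normal_left.mp h1
    have hu'U : u' ∈ U := Subgroup.commutator_le_self U hu'
    have hkU : k ∈ U := by
      have h2 : k = x * u'⁻¹ := by rw [← hku]; group
      rw [h2]
      exact U.mul_mem hxU (U.inv_mem hu'U)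
    -- work in the abelianization of `U`
    have hu'c : (⟨u', hu'U⟩ : ↥U) ∈ commutator ↥U := by
      rw [← Subgroup.map_subtype_commutator U] at hu'
      obtain ⟨v, hv, hvu⟩ := Subgroup.mem_map.mp hu'
      have h3 : v = ⟨u', hu'U⟩ := Subtype.ext hvu
      rw [← h3]
      exact hv
    have hα1 : Abelianization.of (⟨u', hu'U⟩ : ↥U) = 1 := by
      have h3 : (⟨u', hu'U⟩ : ↥U) ∈ (Abelianization.of : ↥U →* Abelianization ↥U).ker := by
        rw [Abelianization.ker_of]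
        exact hu'c
      exact MonoidHom.mem_ker.mp h3
    have hxk : (⟨x, hxU⟩ : ↥U) = ⟨k, hkU⟩ * ⟨u', hu'U⟩ := Subtype.ext hku.symm
    have hαx : Abelianization.of (⟨x, hxU⟩ : ↥U) = Abelianization.of (⟨k, hkU⟩ : ↥U) := by
      rw [hxk, map_mul, hα1, mul_one]
    have hkm : k ^ Nat.card ↥K = 1 :=
      orderOf_dvd_iff_pow_eq_one.mp (Subgroup.orderOf_dvd_natCard _ hk)
    have hxn : x ^ Nat.card ↥H = 1 :=
      orderOf_dvd_iff_pow_eq_one.mp (Subgroup.orderOf_dvd_natCard _ hx.1)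
    have h5 : (Abelianization.of (⟨x, hxU⟩ : ↥U)) ^ Nat.card ↥K = 1 := by
      rw [hαx, ← map_pow]
      have h6 : (⟨k, hkU⟩ : ↥U) ^ Nat.card ↥K = 1 := by
        apply Subtype.ext
        rw [Subgroup.coe_pow]
        exact hkm
      rw [h6, map_one]
    have h7 : (Abelianization.of (⟨x, hxU⟩ : ↥U)) ^ Nat.card ↥H = 1 := by
      rw [← map_pow]
      have h6 : (⟨x, hxU⟩ : ↥U) ^ Nat.card ↥H = 1 := by
        apply Subtype.ext
        rw [Subgroup.coe_pow]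
        exact hxn
      rw [h6, map_one]
    have hd : orderOf (Abelianization.of (⟨x, hxU⟩ : ↥U)) ∣
        Nat.gcd (Nat.card ↥H) (Nat.card ↥K) :=
      Nat.dvd_gcd (orderOf_dvd_of_pow_eq_one h7) (orderOf_dvd_of_pow_eq_one h5)
    rw [Nat.Coprime.gcd_eq_one hcop, Nat.dvd_one] at hd
    have h8 : Abelianization.of (⟨x, hxU⟩ : ↥U) = 1 := orderOf_eq_one_iff.mp hd
    have h9 : (⟨x, hxU⟩ : ↥U) ∈ commutator ↥U := by
      rw [← Abelianization.ker_of]
      exact MonoidHom.mem_ker.mpr h8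
    rw [← Subgroup.map_subtype_commutator U]
    exact Subgroup.mem_map.mpr ⟨_, h9, rfl⟩
  · intro x hx
    refine ⟨hx.1, ?_⟩
    rw [commutator_def]
    exact Subgroup.commutator_mono le_top le_top hx.2

/-- Statement form. -/
theorem ku_main {G : Type*} [Group G] [Finite G] [Group.IsSolvable G] (K U H : Subgroup G)
    [hKn : K.Normal] (hKU : K ⊔ U = ⊤) (hH : H ≤ U) (hcop : (Nat.card H).Coprime (Nat.card K)) :
    H ⊓ commutator G = H ⊓ ⁅U, U⁆ ∧
      Subgroup.normalizer (H : Set G) =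
        (K ⊓ Subgroup.centralizer (H : Set G)) ⊔ (U ⊓ Subgroup.normalizer (H : Set G)) ∧
      ∀ g : G, H.map (MulAut.conj g).toMonoidHom ≤ U →
        ∃ u ∈ U, ∃ c ∈ K ⊓ Subgroup.centralizer (H : Set G), g = u * c := by
  refine ⟨ku_inf_commutator K U H hKU hH hcop, ?_, ?_⟩
  · apply le_antisymm
    · intro g hg
      have h1 : ∀ h ∈ H, g * h * g⁻¹ ∈ U := fun h hh =>
        hH ((Subgroup.mem_normalizer_iff.mp hg h).mp hh)
      obtain ⟨u, hu, c, hc, hguc⟩ := ku_conj_factor K U H hKU hH hcop g h1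
      have hcN : c ∈ Subgroup.normalizer (H : Set G) :=
        Subgroup.centralizer_le_normalizer _ hc.2
      have huN : u ∈ Subgroup.normalizer (H : Set G) := by
        have h2 : u = g * c⁻¹ := by rw [hguc]; group
        rw [h2]
        exact Subgroup.mul_mem _ hg (Subgroup.inv_mem _ hcN)
      rw [hguc]
      exact Subgroup.mul_mem _ (Subgroup.mem_sup_right ⟨hu, huN⟩) (Subgroup.mem_sup_left hc)
    · apply sup_le
      · exact inf_le_right.trans (Subgroup.centralizer_le_normalizer _)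
      · exact inf_le_right
  · intro g hg
    apply ku_conj_factor K U H hKU hH hcop g
    intro h hh
    exact hg (Subgroup.mem_map.mpr ⟨h, hh, rfl⟩)

end Cfsg.Agent.Lib.Helper2
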