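import Mathlib
import Cfsg.Prelude
import Cfsg.Agent.Lib.Helper2.PConstrInv
import Cfsg.Agent.Lib.Lead.Class2

set_option autoImplicit false

namespace Cfsg.Agent.Lib.Helper2

open scoped commutatorElement

/-- Coprime action with `[P, A] = P`: the fixed points lie in the derived subgroup
(norm map into the abelianization). -/
theorem coprime_cent_le_commutator {X : Type*} [Group X] [Finite X] {p : ℕ} [Fact p.Prime]
    (P A : Subgroup X) (hP : IsPGroup p P) (hAP : A ≤ Subgroup.normalizer (P : Set X))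
    (hAp : (Nat.card A).Coprime p) (hPA : ⁅P, A⁆ = P) :
    P ⊓ Subgroup.centralizer (A : Set X) ≤ ⁅P, P⁆ := by
  classical
  haveI : Fintype ↥A := Fintype.ofFinite ↥A
  obtain ⟨π, hπdef⟩ : ∃ π : ↥P →* Abelianization ↥P, π = Abelianization.of := ⟨_, rfl⟩
  have hπ1 : ∀ g : ↥P, π g = 1 ↔ (g : X) ∈ ⁅P, P⁆ := by
    intro g
    rw [hπdef, ← MonoidHom.mem_ker, Abelianization.ker_of, ← Subgroup.map_subtype_commutator]
    constructor
    · intro h; exact ⟨g, h, rfl⟩
    · rintro ⟨g', hg', hgg'⟩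
      have h3 : g' = g := Subtype.ext hgg'
      rw [← h3]; exact hg'
  have hconj : ∀ (a : ↥A) (x : ↥P), (a : X) * (x : X) * (a : X)⁻¹ ∈ P := fun a x =>
    Cfsg.Agent.Lib.Lead.conj_mem_of_mem_normalizer (hAP a.2) x.2
  obtain ⟨c, hcdef⟩ : ∃ c : ↥A → ↥P → ↥P,
      ∀ a x, ((c a x : ↥P) : X) = (a : X) * (x : X) * (a : X)⁻¹ :=
    ⟨fun a x => ⟨(a : X) * (x : X) * (a : X)⁻¹, hconj a x⟩, fun a x => rfl⟩
  have hcmul : ∀ a x y, c a (x * y) = c a x * c a y := by
    intro a x y
    apply Subtype.ext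
    rw [Subgroup.coe_mul, hcdef, hcdef, hcdef, Subgroup.coe_mul]
    group
  have hccomp : ∀ a b x, c a (c b x) = c (a * b) x := by
    intro a b x
    apply Subtype.ext
    rw [hcdef, hcdef, hcdef, Subgroup.coe_mul]
    group
  obtain ⟨N, hNdef⟩ : ∃ N : ↥P → Abelianization ↥P, ∀ x, N x = ∏ a : ↥A, π (c a x) :=
    ⟨fun x => ∏ a : ↥A, π (c a x), fun x => rfl⟩
  have hNmul : ∀ x y, N (x * y) = N x * N y := by
    intro x y
    rw [hNdef, hNdef, hNdef, ← Finset.prod_mul_distrib]
    apply Finset.prod_congr rfl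
    intro a _
    rw [hcmul, map_mul]
  have hNconj : ∀ (b : ↥A) x, N (c b x) = N x := by
    intro b x
    rw [hNdef, hNdef]
    apply Fintype.prod_equiv (Equiv.mulRight b)
    intro a
    rw [hccomp]
    rfl
  have hN1 : N 1 = 1 := by
    have h := hNmul 1 1
    rw [mul_one] at h
    have h2 : N 1 * N 1 = N 1 * 1 := by rw [mul_one]; exact h.symm
    exact mul_left_cancel h2
  have hNker : ∀ x : ↥P, N x = 1 := by
    intro x
    obtain ⟨Nh, hNh⟩ : ∃ Nh : ↥P →* Abelianization ↥P, ∀ x, Nh x = N x :=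
      ⟨MonoidHom.mk' N hNmul, fun x => rfl⟩
    have hle : ⁅P, A⁆ ≤ Nh.ker.map P.subtype := by
      rw [Subgroup.commutator_le]
      intro g hg a ha
      refine ⟨(⟨g, hg⟩ : ↥P) * c ⟨a, ha⟩ (⟨g, hg⟩ : ↥P)⁻¹, ?_, ?_⟩
      · show (⟨g, hg⟩ : ↥P) * c ⟨a, ha⟩ (⟨g, hg⟩ : ↥P)⁻¹ ∈ Nh.ker
        rw [MonoidHom.mem_ker, hNh, hNmul, hNconj, ← hNmul, mul_inv_cancel, hN1]
      · show (((⟨g, hg⟩ : ↥P) * c ⟨a, ha⟩ (⟨g, hg⟩ : ↥P)⁻¹ : ↥P) : X) = ⁅g, a⁆
        rw [Subgroup.coe_mul, hcdef, commutatorElement_def]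
        show g * (a * g⁻¹ * a⁻¹) = g * a * g⁻¹ * a⁻¹
        group
    have hx : (x : X) ∈ Nh.ker.map P.subtype := hle (by rw [hPA]; exact x.2)
    obtain ⟨x', hx', hxx'⟩ := hx
    have h3 : x' = x := Subtype.ext hxx'
    rw [← h3, ← hNh]; exact hx'
  intro c0 hc0
  have hc0P : c0 ∈ P := hc0.1
  have hc0A : c0 ∈ Subgroup.centralizer (A : Set X) := hc0.2
  rw [Subgroup.mem_centralizer_iff] at hc0A
  have hfix : ∀ a : ↥A, c a ⟨c0, hc0P⟩ = ⟨c0, hc0P⟩ := by
    intro a
    apply Subtype.ext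
    rw [hcdef]
    show (a : X) * c0 * (a : X)⁻¹ = c0
    rw [hc0A a a.2, mul_inv_cancel_right]
  have hpow : π ⟨c0, hc0P⟩ ^ Fintype.card ↥A = 1 := by
    have h1 := hNker ⟨c0, hc0P⟩
    rw [hNdef] at h1
    have h2 : ∏ a : ↥A, π (c a ⟨c0, hc0P⟩) = ∏ _a : ↥A, π ⟨c0, hc0P⟩ :=
      Finset.prod_congr rfl (fun a _ => by rw [hfix a])
    rw [h2, Finset.prod_const, Finset.card_univ] at h1
    exact h1
  obtain ⟨k, hk⟩ := hP ⟨c0, hc0P⟩
  have hpk : π ⟨c0, hc0P⟩ ^ (p ^ k) = 1 := by rw [← map_pow, hk, map_one]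
  have hcard : Fintype.card ↥A = Nat.card ↥A := (Nat.card_eq_fintype_card).symm
  rw [hcard] at hpow
  have h1 := eq_one_of_pow_prime_pow_of_coprime p k (Nat.card ↥A) hAp (π ⟨c0, hc0P⟩) hpk hpow
  exact (hπ1 ⟨c0, hc0P⟩).mp h1

theorem min_act_main {X : Type*} [Group X] [Finite X] {p : ℕ} [Fact p.Prime] (B A P : Subgroup X)
    (hP : IsPGroup p P) (hBP : B ≤ Subgroup.normalizer (P : Set X)) (hAB : A ≤ B)
    (hAn : B ≤ Subgroup.normalizer (A : Set X)) (hAp : (Nat.card A).Coprime p)
    (hnt : ⁅P, A⁆ ≠ ⊥)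
    (hmin : ∀ U : Subgroup X, U < P → B ≤ Subgroup.normalizer (U : Set X) → ⁅U, A⁆ = ⊥) :
    ⁅P, A⁆ = P ∧ (Cfsg.IsElementaryAbelian p P ∨ Cfsg.IsSpecial p ↥P) ∧
    (∀ U : Subgroup X, (frattini ↥P).map P.subtype ≤ U → U ≤ P →
      B ≤ Subgroup.normalizer (U : Set X) → U = (frattini ↥P).map P.subtype ∨ U = P) ∧
    (p ≠ 2 → ∀ x ∈ P, x ^ p = 1) := by
  have hp : p.Prime := Fact.out
  have hAP : A ≤ Subgroup.normalizer (P : Set X) := hAB.trans hBP
  have hcop : (Nat.card A).Coprime (Nat.card P) := by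
    obtain ⟨e, he⟩ := hP.exists_card_eq
    rw [he]; exact Nat.Coprime.pow_right e hAp
  have hsolv : Group.IsSolvable A ∨ Group.IsSolvable P := by
    right
    haveI := hP.isNilpotent
    infer_instance
  have hcentA : ∀ U : Subgroup X, U < P → B ≤ Subgroup.normalizer (U : Set X) →
      U ≤ P ⊓ Subgroup.centralizer (A : Set X) := by
    intro U hlt hUB
    have h1 := hmin U hlt hUB
    rw [Subgroup.commutator_eq_bot_iff_le_centralizer] at h1
    exact le_inf hlt.le h1
  have hPAle : ⁅P, A⁆ ≤ P := Cfsg.Agent.Lib.Lead.commutator_le_of_le_normalizer P A hAP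
  have hPAB : B ≤ Subgroup.normalizer ((⁅P, A⁆ : Subgroup X) : Set X) :=
    normalizer_commutator_of_normalizer B P A hBP hAn
  have hPA : ⁅P, A⁆ = P := by
    by_contra hne
    have hlt : ⁅P, A⁆ < P := lt_of_le_of_ne hPAle hne
    have h1 := hcentA _ hlt hPAB
    apply hnt
    rw [Subgroup.commutator_eq_bot_iff_le_centralizer]
    intro r hr
    rw [Subgroup.mem_centralizer_iff]
    intro a ha
    obtain ⟨y, hy, c, hc, hrc⟩ :=
      Cfsg.Agent.Lib.Lead.coprime_commutator_decomp A P hAP hcop hsolv r hr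
    have hay : a * y = y * a := by
      have h2 : y ∈ Subgroup.centralizer (A : Set X) := (h1 hy).2
      rw [Subgroup.mem_centralizer_iff] at h2
      exact h2 a ha
    have hac : a * c = c * a := by
      have h2 : c ∈ Subgroup.centralizer (A : Set X) := hc.2
      rw [Subgroup.mem_centralizer_iff] at h2
      exact h2 a ha
    calc a * r = (a * y) * c := by rw [hrc]; group
      _ = (y * a) * c := by rw [hay]
      _ = y * (a * c) := by group
      _ = y * (c * a) := by rw [hac]
      _ = r * a := by rw [hrc]; group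
  obtain ⟨D, hDdef⟩ : ∃ D : Subgroup X, D = ⁅P, P⁆ := ⟨_, rfl⟩
  obtain ⟨C, hCdef⟩ : ∃ C : Subgroup X, C = P ⊓ Subgroup.centralizer (A : Set X) := ⟨_, rfl⟩
  have hCD : C ≤ D := by
    rw [hCdef, hDdef]; exact coprime_cent_le_commutator P A hP hAP hAp hPA
  have hPne : P ≠ ⊥ := by
    intro hPb
    apply hnt
    rw [hPb]; exact Subgroup.commutator_bot_left A
  have hDlt : D < P := by
    rw [hDdef]
    haveI : Nontrivial ↥P := (Subgroup.nontrivial_iff_ne_bot P).mpr hPne
    haveI := hP.isNilpotent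
    have h1 : commutator ↥P < ⊤ := IsSolvable.commutator_lt_top_of_nontrivial ↥P
    rw [← Subgroup.map_subtype_commutator]
    refine lt_of_le_of_ne ?_ ?_
    · intro y hy
      obtain ⟨y', _, rfl⟩ := hy
      exact y'.2
    · intro heq
      apply h1.ne
      rw [eq_top_iff]
      intro y _
      have h2 : (y : X) ∈ (commutator ↥P).map P.subtype := by rw [heq]; exact y.2
      obtain ⟨y', hy', hyy'⟩ := h2
      have h3 : y' = y := Subtype.ext hyy'
      rw [← h3]; exact hy'
  have hDB : B ≤ Subgroup.normalizer (D : Set X) := by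
    rw [hDdef]; exact normalizer_commutator_of_normalizer B P P hBP hBP
  have hDC : D ≤ C := by rw [hCdef]; exact hcentA D hDlt hDB
  have hCA : ∀ c ∈ C, ∀ a ∈ A, a * c = c * a := by
    intro c hc a ha
    rw [hCdef] at hc
    have h2 : c ∈ Subgroup.centralizer (A : Set X) := hc.2
    rw [Subgroup.mem_centralizer_iff] at h2
    exact h2 a ha
  have hPD : ⁅P, D⁆ = ⊥ := by
    have h1 : ⁅⁅A, D⁆, P⁆ = ⊥ := by
      have h0 : ⁅A, D⁆ = ⊥ := by
        rw [Subgroup.commutator_eq_bot_iff_le_centralizer]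
        intro a ha
        rw [Subgroup.mem_centralizer_iff]
        intro d hd
        exact (hCA d (hDC hd) a ha).symm
      rw [h0]; exact Subgroup.commutator_bot_left P
    have h2 : ⁅⁅D, P⁆, A⁆ = ⊥ := by
      rw [Subgroup.commutator_eq_bot_iff_le_centralizer]
      intro y hy
      have hyD : y ∈ D := by
        have h3 : ⁅D, P⁆ ≤ ⁅P, P⁆ := Subgroup.commutator_mono hDlt.le le_rfl
        rw [hDdef]; exact h3 hy
      rw [Subgroup.mem_centralizer_iff]
      intro a ha
      exact hCA y (hDC hyD) a ha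
    have h3 : ⁅⁅P, A⁆, D⁆ = ⊥ := Subgroup.commutator_commutator_eq_bot_of_rotate h1 h2
    rw [hPA] at h3; exact h3
  have hDZ : ∀ d ∈ D, ∀ r ∈ P, d * r = r * d := by
    intro d hd r hr
    rw [Subgroup.commutator_eq_bot_iff_le_centralizer] at hPD
    have h2 := hPD hr
    rw [Subgroup.mem_centralizer_iff] at h2
    exact h2 d hd
  -- the subgroup generated by the elements of order dividing p
  obtain ⟨Ω, hΩdef⟩ : ∃ Ω : Subgroup X,
      Ω = Subgroup.closure {x : X | x ∈ P ∧ x ^ p = 1} := ⟨_, rfl⟩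
  have hΩP : Ω ≤ P := by
    rw [hΩdef, Subgroup.closure_le]
    intro x hx; exact hx.1
  have hΩB : B ≤ Subgroup.normalizer (Ω : Set X) := by
    apply Cfsg.Agent.Lib.Lead.le_normalizer_of_conj_mem
    intro b hb y hy
    rw [hΩdef] at hy ⊢
    apply Cfsg.Agent.Lib.Lead.conj_mem_closure _ b _ y hy
    rintro s ⟨hsR, hsp⟩
    apply Subgroup.subset_closure
    refine ⟨Cfsg.Agent.Lib.Lead.conj_mem_of_mem_normalizer (hBP hb) hsR, ?_⟩
    rw [conj_pow, hsp]; group
  have hΩmem : ∀ x ∈ P, x ^ p = 1 → x ∈ Ω := by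
    intro x hx hxp
    rw [hΩdef]; exact Subgroup.subset_closure ⟨hx, hxp⟩
  have hexp_of : (∀ u ∈ P, ∀ v ∈ P, u ^ p = 1 → v ^ p = 1 → (u * v) ^ p = 1) → Ω = P →
      ∀ x ∈ P, x ^ p = 1 := by
    intro hmul hΩeq x hx
    have hx' : x ∈ Subgroup.closure {x : X | x ∈ P ∧ x ^ p = 1} := by
      rw [← hΩdef, hΩeq]; exact hx
    induction hx' using Subgroup.closure_induction with
    | mem y hy => exact hy.2
    | one => exact one_pow p
    | mul u v hu hv ihu ihv =>
      have huR : u ∈ P := by rw [← hΩeq, hΩdef]; exact hu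
      have hvR : v ∈ P := by rw [← hΩeq, hΩdef]; exact hv
      exact hmul u huR v hvR (ihu huR) (ihv hvR)
    | inv u hu ihu =>
      have huR : u ∈ P := by rw [← hΩeq, hΩdef]; exact hu
      rw [inv_pow, ihu huR, inv_one]
  have hbotEA : Cfsg.IsElementaryAbelian p (⊥ : Subgroup X) := by
    apply Cfsg.Agent.Lib.Helper1.ea_of_comm
    · intro a ha b hb
      rw [Subgroup.mem_bot] at ha hb
      rw [ha, hb]
    · intro a ha
      rw [Subgroup.mem_bot] at ha
      rw [ha, one_pow]
  have hexp_odd : p ≠ 2 → ∀ x ∈ P, x ^ p = 1 := by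
    intro hp2
    apply hexp_of
    · intro u hu v hv hup hvp
      have hz : v⁻¹ * u⁻¹ * v * u ∈ D := by
        rw [hDdef]
        have h1 : ⁅v⁻¹, u⁻¹⁆ ∈ ⁅P, P⁆ :=
          Subgroup.commutator_mem_commutator (P.inv_mem hv) (P.inv_mem hu)
        rw [commutatorElement_def, inv_inv, inv_inv] at h1
        exact h1
      exact mul_pow_prime_of_comm_central hp hp2 u v hup hvp (hDZ _ hz u hu) (hDZ _ hz v hv)
    · by_contra hne
      have hlt : Ω < P := lt_of_le_of_ne hΩP hne
      have h1 := hcentA _ hlt hΩB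
      apply hnt
      rw [Subgroup.commutator_eq_bot_iff_le_centralizer]
      have h2 : A ≤ Subgroup.centralizer (P : Set X) := by
        apply Cfsg.Agent.S1443.result p hp2 P ⊥ A hP bot_le hbotEA hAP hAp
        intro x hx hxp
        have hxΩ : x ∈ Ω := by
          apply hΩmem x hx.1
          have h2 := pow_orderOf_eq_one x
          rw [hxp] at h2
          exact h2
        intro a ha
        rw [Subgroup.mem_centralizer_iff]
        intro y hy
        rw [Set.mem_singleton_iff] at hy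
        rw [hy]
        have h3 : x ∈ Subgroup.centralizer (A : Set X) := (h1 hxΩ).2
        rw [Subgroup.mem_centralizer_iff] at h3
        exact (h3 a ha).symm
      intro r hr
      rw [Subgroup.mem_centralizer_iff]
      intro a ha
      have h3 := h2 ha
      rw [Subgroup.mem_centralizer_iff] at h3
      exact (h3 r hr).symm
  have hcommP : D = ⊥ → ∀ u ∈ P, ∀ v ∈ P, u * v = v * u := by
    intro hD1 u hu v hv
    have h1 : ⁅u, v⁆ ∈ ⁅P, P⁆ := Subgroup.commutator_mem_commutator hu hv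
    rw [← hDdef, hD1, Subgroup.mem_bot, commutatorElement_def] at h1
    calc u * v = (u * v * u⁻¹ * v⁻¹) * (v * u) := by group
      _ = v * u := by rw [h1, one_mul]
  have hexp_ab : D = ⊥ → ∀ x ∈ P, x ^ p = 1 := by
    intro hD1
    apply hexp_of
    · intro u hu v hv hup hvp
      have hc : Commute u v := hcommP hD1 u hu v hv
      rw [hc.mul_pow, hup, hvp, one_mul]
    · by_contra hne
      have hlt : Ω < P := lt_of_le_of_ne hΩP hne
      have h1 := hcentA _ hlt hΩB
      have hΩbot : ∀ x ∈ Ω, x = 1 := by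
        intro x hx
        have h2 : x ∈ C := by rw [hCdef]; exact h1 hx
        have h3 : x ∈ D := hCD h2
        rw [hD1, Subgroup.mem_bot] at h3
        exact h3
      have hdvd : p ∣ Nat.card ↥P := by
        obtain ⟨e, he⟩ := hP.exists_card_eq
        have he0 : e ≠ 0 := by
          intro he0
          rw [he0, pow_zero] at he
          exact hPne (Subgroup.eq_bot_of_card_eq P he)
        rw [he]
        exact dvd_pow_self p he0
      obtain ⟨y, hy⟩ := exists_prime_orderOf_dvd_card' (G := ↥P) p hdvd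
      have hyp : (y : X) ^ p = 1 := by
        have h2 := pow_orderOf_eq_one y
        rw [hy] at h2
        exact congrArg Subtype.val h2
      have hy1 : (y : X) = 1 := hΩbot _ (hΩmem _ y.2 hyp)
      have hy1' : y = 1 := Subtype.ext hy1
      rw [hy1', orderOf_one] at hy
      exact hp.one_lt.ne hy
  -- the Frattini subgroup
  obtain ⟨F, hFdef⟩ : ∃ F : Subgroup X, F = (frattini ↥P).map P.subtype := ⟨_, rfl⟩
  have hFP : F ≤ P := by
    rw [hFdef]; intro y hy; obtain ⟨y', _, rfl⟩ := hy; exact y'.2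
  have hDF : D ≤ F := by
    rw [hDdef, hFdef, ← Subgroup.map_subtype_commutator]
    exact Subgroup.map_mono (Cfsg.Agent.Lib.Lead.commutator_le_frattini_of_pGroup hP)
  have hFne : F ≠ P := by
    intro hFeq
    haveI : Nontrivial ↥P := (Subgroup.nontrivial_iff_ne_bot P).mpr hPne
    have h1 : frattini ↥P = ⊤ := by
      rw [eq_top_iff]
      intro y _
      have h2 : (y : X) ∈ (frattini ↥P).map P.subtype := by rw [← hFdef, hFeq]; exact y.2
      obtain ⟨y', hy', hyy'⟩ := h2
      have h3 : y' = y := Subtype.ext hyy'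
      rw [← h3]; exact hy'
    have h2 : (⊥ : Subgroup ↥P) = ⊤ :=
      frattini_nongenerating (by rw [h1]; exact bot_sup_eq ⊤)
    exact bot_ne_top h2
  have hFB : B ≤ Subgroup.normalizer (F : Set X) := by
    apply Cfsg.Agent.Lib.Lead.le_normalizer_of_conj_mem
    intro b hb y hy
    have hbN := hBP hb
    have hbN' : b⁻¹ ∈ Subgroup.normalizer (P : Set X) := Subgroup.inv_mem _ hbN
    let φ : ↥P ≃* ↥P :=
      { toFun := fun x => ⟨b * x * b⁻¹, Cfsg.Agent.Lib.Lead.conj_mem_of_mem_normalizer hbN x.2⟩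
        invFun := fun x => ⟨b⁻¹ * x * b, by
          have h := Cfsg.Agent.Lib.Lead.conj_mem_of_mem_normalizer hbN' x.2
          rw [inv_inv] at h; exact h⟩
        left_inv := fun x => Subtype.ext (by
          show b⁻¹ * (b * (x : X) * b⁻¹) * b = x
          group)
        right_inv := fun x => Subtype.ext (by
          show b * (b⁻¹ * (x : X) * b) * b⁻¹ = x
          group)
        map_mul' := fun x y => Subtype.ext (by
          show b * ((x : X) * (y : X)) * b⁻¹ = (b * x * b⁻¹) * (b * y * b⁻¹)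
          group) }
    rw [hFdef] at hy ⊢
    obtain ⟨y', hy', rfl⟩ := hy
    have hchar : (frattini ↥P).Characteristic := frattini_characteristic
    have h1 : φ y' ∈ frattini ↥P := by
      have h2 := (Subgroup.characteristic_iff_le_comap.mp hchar) φ
      exact h2 hy'
    exact ⟨φ y', h1, rfl⟩
  have hFlt : F < P := lt_of_le_of_ne hFP hFne
  have hFC : F ≤ C := by rw [hCdef]; exact hcentA F hFlt hFB
  have hFD : F = D := le_antisymm (hFC.trans hCD) hDF
  have hirr : ∀ U : Subgroup X, F ≤ U → U ≤ P → B ≤ Subgroup.normalizer (U : Set X) →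
      U = F ∨ U = P := by
    intro U hFU hUP hUB
    by_cases hUeq : U = P
    · right; exact hUeq
    · left
      have hlt : U < P := lt_of_le_of_ne hUP hUeq
      have h1 : U ≤ C := by rw [hCdef]; exact hcentA U hlt hUB
      exact le_antisymm (by rw [hFD]; exact h1.trans hCD) hFU
  have hstruct : Cfsg.IsElementaryAbelian p P ∨ Cfsg.IsSpecial p ↥P := by
    by_cases hD1 : D = ⊥
    · left
      exact Cfsg.Agent.Lib.Helper1.ea_of_comm (hcommP hD1) (hexp_ab hD1)
    · right
      obtain ⟨Z, hZdef⟩ : ∃ Z : Subgroup X, Z = P ⊓ Subgroup.centralizer (P : Set X) := ⟨_, rfl⟩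
      have hZP : Z ≤ P := by rw [hZdef]; exact inf_le_left
      have hDZ' : D ≤ Z := by
        intro d hd
        rw [hZdef]
        refine ⟨hDlt.le hd, Subgroup.mem_centralizer_iff.mpr ?_⟩
        intro r hr
        exact (hDZ d hd r hr).symm
      have hZne : Z ≠ P := by
        intro hZeq
        apply hD1
        rw [hDdef, Subgroup.commutator_eq_bot_iff_le_centralizer]
        intro r hr
        have h1 : r ∈ Z := by rw [hZeq]; exact hr
        rw [hZdef] at h1
        exact h1.2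
      have hZB : B ≤ Subgroup.normalizer (Z : Set X) := by
        apply Cfsg.Agent.Lib.Lead.le_normalizer_of_conj_mem
        intro b hb z hz
        rw [hZdef] at hz ⊢
        have hbN := hBP hb
        have hbN' : b⁻¹ ∈ Subgroup.normalizer (P : Set X) := Subgroup.inv_mem _ hbN
        have hzc : z ∈ Subgroup.centralizer (P : Set X) := hz.2
        rw [Subgroup.mem_centralizer_iff] at hzc
        refine ⟨Cfsg.Agent.Lib.Lead.conj_mem_of_mem_normalizer hbN hz.1,
          Subgroup.mem_centralizer_iff.mpr ?_⟩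
        intro r hr
        have hr' : b⁻¹ * r * b ∈ P := by
          have h := Cfsg.Agent.Lib.Lead.conj_mem_of_mem_normalizer hbN' hr
          rw [inv_inv] at h; exact h
        have h1 := hzc _ hr'
        calc r * (b * z * b⁻¹) = b * ((b⁻¹ * r * b) * z) * b⁻¹ := by group
          _ = b * (z * (b⁻¹ * r * b)) * b⁻¹ := by rw [h1]
          _ = b * z * b⁻¹ * r := by group
      have hZC : Z ≤ C := by rw [hCdef]; exact hcentA Z (lt_of_le_of_ne hZP hZne) hZB
      have hZD : Z = D := le_antisymm (hZC.trans hCD) hDZ'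
      have hcenter : (Subgroup.center ↥P).map P.subtype = Z := by
        rw [hZdef]
        ext x
        constructor
        · rintro ⟨x', hx', rfl⟩
          refine ⟨x'.2, Subgroup.mem_centralizer_iff.mpr ?_⟩
          intro r hr
          have hx'' : x' ∈ Subgroup.center ↥P := hx'
          rw [Subgroup.mem_center_iff] at hx''
          exact congrArg Subtype.val (hx'' ⟨r, hr⟩)
        · rintro ⟨hxP, hxc⟩
          refine ⟨⟨x, hxP⟩, Subgroup.mem_center_iff.mpr ?_, rfl⟩
          intro r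
          apply Subtype.ext
          have hxc' : x ∈ Subgroup.centralizer (P : Set X) := hxc
          rw [Subgroup.mem_centralizer_iff] at hxc'
          exact hxc' r r.2
      have hcomm' : (commutator ↥P).map P.subtype = D := by
        rw [hDdef]; exact Subgroup.map_subtype_commutator P
      have hinj := Subgroup.map_injective P.subtype_injective
      refine ⟨hP, ?_, ?_⟩
      · apply hinj
        rw [hcenter, hZD, ← hFD, hFdef]
      · apply hinj
        rw [hcenter, hZD, hcomm']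
  exact ⟨hPA, hstruct, by rw [← hFdef]; exact hirr, hexp_odd⟩

end Cfsg.Agent.Lib.Helper2
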