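import Mathlib

set_option autoImplicit false

namespace Cfsg.Agent.Lib.Helper2

/-- The alternating form on coded row vectors of length four over the prime field. -/
def sp42B (u v : ZMod 2 × ZMod 2 × ZMod 2 × ZMod 2) : ZMod 2 :=
  u.2.2.1 * v.1 + u.2.2.2 * v.2.1 - u.1 * v.2.2.1 - u.2.1 * v.2.2.2

/-- The coded symplectic bases. -/
def sp42S : Finset ((ZMod 2 × ZMod 2 × ZMod 2 × ZMod 2) × (ZMod 2 × ZMod 2 × ZMod 2 × ZMod 2) ×
    (ZMod 2 × ZMod 2 × ZMod 2 × ZMod 2) × (ZMod 2 × ZMod 2 × ZMod 2 × ZMod 2)) :=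
  Finset.univ.filter (fun t => sp42B t.1 t.2.1 = 0 ∧ sp42B t.1 t.2.2.1 = -1 ∧
    sp42B t.1 t.2.2.2 = 0 ∧ sp42B t.2.1 t.2.2.1 = 0 ∧ sp42B t.2.1 t.2.2.2 = -1 ∧
    sp42B t.2.2.1 t.2.2.2 = 0)

theorem sp42S_card : sp42S.card = 720 := by decide +kernel

/-- Coded row of a matrix. -/
def sp42Row {F : Type*} (e : F → ZMod 2) (A : Matrix (Fin 2 ⊕ Fin 2) (Fin 2 ⊕ Fin 2) F)
    (i : Fin 2 ⊕ Fin 2) : ZMod 2 × ZMod 2 × ZMod 2 × ZMod 2 :=
  (e (A i (Sum.inl 0)), e (A i (Sum.inl 1)), e (A i (Sum.inr 0)), e (A i (Sum.inr 1)))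

theorem sp42_entry {F : Type*} [CommRing F] (A : Matrix (Fin 2 ⊕ Fin 2) (Fin 2 ⊕ Fin 2) F)
    (i j : Fin 2 ⊕ Fin 2) :
    (A * Matrix.J (Fin 2) F * A.transpose) i j =
      A i (Sum.inr 0) * A j (Sum.inl 0) + A i (Sum.inr 1) * A j (Sum.inl 1)
        - A i (Sum.inl 0) * A j (Sum.inr 0) - A i (Sum.inl 1) * A j (Sum.inr 1) := by
  simp only [Matrix.mul_apply, Matrix.transpose_apply, Fintype.sum_sum_type, Fin.sum_univ_two,
    Matrix.J, Matrix.fromBlocks_apply₁₁, Matrix.fromBlocks_apply₁₂, Matrix.fromBlocks_apply₂₁,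
    Matrix.fromBlocks_apply₂₂, Matrix.zero_apply, Matrix.neg_apply, Matrix.one_apply_eq]
  simp
  ring

theorem sp42_gram {F : Type*} [CommRing F] (e : F →+* ZMod 2)
    (A : Matrix (Fin 2 ⊕ Fin 2) (Fin 2 ⊕ Fin 2) F)
    (hA : A * Matrix.J (Fin 2) F * A.transpose = Matrix.J (Fin 2) F) (i j : Fin 2 ⊕ Fin 2) :
    sp42B (sp42Row e A i) (sp42Row e A j) = e (Matrix.J (Fin 2) F i j) := by
  have h := congrFun (congrFun hA i) j
  rw [sp42_entry] at h
  rw [← h]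
  simp only [sp42B, sp42Row, map_sub, map_add, map_mul]

theorem sp42_J {F : Type*} [CommRing F] :
    Matrix.J (Fin 2) F (Sum.inl 0) (Sum.inl 1) = 0 ∧
    Matrix.J (Fin 2) F (Sum.inl 0) (Sum.inr 0) = -1 ∧
    Matrix.J (Fin 2) F (Sum.inl 0) (Sum.inr 1) = 0 ∧
    Matrix.J (Fin 2) F (Sum.inl 1) (Sum.inr 0) = 0 ∧
    Matrix.J (Fin 2) F (Sum.inl 1) (Sum.inr 1) = -1 ∧
    Matrix.J (Fin 2) F (Sum.inr 0) (Sum.inr 1) = 0 := by
  simp [Matrix.J]

theorem sp42_forall (P : Fin 2 ⊕ Fin 2 → Prop) (h1 : P (Sum.inl 0)) (h2 : P (Sum.inl 1))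
    (h3 : P (Sum.inr 0)) (h4 : P (Sum.inr 1)) : ∀ i, P i := by
  intro i
  rcases i with i | i
  · fin_cases i
    · exact h1
    · exact h2
  · fin_cases i
    · exact h3
    · exact h4

theorem sp42_card_le {F : Type*} [Field F] [Fintype F] (hF : Fintype.card F = 2) :
    Nat.card (Matrix.symplecticGroup (Fin 2) F) ≤ 720 := by
  classical
  obtain ⟨e, he⟩ : ∃ e : F →+* ZMod 2, Function.Injective e :=
    ⟨((ZMod.ringEquivOfPrime F Nat.prime_two hF).symm : F ≃+* ZMod 2).toRingHom,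
      (ZMod.ringEquivOfPrime F Nat.prime_two hF).symm.injective⟩
  have hgram : ∀ (A : Matrix.symplecticGroup (Fin 2) F) (i j : Fin 2 ⊕ Fin 2),
      sp42B (sp42Row e A.1 i) (sp42Row e A.1 j) = e (Matrix.J (Fin 2) F i j) :=
    fun A i j => sp42_gram e A.1 (SymplecticGroup.mem_iff.mp A.2) i j
  obtain ⟨hJ1, hJ2, hJ3, hJ4, hJ5, hJ6⟩ := sp42_J (F := F)
  have hmem : ∀ A : Matrix.symplecticGroup (Fin 2) F,
      (sp42Row e A.1 (Sum.inl 0), sp42Row e A.1 (Sum.inl 1), sp42Row e A.1 (Sum.inr 0),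
        sp42Row e A.1 (Sum.inr 1)) ∈ sp42S := by
    intro A
    rw [sp42S, Finset.mem_filter]
    refine ⟨Finset.mem_univ _, ?_, ?_, ?_, ?_, ?_, ?_⟩
    · have h := hgram A (Sum.inl 0) (Sum.inl 1)
      rw [hJ1, map_zero] at h
      exact h
    · have h := hgram A (Sum.inl 0) (Sum.inr 0)
      rw [hJ2, map_neg, map_one] at h
      exact h
    · have h := hgram A (Sum.inl 0) (Sum.inr 1)
      rw [hJ3, map_zero] at h
      exact h
    · have h := hgram A (Sum.inl 1) (Sum.inr 0)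
      rw [hJ4, map_zero] at h
      exact h
    · have h := hgram A (Sum.inl 1) (Sum.inr 1)
      rw [hJ5, map_neg, map_one] at h
      exact h
    · have h := hgram A (Sum.inr 0) (Sum.inr 1)
      rw [hJ6, map_zero] at h
      exact h
  obtain ⟨c, hc⟩ : ∃ c : Matrix.symplecticGroup (Fin 2) F → ↥sp42S,
      ∀ A, (c A).1 = (sp42Row e A.1 (Sum.inl 0), sp42Row e A.1 (Sum.inl 1),
        sp42Row e A.1 (Sum.inr 0), sp42Row e A.1 (Sum.inr 1)) :=
    ⟨fun A => ⟨_, hmem A⟩, fun A => rfl⟩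
  have hinj : Function.Injective c := by
    intro A A' h
    have h' : (c A).1 = (c A').1 := congrArg Subtype.val h
    rw [hc, hc] at h'
    simp only [sp42Row, Prod.mk.injEq] at h'
    obtain ⟨⟨h11, h12, h13, h14⟩, ⟨h21, h22, h23, h24⟩, ⟨h31, h32, h33, h34⟩,
      h41, h42, h43, h44⟩ := h'
    apply Subtype.ext
    apply Matrix.ext
    refine sp42_forall (fun i => ∀ j, A.1 i j = A'.1 i j) ?_ ?_ ?_ ?_
    · exact sp42_forall (fun j => A.1 (Sum.inl 0) j = A'.1 (Sum.inl 0) j)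
        (he h11) (he h12) (he h13) (he h14)
    · exact sp42_forall (fun j => A.1 (Sum.inl 1) j = A'.1 (Sum.inl 1) j)
        (he h21) (he h22) (he h23) (he h24)
    · exact sp42_forall (fun j => A.1 (Sum.inr 0) j = A'.1 (Sum.inr 0) j)
        (he h31) (he h32) (he h33) (he h34)
    · exact sp42_forall (fun j => A.1 (Sum.inr 1) j = A'.1 (Sum.inr 1) j)
        (he h41) (he h42) (he h43) (he h44)
  calc Nat.card (Matrix.symplecticGroup (Fin 2) F) ≤ Nat.card (↥sp42S) :=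
        Nat.card_le_card_of_injective c hinj
    _ = 720 := by rw [Nat.card_eq_fintype_card, Fintype.card_coe, sp42S_card]

end Cfsg.Agent.Lib.Helper2
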