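import Mathlib
import Cfsg.Prelude.Def_Classical
import Cfsg.Agent.Lib.Helper2.Sp42

set_option autoImplicit false

namespace Cfsg.Agent.Lib.Helper2

/-- Position of an index of the four-dimensional orthogonal space. -/
def o42Pos : Fin 2 ⊕ Fin 2 → Fin 4 :=
  Sum.elim ![0, 1] ![2, 3]

/-- Left multiplication action of `S₃` on two-by-two matrices, in coordinates. -/
def o42A (σ : Equiv.Perm (Fin 3)) : Matrix (Fin 2 ⊕ Fin 2) (Fin 2 ⊕ Fin 2) (ZMod 2) :=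
  fun i j => ((![![0,
      !![1, 0, 0, 0; 0, 1, 0, 0; 0, 0, 1, 0; 0, 0, 0, 1],
      !![1, 0, 0, 0; 0, 1, 0, 0; 0, 1, 1, 0; 1, 0, 0, 1]],
    ![!![1, 0, 0, 1; 0, 1, 1, 0; 0, 0, 1, 0; 0, 0, 0, 1],
      0,
      !![0, 0, 0, 1; 0, 0, 1, 0; 0, 1, 1, 0; 1, 0, 0, 1]],
    ![!![1, 0, 0, 1; 0, 1, 1, 0; 0, 1, 0, 0; 1, 0, 0, 0],
      !![0, 0, 0, 1; 0, 0, 1, 0; 0, 1, 0, 0; 1, 0, 0, 0],
      0]] : Fin 3 → Fin 3 → Matrix (Fin 4) (Fin 4) (ZMod 2)) (σ 0) (σ 1)) (o42Pos i) (o42Pos j)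

/-- Right multiplication action of `S₃` on two-by-two matrices, in coordinates. -/
def o42B (σ : Equiv.Perm (Fin 3)) : Matrix (Fin 2 ⊕ Fin 2) (Fin 2 ⊕ Fin 2) (ZMod 2) :=
  fun i j => ((![![0,
      !![1, 0, 0, 0; 0, 1, 0, 0; 0, 0, 1, 0; 0, 0, 0, 1],
      !![1, 0, 0, 0; 1, 1, 0, 0; 0, 0, 1, 1; 0, 0, 0, 1]],
    ![!![1, 1, 0, 0; 0, 1, 0, 0; 0, 0, 1, 0; 0, 0, 1, 1],
      0,
      !![0, 1, 0, 0; 1, 1, 0, 0; 0, 0, 1, 1; 0, 0, 1, 0]],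
    ![!![1, 1, 0, 0; 1, 0, 0, 0; 0, 0, 0, 1; 0, 0, 1, 1],
      !![0, 1, 0, 0; 1, 0, 0, 0; 0, 0, 0, 1; 0, 0, 1, 0],
      0]] : Fin 3 → Fin 3 → Matrix (Fin 4) (Fin 4) (ZMod 2)) (σ 0) (σ 1)) (o42Pos i) (o42Pos j)

/-- The transposition map on two-by-two matrices, in coordinates. -/
def o42G : Matrix (Fin 2 ⊕ Fin 2) (Fin 2 ⊕ Fin 2) (ZMod 2) :=
  fun i j => (!![1, 0, 0, 0; 0, 0, 0, 1; 0, 0, 1, 0; 0, 1, 0, 0] :
    Matrix (Fin 4) (Fin 4) (ZMod 2)) (o42Pos i) (o42Pos j)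

/-- A vector given by its four coordinates. -/
def o42Vec {R : Type*} (x1 x2 y1 y2 : R) : Fin 2 ⊕ Fin 2 → R :=
  Sum.elim ![x1, x2] ![y1, y2]

theorem o42A_mul : ∀ σ τ : Equiv.Perm (Fin 3), o42A (σ * τ) = o42A σ * o42A τ := by
  decide +kernel

theorem o42A_one : o42A 1 = 1 := by decide +kernel

theorem o42B_mul : ∀ σ τ : Equiv.Perm (Fin 3), o42B (σ * τ) = o42B σ * o42B τ := by
  decide +kernel

theorem o42B_one : o42B 1 = 1 := by decide +kernel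

theorem o42A_isom' : ∀ (σ : Equiv.Perm (Fin 3)) (x1 x2 y1 y2 : ZMod 2),
    Cfsg.quadFormPlus 2 (ZMod 2) (Matrix.mulVec (o42A σ) (o42Vec x1 x2 y1 y2)) =
      Cfsg.quadFormPlus 2 (ZMod 2) (o42Vec x1 x2 y1 y2) := by
  decide +kernel

theorem o42B_isom' : ∀ (σ : Equiv.Perm (Fin 3)) (x1 x2 y1 y2 : ZMod 2),
    Cfsg.quadFormPlus 2 (ZMod 2) (Matrix.mulVec (o42B σ) (o42Vec x1 x2 y1 y2)) =
      Cfsg.quadFormPlus 2 (ZMod 2) (o42Vec x1 x2 y1 y2) := by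
  decide +kernel

theorem o42G_isom' : ∀ (x1 x2 y1 y2 : ZMod 2),
    Cfsg.quadFormPlus 2 (ZMod 2) (Matrix.mulVec o42G (o42Vec x1 x2 y1 y2)) =
      Cfsg.quadFormPlus 2 (ZMod 2) (o42Vec x1 x2 y1 y2) := by
  decide +kernel

theorem o42_comm : ∀ σ τ : Equiv.Perm (Fin 3), o42A σ * o42B τ = o42B τ * o42A σ := by
  decide +kernel

theorem o42_inj : ∀ σ τ : Equiv.Perm (Fin 3), o42A σ * o42B τ = 1 → σ = 1 ∧ τ = 1 := by
  decide +kernel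

theorem o42G_sq : o42G * o42G = 1 := by decide +kernel

theorem o42_conj : ∀ σ : Equiv.Perm (Fin 3), o42G * o42A σ * o42G = o42B σ := by
  decide +kernel

theorem o42_ne : ∀ σ τ : Equiv.Perm (Fin 3), o42A σ * o42B τ ≠ o42G := by
  decide +kernel

theorem o42_vec_eta {R : Type*} (u : Fin 2 ⊕ Fin 2 → R) :
    u = o42Vec (u (Sum.inl 0)) (u (Sum.inl 1)) (u (Sum.inr 0)) (u (Sum.inr 1)) := by
  funext i
  revert i
  exact sp42_forall _ rfl rfl rfl rfl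

theorem o42A_isom (σ : Equiv.Perm (Fin 3)) (u : Fin 2 ⊕ Fin 2 → ZMod 2) :
    Cfsg.quadFormPlus 2 (ZMod 2) (Matrix.mulVec (o42A σ) u) = Cfsg.quadFormPlus 2 (ZMod 2) u := by
  have h := o42A_isom' σ (u (Sum.inl 0)) (u (Sum.inl 1)) (u (Sum.inr 0)) (u (Sum.inr 1))
  rw [← o42_vec_eta u] at h
  exact h

theorem o42B_isom (σ : Equiv.Perm (Fin 3)) (u : Fin 2 ⊕ Fin 2 → ZMod 2) :
    Cfsg.quadFormPlus 2 (ZMod 2) (Matrix.mulVec (o42B σ) u) = Cfsg.quadFormPlus 2 (ZMod 2) u := by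
  have h := o42B_isom' σ (u (Sum.inl 0)) (u (Sum.inl 1)) (u (Sum.inr 0)) (u (Sum.inr 1))
  rw [← o42_vec_eta u] at h
  exact h

theorem o42G_isom (u : Fin 2 ⊕ Fin 2 → ZMod 2) :
    Cfsg.quadFormPlus 2 (ZMod 2) (Matrix.mulVec o42G u) = Cfsg.quadFormPlus 2 (ZMod 2) u := by
  have h := o42G_isom' (u (Sum.inl 0)) (u (Sum.inl 1)) (u (Sum.inr 0)) (u (Sum.inr 1))
  rw [← o42_vec_eta u] at h
  exact h

theorem o42_Q_eval {R : Type*} [Field R] (v : Fin 2 ⊕ Fin 2 → R) :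
    Cfsg.quadFormPlus 2 R v =
      v (Sum.inl 0) * v (Sum.inr 0) + v (Sum.inl 1) * v (Sum.inr 1) := by
  unfold Cfsg.quadFormPlus
  exact Fin.sum_univ_two _

theorem o42_mulVec {R : Type*} [CommRing R]
    (B : Matrix (Fin 2 ⊕ Fin 2) (Fin 2 ⊕ Fin 2) R) (x1 x2 y1 y2 : R) (i : Fin 2 ⊕ Fin 2) :
    Matrix.mulVec B (o42Vec x1 x2 y1 y2) i =
      (B i (Sum.inl 0) * x1 + B i (Sum.inl 1) * x2) +
        (B i (Sum.inr 0) * y1 + B i (Sum.inr 1) * y2) := by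
  show ∑ j, B i j * o42Vec x1 x2 y1 y2 j = _
  rw [Fintype.sum_sum_type, Fin.sum_univ_two, Fin.sum_univ_two]
  rfl

theorem o42_code (B : Matrix (Fin 2 ⊕ Fin 2) (Fin 2 ⊕ Fin 2) (ZMod 2))
    (hB : ∀ u, Cfsg.quadFormPlus 2 (ZMod 2) (Matrix.mulVec B u) = Cfsg.quadFormPlus 2 (ZMod 2) u)
    (x1 x2 y1 y2 : ZMod 2) :
    ((B (Sum.inl 0) (Sum.inl 0) * x1 + B (Sum.inl 0) (Sum.inl 1) * x2) +
        (B (Sum.inl 0) (Sum.inr 0) * y1 + B (Sum.inl 0) (Sum.inr 1) * y2)) *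
      ((B (Sum.inr 0) (Sum.inl 0) * x1 + B (Sum.inr 0) (Sum.inl 1) * x2) +
        (B (Sum.inr 0) (Sum.inr 0) * y1 + B (Sum.inr 0) (Sum.inr 1) * y2)) +
      ((B (Sum.inl 1) (Sum.inl 0) * x1 + B (Sum.inl 1) (Sum.inl 1) * x2) +
        (B (Sum.inl 1) (Sum.inr 0) * y1 + B (Sum.inl 1) (Sum.inr 1) * y2)) *
      ((B (Sum.inr 1) (Sum.inl 0) * x1 + B (Sum.inr 1) (Sum.inl 1) * x2) +
        (B (Sum.inr 1) (Sum.inr 0) * y1 + B (Sum.inr 1) (Sum.inr 1) * y2)) =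
      x1 * y1 + x2 * y2 := by
  have h := hB (o42Vec x1 x2 y1 y2)
  rw [o42_Q_eval, o42_Q_eval, o42_mulVec, o42_mulVec, o42_mulVec, o42_mulVec] at h
  exact h

/-- The quadratic form on coded column vectors. -/
def o42Q4 (c : ZMod 2 × ZMod 2 × ZMod 2 × ZMod 2) : ZMod 2 := c.1 * c.2.2.1 + c.2.1 * c.2.2.2

/-- Sum of coded column vectors. -/
def o42Add (c d : ZMod 2 × ZMod 2 × ZMod 2 × ZMod 2) : ZMod 2 × ZMod 2 × ZMod 2 × ZMod 2 :=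
  (c.1 + d.1, c.2.1 + d.2.1, c.2.2.1 + d.2.2.1, c.2.2.2 + d.2.2.2)

/-- The coded isometries (by columns). -/
def o42S : Finset ((ZMod 2 × ZMod 2 × ZMod 2 × ZMod 2) × (ZMod 2 × ZMod 2 × ZMod 2 × ZMod 2) ×
    (ZMod 2 × ZMod 2 × ZMod 2 × ZMod 2) × (ZMod 2 × ZMod 2 × ZMod 2 × ZMod 2)) :=
  Finset.univ.filter (fun t => o42Q4 t.1 = 0 ∧ o42Q4 t.2.1 = 0 ∧ o42Q4 t.2.2.1 = 0 ∧
    o42Q4 t.2.2.2 = 0 ∧ o42Q4 (o42Add t.1 t.2.1) = 0 ∧ o42Q4 (o42Add t.1 t.2.2.1) = 1 ∧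
    o42Q4 (o42Add t.1 t.2.2.2) = 0 ∧ o42Q4 (o42Add t.2.1 t.2.2.1) = 0 ∧
    o42Q4 (o42Add t.2.1 t.2.2.2) = 1 ∧ o42Q4 (o42Add t.2.2.1 t.2.2.2) = 0)

theorem o42S_card : o42S.card = 72 := by decide +kernel

/-- Coded column of a matrix. -/
def o42Col (B : Matrix (Fin 2 ⊕ Fin 2) (Fin 2 ⊕ Fin 2) (ZMod 2)) (j : Fin 2 ⊕ Fin 2) :
    ZMod 2 × ZMod 2 × ZMod 2 × ZMod 2 :=
  (B (Sum.inl 0) j, B (Sum.inl 1) j, B (Sum.inr 0) j, B (Sum.inr 1) j)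

theorem o42_card_le :
    Finite ↥(Cfsg.isometryGroup (ZMod 2) (Cfsg.quadFormPlus 2 (ZMod 2))) ∧
      Nat.card ↥(Cfsg.isometryGroup (ZMod 2) (Cfsg.quadFormPlus 2 (ZMod 2))) ≤ 72 := by
  obtain ⟨mat, hmatQ, hmatI⟩ :
      ∃ mat : ↥(Cfsg.isometryGroup (ZMod 2) (Cfsg.quadFormPlus 2 (ZMod 2))) →
        Matrix (Fin 2 ⊕ Fin 2) (Fin 2 ⊕ Fin 2) (ZMod 2),
      (∀ A u, Cfsg.quadFormPlus 2 (ZMod 2) (Matrix.mulVec (mat A) u) =
        Cfsg.quadFormPlus 2 (ZMod 2) u) ∧ Function.Injective mat := by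
    refine ⟨fun A => A.1.1, ?_, ?_⟩
    · intro A u
      exact A.2 u u
    · intro A A' h
      exact Subtype.ext (Units.ext h)
  have hmem : ∀ A, (o42Col (mat A) (Sum.inl 0), o42Col (mat A) (Sum.inl 1),
      o42Col (mat A) (Sum.inr 0), o42Col (mat A) (Sum.inr 1)) ∈ o42S := by
    intro A
    rw [o42S, Finset.mem_filter]
    refine ⟨Finset.mem_univ _, ?_, ?_, ?_, ?_, ?_, ?_, ?_, ?_, ?_, ?_⟩
    · have h := o42_code (mat A) (hmatQ A) 1 0 0 0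
      simp only [o42Q4, o42Col]
      linear_combination h
    · have h := o42_code (mat A) (hmatQ A) 0 1 0 0
      simp only [o42Q4, o42Col]
      linear_combination h
    · have h := o42_code (mat A) (hmatQ A) 0 0 1 0
      simp only [o42Q4, o42Col]
      linear_combination h
    · have h := o42_code (mat A) (hmatQ A) 0 0 0 1
      simp only [o42Q4, o42Col]
      linear_combination h
    · have h := o42_code (mat A) (hmatQ A) 1 1 0 0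
      simp only [o42Q4, o42Add, o42Col]
      linear_combination h
    · have h := o42_code (mat A) (hmatQ A) 1 0 1 0
      simp only [o42Q4, o42Add, o42Col]
      linear_combination h
    · have h := o42_code (mat A) (hmatQ A) 1 0 0 1
      simp only [o42Q4, o42Add, o42Col]
      linear_combination h
    · have h := o42_code (mat A) (hmatQ A) 0 1 1 0
      simp only [o42Q4, o42Add, o42Col]
      linear_combination h
    · have h := o42_code (mat A) (hmatQ A) 0 1 0 1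
      simp only [o42Q4, o42Add, o42Col]
      linear_combination h
    · have h := o42_code (mat A) (hmatQ A) 0 0 1 1
      simp only [o42Q4, o42Add, o42Col]
      linear_combination h
  obtain ⟨c, hc⟩ : ∃ c : ↥(Cfsg.isometryGroup (ZMod 2) (Cfsg.quadFormPlus 2 (ZMod 2))) → ↥o42S,
      ∀ A, (c A).1 = (o42Col (mat A) (Sum.inl 0), o42Col (mat A) (Sum.inl 1),
        o42Col (mat A) (Sum.inr 0), o42Col (mat A) (Sum.inr 1)) :=
    ⟨fun A => ⟨_, hmem A⟩, fun A => rfl⟩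
  have hinj : Function.Injective c := by
    intro A A' h
    have h' : (c A).1 = (c A').1 := congrArg Subtype.val h
    rw [hc, hc] at h'
    simp only [o42Col, Prod.mk.injEq] at h'
    obtain ⟨⟨h00, h10, h20, h30⟩, ⟨h01, h11, h21, h31⟩, ⟨h02, h12, h22, h32⟩,
      h03, h13, h23, h33⟩ := h'
    apply hmatI
    apply Matrix.ext
    refine sp42_forall (fun i => ∀ j, mat A i j = mat A' i j) ?_ ?_ ?_ ?_
    · exact sp42_forall (fun j => mat A (Sum.inl 0) j = mat A' (Sum.inl 0) j) h00 h01 h02 h03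
    · exact sp42_forall (fun j => mat A (Sum.inl 1) j = mat A' (Sum.inl 1) j) h10 h11 h12 h13
    · exact sp42_forall (fun j => mat A (Sum.inr 0) j = mat A' (Sum.inr 0) j) h20 h21 h22 h23
    · exact sp42_forall (fun j => mat A (Sum.inr 1) j = mat A' (Sum.inr 1) j) h30 h31 h32 h33
  have hfin : Finite ↥(Cfsg.isometryGroup (ZMod 2) (Cfsg.quadFormPlus 2 (ZMod 2))) :=
    Finite.of_injective c hinj
  refine ⟨hfin, ?_⟩
  calc Nat.card ↥(Cfsg.isometryGroup (ZMod 2) (Cfsg.quadFormPlus 2 (ZMod 2)))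
      ≤ Nat.card (↥o42S) := Nat.card_le_card_of_injective c hinj
    _ = 72 := by rw [Nat.card_eq_fintype_card, Fintype.card_coe, o42S_card]

end Cfsg.Agent.Lib.Helper2
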