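import Mathlib

set_option autoImplicit false

namespace Cfsg.Agent.Lib.Helper2

/-- Bit `n` of `m`, as a Boolean. -/
def o6tb (m n : ℕ) : Bool := Nat.beq (Nat.land (Nat.shiftRight m n) 1) 1

/-- Equality of Booleans. -/
def o6beq : Bool → Bool → Bool
  | true, b => b
  | false, b => !b

/-- Bit table of the hyperbolic quadratic form on codes of vectors of the six-dimensional space
over the prime field. -/
def o6QT : ℕ := 10825627592855169536

/-- All codes of vectors. -/
def o6All : List ℕ := [0, 1, 2, 3, 4, 5, 6, 7, 8, 9, 10, 11, 12, 13, 14, 15, 16, 17, 18, 19, 20, 21, 22, 23, 24, 25, 26, 27, 28, 29, 30, 31, 32, 33, 34, 35, 36, 37, 38, 39, 40, 41, 42, 43, 44, 45, 46, 47, 48, 49, 50, 51, 52, 53, 54, 55, 56, 57, 58, 59, 60, 61, 62, 63]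

/-- Codes of the basis vectors, in the order of enumeration. -/
def o6Bl : List ℕ := [1, 8, 2, 16, 4, 32]

/-- Compatibility of a candidate image with the earlier images. -/
def o6okP (v b : ℕ) : List (ℕ × ℕ) → Bool
  | [] => true
  | wb :: r => (o6beq (o6tb o6QT (Nat.xor v wb.1)) (o6tb o6QT (Nat.xor b wb.2))) && o6okP v b r

/-- Admissibility of a candidate image `v` of the basis vector coded by `b`. -/
def o6ok (p : List (ℕ × ℕ)) (b v : ℕ) : Bool :=
  (o6beq (o6tb o6QT v) (o6tb o6QT b)) && o6okP v b p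

/-- Enumeration of all admissible tuples of images of the remaining basis vectors. -/
def o6enum : List ℕ → List (ℕ × ℕ) → List (List (ℕ × ℕ))
  | [], p => [p]
  | b :: bs, p => o6All.flatMap (fun v => cond (o6ok p b v) (o6enum bs ((v, b) :: p)) [])

/-- The number of admissible tuples. -/
def o6cnt : List ℕ → List (ℕ × ℕ) → ℕ
  | [], _ => 1
  | b :: bs, p => (o6All.map (fun v => cond (o6ok p b v) (o6cnt bs ((v, b) :: p)) 0)).sum

end Cfsg.Agent.Lib.Helper2
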