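import Mathlib
import Cfsg.Agent.Lib.Helper2.O6Def

set_option autoImplicit false

namespace Cfsg.Agent.Lib.Helper2

theorem o6cnt_eq : o6cnt [8, 2, 16, 4, 32] [(1, 1)] = 1152 := by
  decide +kernel

end Cfsg.Agent.Lib.Helper2
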