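import Mathlib
import Cfsg.Prelude.Def_Classical
import Cfsg.Agent.Lib.Helper2.O6Def

set_option autoImplicit false

namespace Cfsg.Agent.Lib.Helper2

/-- Position of a coordinate of the six-dimensional hyperbolic space. -/
def o6Pos : Fin 3 ⊕ Fin 3 → ℕ := Sum.elim (fun i => i.val) (fun i => i.val + 3)

/-- The matrix over the prime field coded by the bits of a natural number. -/
def o6Tab (N : ℕ) : Matrix (Fin 3 ⊕ Fin 3) (Fin 3 ⊕ Fin 3) (ZMod 2) :=
  fun row col => if N.testBit (6 * o6Pos row + o6Pos col) then 1 else 0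

/-- Codes of seven reflections satisfying the Coxeter relations of type A7. -/
def o6GL : List ℕ := [34628452488, 34529625627, 34637009064, 4565631105, 34641272568, 34395407361, 34632648408]

def o6M (k : ℕ) : Matrix (Fin 3 ⊕ Fin 3) (Fin 3 ⊕ Fin 3) (ZMod 2) := o6Tab (o6GL.getD k 0)

/-- A vector given by its six coordinates. -/
def o6Vec {R : Type*} (x0 x1 x2 y0 y1 y2 : R) : Fin 3 ⊕ Fin 3 → R :=
  Sum.elim ![x0, x1, x2] ![y0, y1, y2]

/-- The code of six coordinates. -/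
def o6C6 (x0 x1 x2 y0 y1 y2 : ZMod 2) : ℕ :=
  x0.val + 2 * x1.val + 4 * x2.val + 8 * y0.val + 16 * y1.val + 32 * y2.val

/-- The code of a vector. -/
def o6Code (u : Fin 3 ⊕ Fin 3 → ZMod 2) : ℕ :=
  o6C6 (u (Sum.inl 0)) (u (Sum.inl 1)) (u (Sum.inl 2)) (u (Sum.inr 0)) (u (Sum.inr 1))
    (u (Sum.inr 2))

/-- The coordinate at a position of the enumeration order. -/
def o6Idx : ℕ → Fin 3 ⊕ Fin 3
  | 0 => Sum.inl 0
  | 1 => Sum.inr 0
  | 2 => Sum.inl 1
  | 3 => Sum.inr 1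
  | 4 => Sum.inl 2
  | _ => Sum.inr 2

theorem o6M_sq : ∀ i : Fin 7, o6M i.val * o6M i.val = 1 := by
  decide +kernel

theorem o6M_braid : ∀ i j : Fin 7, ((j : ℕ) + 1 = i ∨ (i : ℕ) + 1 = j) →
    o6M i.val * o6M j.val * o6M i.val = o6M j.val * o6M i.val * o6M j.val := by
  decide +kernel

theorem o6M_comm : ∀ i j : Fin 7, i ≠ j → ¬((j : ℕ) + 1 = i ∨ (i : ℕ) + 1 = j) →
    o6M i.val * o6M j.val = o6M j.val * o6M i.val := by
  decide +kernel

theorem o6M_ne : o6M 0 * o6M 1 ≠ 1 := by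
  decide +kernel

theorem o6M_isom' : ∀ (i : Fin 7) (x0 x1 x2 y0 y1 y2 : ZMod 2),
    Cfsg.quadFormPlus 3 (ZMod 2) (Matrix.mulVec (o6M i.val) (o6Vec x0 x1 x2 y0 y1 y2)) =
      Cfsg.quadFormPlus 3 (ZMod 2) (o6Vec x0 x1 x2 y0 y1 y2) := by
  decide +kernel

theorem o6_L1' : ∀ x0 x1 x2 y0 y1 y2 : ZMod 2,
    o6tb o6QT (o6C6 x0 x1 x2 y0 y1 y2) = true ↔ x0 * y0 + x1 * y1 + x2 * y2 = 1 := by
  decide +kernel

theorem o6_L2' : ∀ x0 x1 x2 y0 y1 y2 z0 z1 z2 w0 w1 w2 : ZMod 2,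
    o6C6 (x0 + z0) (x1 + z1) (x2 + z2) (y0 + w0) (y1 + w1) (y2 + w2) =
      Nat.xor (o6C6 x0 x1 x2 y0 y1 y2) (o6C6 z0 z1 z2 w0 w1 w2) := by
  decide +kernel

theorem o6_L3 : ∀ k : Fin 6,
    o6Code (Pi.single (o6Idx k.val) (1 : ZMod 2)) = o6Bl.getD k.val 0 := by
  decide +kernel

theorem o6_L4' : ∀ x0 x1 x2 y0 y1 y2 : ZMod 2, o6C6 x0 x1 x2 y0 y1 y2 ∈ o6All := by
  decide +kernel

theorem o6_L5' : ∀ x0 x1 x2 y0 y1 y2 z0 z1 z2 w0 w1 w2 : ZMod 2,
    o6C6 x0 x1 x2 y0 y1 y2 = o6C6 z0 z1 z2 w0 w1 w2 →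
      x0 = z0 ∧ x1 = z1 ∧ x2 = z2 ∧ y0 = w0 ∧ y1 = w1 ∧ y2 = w2 := by
  decide +kernel

theorem o6_L6 : ∀ x : Fin 3 ⊕ Fin 3, ∃ k : Fin 6, o6Idx k.val = x := by
  decide +kernel

theorem o6_Bl_eq : (List.range' 0 6).map (fun j => o6Bl.getD j 0) = o6Bl := by
  decide +kernel

theorem o6_rel : ∀ i j : Fin 7, (o6M i.val * o6M j.val) ^ ((CoxeterMatrix.A 7) i j) = 1 := by
  intro i j
  have hv : (CoxeterMatrix.A 7) i j = if i = j then 1
      else (if (j : ℕ) + 1 = i ∨ (i : ℕ) + 1 = j then 3 else 2) := rfl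
  rw [hv]
  by_cases hij : i = j
  · subst hij
    rw [if_pos rfl, pow_one]
    exact o6M_sq i
  · rw [if_neg hij]
    have ha := o6M_sq i
    have hb := o6M_sq j
    by_cases hadj : (j : ℕ) + 1 = i ∨ (i : ℕ) + 1 = j
    · rw [if_pos hadj]
      have hab := o6M_braid i j hadj
      calc (o6M i.val * o6M j.val) ^ 3
          = (o6M i.val * o6M j.val * o6M i.val) * (o6M j.val * o6M i.val * o6M j.val) := by
            rw [pow_three']
            simp only [mul_assoc]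
        _ = (o6M j.val * o6M i.val * o6M j.val) * (o6M j.val * o6M i.val * o6M j.val) := by
            rw [hab]
        _ = o6M j.val * (o6M i.val * (o6M j.val * o6M j.val) * o6M i.val) * o6M j.val := by
            simp only [mul_assoc]
        _ = 1 := by rw [hb, mul_one, ha, mul_one, hb]
    · rw [if_neg hadj]
      have hab := o6M_comm i j hij hadj
      calc (o6M i.val * o6M j.val) ^ 2
          = o6M i.val * (o6M j.val * o6M i.val) * o6M j.val := by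
            rw [sq]
            simp only [mul_assoc]
        _ = o6M i.val * (o6M i.val * o6M j.val) * o6M j.val := by rw [← hab]
        _ = (o6M i.val * o6M i.val) * (o6M j.val * o6M j.val) := by simp only [mul_assoc]
        _ = 1 := by rw [ha, hb, mul_one]

end Cfsg.Agent.Lib.Helper2
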