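import Mathlib
import Cfsg.Prelude.Def_Classical
import Cfsg.Agent.Lib.Helper2.O6Def
import Cfsg.Agent.Lib.Helper2.O6Gen

set_option autoImplicit false

namespace Cfsg.Agent.Lib.Helper2

/-- Codes of isometries moving a given singular vector to the first basis vector. -/
def o6HL : List ℕ := [34630287489, 34630287489, 34766602307, 34634483409, 51682355326, 34638844065, 34775169123, 34643107569, 34628452488, 34630287489, 34632648408, 34630287489, 34637009064, 34630287489, 34641272568, 34630287489, 34528051281, 34395932355, 34630287489, 34630287489, 34536675441, 34404499171, 34630287489, 34630287489, 34394097354, 34630287489, 34630287489, 34534606344, 34402664170, 34630287489, 34630287489, 34543203880, 21610127742, 4566732933, 4703056199, 4570994645, 34630287489, 34630287489, 34630287489, 34630287489, 4564897932, 34630287489, 4569159644, 34630287489, 34630287489, 66063888766, 34630287489, 49156481351, 4464562517, 4332386247, 34630287489, 34630287489, 34630287489, 34630287489, 48919968844, 66504554487, 4330551246, 34630287489,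 34630287489, 4471092748, 34630287489, 48917987669, 66502719486, 34630287489]

/-- Codes of their inverses. -/
def o6KL : List ℕ := [34630287489, 34630287489, 34500264130, 34634483409, 9265468170, 34638844065, 35045757154, 34643107569, 34628452488, 34630287489, 34632648408, 34630287489, 34637009064, 34630287489, 34641272568, 34630287489, 34416378370, 34819032081, 34630287489, 34630287489, 34425002530, 35364525105, 34630287489, 34630287489, 34817197080, 34630287489, 34630287489, 34410349659, 35362690104, 34630287489, 34630287489, 34955779163, 66173567754, 48597434529, 66184151266, 65781501681, 34630287489, 34630287489, 34630287489, 34630287489, 48595599528, 34630287489, 65779666680, 34630287489, 34630287489, 66183951149, 34630287489, 66177495237, 65563396642, 66502919217, 34630287489, 34630287489, 34630287489, 34630287489, 48919968844, 66504554487, 66501084216, 34630287489, 34630287489, 48914369627, 34630287489, 65556740613, 66502719486, 34630287489]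

def o6H (v : ℕ) : Matrix (Fin 3 ⊕ Fin 3) (Fin 3 ⊕ Fin 3) (ZMod 2) := o6Tab (o6HL.getD v 0)

def o6K (v : ℕ) : Matrix (Fin 3 ⊕ Fin 3) (Fin 3 ⊕ Fin 3) (ZMod 2) := o6Tab (o6KL.getD v 0)

/-- The codes of the non-zero singular vectors. -/
def o6S1 : List ℕ := o6All.filter (fun v => decide (v ≠ 0 ∧ o6tb o6QT v = false))

theorem o6_H1 : ∀ v : Fin 64, o6K v.val * o6H v.val = 1 := by
  decide +kernel

theorem o6_H2 : ∀ (v : Fin 64) (x0 x1 x2 y0 y1 y2 : ZMod 2),
    Cfsg.quadFormPlus 3 (ZMod 2) (Matrix.mulVec (o6H v.val) (o6Vec x0 x1 x2 y0 y1 y2)) =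
      Cfsg.quadFormPlus 3 (ZMod 2) (o6Vec x0 x1 x2 y0 y1 y2) := by
  decide +kernel

theorem o6_H3 : ∀ x0 x1 x2 y0 y1 y2 : ZMod 2, o6C6 x0 x1 x2 y0 y1 y2 ≠ 0 →
    o6tb o6QT (o6C6 x0 x1 x2 y0 y1 y2) = false →
    o6Code (Matrix.mulVec (o6H (o6C6 x0 x1 x2 y0 y1 y2)) (o6Vec x0 x1 x2 y0 y1 y2)) = 1 := by
  decide +kernel

theorem o6_H5 : o6S1.length = 35 := by
  decide +kernel

theorem o6_H6 : ∀ x0 x1 x2 y0 y1 y2 : ZMod 2, o6C6 x0 x1 x2 y0 y1 y2 < 64 := by
  decide +kernel

theorem o6_H7 : o6tb o6QT (o6Bl.getD 0 0) = false ∧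
    o6tb o6QT (o6Bl.getD 1 0) ≠ o6tb o6QT (Nat.xor (o6Bl.getD 1 0) (o6Bl.getD 0 0)) := by
  decide +kernel

theorem o6_Bl_eq1 : (List.range' 1 5).map (fun j => o6Bl.getD j 0) = [8, 2, 16, 4, 32] := by
  decide +kernel

end Cfsg.Agent.Lib.Helper2
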