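import Mathlib
import Cfsg.Prelude.Def_Classical
import Cfsg.Agent.Lib.Helper2.O6Def
import Cfsg.Agent.Lib.Helper2.O6Count
import Cfsg.Agent.Lib.Helper2.O6Gen
import Cfsg.Agent.Lib.Helper2.O6Tab

set_option autoImplicit false

namespace Cfsg.Agent.Lib.Helper2

theorem o6beq_self (x : Bool) : o6beq x x = true := by
  cases x <;> rfl

theorem o6_bool_eq (a b : Bool) (h : a = true ↔ b = true) : a = b := by
  cases a <;> cases b <;> simp_all

theorem o6okP_of (v b : ℕ) : ∀ p : List (ℕ × ℕ),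
    (∀ wb ∈ p, o6tb o6QT (Nat.xor v wb.1) = o6tb o6QT (Nat.xor b wb.2)) →
    o6okP v b p = true := by
  intro p
  induction p with
  | nil =>
    intro _
    rfl
  | cons wb r ih =>
    intro h
    have h1 := h wb (List.mem_cons.mpr (Or.inl rfl))
    have h2 := ih (fun x hx => h x (List.mem_cons.mpr (Or.inr hx)))
    show (o6beq (o6tb o6QT (Nat.xor v wb.1)) (o6tb o6QT (Nat.xor b wb.2)) && o6okP v b r) = true
    rw [h1, h2, o6beq_self, Bool.and_self]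

theorem o6ok_of (p : List (ℕ × ℕ)) (b v : ℕ) (h1 : o6tb o6QT v = o6tb o6QT b)
    (h2 : ∀ wb ∈ p, o6tb o6QT (Nat.xor v wb.1) = o6tb o6QT (Nat.xor b wb.2)) :
    o6ok p b v = true := by
  have h3 := o6okP_of v b p h2
  show (o6beq (o6tb o6QT v) (o6tb o6QT b) && o6okP v b p) = true
  rw [h1, h3, o6beq_self, Bool.and_self]

theorem o6_length_enum : ∀ (bs : List ℕ) (p : List (ℕ × ℕ)),
    (o6enum bs p).length = o6cnt bs p := by
  intro bs
  induction bs with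
  | nil =>
    intro p
    rfl
  | cons b bs ih =>
    intro p
    show (o6All.flatMap (fun v => cond (o6ok p b v) (o6enum bs ((v, b) :: p)) [])).length =
      (o6All.map (fun v => cond (o6ok p b v) (o6cnt bs ((v, b) :: p)) 0)).sum
    rw [List.length_flatMap]
    congr 1
    apply List.map_congr_left
    intro v _
    show (cond (o6ok p b v) (o6enum bs ((v, b) :: p)) []).length =
      cond (o6ok p b v) (o6cnt bs ((v, b) :: p)) 0
    cases o6ok p b v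
    · rfl
    · exact ih _

/-- The images chosen so far, most recent first. -/
def o6pk (a : ℕ → ℕ) (k : ℕ) : List (ℕ × ℕ) :=
  ((List.range k).map (fun j => (a j, o6Bl.getD j 0))).reverse

theorem o6pk_succ (a : ℕ → ℕ) (k : ℕ) :
    o6pk a (k + 1) = (a k, o6Bl.getD k 0) :: o6pk a k := by
  simp [o6pk, List.range_succ]

theorem o6_mem_enum (a : ℕ → ℕ) : ∀ (n k : ℕ),
    (∀ j, k ≤ j → j < k + n → a j ∈ o6All ∧ o6ok (o6pk a j) (o6Bl.getD j 0) (a j) = true) →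
    o6pk a (k + n) ∈ o6enum ((List.range' k n).map (fun j => o6Bl.getD j 0)) (o6pk a k) := by
  intro n
  induction n with
  | zero =>
    intro k _
    show o6pk a (k + 0) ∈ [o6pk a k]
    rw [Nat.add_zero]
    exact List.mem_singleton.mpr rfl
  | succ n ih =>
    intro k h
    obtain ⟨hm, hok⟩ := h k (le_refl k) (by omega)
    have hrec := ih (k + 1) (fun j hj1 hj2 => h j (by omega) (by omega))
    have hk1 : k + (n + 1) = k + 1 + n := by omega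
    show o6pk a (k + (n + 1)) ∈ o6All.flatMap (fun v =>
      cond (o6ok (o6pk a k) (o6Bl.getD k 0) v)
        (o6enum ((List.range' (k + 1) n).map (fun j => o6Bl.getD j 0))
          ((v, o6Bl.getD k 0) :: o6pk a k)) [])
    rw [List.mem_flatMap]
    refine ⟨a k, hm, ?_⟩
    show o6pk a (k + (n + 1)) ∈ cond (o6ok (o6pk a k) (o6Bl.getD k 0) (a k))
        (o6enum ((List.range' (k + 1) n).map (fun j => o6Bl.getD j 0))
          ((a k, o6Bl.getD k 0) :: o6pk a k)) []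
    rw [hok, ← o6pk_succ a k, hk1]
    exact hrec

theorem o6_Q_eval {R : Type*} [Field R] (v : Fin 3 ⊕ Fin 3 → R) :
    Cfsg.quadFormPlus 3 R v =
      v (Sum.inl 0) * v (Sum.inr 0) + v (Sum.inl 1) * v (Sum.inr 1) +
        v (Sum.inl 2) * v (Sum.inr 2) := by
  unfold Cfsg.quadFormPlus
  exact Fin.sum_univ_three _

theorem o6_Q_map {K L : Type*} [Field K] [Field L] (f : K →+* L) (w : Fin 3 ⊕ Fin 3 → K) :
    Cfsg.quadFormPlus 3 L (fun i => f (w i)) = f (Cfsg.quadFormPlus 3 K w) := by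
  simp only [Cfsg.quadFormPlus, map_sum, map_mul]

theorem o6_vec_eta {R : Type*} (u : Fin 3 ⊕ Fin 3 → R) :
    u = o6Vec (u (Sum.inl 0)) (u (Sum.inl 1)) (u (Sum.inl 2)) (u (Sum.inr 0)) (u (Sum.inr 1))
      (u (Sum.inr 2)) := by
  funext i
  rcases i with i | i
  · fin_cases i <;> rfl
  · fin_cases i <;> rfl

theorem o6M_isom (i : Fin 7) (u : Fin 3 ⊕ Fin 3 → ZMod 2) :
    Cfsg.quadFormPlus 3 (ZMod 2) (Matrix.mulVec (o6M i.val) u) =
      Cfsg.quadFormPlus 3 (ZMod 2) u := by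
  have h := o6M_isom' i (u (Sum.inl 0)) (u (Sum.inl 1)) (u (Sum.inl 2)) (u (Sum.inr 0))
    (u (Sum.inr 1)) (u (Sum.inr 2))
  rw [← o6_vec_eta u] at h
  exact h

theorem o6_isom_map {F : Type*} [Field F] (f : ZMod 2 →+* F) (g : F → ZMod 2)
    (hfg : ∀ x, f (g x) = x) (k : Fin 7) (u : Fin 3 ⊕ Fin 3 → F) :
    Cfsg.quadFormPlus 3 F (Matrix.mulVec (f.mapMatrix (o6M k.val)) u) =
      Cfsg.quadFormPlus 3 F u := by
  have hu : (fun i => f (g (u i))) = u := by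
    funext i
    rw [hfg]
  have h1 : Matrix.mulVec (f.mapMatrix (o6M k.val)) (fun i => f (g (u i))) =
      fun i => f (Matrix.mulVec (o6M k.val) (fun i => g (u i)) i) := by
    funext i
    exact (RingHom.map_mulVec f (o6M k.val) (fun i => g (u i)) i).symm
  have e1 := o6_Q_map f (Matrix.mulVec (o6M k.val) (fun i => g (u i)))
  have e2 := o6_Q_map f (fun i => g (u i))
  calc Cfsg.quadFormPlus 3 F (Matrix.mulVec (f.mapMatrix (o6M k.val)) u)
      = Cfsg.quadFormPlus 3 F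
          (Matrix.mulVec (f.mapMatrix (o6M k.val)) (fun i => f (g (u i)))) := by rw [hu]
    _ = Cfsg.quadFormPlus 3 F
          (fun i => f (Matrix.mulVec (o6M k.val) (fun i => g (u i)) i)) := by rw [h1]
    _ = f (Cfsg.quadFormPlus 3 (ZMod 2) (Matrix.mulVec (o6M k.val) (fun i => g (u i)))) := e1
    _ = f (Cfsg.quadFormPlus 3 (ZMod 2) (fun i => g (u i))) := by rw [o6M_isom]
    _ = Cfsg.quadFormPlus 3 F (fun i => f (g (u i))) := e2.symm
    _ = Cfsg.quadFormPlus 3 F u := by rw [hu]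

theorem o6_L1 (u : Fin 3 ⊕ Fin 3 → ZMod 2) :
    o6tb o6QT (o6Code u) = true ↔ Cfsg.quadFormPlus 3 (ZMod 2) u = 1 := by
  rw [o6_Q_eval]
  exact o6_L1' (u (Sum.inl 0)) (u (Sum.inl 1)) (u (Sum.inl 2)) (u (Sum.inr 0)) (u (Sum.inr 1))
    (u (Sum.inr 2))

theorem o6_L2 (u v : Fin 3 ⊕ Fin 3 → ZMod 2) :
    o6Code (u + v) = Nat.xor (o6Code u) (o6Code v) :=
  o6_L2' (u (Sum.inl 0)) (u (Sum.inl 1)) (u (Sum.inl 2)) (u (Sum.inr 0)) (u (Sum.inr 1))
    (u (Sum.inr 2)) (v (Sum.inl 0)) (v (Sum.inl 1)) (v (Sum.inl 2)) (v (Sum.inr 0))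
    (v (Sum.inr 1)) (v (Sum.inr 2))

theorem o6_L4 (u : Fin 3 ⊕ Fin 3 → ZMod 2) : o6Code u ∈ o6All :=
  o6_L4' (u (Sum.inl 0)) (u (Sum.inl 1)) (u (Sum.inl 2)) (u (Sum.inr 0)) (u (Sum.inr 1))
    (u (Sum.inr 2))

theorem o6Code_inj (u v : Fin 3 ⊕ Fin 3 → ZMod 2) (h : o6Code u = o6Code v) : u = v := by
  obtain ⟨h0, h1, h2, h3, h4, h5⟩ :=
    o6_L5' (u (Sum.inl 0)) (u (Sum.inl 1)) (u (Sum.inl 2)) (u (Sum.inr 0)) (u (Sum.inr 1))
      (u (Sum.inr 2)) (v (Sum.inl 0)) (v (Sum.inl 1)) (v (Sum.inl 2)) (v (Sum.inr 0))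
      (v (Sum.inr 1)) (v (Sum.inr 2)) h
  funext i
  rcases i with i | i
  · fin_cases i
    · exact h0
    · exact h1
    · exact h2
  · fin_cases i
    · exact h3
    · exact h4
    · exact h5

theorem o6_key (M : Matrix (Fin 3 ⊕ Fin 3) (Fin 3 ⊕ Fin 3) (ZMod 2))
    (hM : ∀ u, Cfsg.quadFormPlus 3 (ZMod 2) (Matrix.mulVec M u) =
      Cfsg.quadFormPlus 3 (ZMod 2) u)
    (w : Fin 3 ⊕ Fin 3 → ZMod 2) :
    o6tb o6QT (o6Code (Matrix.mulVec M w)) = o6tb o6QT (o6Code w) := by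
  have h1 := o6_L1 (Matrix.mulVec M w)
  have h2 := o6_L1 w
  rw [hM w] at h1
  exact o6_bool_eq _ _ (h1.trans h2.symm)

/-- The code of the image of a basis vector. -/
def o6a (M : Matrix (Fin 3 ⊕ Fin 3) (Fin 3 ⊕ Fin 3) (ZMod 2)) (k : ℕ) : ℕ :=
  o6Code (fun i => M i (o6Idx k))

theorem o6a_eq (M : Matrix (Fin 3 ⊕ Fin 3) (Fin 3 ⊕ Fin 3) (ZMod 2)) (k : ℕ) :
    o6a M k = o6Code (Matrix.mulVec M (Pi.single (o6Idx k) 1)) := by
  have h := Matrix.mulVec_single_one M (o6Idx k)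
  exact congrArg o6Code h.symm

theorem o6_F1 (M : Matrix (Fin 3 ⊕ Fin 3) (Fin 3 ⊕ Fin 3) (ZMod 2))
    (hM : ∀ u, Cfsg.quadFormPlus 3 (ZMod 2) (Matrix.mulVec M u) =
      Cfsg.quadFormPlus 3 (ZMod 2) u) (k : ℕ) (hk : k < 6) :
    o6tb o6QT (o6a M k) = o6tb o6QT (o6Bl.getD k 0) := by
  have h3 : o6Code (Pi.single (o6Idx k) (1 : ZMod 2)) = o6Bl.getD k 0 := o6_L3 ⟨k, hk⟩
  rw [o6a_eq, o6_key M hM, h3]

theorem o6_F2 (M : Matrix (Fin 3 ⊕ Fin 3) (Fin 3 ⊕ Fin 3) (ZMod 2))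
    (hM : ∀ u, Cfsg.quadFormPlus 3 (ZMod 2) (Matrix.mulVec M u) =
      Cfsg.quadFormPlus 3 (ZMod 2) u) (k j : ℕ) (hk : k < 6) (hj : j < 6) :
    o6tb o6QT (Nat.xor (o6a M k) (o6a M j)) =
      o6tb o6QT (Nat.xor (o6Bl.getD k 0) (o6Bl.getD j 0)) := by
  have hk3 : o6Code (Pi.single (o6Idx k) (1 : ZMod 2)) = o6Bl.getD k 0 := o6_L3 ⟨k, hk⟩
  have hj3 : o6Code (Pi.single (o6Idx j) (1 : ZMod 2)) = o6Bl.getD j 0 := o6_L3 ⟨j, hj⟩
  rw [o6a_eq M k, o6a_eq M j, ← o6_L2, ← Matrix.mulVec_add, o6_key M hM, o6_L2, hk3, hj3]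

theorem o6_mem1 (M : Matrix (Fin 3 ⊕ Fin 3) (Fin 3 ⊕ Fin 3) (ZMod 2))
    (hM : ∀ u, Cfsg.quadFormPlus 3 (ZMod 2) (Matrix.mulVec M u) =
      Cfsg.quadFormPlus 3 (ZMod 2) u) (h0 : o6a M 0 = 1) :
    o6pk (o6a M) 6 ∈ o6enum [8, 2, 16, 4, 32] [(1, 1)] := by
  have h := o6_mem_enum (o6a M) 5 1 (by
    intro j _ hj
    have hj6 : j < 6 := by omega
    refine ⟨o6_L4 (fun i => M i (o6Idx j)), o6ok_of _ _ _ (o6_F1 M hM j hj6) ?_⟩
    intro wb hwb
    unfold o6pk at hwb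
    rw [List.mem_reverse, List.mem_map] at hwb
    obtain ⟨i, hi, rfl⟩ := hwb
    rw [List.mem_range] at hi
    exact o6_F2 M hM j i hj6 (by omega))
  have hp1 : o6pk (o6a M) 1 = [(o6a M 0, o6Bl.getD 0 0)] := o6pk_succ (o6a M) 0
  rw [o6_Bl_eq1, hp1, h0] at h
  exact h

theorem o6H_isom (v : ℕ) (hv : v < 64) (u : Fin 3 ⊕ Fin 3 → ZMod 2) :
    Cfsg.quadFormPlus 3 (ZMod 2) (Matrix.mulVec (o6H v) u) =
      Cfsg.quadFormPlus 3 (ZMod 2) u := by
  have h := o6_H2 ⟨v, hv⟩ (u (Sum.inl 0)) (u (Sum.inl 1)) (u (Sum.inl 2)) (u (Sum.inr 0))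
    (u (Sum.inr 1)) (u (Sum.inr 2))
  rw [← o6_vec_eta u] at h
  exact h

theorem o6H_first (u : Fin 3 ⊕ Fin 3 → ZMod 2) (h0 : o6Code u ≠ 0)
    (hq : o6tb o6QT (o6Code u) = false) :
    o6Code (Matrix.mulVec (o6H (o6Code u)) u) = 1 := by
  have h := o6_H3 (u (Sum.inl 0)) (u (Sum.inl 1)) (u (Sum.inl 2)) (u (Sum.inr 0))
    (u (Sum.inr 1)) (u (Sum.inr 2)) h0 hq
  rw [← o6_vec_eta u] at h
  exact h

theorem o6Code_lt (u : Fin 3 ⊕ Fin 3 → ZMod 2) : o6Code u < 64 :=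
  o6_H6 (u (Sum.inl 0)) (u (Sum.inl 1)) (u (Sum.inl 2)) (u (Sum.inr 0)) (u (Sum.inr 1))
    (u (Sum.inr 2))

/-- The facts about the image of the first basis vector under an isometry, and the
normalised isometry fixing the first basis vector. -/
theorem o6_norm (M : Matrix (Fin 3 ⊕ Fin 3) (Fin 3 ⊕ Fin 3) (ZMod 2))
    (hM : ∀ u, Cfsg.quadFormPlus 3 (ZMod 2) (Matrix.mulVec M u) =
      Cfsg.quadFormPlus 3 (ZMod 2) u) :
    o6a M 0 ∈ o6S1 ∧ o6a M 0 < 64 ∧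
      o6pk (o6a (o6H (o6a M 0) * M)) 6 ∈ o6enum [8, 2, 16, 4, 32] [(1, 1)] := by
  have hlt : o6a M 0 < 64 := o6Code_lt _
  have hq : o6tb o6QT (o6a M 0) = false := by
    rw [o6_F1 M hM 0 (by omega)]
    exact o6_H7.1
  have hne : o6a M 0 ≠ 0 := by
    intro h0
    have h2 := o6_F2 M hM 1 0 (by omega) (by omega)
    have hx0 : ∀ x : ℕ, Nat.xor x 0 = x := fun x => Nat.xor_zero x
    rw [h0, hx0, o6_F1 M hM 1 (by omega)] at h2
    exact o6_H7.2 h2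
  have hS : o6a M 0 ∈ o6S1 :=
    List.mem_filter.mpr ⟨o6_L4 (fun i => M i (o6Idx 0)), decide_eq_true ⟨hne, hq⟩⟩
  refine ⟨hS, hlt, ?_⟩
  have hM' : ∀ u, Cfsg.quadFormPlus 3 (ZMod 2) (Matrix.mulVec (o6H (o6a M 0) * M) u) =
      Cfsg.quadFormPlus 3 (ZMod 2) u := by
    intro u
    rw [← Matrix.mulVec_mulVec, o6H_isom _ hlt, hM]
  have hfirst : o6a (o6H (o6a M 0) * M) 0 = 1 := by
    have h1 := o6a_eq M 0
    have h2 := o6a_eq (o6H (o6a M 0) * M) 0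
    rw [← Matrix.mulVec_mulVec] at h2
    have h3 := o6H_first (Matrix.mulVec M (Pi.single (o6Idx 0) 1)) (by rw [← h1]; exact hne)
      (by rw [← h1]; exact hq)
    rw [← h1] at h3
    rw [h2]
    exact h3
  exact o6_mem1 _ hM' hfirst

theorem o6_inj (M M' : Matrix (Fin 3 ⊕ Fin 3) (Fin 3 ⊕ Fin 3) (ZMod 2))
    (h : o6pk (o6a M) 6 = o6pk (o6a M') 6) : M = M' := by
  unfold o6pk at h
  rw [List.reverse_inj, List.map_inj_left] at h
  apply Matrix.ext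
  intro i x
  obtain ⟨k, rfl⟩ := o6_L6 x
  have hk := h k.val (List.mem_range.mpr k.isLt)
  have hk' : o6a M k.val = o6a M' k.val := congrArg Prod.fst hk
  have hcol := o6Code_inj _ _ hk'
  exact congrFun hcol i

theorem o6_card_le {F : Type*} [Field F] [Fintype F] (hF : Fintype.card F = 2) :
    Finite ↥(Cfsg.isometryGroup F (Cfsg.quadFormPlus 3 F)) ∧
      Nat.card ↥(Cfsg.isometryGroup F (Cfsg.quadFormPlus 3 F)) ≤ 40320 := by
  classical
  obtain ⟨φ', _⟩ : ∃ φ' : ZMod 2 ≃+* F, True :=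
    ⟨ZMod.ringEquivOfPrime F Nat.prime_two hF, trivial⟩
  obtain ⟨e, s, hse⟩ : ∃ (e : ZMod 2 →+* F) (s : F →+* ZMod 2), ∀ x, s (e x) = x :=
    ⟨φ'.toRingHom, φ'.symm.toRingHom, fun x => φ'.symm_apply_apply x⟩
  have hsinj : Function.Injective s := s.injective
  have htr : ∀ (A : ↥(Cfsg.isometryGroup F (Cfsg.quadFormPlus 3 F)))
      (u : Fin 3 ⊕ Fin 3 → ZMod 2),
      Cfsg.quadFormPlus 3 (ZMod 2) (Matrix.mulVec (A.1.1.map s) u) =
        Cfsg.quadFormPlus 3 (ZMod 2) u := by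
    intro A u
    have h1 : Cfsg.quadFormPlus 3 F (Matrix.mulVec A.1.1 (fun i => e (u i))) =
        Cfsg.quadFormPlus 3 F (fun i => e (u i)) :=
      A.2 (fun i => e (u i)) (fun i => e (u i))
    have h2 := congrArg s h1
    rw [← o6_Q_map s, ← o6_Q_map s] at h2
    have hu : (fun i => s (e (u i))) = u := by
      funext i
      exact hse (u i)
    have hvec : (fun i => s (Matrix.mulVec A.1.1 (fun i => e (u i)) i)) =
        Matrix.mulVec (A.1.1.map s) u := by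
      funext i
      have h3 := RingHom.map_mulVec s A.1.1 (fun i => e (u i)) i
      have h4 : (⇑s ∘ fun i => e (u i)) = u := hu
      rw [h4] at h3
      exact h3
    rw [hu, hvec] at h2
    exact h2
  obtain ⟨c, hc⟩ : ∃ c : ↥(Cfsg.isometryGroup F (Cfsg.quadFormPlus 3 F)) →
      ↥(o6S1.toFinset ×ˢ (o6enum [8, 2, 16, 4, 32] [(1, 1)]).toFinset),
      ∀ A, (c A).1 = (o6a (A.1.1.map s) 0,
        o6pk (o6a (o6H (o6a (A.1.1.map s) 0) * A.1.1.map s)) 6) :=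
    ⟨fun A => ⟨_, Finset.mem_product.mpr
      ⟨List.mem_toFinset.mpr (o6_norm _ (htr A)).1,
        List.mem_toFinset.mpr (o6_norm _ (htr A)).2.2⟩⟩, fun A => rfl⟩
  have hinj : Function.Injective c := by
    intro A A' h
    have h' : (c A).1 = (c A').1 := congrArg Subtype.val h
    rw [hc, hc] at h'
    have hv : o6a (A.1.1.map s) 0 = o6a (A'.1.1.map s) 0 := congrArg Prod.fst h'
    have ht : o6pk (o6a (o6H (o6a (A.1.1.map s) 0) * A.1.1.map s)) 6 =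
        o6pk (o6a (o6H (o6a (A'.1.1.map s) 0) * A'.1.1.map s)) 6 := congrArg Prod.snd h'
    have hm := o6_inj _ _ ht
    rw [← hv] at hm
    have hK := o6_H1 ⟨o6a (A.1.1.map s) 0, (o6_norm _ (htr A)).2.1⟩
    have hm2 : A.1.1.map s = A'.1.1.map s := by
      calc A.1.1.map s = (o6K (o6a (A.1.1.map s) 0) * o6H (o6a (A.1.1.map s) 0)) *
            A.1.1.map s := by rw [hK, one_mul]
        _ = o6K (o6a (A.1.1.map s) 0) * (o6H (o6a (A.1.1.map s) 0) * A.1.1.map s) := by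
            rw [mul_assoc]
        _ = o6K (o6a (A.1.1.map s) 0) * (o6H (o6a (A.1.1.map s) 0) * A'.1.1.map s) := by
            rw [hm]
        _ = (o6K (o6a (A.1.1.map s) 0) * o6H (o6a (A.1.1.map s) 0)) * A'.1.1.map s := by
            rw [mul_assoc]
        _ = A'.1.1.map s := by rw [hK, one_mul]
    have hm' : A.1.1 = A'.1.1 := Matrix.map_injective hsinj hm2
    exact Subtype.ext (Units.ext hm')
  have hfin : Finite ↥(Cfsg.isometryGroup F (Cfsg.quadFormPlus 3 F)) :=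
    Finite.of_injective c hinj
  refine ⟨hfin, ?_⟩
  have hc1 : (o6S1.toFinset).card ≤ 35 := by
    have h := List.toFinset_card_le o6S1
    rw [o6_H5] at h
    exact h
  have hc2 : ((o6enum [8, 2, 16, 4, 32] [(1, 1)]).toFinset).card ≤ 1152 := by
    have h := List.toFinset_card_le (o6enum [8, 2, 16, 4, 32] [(1, 1)])
    rw [o6_length_enum, o6cnt_eq] at h
    exact h
  calc Nat.card ↥(Cfsg.isometryGroup F (Cfsg.quadFormPlus 3 F))
      ≤ Nat.card (↥(o6S1.toFinset ×ˢ (o6enum [8, 2, 16, 4, 32] [(1, 1)]).toFinset)) :=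
        Nat.card_le_card_of_injective c hinj
    _ = (o6S1.toFinset ×ˢ (o6enum [8, 2, 16, 4, 32] [(1, 1)]).toFinset).card := by
        rw [Nat.card_eq_fintype_card, Fintype.card_coe]
    _ = (o6S1.toFinset).card * ((o6enum [8, 2, 16, 4, 32] [(1, 1)]).toFinset).card :=
        Finset.card_product _ _
    _ ≤ 35 * 1152 := Nat.mul_le_mul hc1 hc2
    _ = 40320 := by norm_num

end Cfsg.Agent.Lib.Helper2
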