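import Mathlib

set_option autoImplicit false

namespace Cfsg.Agent.Lib.Helper2

/-- If a group acts on a finite set with a fixed point `a` and every other point has stabilizer
index divisible by `n`, then the set has cardinality `≡ 1 [MOD n]`. -/
theorem card_modEq_one_of_orbits {M X : Type*} [Group M] [MulAction M X] [Finite X] (a : X) (n : ℕ)
    (ha : ∀ m : M, m • a = a)
    (h : ∀ x : X, x ≠ a → n ∣ (MulAction.stabilizer M x).index) : Nat.card X ≡ 1 [MOD n] := by
  classical
  haveI : Fintype (Quotient (MulAction.orbitRel M X)) := Fintype.ofFinite _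
  have e := MulAction.selfEquivSigmaOrbits M X
  have hcard : Nat.card X = ∑ ω : Quotient (MulAction.orbitRel M X),
      Nat.card (MulAction.orbit M ω.out) := by
    rw [Nat.card_congr e, Nat.card_sigma]
  have horb : MulAction.orbit M a = {a} := by
    ext x; constructor
    · rintro ⟨m, rfl⟩; exact ha m
    · rintro rfl; exact MulAction.mem_orbit_self _
  rw [hcard]
  have key := Nat.sum_modEq_single (n := n) (s := Finset.univ)
    (a := (Quotient.mk'' a : Quotient (MulAction.orbitRel M X)))
    (f := fun ω => Nat.card (MulAction.orbit M ω.out))
    (by intro h; exact absurd (Finset.mem_univ _) h) ?_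
  · refine key.trans ?_
    have h1 : (Quotient.mk'' a : Quotient (MulAction.orbitRel M X)).out ∈ MulAction.orbit M a := by
      have := Quotient.mk_out (s := MulAction.orbitRel M X) a
      exact this
    rw [horb] at h1
    have h2 : MulAction.orbit M (Quotient.mk'' a : Quotient (MulAction.orbitRel M X)).out = {a} := by
      rw [Set.mem_singleton_iff.mp h1, horb]
    simp only [h2]
    simp
    rfl
  · intro ω _ hω
    have hne : ω.out ≠ a := by
      intro h1; apply hω; rw [← h1]; exact (Quotient.out_eq' ω).symm
    have := h _ hne
    rw [MulAction.index_stabilizer] at this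
    show Nat.card (MulAction.orbit M ω.out) ≡ 0 [MOD n]
    rw [Nat.card_coe_set_eq]; exact (Nat.modEq_zero_iff_dvd).mpr this

end Cfsg.Agent.Lib.Helper2
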