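import Mathlib
import Cfsg.Agent.Lib.Lead.SylowAux
import Cfsg.Agent.Lib.Helper2.SimpleOrder2
import Cfsg.Agent.Lib.Helper2.PrimeDegree

set_option autoImplicit false

namespace Cfsg.Agent.Lib.Helper2

theorem sylow_burnside_of_le {G : Type*} [Group G] [Finite G] [IsSimpleGroup G] (p : ℕ)
    [Fact p.Prime] (P : Sylow p G) (hP : Nat.card (P : Subgroup G) = p) (hG : Nat.card G ≠ p)
    (hNC : Subgroup.normalizer ((P : Subgroup G) : Set G)
      ≤ Subgroup.centralizer ((P : Subgroup G) : Set G)) : False := by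
  have hp : p.Prime := Fact.out
  have hcompl := MonoidHom.ker_transferSylow_isComplement' P hNC
  have hnorm : (MonoidHom.transferSylow P hNC).ker.Normal := inferInstance
  rcases hnorm.eq_bot_or_eq_top with h | h
  · rw [h] at hcompl
    have h1 : (P : Subgroup G) = ⊤ := Subgroup.isComplement'_bot_left.mp hcompl
    apply hG
    rw [← hP, h1, Subgroup.card_top]
  · rw [h] at hcompl
    have h1 : (P : Subgroup G) = ⊥ := Subgroup.isComplement'_top_left.mp hcompl
    rw [h1, Subgroup.card_bot] at hP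
    exact hp.one_lt.ne' hP.symm

theorem sign_invol {X : Type*} [Fintype X] [DecidableEq X] (σ : Equiv.Perm X) (hσ : σ * σ = 1) :
    ∃ k : ℕ, σ.support.card = 2 * k ∧ Equiv.Perm.sign σ = (-1) ^ k := by
  by_cases h1 : σ = 1
  · subst h1
    exact ⟨0, by simp, by simp⟩
  · have hord : orderOf σ = 2 := orderOf_eq_prime (by rw [pow_two]; exact hσ) h1
    obtain ⟨n, hn⟩ := Equiv.Perm.cycleType_prime_order (σ := σ)
      (by rw [hord]; exact Nat.prime_two)
    rw [hord] at hn
    have h2 := Equiv.Perm.sum_cycleType σ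
    rw [hn, Multiset.sum_replicate, smul_eq_mul] at h2
    refine ⟨n + 1, by omega, ?_⟩
    have e : (-(-1 : ℤˣ) ^ 2) = -1 := by decide
    rw [Equiv.Perm.sign_of_cycleType', hn, Multiset.map_replicate, Multiset.prod_replicate, e]

/-- A simple group cannot have Sylow `p`-subgroups of order `p ≡ 3 (mod 4)` with normalizer of
order `2p` and exactly `p + 1` Sylow `p`-subgroups: an involution of the normalizer would act as
an odd permutation of the Sylow `p`-subgroups. -/
theorem not_simple_sylow_dihedral {G : Type*} [Group G] [Finite G] [IsSimpleGroup G] (p : ℕ)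
    [Fact p.Prime] (P : Sylow p G) (hP : Nat.card (P : Subgroup G) = p)
    (hN : Nat.card (Subgroup.normalizer ((P : Subgroup G) : Set G)) = 2 * p)
    (hn : Nat.card (Sylow p G) = p + 1) (hp4 : p % 4 = 3) : False := by
  classical
  have hp : p.Prime := Fact.out
  haveI : Fact (Nat.Prime 2) := ⟨Nat.prime_two⟩
  have hp2 : p ≠ 2 := by omega
  have hGcard : Nat.card G = 2 * p * (p + 1) := by
    obtain ⟨_, _, h⟩ := sylow_count p P
    rw [hN, hn] at h; exact h.symm
  have hG2 : 2 < Nat.card G := by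
    rw [hGcard]; have := hp.two_le; nlinarith
  have hGp : Nat.card G ≠ p := by
    rw [hGcard]; have := hp.two_le; nlinarith
  have hPN : (P : Subgroup G) ≤ Subgroup.normalizer ((P : Subgroup G) : Set G) :=
    Subgroup.le_normalizer
  have hcomm := comm_of_card_prime (P : Subgroup G) hp hP
  obtain ⟨t', ht'⟩ := exists_prime_orderOf_dvd_card' 2
    (show 2 ∣ Nat.card ↥(Subgroup.normalizer ((P : Subgroup G) : Set G)) by
      rw [hN]; exact dvd_mul_right 2 p)
  obtain ⟨t, htN, hto⟩ : ∃ t : G, t ∈ Subgroup.normalizer ((P : Subgroup G) : Set G) ∧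
      orderOf t = 2 := ⟨(t' : G), t'.2, (Subgroup.orderOf_coe t').trans ht'⟩
  have htt : t * t = 1 := by
    have h1 := pow_orderOf_eq_one t
    rw [hto, pow_two] at h1; exact h1
  have hfpf : ∀ u ∈ (P : Subgroup G), t * u = u * t → u = 1 := by
    intro u hu hc
    by_contra hu1
    apply sylow_burnside_of_le p P hP hGp
    have hzp := zpowers_eq_of_card_prime (P : Subgroup G) hp hP u hu hu1
    have htC : t ∈ Subgroup.centralizer ((P : Subgroup G) : Set G) := by
      rw [Subgroup.mem_centralizer_iff]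
      intro v hv
      have hv' : v ∈ Subgroup.zpowers u := by rw [hzp]; exact hv
      obtain ⟨i, rfl⟩ := Subgroup.mem_zpowers_iff.mp hv'
      exact ((Commute.zpow_right (show Commute t u from hc) i).eq).symm
    have hPC : (P : Subgroup G) ≤ Subgroup.centralizer ((P : Subgroup G) : Set G) := by
      intro a ha
      rw [Subgroup.mem_centralizer_iff]
      intro b hb
      exact hcomm b hb a ha
    have h1 : p ∣ Nat.card (Subgroup.centralizer ((P : Subgroup G) : Set G)
        ⊓ Subgroup.normalizer ((P : Subgroup G) : Set G) : Subgroup G) := by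
      have h0 := Subgroup.card_dvd_of_le (le_inf hPC hPN)
      rwa [hP] at h0
    have h2 : 2 ∣ Nat.card (Subgroup.centralizer ((P : Subgroup G) : Set G)
        ⊓ Subgroup.normalizer ((P : Subgroup G) : Set G) : Subgroup G) := by
      have h0 : orderOf (⟨t, ⟨htC, htN⟩⟩ :
        ↥(Subgroup.centralizer ((P : Subgroup G) : Set G)
          ⊓ Subgroup.normalizer ((P : Subgroup G) : Set G) : Subgroup G))
          ∣ Nat.card ↥(Subgroup.centralizer ((P : Subgroup G) : Set G)
          ⊓ Subgroup.normalizer ((P : Subgroup G) : Set G) : Subgroup G) := orderOf_dvd_natCard _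
      have h00 : orderOf t = orderOf (⟨t, ⟨htC, htN⟩⟩ :
        ↥(Subgroup.centralizer ((P : Subgroup G) : Set G)
          ⊓ Subgroup.normalizer ((P : Subgroup G) : Set G) : Subgroup G)) :=
        Subgroup.orderOf_coe (⟨t, ⟨htC, htN⟩⟩ :
          ↥(Subgroup.centralizer ((P : Subgroup G) : Set G)
            ⊓ Subgroup.normalizer ((P : Subgroup G) : Set G) : Subgroup G))
      rw [← h00, hto] at h0
      exact h0
    have h3 : 2 * p ∣ Nat.card (Subgroup.centralizer ((P : Subgroup G) : Set G)
        ⊓ Subgroup.normalizer ((P : Subgroup G) : Set G) : Subgroup G) :=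
      Nat.Coprime.mul_dvd_of_dvd_of_dvd
        ((Nat.coprime_primes Nat.prime_two hp).mpr (Ne.symm hp2)) h2 h1
    have h4 : Subgroup.centralizer ((P : Subgroup G) : Set G)
        ⊓ Subgroup.normalizer ((P : Subgroup G) : Set G)
        = Subgroup.normalizer ((P : Subgroup G) : Set G) := by
      apply Subgroup.eq_of_le_of_card_ge inf_le_right
      rw [hN]; exact Nat.le_of_dvd Nat.card_pos h3
    rw [← h4]; exact inf_le_left
  have hstab : ∀ Q : Sylow p G, Q ≠ P → ∀ u ∈ (P : Subgroup G), u • Q = Q → u = 1 := by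
    intro Q hQP u hu huQ
    by_contra hu1
    apply hQP
    have h1 : u ∈ Subgroup.normalizer ((Q : Subgroup G) : Set G) :=
      Sylow.smul_eq_iff_mem_normalizer.mp huQ
    have hup : u ^ p = 1 := by
      have h2 : orderOf (⟨u, hu⟩ : ↥(P : Subgroup G)) ∣ Nat.card ↥(P : Subgroup G) :=
        orderOf_dvd_natCard _
      rw [Subgroup.orderOf_mk, hP] at h2
      exact orderOf_dvd_iff_pow_eq_one.mp h2
    have h3 : u ∈ (Q : Subgroup G) :=
      Cfsg.Agent.Lib.Lead.mem_sylow_of_normalizes Q (isPGroup_zpowers_of_pow hup) h1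
    have hQc : Nat.card (Q : Subgroup G) = p := by
      have h4 := (Q.card_eq_multiplicity).trans (P.card_eq_multiplicity).symm
      rw [h4, hP]
    apply Sylow.ext
    rw [← zpowers_eq_of_card_prime (Q : Subgroup G) hp hQc u h3 hu1,
      ← zpowers_eq_of_card_prime (P : Subgroup G) hp hP u hu hu1]
  have htrans : ∀ Q₁ Q₂ : Sylow p G, Q₁ ≠ P → Q₂ ≠ P →
      ∃ u ∈ (P : Subgroup G), u • Q₁ = Q₂ := by
    intro Q₁ Q₂ h1 h2
    have hst : MulAction.stabilizer ↥(P : Subgroup G) Q₁ = ⊥ := by
      rw [eq_bot_iff]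
      intro u hu
      rw [Subgroup.mem_bot]
      apply Subtype.ext
      exact hstab Q₁ h1 (u : G) u.2 (MulAction.mem_stabilizer_iff.mp hu)
    have hidx := MulAction.index_stabilizer ↥(P : Subgroup G) Q₁
    rw [hst, Subgroup.index_bot, hP] at hidx
    have hsub : MulAction.orbit ↥(P : Subgroup G) Q₁ ⊆ {Q : Sylow p G | Q ≠ P} := by
      rintro _ ⟨u, rfl⟩
      show u • Q₁ ≠ P
      intro h3
      apply h1
      have h4 : (u : G) • Q₁ = P := h3
      have h5 : (u : G)⁻¹ • P = P :=
        Sylow.smul_eq_iff_mem_normalizer.mpr (Subgroup.inv_mem _ (hPN u.2))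
      calc Q₁ = (u : G)⁻¹ • ((u : G) • Q₁) := (inv_smul_smul _ _).symm
        _ = (u : G)⁻¹ • P := by rw [h4]
        _ = P := h5
    have hcardY : ({Q : Sylow p G | Q ≠ P} : Set (Sylow p G)).ncard = p := by
      have h3 : ({Q : Sylow p G | Q ≠ P} : Set (Sylow p G)) = Set.univ \ {P} := by
        ext Q; simp
      have h4 : ({Q : Sylow p G | Q ≠ P} : Set (Sylow p G)).ncard
          = Nat.card (Sylow p G) - 1 := by
        rw [h3, Set.ncard_sdiff_singleton_of_mem (Set.mem_univ P), Set.ncard_univ]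
      omega
    have heq : MulAction.orbit ↥(P : Subgroup G) Q₁ = {Q : Sylow p G | Q ≠ P} :=
      Set.eq_of_subset_of_ncard_le hsub (by rw [hcardY, ← hidx]) (Set.toFinite _)
    have h3 : Q₂ ∈ MulAction.orbit ↥(P : Subgroup G) Q₁ := by rw [heq]; exact h2
    obtain ⟨u, hu⟩ := h3
    exact ⟨(u : G), u.2, hu⟩
  have hPfix : t • P = P := Sylow.smul_eq_iff_mem_normalizer.mpr htN
  have huniq : ∀ Q₁ Q₂ : Sylow p G, Q₁ ≠ P → Q₂ ≠ P → t • Q₁ = Q₁ → t • Q₂ = Q₂ →
      Q₁ = Q₂ := by
    intro Q₁ Q₂ h1 h2 hf1 hf2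
    obtain ⟨u, hu, huQ⟩ := htrans Q₁ Q₂ h1 h2
    have htut : t * u * t⁻¹ ∈ (P : Subgroup G) := (Subgroup.mem_normalizer_iff.mp htN u).mp hu
    have hw : u⁻¹ * (t * u * t⁻¹) ∈ (P : Subgroup G) :=
      (P : Subgroup G).mul_mem ((P : Subgroup G).inv_mem hu) htut
    have hwfix : (u⁻¹ * (t * u * t⁻¹)) • Q₁ = Q₁ := by
      have e : u⁻¹ * (t * u * t⁻¹) = u⁻¹ * t * u * t⁻¹ := by group
      rw [e, mul_smul, mul_smul, mul_smul]
      have h3 : t⁻¹ • Q₁ = Q₁ := by
        conv_lhs => rw [← hf1]
        rw [inv_smul_smul]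
      rw [h3, huQ, hf2, ← huQ, inv_smul_smul]
    have hw1 := hstab Q₁ h1 _ hw hwfix
    have hc : t * u = u * t := by
      have e : t * u = u * (u⁻¹ * (t * u * t⁻¹)) * t := by group
      rw [e, hw1, mul_one]
    have hu1 := hfpf u hu hc
    rw [hu1, one_smul] at huQ
    exact huQ
  letI : Fintype (Sylow p G) := Fintype.ofFinite _
  have hσ : (MulAction.toPerm t : Equiv.Perm (Sylow p G)) * MulAction.toPerm t = 1 := by
    ext Q
    simp only [Equiv.Perm.coe_mul, Function.comp_apply, MulAction.toPerm_apply,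
      Equiv.Perm.coe_one, id_eq]
    rw [← mul_smul, htt, one_smul]
  have hPF : P ∈ Finset.univ.filter
      (fun Q : Sylow p G => (MulAction.toPerm t : Equiv.Perm (Sylow p G)) Q = Q) := by
    rw [Finset.mem_filter]; exact ⟨Finset.mem_univ _, hPfix⟩
  have hFle : (Finset.univ.filter
      (fun Q : Sylow p G => (MulAction.toPerm t : Equiv.Perm (Sylow p G)) Q = Q)).card ≤ 2 := by
    by_cases hex : ∃ Q₀ ∈ Finset.univ.filter
        (fun Q : Sylow p G => (MulAction.toPerm t : Equiv.Perm (Sylow p G)) Q = Q), Q₀ ≠ P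
    · obtain ⟨Q₀, hQ₀F, hQ₀P⟩ := hex
      have hsub : Finset.univ.filter
          (fun Q : Sylow p G => (MulAction.toPerm t : Equiv.Perm (Sylow p G)) Q = Q)
          ⊆ {P, Q₀} := by
        intro Q hQ
        rw [Finset.mem_insert, Finset.mem_singleton]
        by_cases hQP : Q = P
        · exact Or.inl hQP
        · right
          exact huniq Q Q₀ hQP hQ₀P (Finset.mem_filter.mp hQ).2 (Finset.mem_filter.mp hQ₀F).2
      exact (Finset.card_le_card hsub).trans Finset.card_le_two
    · push Not at hex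
      have hsub : Finset.univ.filter
          (fun Q : Sylow p G => (MulAction.toPerm t : Equiv.Perm (Sylow p G)) Q = Q)
          ⊆ {P} := by
        intro Q hQ
        rw [Finset.mem_singleton]
        exact hex Q hQ
      have h0 := Finset.card_le_card hsub
      rw [Finset.card_singleton] at h0; omega
  have hFpos : 1 ≤ (Finset.univ.filter
      (fun Q : Sylow p G => (MulAction.toPerm t : Equiv.Perm (Sylow p G)) Q = Q)).card :=
    Finset.card_pos.mpr ⟨P, hPF⟩
  obtain ⟨k, hk, hsign⟩ := sign_invol (MulAction.toPerm t : Equiv.Perm (Sylow p G)) hσ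
  have hsum : (Finset.univ.filter
      (fun Q : Sylow p G => (MulAction.toPerm t : Equiv.Perm (Sylow p G)) Q = Q)).card
      + (MulAction.toPerm t : Equiv.Perm (Sylow p G)).support.card = p + 1 := by
    have h1 := Finset.card_filter_add_card_filter_not (s := (Finset.univ : Finset (Sylow p G)))
      (fun Q : Sylow p G => (MulAction.toPerm t : Equiv.Perm (Sylow p G)) Q = Q)
    have h2 : (Finset.univ.filter
        (fun Q : Sylow p G => ¬ (MulAction.toPerm t : Equiv.Perm (Sylow p G)) Q = Q))
        = (MulAction.toPerm t : Equiv.Perm (Sylow p G)).support := by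
      ext Q; simp [Equiv.Perm.mem_support]
    rw [h2, Finset.card_univ, ← Nat.card_eq_fintype_card, hn] at h1
    exact h1
  have hkodd : Odd k := by
    rw [Nat.odd_iff]; omega
  have h1 := simple_sign_eq_one hG2 (X := Sylow p G) t
  rw [hsign, hkodd.neg_one_pow] at h1
  exact absurd h1 (by decide)

end Cfsg.Agent.Lib.Helper2
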