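import Mathlib
import Cfsg.Agent.Lib.Lead.SylowAux
import Cfsg.Agent.Lib.Helper4.Normalizer
import Cfsg.Agent.Lib.Helper2.SimpleOrder3

set_option autoImplicit false

namespace Cfsg.Agent.Lib.Helper2

theorem sylow_orbit_le {G : Type*} [Group G] [Finite G] {p : ℕ} [Fact p.Prime] (P Q : Sylow p G)
    (hQP : Q ≠ P) :
    (MulAction.orbit ↥(P : Subgroup G) Q).ncard ≤ Nat.card (Sylow p G) - 1 := by
  have hPN : (P : Subgroup G) ≤ Subgroup.normalizer ((P : Subgroup G) : Set G) :=
    Subgroup.le_normalizer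
  have hsub : MulAction.orbit ↥(P : Subgroup G) Q ⊆ Set.univ \ {P} := by
    rintro _ ⟨u, rfl⟩
    refine ⟨Set.mem_univ _, ?_⟩
    show u • Q ≠ P
    intro h3
    apply hQP
    have h4 : (u : G) • Q = P := h3
    have h5 : (u : G)⁻¹ • P = P :=
      Sylow.smul_eq_iff_mem_normalizer.mpr (Subgroup.inv_mem _ (hPN u.2))
    calc Q = (u : G)⁻¹ • ((u : G) • Q) := (inv_smul_smul _ _).symm
      _ = (u : G)⁻¹ • P := by rw [h4]
      _ = P := h5
  have h1 := Set.ncard_le_ncard hsub (Set.toFinite _)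
  rw [Set.ncard_sdiff_singleton_of_mem (Set.mem_univ P), Set.ncard_univ] at h1
  exact h1

theorem sylow_stab_card {G : Type*} [Group G] [Finite G] {p : ℕ} [Fact p.Prime]
    (P Q : Sylow p G) :
    Nat.card (MulAction.stabilizer ↥(P : Subgroup G) Q)
      = Nat.card ((P : Subgroup G) ⊓ (Q : Subgroup G) : Subgroup G) := by
  have h1 : MulAction.stabilizer ↥(P : Subgroup G) Q = (Q : Subgroup G).subgroupOf P := by
    ext u
    rw [MulAction.mem_stabilizer_iff, Subgroup.mem_subgroupOf]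
    have e : u • Q = (u : G) • Q := rfl
    rw [e, Sylow.smul_eq_iff_mem_normalizer]
    constructor
    · intro h
      exact Cfsg.Agent.Lib.Lead.mem_sylow_of_normalizes Q
        (P.2.to_le ((Subgroup.zpowers_le).mpr u.2)) h
    · intro h
      exact Subgroup.le_normalizer h
  rw [h1, ← Subgroup.inf_subgroupOf_right,
    Nat.card_congr (Subgroup.subgroupOfEquivOfLe inf_le_right).toEquiv, inf_comm]

theorem le_normalizer_of_comm {G : Type*} [Group G] {A D : Subgroup G} (hDA : D ≤ A)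
    (hA : ∀ a ∈ A, ∀ b ∈ A, a * b = b * a) : A ≤ Subgroup.normalizer (D : Set G) := by
  apply Cfsg.Agent.Lib.Helper4.le_normalizer_of_conj_mem
  intro s hs d hd
  have hc : s * d = d * s := hA s hs d (hDA hd)
  have e : s * d * s⁻¹ = d := by rw [hc]; group
  rw [e]; exact hd

end Cfsg.Agent.Lib.Helper2
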