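import Mathlib
import Cfsg.Agent.S1003
import Cfsg.Agent.Lib.Helper2.SimpleOrder4
import Cfsg.Agent.Lib.Helper2.SylowMisc
import Cfsg.Agent.Lib.Helper2.Dihedral8
import Cfsg.Agent.Lib.Lead.CharFrob

set_option autoImplicit false

namespace Cfsg.Agent.Lib.Helper2

/-- If `p` divides the group order exactly once, an element of order `p` generates a Sylow
`p`-subgroup. -/
theorem sylow_of_order_prime {G : Type*} [Group G] [Finite G] (p : ℕ) [Fact p.Prime] (m : ℕ)
    (h : Nat.card G = p * m) (hm : ¬ p ∣ m) (y : G) (hy : orderOf y = p) :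
    ∃ Q : Sylow p G, Nat.card (Q : Subgroup G) = p ∧ Subgroup.zpowers y = (Q : Subgroup G) := by
  have hp : p.Prime := Fact.out
  have hyp : y ^ p = 1 := by rw [← hy]; exact pow_orderOf_eq_one y
  obtain ⟨Q, hQ⟩ := (isPGroup_zpowers_of_pow (p := p) hyp).exists_le_sylow
  have hyQ : y ∈ (Q : Subgroup G) := hQ (Subgroup.mem_zpowers y)
  obtain ⟨hQc, _⟩ := sylow_card_of_eq p Q m h hm
  have hy1 : y ≠ 1 := by
    intro hy1
    rw [hy1, orderOf_one] at hy
    exact hp.one_lt.ne hy
  exact ⟨Q, hQc, zpowers_eq_of_card_prime (Q : Subgroup G) hp hQc y hyQ hy1⟩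

section

variable {G : Type*} [Group G] [Finite G] [IsSimpleGroup G]

/-- In a simple group of order 168 no element of order 3 commutes with a non-trivial
2-element. -/
theorem o168_no_three (h : Nat.card G = 168) (z y : G) (hz8 : z ^ 8 = 1) (hz1 : z ≠ 1)
    (hy : orderOf y = 3) (hc : z * y = y * z) : False := by
  haveI : Fact (Nat.Prime 3) := ⟨Nat.prime_three⟩
  obtain ⟨Q, hQc, hzp⟩ := sylow_of_order_prime 3 56 (by rw [h]) (by norm_num) y hy
  obtain ⟨_, _, hQn⟩ := sylow_count 3 Q
  have hn3 := (Cfsg.Agent.S1003.result h).2.1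
  rw [hn3, h] at hQn
  have hNQ : Nat.card (Subgroup.normalizer ((Q : Subgroup G) : Set G)) = 6 := by omega
  have hzC : z ∈ Subgroup.centralizer ((Q : Subgroup G) : Set G) := by
    rw [Subgroup.mem_centralizer_iff]
    intro v hv
    have hv' : v ∈ Subgroup.zpowers y := by rw [hzp]; exact hv
    obtain ⟨i, rfl⟩ := Subgroup.mem_zpowers_iff.mp hv'
    exact (Commute.zpow_left (show Commute y z from hc.symm) i).eq
  have hQC : (Q : Subgroup G) ≤ Subgroup.centralizer ((Q : Subgroup G) : Set G) := by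
    intro a ha
    rw [Subgroup.mem_centralizer_iff]
    intro b hb
    exact (comm_of_card_prime (Q : Subgroup G) Nat.prime_three hQc) b hb a ha
  have hCN : Subgroup.centralizer ((Q : Subgroup G) : Set G)
      ≤ Subgroup.normalizer ((Q : Subgroup G) : Set G) :=
    Subgroup.centralizer_le_normalizer _
  have h3C : 3 ∣ Nat.card (Subgroup.centralizer ((Q : Subgroup G) : Set G)) := by
    have h0 := Subgroup.card_dvd_of_le hQC
    rwa [hQc] at h0
  have hzo8 : orderOf z ∣ 2 ^ 3 := by
    have h0 := orderOf_dvd_of_pow_eq_one hz8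
    have e : (8 : ℕ) = 2 ^ 3 := by norm_num
    rw [e] at h0
    exact h0
  have hzoC : orderOf z ∣ Nat.card (Subgroup.centralizer ((Q : Subgroup G) : Set G)) :=
    Subgroup.orderOf_dvd_natCard _ hzC
  have hzo1 : orderOf z ≠ 1 := by
    intro h1
    exact hz1 (orderOf_eq_one_iff.mp h1)
  have h2C : 2 ∣ Nat.card (Subgroup.centralizer ((Q : Subgroup G) : Set G)) := by
    obtain ⟨j, hj, hxj⟩ := (Nat.dvd_prime_pow Nat.prime_two).mp hzo8
    have hj1 : j ≠ 0 := by
      intro h0; rw [h0, pow_zero] at hxj; exact hzo1 hxj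
    have h2x : 2 ∣ orderOf z := by
      rw [hxj]; exact dvd_pow_self 2 hj1
    exact h2x.trans hzoC
  have h6C : 6 ∣ Nat.card (Subgroup.centralizer ((Q : Subgroup G) : Set G)) := by
    have e6 : (6 : ℕ) = 2 * 3 := by norm_num
    rw [e6]
    exact Nat.Coprime.mul_dvd_of_dvd_of_dvd (by norm_num) h2C h3C
  have hCeq : Subgroup.centralizer ((Q : Subgroup G) : Set G)
      = Subgroup.normalizer ((Q : Subgroup G) : Set G) := by
    apply Subgroup.eq_of_le_of_card_ge hCN
    rw [hNQ]; exact Nat.le_of_dvd Nat.card_pos h6C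
  exact sylow_burnside_of_le 3 Q hQc (by rw [h]; norm_num) hCeq.ge

/-- In a simple group of order 168 no element of order 7 commutes with a non-trivial
2-element. -/
theorem o168_no_seven (h : Nat.card G = 168) (z y : G) (hz8 : z ^ 8 = 1) (hz1 : z ≠ 1)
    (hy : orderOf y = 7) (hc : z * y = y * z) : False := by
  haveI : Fact (Nat.Prime 7) := ⟨by norm_num⟩
  obtain ⟨P, hPc, hzp⟩ := sylow_of_order_prime 7 24 (by rw [h]) (by norm_num) y hy
  obtain ⟨_, _, hPn⟩ := sylow_count 7 P
  have hn7 := (Cfsg.Agent.S1003.result h).2.2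
  rw [hn7, h] at hPn
  have hNP : Nat.card (Subgroup.normalizer ((P : Subgroup G) : Set G)) = 21 := by omega
  have hzC : z ∈ Subgroup.centralizer ((P : Subgroup G) : Set G) := by
    rw [Subgroup.mem_centralizer_iff]
    intro v hv
    have hv' : v ∈ Subgroup.zpowers y := by rw [hzp]; exact hv
    obtain ⟨i, rfl⟩ := Subgroup.mem_zpowers_iff.mp hv'
    exact (Commute.zpow_left (show Commute y z from hc.symm) i).eq
  have hzN : z ∈ Subgroup.normalizer ((P : Subgroup G) : Set G) :=
    Subgroup.centralizer_le_normalizer _ hzC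
  have h1 : orderOf z ∣ 21 := by
    have h0 := Subgroup.orderOf_dvd_natCard _ hzN
    rwa [hNP] at h0
  have h2 : orderOf z ∣ 8 := orderOf_dvd_of_pow_eq_one hz8
  have h3 : orderOf z ∣ Nat.gcd 21 8 := Nat.dvd_gcd h1 h2
  have e : Nat.gcd 21 8 = 1 := by decide
  rw [e] at h3
  exact hz1 (orderOf_eq_one_iff.mp (Nat.dvd_one.mp h3))

/-- In a simple group of order 168 the centralizer of a non-trivial 2-element is a 2-group. -/
theorem o168_card_centralizer (h : Nat.card G = 168) (z : G) (hz8 : z ^ 8 = 1) (hz1 : z ≠ 1) :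
    Nat.card (Subgroup.centralizer ({z} : Set G)) ∣ 8 := by
  haveI : Fact (Nat.Prime 3) := ⟨Nat.prime_three⟩
  haveI : Fact (Nat.Prime 7) := ⟨by norm_num⟩
  have hd : Nat.card (Subgroup.centralizer ({z} : Set G)) ∣ 8 * 21 := by
    have h0 := Subgroup.card_subgroup_dvd_card (Subgroup.centralizer ({z} : Set G))
    rw [h] at h0
    have e : (168 : ℕ) = 8 * 21 := by norm_num
    rw [e] at h0
    exact h0
  have h3 : ¬ 3 ∣ Nat.card (Subgroup.centralizer ({z} : Set G)) := by
    intro hdvd
    obtain ⟨y', hy'⟩ := exists_prime_orderOf_dvd_card' 3 hdvd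
    have hyo : orderOf (y' : G) = 3 := (Subgroup.orderOf_coe y').trans hy'
    have hc : z * (y' : G) = (y' : G) * z :=
      Subgroup.mem_centralizer_iff.mp y'.2 z (Set.mem_singleton z)
    exact o168_no_three h z (y' : G) hz8 hz1 hyo hc
  have h7 : ¬ 7 ∣ Nat.card (Subgroup.centralizer ({z} : Set G)) := by
    intro hdvd
    obtain ⟨y', hy'⟩ := exists_prime_orderOf_dvd_card' 7 hdvd
    have hyo : orderOf (y' : G) = 7 := (Subgroup.orderOf_coe y').trans hy'
    have hc : z * (y' : G) = (y' : G) * z :=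
      Subgroup.mem_centralizer_iff.mp y'.2 z (Set.mem_singleton z)
    exact o168_no_seven h z (y' : G) hz8 hz1 hyo hc
  have hcop : Nat.Coprime (Nat.card (Subgroup.centralizer ({z} : Set G))) 21 := by
    have e : (21 : ℕ) = 3 * 7 := by norm_num
    rw [e]
    exact Nat.Coprime.mul_right ((Nat.Prime.coprime_iff_not_dvd Nat.prime_three).mpr h3).symm
      ((Nat.Prime.coprime_iff_not_dvd (by norm_num : Nat.Prime 7)).mpr h7).symm
  exact hcop.dvd_of_dvd_mul_right hd

theorem o168_sylow_two_card (h : Nat.card G = 168) (T : Sylow 2 G) :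
    Nat.card (T : Subgroup G) = 8 := by
  haveI : Fact (Nat.Prime 2) := ⟨Nat.prime_two⟩
  exact ((sylow_card_of_eq_pow 2 T 3 21 (by rw [h]; norm_num) (by norm_num)).1).trans
    (by norm_num)

theorem o168_normalizer_sylow_two (h : Nat.card G = 168) (T : Sylow 2 G) :
    Subgroup.normalizer ((T : Subgroup G) : Set G) = T := by
  haveI : Fact (Nat.Prime 2) := ⟨Nat.prime_two⟩
  obtain ⟨_, _, hTn⟩ := sylow_count 2 T
  have hn2 := (Cfsg.Agent.S1003.result h).1
  rw [hn2, h] at hTn
  have hN : Nat.card (Subgroup.normalizer ((T : Subgroup G) : Set G)) = 8 := by omega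
  exact (Subgroup.eq_of_le_of_card_ge Subgroup.le_normalizer
    (by rw [hN, o168_sylow_two_card h T])).symm

theorem o168_centralizer_eq (h : Nat.card G = 168) (T : Sylow 2 G) (z : G)
    (hzT : z ∈ (T : Subgroup G)) (hz1 : z ≠ 1) (hcen : ∀ t ∈ (T : Subgroup G), t * z = z * t) :
    Subgroup.centralizer ({z} : Set G) = T := by
  haveI : Fact (Nat.Prime 2) := ⟨Nat.prime_two⟩
  have hT8 := o168_sylow_two_card h T
  have hz8 : z ^ 8 = 1 := by
    have h0 : orderOf z ∣ Nat.card (T : Subgroup G) := Subgroup.orderOf_dvd_natCard _ hzT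
    rw [hT8] at h0
    exact orderOf_dvd_iff_pow_eq_one.mp h0
  have hd := o168_card_centralizer h z hz8 hz1
  have hle : (T : Subgroup G) ≤ Subgroup.centralizer ({z} : Set G) := by
    intro t ht
    rw [Subgroup.mem_centralizer_iff]
    intro x hx
    rw [Set.mem_singleton_iff] at hx
    rw [hx]; exact (hcen t ht).symm
  exact (Subgroup.eq_of_le_of_card_ge hle
    (by rw [hT8]; exact Nat.le_of_dvd (by norm_num) hd)).symm

theorem o168_not_comm (h : Nat.card G = 168) (T : Sylow 2 G) :
    ¬ ∀ a ∈ (T : Subgroup G), ∀ b ∈ (T : Subgroup G), a * b = b * a := by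
  intro hab
  haveI : Fact (Nat.Prime 2) := ⟨Nat.prime_two⟩
  have hN := o168_normalizer_sylow_two h T
  have hNC : Subgroup.normalizer ((T : Subgroup G) : Set G)
      ≤ Subgroup.centralizer ((T : Subgroup G) : Set G) := by
    rw [hN]
    intro a ha
    rw [Subgroup.mem_centralizer_iff]
    intro b hb
    exact hab b hb a ha
  have hcompl := MonoidHom.ker_transferSylow_isComplement' T hNC
  have hT8 := o168_sylow_two_card h T
  have hnorm : (MonoidHom.transferSylow T hNC).ker.Normal := inferInstance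
  rcases hnorm.eq_bot_or_eq_top with hk | hk
  · rw [hk] at hcompl
    have h1 : (T : Subgroup G) = ⊤ := Subgroup.isComplement'_bot_left.mp hcompl
    rw [h1, Subgroup.card_top, h] at hT8
    omega
  · rw [hk] at hcompl
    have h1 : (T : Subgroup G) = ⊥ := Subgroup.isComplement'_top_left.mp hcompl
    rw [h1, Subgroup.card_bot] at hT8
    omega

/-- A Sylow 2-subgroup of a simple group of order 168 contains two distinct involutions. -/
theorem o168_two_involutions (h : Nat.card G = 168) (T : Sylow 2 G) :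
    ∃ u v : G, u ∈ (T : Subgroup G) ∧ v ∈ (T : Subgroup G) ∧ orderOf u = 2 ∧ orderOf v = 2 ∧
      u ≠ v := by
  haveI : Fact (Nat.Prime 2) := ⟨Nat.prime_two⟩
  by_contra hcon
  push Not at hcon
  have hT8 := o168_sylow_two_card h T
  obtain ⟨z', hz'⟩ := exists_prime_orderOf_dvd_card' 2
    (show 2 ∣ Nat.card ↥(T : Subgroup G) by rw [hT8]; norm_num)
  obtain ⟨z, hzT, hzo⟩ : ∃ z : G, z ∈ (T : Subgroup G) ∧ orderOf z = 2 :=
    ⟨(z' : G), z'.2, (Subgroup.orderOf_coe z').trans hz'⟩
  have hz1 : z ≠ 1 := by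
    intro h1
    rw [h1, orderOf_one] at hzo
    omega
  have hcen : ∀ t ∈ (T : Subgroup G), t * z = z * t := by
    intro t ht
    have h1 : t * z * t⁻¹ ∈ (T : Subgroup G) :=
      (T : Subgroup G).mul_mem ((T : Subgroup G).mul_mem ht hzT) ((T : Subgroup G).inv_mem ht)
    have h2 : orderOf (t * z * t⁻¹) = 2 := by
      rw [Cfsg.Agent.Lib.Lead.orderOf_conj_eq, hzo]
    have h3 := hcon (t * z * t⁻¹) z h1 hzT h2 hzo
    calc t * z = (t * z * t⁻¹) * t := by group
      _ = z * t := by rw [h3]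
  have hCz := o168_centralizer_eq h T z hzT hz1 hcen
  have hfrob : Cfsg.IsFrobeniusComplement (T : Subgroup G) := by
    refine ⟨?_, ?_, ?_⟩
    · intro hb
      rw [hb, Subgroup.card_bot] at hT8
      omega
    · intro ht
      rw [ht, Subgroup.card_top, h] at hT8
      omega
    · intro g hg
      rw [eq_bot_iff]
      intro x hx
      rw [Subgroup.mem_bot]
      by_contra hx1
      obtain ⟨hxT, hxg⟩ := Subgroup.mem_inf.mp hx
      rw [Cfsg.Agent.Lib.Lead.mem_conj_smul] at hxg
      have hxo : orderOf x ∣ 2 ^ 3 := by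
        have h0 : orderOf x ∣ Nat.card (T : Subgroup G) := Subgroup.orderOf_dvd_natCard _ hxT
        rw [hT8] at h0
        have e : (8 : ℕ) = 2 ^ 3 := by norm_num
        rw [e] at h0
        exact h0
      obtain ⟨j, hj, hxj⟩ := (Nat.dvd_prime_pow Nat.prime_two).mp hxo
      have hj0 : j ≠ 0 := by
        intro h0
        rw [h0, pow_zero] at hxj
        exact hx1 (orderOf_eq_one_iff.mp hxj)
      have h2dvd : 2 ∣ orderOf x := by rw [hxj]; exact dvd_pow_self 2 hj0
      have hx0 : orderOf x ≠ 0 := by rw [hxj]; positivity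
      have hwo : orderOf (x ^ (orderOf x / 2)) = 2 := orderOf_pow_orderOf_div hx0 h2dvd
      obtain ⟨k, hk⟩ : ∃ k : ℕ, k = orderOf x / 2 := ⟨_, rfl⟩
      rw [← hk] at hwo
      have hwT : x ^ k ∈ (T : Subgroup G) := (T : Subgroup G).pow_mem hxT k
      have hwz : x ^ k = z := hcon (x ^ k) z hwT hzT hwo hzo
      have hw2T : (g⁻¹ * x * g) ^ k ∈ (T : Subgroup G) := (T : Subgroup G).pow_mem hxg k
      have hw2e : (g⁻¹ * x * g) ^ k = g⁻¹ * x ^ k * g := by
        have h0 := conj_pow (a := g⁻¹) (b := x) (i := k)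
        rw [inv_inv] at h0
        exact h0
      have hw2o : orderOf (g⁻¹ * x ^ k * g) = 2 := by
        have h0 := Cfsg.Agent.Lib.Lead.orderOf_conj_eq g⁻¹ (x ^ k)
        rw [inv_inv] at h0
        rw [h0, hwo]
      rw [hw2e] at hw2T
      have hw2z : g⁻¹ * x ^ k * g = z := hcon _ z hw2T hzT hw2o hzo
      rw [hwz] at hw2z
      apply hg
      have hgC : g ∈ Subgroup.centralizer ({z} : Set G) := by
        rw [Subgroup.mem_centralizer_iff]
        intro y hy
        rw [Set.mem_singleton_iff] at hy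
        rw [hy]
        calc z * g = g * (g⁻¹ * z * g) := by group
          _ = g * z := by rw [hw2z]
      rw [hCz] at hgC
      exact hgC
  obtain ⟨N, _, hNn, hNc⟩ := Cfsg.Agent.Lib.Lead.frobenius_kernel (T : Subgroup G) hfrob
  rcases hNn.eq_bot_or_eq_top with hk | hk
  · rw [hk] at hNc
    have h1 : (T : Subgroup G) = ⊤ := Subgroup.isComplement'_bot_left.mp hNc
    rw [h1, Subgroup.card_top, h] at hT8
    omega
  · rw [hk] at hNc
    have h1 : (T : Subgroup G) = ⊥ := Subgroup.isComplement'_top_left.mp hNc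
    rw [h1, Subgroup.card_bot] at hT8
    omega

end

end Cfsg.Agent.Lib.Helper2
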