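import Mathlib
import Cfsg.Agent.Lib.Helper2.Order168
import Cfsg.Agent.Lib.Lead.ThompsonTr

set_option autoImplicit false

namespace Cfsg.Agent.Lib.Helper2

/-- The elements of the whole group conjugating `σ` to a given conjugate `v` form a coset of
`C(σ)`. -/
theorem card_conj_fiber_top {G : Type*} [Group G] (σ v g₀ : G) (h0 : g₀ * σ * g₀⁻¹ = v) :
    Nat.card {g : G // g * σ * g⁻¹ = v} = Nat.card (Subgroup.centralizer ({σ} : Set G)) := by
  have hmem : ∀ g : {g : G // g * σ * g⁻¹ = v},
      g₀⁻¹ * (g : G) ∈ Subgroup.centralizer ({σ} : Set G) := by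
    intro g
    rw [Subgroup.mem_centralizer_iff]
    intro x hx
    rw [Set.mem_singleton_iff] at hx
    subst hx
    have h1 : (g : G) * x * (g : G)⁻¹ = g₀ * x * g₀⁻¹ := g.2.trans h0.symm
    have e : x * (g₀⁻¹ * (g : G)) = g₀⁻¹ * (g₀ * x * g₀⁻¹) * (g : G) := by group
    rw [e, ← h1]; group
  have hback : ∀ c : ↥(Subgroup.centralizer ({σ} : Set G)),
      g₀ * (c : G) * σ * (g₀ * (c : G))⁻¹ = v := by
    intro c
    have h1 : σ * (c : G) = (c : G) * σ :=
      Subgroup.mem_centralizer_iff.mp c.2 σ (Set.mem_singleton σ)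
    rw [← h0]
    have e : g₀ * (c : G) * σ * (g₀ * (c : G))⁻¹ = g₀ * ((c : G) * σ) * (c : G)⁻¹ * g₀⁻¹ := by
      group
    rw [e, ← h1]; group
  refine Nat.card_congr
    ⟨fun g => ⟨g₀⁻¹ * (g : G), hmem g⟩, fun c => ⟨g₀ * (c : G), hback c⟩, ?_, ?_⟩
  · intro g
    apply Subtype.ext
    show g₀ * (g₀⁻¹ * (g : G)) = (g : G)
    group
  · intro c
    apply Subtype.ext
    show g₀⁻¹ * (g₀ * (c : G)) = (c : G)
    group

/-- The only involution of a cyclic group `⟨a⟩` of order 4 is `a ^ 2`. -/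
theorem invol_of_mem_zpowers_four {T : Type*} [Group T] [Finite T] (a w : T)
    (ha : orderOf a = 4) (hw : w ∈ Subgroup.zpowers a) (hwo : orderOf w = 2) : w = a ^ 2 := by
  have ha4 : a ^ 4 = 1 := by rw [← ha]; exact pow_orderOf_eq_one a
  obtain ⟨n, hn⟩ := (Submonoid.mem_powers_iff w a).mp (mem_powers_iff_mem_zpowers.mpr hw)
  have hn' : a ^ (n % orderOf a) = w := by rw [pow_mod_orderOf]; exact hn
  rw [ha] at hn'
  have hlt : n % 4 < 4 := Nat.mod_lt _ (by norm_num)
  have hw2 : w ^ 2 = 1 := by rw [← hwo]; exact pow_orderOf_eq_one w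
  obtain ⟨m, hm⟩ : ∃ m : ℕ, m = n % 4 := ⟨_, rfl⟩
  rw [← hm] at hn' hlt
  interval_cases m
  · exfalso
    rw [pow_zero] at hn'
    rw [← hn', orderOf_one] at hwo
    omega
  · exfalso
    rw [pow_one] at hn'
    rw [← hn', ha] at hwo
    omega
  · exact hn'.symm
  · exfalso
    rw [← hn', ← pow_mul] at hw2
    have h3 := orderOf_dvd_of_pow_eq_one hw2
    rw [ha] at h3
    exact absurd h3 (by decide)

/-- In a simple group, if a Sylow `p`-subgroup has order `p` and its normalizer has order `p * q`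
with `q` prime, then an element of order `p` is self-centralizing. -/
theorem mem_zpowers_of_comm_sylow_prime {G : Type*} [Group G] [Finite G] [IsSimpleGroup G]
    (p q m : ℕ) [Fact p.Prime] (hq : q.Prime) (h : Nat.card G = p * m) (hm : ¬ p ∣ m)
    (hm1 : m ≠ 1)
    (hN : ∀ P : Sylow p G, Nat.card (Subgroup.normalizer ((P : Subgroup G) : Set G)) = p * q)
    (y x : G) (hy : orderOf y = p) (hc : x * y = y * x) : x ∈ Subgroup.zpowers y := by
  have hp : p.Prime := Fact.out
  obtain ⟨Q, hQc, hzp⟩ := sylow_of_order_prime p m h hm y hy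
  have hGp : Nat.card G ≠ p := by
    rw [h]
    intro h1
    have h2 : p * m = p * 1 := by rw [h1, mul_one]
    exact hm1 (Nat.eq_of_mul_eq_mul_left hp.pos h2)
  have hxC : x ∈ Subgroup.centralizer ((Q : Subgroup G) : Set G) := by
    rw [Subgroup.mem_centralizer_iff]
    intro v hv
    have hv' : v ∈ Subgroup.zpowers y := by rw [hzp]; exact hv
    obtain ⟨i, rfl⟩ := Subgroup.mem_zpowers_iff.mp hv'
    exact (Commute.zpow_left (show Commute y x from hc.symm) i).eq
  have hQC : (Q : Subgroup G) ≤ Subgroup.centralizer ((Q : Subgroup G) : Set G) := by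
    intro a ha
    rw [Subgroup.mem_centralizer_iff]
    intro b hb
    exact (comm_of_card_prime (Q : Subgroup G) hp hQc) b hb a ha
  have hCN : Subgroup.centralizer ((Q : Subgroup G) : Set G)
      ≤ Subgroup.normalizer ((Q : Subgroup G) : Set G) :=
    Subgroup.centralizer_le_normalizer _
  have hd1 : p ∣ Nat.card (Subgroup.centralizer ((Q : Subgroup G) : Set G)) := by
    have h0 := Subgroup.card_dvd_of_le hQC
    rwa [hQc] at h0
  have hd2 : Nat.card (Subgroup.centralizer ((Q : Subgroup G) : Set G)) ∣ p * q := by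
    have h0 := Subgroup.card_dvd_of_le hCN
    rwa [hN Q] at h0
  obtain ⟨k, hk⟩ := hd1
  rw [hk] at hd2
  have hkq : k ∣ q := Nat.dvd_of_mul_dvd_mul_left hp.pos hd2
  rcases (Nat.dvd_prime hq).mp hkq with hk1 | hkq'
  · rw [hk1, mul_one] at hk
    have hCeq : (Q : Subgroup G) = Subgroup.centralizer ((Q : Subgroup G) : Set G) :=
      Subgroup.eq_of_le_of_card_ge hQC (by rw [hk, hQc])
    have hxQ : x ∈ (Q : Subgroup G) := hCeq.ge hxC
    rw [hzp]; exact hxQ
  · exfalso
    rw [hkq'] at hk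
    have hCeq : Subgroup.centralizer ((Q : Subgroup G) : Set G)
        = Subgroup.normalizer ((Q : Subgroup G) : Set G) :=
      Subgroup.eq_of_le_of_card_ge hCN (by rw [hk, hN Q])
    exact sylow_burnside_of_le p Q hQc hGp hCeq.ge

section

variable {G : Type*} [Group G] [Finite G] [IsSimpleGroup G]

theorem o168_centralizer_three (h : Nat.card G = 168) (y x : G) (hy : orderOf y = 3)
    (hc : x * y = y * x) : x ∈ Subgroup.zpowers y := by
  haveI : Fact (Nat.Prime 3) := ⟨Nat.prime_three⟩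
  apply mem_zpowers_of_comm_sylow_prime 3 2 56 Nat.prime_two (by rw [h]) (by norm_num)
    (by norm_num) ?_ y x hy hc
  intro Q
  obtain ⟨_, _, hQn⟩ := sylow_count 3 Q
  have hn3 := (Cfsg.Agent.S1003.result h).2.1
  rw [hn3, h] at hQn
  omega

theorem o168_centralizer_seven (h : Nat.card G = 168) (y x : G) (hy : orderOf y = 7)
    (hc : x * y = y * x) : x ∈ Subgroup.zpowers y := by
  haveI : Fact (Nat.Prime 7) := ⟨by norm_num⟩
  apply mem_zpowers_of_comm_sylow_prime 7 3 24 Nat.prime_three (by rw [h]) (by norm_num)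
    (by norm_num) ?_ y x hy hc
  intro Q
  obtain ⟨_, _, hQn⟩ := sylow_count 7 Q
  have hn7 := (Cfsg.Agent.S1003.result h).2.2
  rw [hn7, h] at hQn
  omega

/-- Element orders in a simple group of order 168. -/
theorem o168_orders (h : Nat.card G = 168) (g : G) :
    orderOf g = 1 ∨ orderOf g = 2 ∨ orderOf g = 3 ∨ orderOf g = 4 ∨ orderOf g = 7 := by
  have hn0 : orderOf g ≠ 0 := (orderOf_pos g).ne'
  have hdvd : orderOf g ∣ 168 := by rw [← h]; exact orderOf_dvd_natCard g
  by_cases h7 : 7 ∣ orderOf g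
  · right; right; right; right
    have hyo : orderOf (g ^ (orderOf g / 7)) = 7 := orderOf_pow_orderOf_div hn0 h7
    have hc : g * g ^ (orderOf g / 7) = g ^ (orderOf g / 7) * g := (pow_mul_comm' g _).symm
    have hmem := o168_centralizer_seven h _ g hyo hc
    have hd : orderOf g ∣ 7 := by
      have h0 : orderOf g ∣ Nat.card (Subgroup.zpowers (g ^ (orderOf g / 7))) :=
        Subgroup.orderOf_dvd_natCard _ hmem
      rwa [Nat.card_zpowers, hyo] at h0
    exact Nat.dvd_antisymm hd h7
  · by_cases h3 : 3 ∣ orderOf g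
    · right; right; left
      have hyo : orderOf (g ^ (orderOf g / 3)) = 3 := orderOf_pow_orderOf_div hn0 h3
      have hc : g * g ^ (orderOf g / 3) = g ^ (orderOf g / 3) * g := (pow_mul_comm' g _).symm
      have hmem := o168_centralizer_three h _ g hyo hc
      have hd : orderOf g ∣ 3 := by
        have h0 : orderOf g ∣ Nat.card (Subgroup.zpowers (g ^ (orderOf g / 3))) :=
          Subgroup.orderOf_dvd_natCard _ hmem
        rwa [Nat.card_zpowers, hyo] at h0
      exact Nat.dvd_antisymm hd h3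
    · have hcop : Nat.Coprime (orderOf g) 21 := by
        have e : (21 : ℕ) = 3 * 7 := by norm_num
        rw [e]
        exact Nat.Coprime.mul_right
          ((Nat.Prime.coprime_iff_not_dvd Nat.prime_three).mpr h3).symm
          ((Nat.Prime.coprime_iff_not_dvd (by norm_num : Nat.Prime 7)).mpr h7).symm
      have h8 : orderOf g ∣ 8 := by
        have e : (168 : ℕ) = 8 * 21 := by norm_num
        rw [e] at hdvd
        exact hcop.dvd_of_dvd_mul_right hdvd
      have hne8 : orderOf g ≠ 8 := by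
        intro h8'
        haveI : Fact (Nat.Prime 2) := ⟨Nat.prime_two⟩
        have hpg : IsPGroup 2 (Subgroup.zpowers g) :=
          IsPGroup.of_card (n := 3) (by rw [Nat.card_zpowers, h8']; norm_num)
        obtain ⟨T, hT⟩ := hpg.exists_le_sylow
        have hT8 := o168_sylow_two_card h T
        have hTeq : Subgroup.zpowers g = (T : Subgroup G) :=
          Subgroup.eq_of_le_of_card_ge hT (by rw [hT8, Nat.card_zpowers, h8'])
        apply o168_not_comm h T
        intro a ha b hb
        rw [← hTeq] at ha hb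
        obtain ⟨i, rfl⟩ := Subgroup.mem_zpowers_iff.mp ha
        obtain ⟨j, rfl⟩ := Subgroup.mem_zpowers_iff.mp hb
        exact zpow_mul_comm g i j
      have hle : orderOf g ≤ 8 := Nat.le_of_dvd (by norm_num) h8
      obtain ⟨n, hn⟩ : ∃ n, n = orderOf g := ⟨_, rfl⟩
      rw [← hn] at h8 hne8 hle hn0 ⊢
      interval_cases n <;> first | omega | exact absurd h8 (by decide)

/-- A Sylow 2-subgroup `T` of a simple group of order 168 contains an element `a` of order 4
such that every involution of the group is conjugate to `a ^ 2`, and `C(a ^ 2) = T`. -/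
theorem o168_exists_central_invol (h : Nat.card G = 168) (T : Sylow 2 G) :
    ∃ a : G, a ∈ (T : Subgroup G) ∧ orderOf a = 4 ∧
      (∀ x : G, orderOf x = 2 → ∃ g : G, g * x * g⁻¹ = a ^ 2) ∧
      Subgroup.centralizer ({a ^ 2} : Set G) = T := by
  haveI : Fact (Nat.Prime 2) := ⟨Nat.prime_two⟩
  have hT8 := o168_sylow_two_card h T
  obtain ⟨a', ha'⟩ := exists_orderOf_four (T := ↥(T : Subgroup G)) hT8 (by
    intro hab
    apply o168_not_comm h T
    intro a ha b hb
    exact congrArg Subtype.val (hab ⟨a, ha⟩ ⟨b, hb⟩))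
  obtain ⟨a, haT, hao⟩ : ∃ a : G, a ∈ (T : Subgroup G) ∧ orderOf a = 4 :=
    ⟨(a' : G), a'.2, (Subgroup.orderOf_coe a').trans ha'⟩
  have hMT : Subgroup.zpowers a ≤ (T : Subgroup G) := (Subgroup.zpowers_le).mpr haT
  have hMc : Nat.card (Subgroup.zpowers a) = 4 := by rw [Nat.card_zpowers, hao]
  have hrel : (Subgroup.zpowers a).relIndex (T : Subgroup G) = 2 := by
    have h0 := Subgroup.relIndex_mul_relIndex (⊥ : Subgroup G) (Subgroup.zpowers a)
      (T : Subgroup G) bot_le hMT
    rw [Subgroup.relIndex_bot_left, Subgroup.relIndex_bot_left, hMc, hT8] at h0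
    omega
  have hz2 : orderOf (a ^ 2) = 2 := by
    rw [orderOf_pow' a (by norm_num : (2 : ℕ) ≠ 0), hao]
    decide
  have hconj : ∀ x : G, orderOf x = 2 → ∃ g : G, g * x * g⁻¹ = a ^ 2 := by
    intro x hx
    have hord : ∀ y ∈ (T : Subgroup G), y ∉ Subgroup.zpowers a → 2 ^ (1 - 1) < orderOf y := by
      intro y _ hyM
      have hy1 : y ≠ 1 := by
        intro h1
        apply hyM
        rw [h1]
        exact Subgroup.one_mem _
      have hpos := orderOf_pos y
      have hne : orderOf y ≠ 1 := fun h1 => hy1 (orderOf_eq_one_iff.mp h1)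
      show 2 ^ 0 < orderOf y
      rw [pow_zero]
      omega
    rcases Cfsg.Agent.Lib.Lead.thompson_transfer_normal T (Subgroup.zpowers a) hrel 1 le_rfl hord
      x (by rw [hx, pow_one]) with ⟨K, hKn, hKi, _⟩ | ⟨g, hg⟩
    · exfalso
      rcases hKn.eq_bot_or_eq_top with hk | hk
      · rw [hk, Subgroup.index_bot, h] at hKi
        omega
      · rw [hk, Subgroup.index_top] at hKi
        omega
    · refine ⟨g, ?_⟩
      apply invol_of_mem_zpowers_four a _ hao hg
      rw [Cfsg.Agent.Lib.Lead.orderOf_conj_eq, hx]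
  have ha2M : a ^ 2 ∈ Subgroup.zpowers a := Subgroup.pow_mem _ (Subgroup.mem_zpowers a) 2
  have hsubn : ((Subgroup.zpowers a).subgroupOf (T : Subgroup G)).Normal :=
    Subgroup.normal_of_index_eq_two hrel
  have hcen : ∀ t ∈ (T : Subgroup G), t * a ^ 2 = a ^ 2 * t := by
    intro t ht
    have h1 : (⟨a ^ 2, hMT ha2M⟩ : ↥(T : Subgroup G))
        ∈ (Subgroup.zpowers a).subgroupOf (T : Subgroup G) := by
      rw [Subgroup.mem_subgroupOf]
      exact ha2M
    have h2 := hsubn.conj_mem _ h1 ⟨t, ht⟩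
    rw [Subgroup.mem_subgroupOf] at h2
    have h3 : t * a ^ 2 * t⁻¹ ∈ Subgroup.zpowers a := h2
    have h4 : t * a ^ 2 * t⁻¹ = a ^ 2 := by
      apply invol_of_mem_zpowers_four a _ hao h3
      rw [Cfsg.Agent.Lib.Lead.orderOf_conj_eq, hz2]
    calc t * a ^ 2 = (t * a ^ 2 * t⁻¹) * t := by group
      _ = a ^ 2 * t := by rw [h4]
  have hz1 : a ^ 2 ≠ 1 := by
    intro h1
    rw [h1, orderOf_one] at hz2
    omega
  exact ⟨a, haT, hao, hconj, o168_centralizer_eq h T (a ^ 2) (hMT ha2M) hz1 hcen⟩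

end

end Cfsg.Agent.Lib.Helper2
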