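import Mathlib
import Cfsg.Agent.S1004
import Cfsg.Agent.Lib.Helper2.Order168b

set_option autoImplicit false

namespace Cfsg.Agent.Lib.Helper2

/-- Class equation for a single class. -/
theorem card_conj_class {G : Type*} [Group G] [Finite G] (x : G) :
    Nat.card G = Nat.card {g : G // IsConj x g}
      * Nat.card (Subgroup.centralizer ({x} : Set G)) := by
  have hmem : ∀ g : G, IsConj x (g * x * g⁻¹) := fun g => isConj_iff.mpr ⟨g, rfl⟩
  apply card_eq_mul_of_fibers (fun g : G => (⟨g * x * g⁻¹, hmem g⟩ : {v : G // IsConj x v}))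
  intro v
  obtain ⟨g₀, hg₀⟩ := isConj_iff.mp v.2
  have e1 : Nat.card {g : G // (⟨g * x * g⁻¹, hmem g⟩ : {v : G // IsConj x v}) = v}
      = Nat.card {g : G // g * x * g⁻¹ = v.1} :=
    Nat.card_congr (Equiv.subtypeEquivRight (fun g => Subtype.ext_iff))
  rw [e1, card_conj_fiber_top x v.1 g₀ hg₀]

/-- If all elements of order `n` are conjugate to `x`, their number is the index of `C(x)`. -/
theorem card_order_class {G : Type*} [Group G] [Finite G] (x : G) (n : ℕ)
    (hxo : orderOf x = n) (hconj : ∀ v : G, orderOf v = n → ∃ g : G, g * v * g⁻¹ = x) :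
    Nat.card G = Nat.card {g : G // orderOf g = n}
      * Nat.card (Subgroup.centralizer ({x} : Set G)) := by
  have h1 := card_conj_class x
  have h2 : Nat.card {g : G // IsConj x g} = Nat.card {g : G // orderOf g = n} := by
    apply Nat.card_congr
    apply Equiv.subtypeEquivRight
    intro g
    constructor
    · intro hc
      obtain ⟨c, hc⟩ := isConj_iff.mp hc
      rw [← hc, Cfsg.Agent.Lib.Lead.orderOf_conj_eq, hxo]
    · intro hg
      obtain ⟨c, hc⟩ := hconj g hg
      apply isConj_iff.mpr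
      refine ⟨c⁻¹, ?_⟩
      rw [← hc]; group
  rw [h2] at h1
  exact h1

theorem card_centralizer_of_self_centralizing {G : Type*} [Group G] (y : G)
    (hself : ∀ x : G, x * y = y * x → x ∈ Subgroup.zpowers y) :
    Nat.card (Subgroup.centralizer ({y} : Set G)) = orderOf y := by
  have heq : Subgroup.centralizer ({y} : Set G) = Subgroup.zpowers y := by
    apply le_antisymm
    · intro x hx
      have hc : y * x = x * y := Subgroup.mem_centralizer_iff.mp hx y (Set.mem_singleton y)
      exact hself x hc.symm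
    · rw [Subgroup.zpowers_le, Subgroup.mem_centralizer_iff]
      intro x hx
      rw [Set.mem_singleton_iff] at hx
      rw [hx]
  rw [heq, Nat.card_zpowers]

theorem order_three_mem_zpowers {T : Type*} [Group T] [Finite T] (y w : T)
    (hy : orderOf y = 3) (hw : w ∈ Subgroup.zpowers y) (hwo : orderOf w = 3) :
    w = y ∨ w = y ^ 2 := by
  obtain ⟨n, hn⟩ := (Submonoid.mem_powers_iff w y).mp (mem_powers_iff_mem_zpowers.mpr hw)
  have hn' : y ^ (n % orderOf y) = w := by rw [pow_mod_orderOf]; exact hn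
  rw [hy] at hn'
  have hlt : n % 3 < 3 := Nat.mod_lt _ (by norm_num)
  obtain ⟨m, hm⟩ : ∃ m : ℕ, m = n % 3 := ⟨_, rfl⟩
  rw [← hm] at hn' hlt
  interval_cases m
  · exfalso
    rw [pow_zero] at hn'
    rw [← hn', orderOf_one] at hwo
    omega
  · left
    rw [pow_one] at hn'
    exact hn'.symm
  · right
    exact hn'.symm

theorem d4_order_four (x : DihedralGroup 4) (hx : orderOf x = 4) :
    x = DihedralGroup.r 1 ∨ x = DihedralGroup.r 3 := by
  have key : ∀ i : ZMod 4, 4 / Nat.gcd 4 i.val = 4 → i = 1 ∨ i = 3 := by decide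
  rcases x with i | i
  · rw [DihedralGroup.orderOf_r] at hx
    rcases key i hx with h1 | h1
    · left; rw [h1]
    · right; rw [h1]
  · rw [DihedralGroup.orderOf_sr] at hx
    omega

theorem d4_order_four_conj (x y : DihedralGroup 4) (hx : orderOf x = 4) (hy : orderOf y = 4) :
    ∃ c : DihedralGroup 4, c * x * c⁻¹ = y := by
  rcases d4_order_four x hx with rfl | rfl <;> rcases d4_order_four y hy with rfl | rfl
  · exact ⟨1, by decide⟩
  · exact ⟨DihedralGroup.sr 0, by decide⟩
  · exact ⟨DihedralGroup.sr 0, by decide⟩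
  · exact ⟨1, by decide⟩

theorem d4_order_four_not_central (x : DihedralGroup 4) (hx : orderOf x = 4) :
    ∃ c : DihedralGroup 4, c * x ≠ x * c := by
  rcases d4_order_four x hx with rfl | rfl
  · exact ⟨DihedralGroup.sr 0, by decide⟩
  · exact ⟨DihedralGroup.sr 0, by decide⟩

section

variable {G : Type*} [Group G] [Finite G] [IsSimpleGroup G]

theorem o168_card_centralizer_three (h : Nat.card G = 168) (y : G) (hy : orderOf y = 3) :
    Nat.card (Subgroup.centralizer ({y} : Set G)) = 3 := by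
  rw [card_centralizer_of_self_centralizing y (fun x hc => o168_centralizer_three h y x hy hc),
    hy]

theorem o168_card_centralizer_seven (h : Nat.card G = 168) (y : G) (hy : orderOf y = 7) :
    Nat.card (Subgroup.centralizer ({y} : Set G)) = 7 := by
  rw [card_centralizer_of_self_centralizing y (fun x hc => o168_centralizer_seven h y x hy hc),
    hy]

/-- Any two elements of order 3 are conjugate. -/
theorem o168_three_conj (h : Nat.card G = 168) (y v : G) (hy : orderOf y = 3)
    (hv : orderOf v = 3) : ∃ g : G, g * v * g⁻¹ = y := by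
  haveI : Fact (Nat.Prime 3) := ⟨Nat.prime_three⟩
  haveI : Fact (Nat.Prime 2) := ⟨Nat.prime_two⟩
  obtain ⟨Q, hQc, hzp⟩ := sylow_of_order_prime 3 56 (by rw [h]) (by norm_num) y hy
  have hv3 : v ^ 3 = 1 := by rw [← hv]; exact pow_orderOf_eq_one v
  obtain ⟨g, hg⟩ := Cfsg.Agent.Lib.Lead.sylow_conj_mem Q (Subgroup.zpowers v)
    (isPGroup_zpowers_of_pow hv3)
  have hgv : g * v * g⁻¹ ∈ Subgroup.zpowers y := by
    rw [hzp]; exact hg v (Subgroup.mem_zpowers v)
  have hgvo : orderOf (g * v * g⁻¹) = 3 := by rw [Cfsg.Agent.Lib.Lead.orderOf_conj_eq, hv]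
  rcases order_three_mem_zpowers y _ hy hgv hgvo with h1 | h1
  · exact ⟨g, h1⟩
  · obtain ⟨_, _, hQn⟩ := sylow_count 3 Q
    have hn3 := (Cfsg.Agent.S1003.result h).2.1
    rw [hn3, h] at hQn
    have hNQ : Nat.card (Subgroup.normalizer ((Q : Subgroup G) : Set G)) = 6 := by omega
    obtain ⟨t', ht'⟩ := exists_prime_orderOf_dvd_card' 2
      (show 2 ∣ Nat.card ↥(Subgroup.normalizer ((Q : Subgroup G) : Set G)) by
        rw [hNQ]; norm_num)
    obtain ⟨t, htN, hto⟩ : ∃ t : G, t ∈ Subgroup.normalizer ((Q : Subgroup G) : Set G) ∧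
        orderOf t = 2 := ⟨(t' : G), t'.2, (Subgroup.orderOf_coe t').trans ht'⟩
    have hyQ : y ∈ (Q : Subgroup G) := by rw [← hzp]; exact Subgroup.mem_zpowers y
    have htyt : t * y * t⁻¹ ∈ Subgroup.zpowers y := by
      rw [hzp]; exact (Subgroup.mem_normalizer_iff.mp htN y).mp hyQ
    have htyo : orderOf (t * y * t⁻¹) = 3 := by rw [Cfsg.Agent.Lib.Lead.orderOf_conj_eq, hy]
    rcases order_three_mem_zpowers y _ hy htyt htyo with h2 | h2
    · exfalso
      have hc : t * y = y * t := by
        calc t * y = (t * y * t⁻¹) * t := by group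
          _ = y * t := by rw [h2]
      have hmem := o168_centralizer_three h y t hy hc
      have h0 : orderOf t ∣ Nat.card (Subgroup.zpowers y) := Subgroup.orderOf_dvd_natCard _ hmem
      rw [Nat.card_zpowers, hy, hto] at h0
      exact absurd h0 (by decide)
    · refine ⟨t⁻¹ * g, ?_⟩
      have e : t⁻¹ * g * v * (t⁻¹ * g)⁻¹ = t⁻¹ * (g * v * g⁻¹) * t := by group
      rw [e, h1, ← h2]
      group

theorem o168_order_four_conj_in (h : Nat.card G = 168) (T : Sylow 2 G) (b b' : G)
    (hb : b ∈ (T : Subgroup G)) (hb' : b' ∈ (T : Subgroup G)) (hbo : orderOf b = 4)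
    (hbo' : orderOf b' = 4) : ∃ c ∈ (T : Subgroup G), c * b * c⁻¹ = b' := by
  obtain ⟨e⟩ := (Cfsg.Agent.S1004.result h T).1
  have h1 : orderOf (e ⟨b, hb⟩) = 4 := by rw [MulEquiv.orderOf_eq, Subgroup.orderOf_mk, hbo]
  have h2 : orderOf (e ⟨b', hb'⟩) = 4 := by rw [MulEquiv.orderOf_eq, Subgroup.orderOf_mk, hbo']
  obtain ⟨c, hc⟩ := d4_order_four_conj _ _ h1 h2
  refine ⟨(e.symm c : G), (e.symm c).2, ?_⟩
  have h3 : e.symm c * ⟨b, hb⟩ * (e.symm c)⁻¹ = (⟨b', hb'⟩ : ↥(T : Subgroup G)) := by
    apply e.injective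
    rw [map_mul, map_mul, map_inv, MulEquiv.apply_symm_apply]
    exact hc
  exact congrArg Subtype.val h3

theorem o168_order_four_not_central (h : Nat.card G = 168) (T : Sylow 2 G) (b : G)
    (hb : b ∈ (T : Subgroup G)) (hbo : orderOf b = 4) :
    ∃ c ∈ (T : Subgroup G), c * b ≠ b * c := by
  obtain ⟨e⟩ := (Cfsg.Agent.S1004.result h T).1
  have h1 : orderOf (e ⟨b, hb⟩) = 4 := by rw [MulEquiv.orderOf_eq, Subgroup.orderOf_mk, hbo]
  obtain ⟨c, hc⟩ := d4_order_four_not_central _ h1
  refine ⟨(e.symm c : G), (e.symm c).2, ?_⟩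
  intro hcomm
  apply hc
  have h3 : e.symm c * ⟨b, hb⟩ = (⟨b, hb⟩ : ↥(T : Subgroup G)) * e.symm c := Subtype.ext hcomm
  have h4 := congrArg e h3
  rw [map_mul, map_mul, MulEquiv.apply_symm_apply] at h4
  exact h4

theorem o168_card_centralizer_four (h : Nat.card G = 168) (b : G) (hbo : orderOf b = 4) :
    Nat.card (Subgroup.centralizer ({b} : Set G)) = 4 := by
  haveI : Fact (Nat.Prime 2) := ⟨Nat.prime_two⟩
  have hb8 : b ^ 8 = 1 := by
    have e : b ^ 8 = (b ^ 4) ^ 2 := by rw [← pow_mul]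
    rw [e, ← hbo, pow_orderOf_eq_one, one_pow]
  have hb1 : b ≠ 1 := by
    intro h1
    rw [h1, orderOf_one] at hbo
    omega
  have hd := o168_card_centralizer h b hb8 hb1
  have hle : Subgroup.zpowers b ≤ Subgroup.centralizer ({b} : Set G) := by
    rw [Subgroup.zpowers_le, Subgroup.mem_centralizer_iff]
    intro x hx
    rw [Set.mem_singleton_iff] at hx
    rw [hx]
  have h4 : 4 ∣ Nat.card (Subgroup.centralizer ({b} : Set G)) := by
    have h0 := Subgroup.card_dvd_of_le hle
    rwa [Nat.card_zpowers, hbo] at h0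
  have hne8 : Nat.card (Subgroup.centralizer ({b} : Set G)) ≠ 8 := by
    intro h8
    have hpg : IsPGroup 2 (Subgroup.centralizer ({b} : Set G)) :=
      IsPGroup.of_card (n := 3) (by rw [h8]; norm_num)
    obtain ⟨T, hT⟩ := hpg.exists_le_sylow
    have hT8 := o168_sylow_two_card h T
    have hTeq : Subgroup.centralizer ({b} : Set G) = (T : Subgroup G) :=
      Subgroup.eq_of_le_of_card_ge hT (by rw [hT8, h8])
    have hbT : b ∈ (T : Subgroup G) := hT (hle (Subgroup.mem_zpowers b))
    obtain ⟨c, hcT, hc⟩ := o168_order_four_not_central h T b hbT hbo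
    apply hc
    rw [← hTeq] at hcT
    exact (Subgroup.mem_centralizer_iff.mp hcT b (Set.mem_singleton b)).symm
  have hle8 : Nat.card (Subgroup.centralizer ({b} : Set G)) ≤ 8 :=
    Nat.le_of_dvd (by norm_num) hd
  have hpos : 0 < Nat.card (Subgroup.centralizer ({b} : Set G)) := Nat.card_pos
  obtain ⟨k, hk⟩ := h4
  omega

/-- Any two elements of order 4 are conjugate. -/
theorem o168_four_conj (h : Nat.card G = 168) (a v : G) (ha : orderOf a = 4)
    (hv : orderOf v = 4) : ∃ g : G, g * v * g⁻¹ = a := by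
  haveI : Fact (Nat.Prime 2) := ⟨Nat.prime_two⟩
  have hpa : IsPGroup 2 (Subgroup.zpowers a) :=
    IsPGroup.of_card (n := 2) (by rw [Nat.card_zpowers, ha]; norm_num)
  have hpv : IsPGroup 2 (Subgroup.zpowers v) :=
    IsPGroup.of_card (n := 2) (by rw [Nat.card_zpowers, hv]; norm_num)
  obtain ⟨T, hT⟩ := hpa.exists_le_sylow
  have haT : a ∈ (T : Subgroup G) := hT (Subgroup.mem_zpowers a)
  obtain ⟨g, hg⟩ := Cfsg.Agent.Lib.Lead.sylow_conj_mem T (Subgroup.zpowers v) hpv
  have hgv : g * v * g⁻¹ ∈ (T : Subgroup G) := hg v (Subgroup.mem_zpowers v)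
  have hgvo : orderOf (g * v * g⁻¹) = 4 := by rw [Cfsg.Agent.Lib.Lead.orderOf_conj_eq, hv]
  obtain ⟨c, _, hc⟩ := o168_order_four_conj_in h T (g * v * g⁻¹) a hgv haT hgvo ha
  refine ⟨c * g, ?_⟩
  rw [← hc]; group

/-- An element of order 7 is not conjugate to its inverse. -/
theorem o168_seven_not_conj_inv (h : Nat.card G = 168) (x : G) (hx : orderOf x = 7) :
    ¬ IsConj x x⁻¹ := by
  intro hc
  obtain ⟨g, hg⟩ := isConj_iff.mp hc
  haveI : Fact (Nat.Prime 7) := ⟨by norm_num⟩
  obtain ⟨P, hPc, hzp⟩ := sylow_of_order_prime 7 24 (by rw [h]) (by norm_num) x hx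
  have hx1 : x ≠ 1 := by
    intro h1
    rw [h1, orderOf_one] at hx
    omega
  have hxP : x ∈ (P : Subgroup G) := by rw [← hzp]; exact Subgroup.mem_zpowers x
  have hgN : g ∈ Subgroup.normalizer ((P : Subgroup G) : Set G) := by
    apply mem_normalizer_of_conj_gen (P : Subgroup G) (by norm_num : Nat.Prime 7) hPc g x hxP hx1
    rw [hg]; exact (P : Subgroup G).inv_mem hxP
  obtain ⟨_, _, hPn⟩ := sylow_count 7 P
  have hn7 := (Cfsg.Agent.S1003.result h).2.2
  rw [hn7, h] at hPn
  have hNP : Nat.card (Subgroup.normalizer ((P : Subgroup G) : Set G)) = 21 := by omega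
  have hg21 : g ^ 21 = 1 := by
    have h0 := Subgroup.orderOf_dvd_natCard _ hgN
    rw [hNP] at h0
    exact orderOf_dvd_iff_pow_eq_one.mp h0
  have hg2 : g ^ 2 * x = x * g ^ 2 := by
    have h1 : g * x = x⁻¹ * g := by
      calc g * x = (g * x * g⁻¹) * g := by group
        _ = x⁻¹ * g := by rw [hg]
    have h2 : g * x⁻¹ = x * g := by
      have h3 : g * x⁻¹ * g⁻¹ = x := by
        have e : g * x⁻¹ * g⁻¹ = (g * x * g⁻¹)⁻¹ := by group
        rw [e, hg, inv_inv]
      calc g * x⁻¹ = (g * x⁻¹ * g⁻¹) * g := by group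
        _ = x * g := by rw [h3]
    calc g ^ 2 * x = g * (g * x) := by rw [pow_two, mul_assoc]
      _ = g * (x⁻¹ * g) := by rw [h1]
      _ = (g * x⁻¹) * g := by rw [mul_assoc]
      _ = (x * g) * g := by rw [h2]
      _ = x * g ^ 2 := by rw [pow_two, mul_assoc]
  have hcomm : Commute (g ^ 2) x := hg2
  have hcomm2 : Commute ((g ^ 2) ^ 11) x := hcomm.pow_left 11
  have hg22 : (g ^ 2) ^ 11 = g := by
    have e22 : 2 * 11 = 21 + 1 := by norm_num
    rw [← pow_mul, e22, pow_succ, hg21, one_mul]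
  rw [hg22] at hcomm2
  have h3 : g * x * g⁻¹ = x := by
    rw [hcomm2.eq]; group
  rw [h3] at hg
  have h4 : x ^ 2 = 1 := by
    rw [pow_two]
    calc x * x = x * x⁻¹ := by rw [← hg]
      _ = 1 := mul_inv_cancel x
  have h5 := orderOf_dvd_of_pow_eq_one h4
  rw [hx] at h5
  exact absurd h5 (by decide)

/-- Counting the elements of order 7 from the other orders. -/
theorem o168_count_seven (h : Nat.card G = 168) (h2 : Nat.card {g : G // orderOf g = 2} = 21)
    (h3 : Nat.card {g : G // orderOf g = 3} = 56) (h4 : Nat.card {g : G // orderOf g = 4} = 42) :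
    Nat.card {g : G // orderOf g = 7} = 48 := by
  classical
  haveI : Fintype G := Fintype.ofFinite G
  have hsum := Finset.card_eq_sum_card_fiberwise (s := (Finset.univ : Finset G))
    (t := ({1, 2, 3, 4, 7} : Finset ℕ)) (f := orderOf) (by
      intro g _
      rw [Finset.mem_coe]
      simp only [Finset.mem_insert, Finset.mem_singleton]
      exact o168_orders h g)
  rw [Finset.sum_insert (by decide), Finset.sum_insert (by decide),
    Finset.sum_insert (by decide), Finset.sum_insert (by decide), Finset.sum_singleton] at hsum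
  have hc : ∀ k : ℕ, (Finset.univ.filter (fun a : G => orderOf a = k)).card
      = Nat.card {g : G // orderOf g = k} := by
    intro k
    rw [Nat.card_eq_fintype_card, Fintype.card_subtype]
  rw [hc, hc, hc, hc, hc, Finset.card_univ, ← Nat.card_eq_fintype_card, h, h2, h3, h4] at hsum
  have h1 : Nat.card {g : G // orderOf g = 1} = 1 := by
    have e : ∀ g : G, orderOf g = 1 ↔ g = 1 := fun g => orderOf_eq_one_iff
    rw [Nat.card_congr (Equiv.subtypeEquivRight e), Nat.card_eq_fintype_card]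
    exact Fintype.card_subtype_eq 1
  omega

end

end Cfsg.Agent.Lib.Helper2
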