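import Mathlib
import Cfsg.Agent.Lib.Lead.SylowAux
import Cfsg.Agent.Lib.Lead.CharBurnside
import Cfsg.Agent.Lib.Helper2.SimpleOrder
import Cfsg.Agent.Lib.Helper2.SimpleOrder2
import Cfsg.Agent.Lib.Helper2.PrimeDegree
import Cfsg.Agent.Lib.Helper2.SylowMisc

set_option autoImplicit false

namespace Cfsg.Agent.Lib.Helper2

theorem simple_solvable_prime {G : Type*} [Group G] [Finite G] [IsSimpleGroup G]
    (hs : Group.IsSolvable G) : (Nat.card G).Prime := by
  have hc : ∀ a b : G, a * b = b * a := IsSimpleGroup.comm_iff_isSolvable.mpr hs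
  letI : CommGroup G := { (inferInstance : Group G) with mul_comm := hc }
  exact IsSimpleGroup.prime_card

theorem simple_minFac_sylow_not_prime {G : Type*} [Group G] [Finite G] [IsSimpleGroup G]
    (hG : ¬ IsMulCommutative G) (s : ℕ) [Fact s.Prime] (hmin : (Nat.card G).minFac = s)
    (S : Sylow s G) (hS : Nat.card (S : Subgroup G) = s) : False := by
  have hs : s.Prime := Fact.out
  have hcyc : IsCyclic ↥(S : Subgroup G) := isCyclic_of_prime_card hS
  have hcompl := IsCyclic.isComplement' hmin hcyc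
  have hne : (S : Subgroup G) ≠ ⊥ := by
    intro h
    rw [h, Subgroup.card_bot] at hS
    exact hs.one_lt.ne' hS.symm
  exact no_normal_complement hG _ _ hcompl hne (comm_of_card_prime (S : Subgroup G) hs hS)

theorem p2qr_not_prime (p q r : ℕ) (hp : p.Prime) (hq : q.Prime) (hr : r.Prime) :
    ¬ (p ^ 2 * q * r).Prime := by
  intro h
  have h2p := hp.two_le
  have h2q := hq.two_le
  have h2r := hr.two_le
  have hd : p ∣ p ^ 2 * q * r := Dvd.intro (p * q * r) (by ring)
  have h8 : p * (2 * 2 * 2) ≤ p * (p * q * r) :=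
    Nat.mul_le_mul_left p (Nat.mul_le_mul (Nat.mul_le_mul h2p h2q) h2r)
  have e : p ^ 2 * q * r = p * (p * q * r) := by ring
  rcases (Nat.dvd_prime h).mp hd with h1 | h1
  · omega
  · omega

theorem p2qr_arith (p s i : ℕ) (hp : p.Prime) (hs : s.Prime) (hps : p < s) (hi : i < 2)
    (hmod : p ^ i ≡ p ^ 2 [MOD s]) : p = 2 ∧ s = 3 := by
  have h2p := hp.two_le
  have key : s ∣ p + 1 := by
    have hi' : i = 0 ∨ i = 1 := by omega
    rcases hi' with rfl | rfl
    · have hdvd : s ∣ p ^ 2 - p ^ 0 :=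
        (Nat.modEq_iff_dvd' (Nat.pow_le_pow_right hp.pos (by norm_num))).mp hmod
      have e : p ^ 2 - p ^ 0 = (p - 1) * (p + 1) := by
        obtain ⟨c, rfl⟩ : ∃ c, p = c + 1 := ⟨p - 1, by omega⟩
        rw [Nat.add_sub_cancel, pow_zero]
        apply Nat.sub_eq_of_eq_add
        ring
      rw [e] at hdvd
      rcases (Nat.Prime.dvd_mul hs).mp hdvd with h | h
      · exfalso
        have := Nat.le_of_dvd (by omega) h
        omega
      · exact h
    · have hdvd : s ∣ p ^ 2 - p ^ 1 :=
        (Nat.modEq_iff_dvd' (Nat.pow_le_pow_right hp.pos (by norm_num))).mp hmod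
      have e : p ^ 2 - p ^ 1 = p * (p - 1) := by
        obtain ⟨c, rfl⟩ : ∃ c, p = c + 1 := ⟨p - 1, by omega⟩
        rw [Nat.add_sub_cancel, pow_one]
        apply Nat.sub_eq_of_eq_add
        ring
      rw [e] at hdvd
      exfalso
      rcases (Nat.Prime.dvd_mul hs).mp hdvd with h | h
      · have := Nat.le_of_dvd hp.pos h
        omega
      · have := Nat.le_of_dvd (by omega) h
        omega
  have hs_eq : s = p + 1 := by
    have := Nat.le_of_dvd (by omega) key
    omega
  rcases hp.eq_two_or_odd with h | h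
  · exact ⟨h, by omega⟩
  · exfalso
    rcases hs.eq_two_or_odd with h' | h'
    · omega
    · omega

theorem simple_p2qr_distinct {G : Type*} [Group G] [Finite G] [IsSimpleGroup G] (p q r : ℕ)
    (hp : p.Prime) (hq : q.Prime) (hr : r.Prime) (hpq : p ≠ q) (hpr : p ≠ r) (hqr : q < r)
    (hG : Nat.card G = p ^ 2 * q * r) : Nat.card G = 60 := by
  classical
  haveI : Fact p.Prime := ⟨hp⟩
  haveI : Fact q.Prime := ⟨hq⟩
  haveI : Fact r.Prime := ⟨hr⟩
  have h2p := hp.two_le
  have h2q := hq.two_le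
  have h2r := hr.two_le
  have hqr' : q ≠ r := hqr.ne
  have hpdvd : p ∣ Nat.card G := by
    rw [hG]; exact Dvd.intro (p * q * r) (by ring)
  have hnotprime : ¬ (Nat.card G).Prime := by
    rw [hG]; exact p2qr_not_prime p q r hp hq hr
  have hGnc : ¬ IsMulCommutative G := by
    intro hc
    apply hnotprime
    letI : CommGroup G := { (inferInstance : Group G) with mul_comm := hc.is_comm.comm }
    exact IsSimpleGroup.prime_card
  have hqn : ¬ q ∣ p ^ 2 * r := by
    intro h
    rcases (Nat.Prime.dvd_mul hq).mp h with h1 | h1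
    · exact hpq ((Nat.prime_dvd_prime_iff_eq hq hp).mp (hq.dvd_of_dvd_pow h1)).symm
    · exact hqr' ((Nat.prime_dvd_prime_iff_eq hq hr).mp h1)
  have hrn : ¬ r ∣ p ^ 2 * q := by
    intro h
    rcases (Nat.Prime.dvd_mul hr).mp h with h1 | h1
    · exact hpr ((Nat.prime_dvd_prime_iff_eq hr hp).mp (hr.dvd_of_dvd_pow h1)).symm
    · exact hqr' ((Nat.prime_dvd_prime_iff_eq hr hq).mp h1).symm
  have hm : (Nat.card G).minFac = p := by
    have hne1 : Nat.card G ≠ 1 := by
      intro h; rw [h] at hpdvd; exact hp.one_lt.ne' (Nat.dvd_one.mp hpdvd)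
    have hmp : (Nat.card G).minFac.Prime := Nat.minFac_prime hne1
    have hmd : (Nat.card G).minFac ∣ p ^ 2 * q * r := (Nat.minFac_dvd _).trans (dvd_of_eq hG)
    rcases (Nat.Prime.dvd_mul hmp).mp hmd with h1 | h1
    · rcases (Nat.Prime.dvd_mul hmp).mp h1 with h2 | h2
      · exact (Nat.prime_dvd_prime_iff_eq hmp hp).mp (hmp.dvd_of_dvd_pow h2)
      · exfalso
        have hmq : (Nat.card G).minFac = q := (Nat.prime_dvd_prime_iff_eq hmp hq).mp h2
        obtain ⟨hQ, -⟩ := sylow_card_of_eq q (default : Sylow q G) (p ^ 2 * r)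
          (hG.trans (by ring)) hqn
        exact simple_minFac_sylow_not_prime hGnc q hmq default hQ
    · exfalso
      have hmr : (Nat.card G).minFac = r := (Nat.prime_dvd_prime_iff_eq hmp hr).mp h1
      obtain ⟨hR, -⟩ := sylow_card_of_eq r (default : Sylow r G) (p ^ 2 * q)
        (hG.trans (by ring)) hrn
      exact simple_minFac_sylow_not_prime hGnc r hmr default hR
  have hpq' : p < q := by
    have h1 : (Nat.card G).minFac ≤ q := Nat.minFac_le_of_dvd h2q (by
      rw [hG]; exact Dvd.intro (p ^ 2 * r) (by ring))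
    rw [hm] at h1
    omega
  have hpr' : p < r := by omega
  obtain ⟨P⟩ : Nonempty (Sylow p G) := inferInstance
  obtain ⟨hPc, hPi⟩ := sylow_card_of_eq_pow p P 2 (q * r) (hG.trans (by ring)) (by
    intro h
    rcases (Nat.Prime.dvd_mul hp).mp h with h1 | h1
    · exact hpq ((Nat.prime_dvd_prime_iff_eq hp hq).mp h1)
    · exact hpr ((Nat.prime_dvd_prime_iff_eq hp hr).mp h1))
  have hPab : IsMulCommutative ↥(P : Subgroup G) :=
    IsPGroup.isMulCommutative_of_card_eq_prime_sq (p := p) hPc
  have hTab : ∀ a ∈ (P : Subgroup G), ∀ b ∈ (P : Subgroup G), a * b = b * a := by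
    intro a ha b hb
    exact congrArg Subtype.val (hPab.is_comm.comm (⟨a, ha⟩ : ↥(P : Subgroup G)) ⟨b, hb⟩)
  have hPC : (P : Subgroup G) ≤ Subgroup.centralizer ((P : Subgroup G) : Set G) := by
    intro a ha
    rw [Subgroup.mem_centralizer_iff]
    intro b hb
    exact hTab b hb a ha
  have hPne : (P : Subgroup G) ≠ ⊥ := by
    intro h
    rw [h, Subgroup.card_bot] at hPc
    nlinarith
  have hNC : ¬ Subgroup.normalizer ((P : Subgroup G) : Set G)
      ≤ Subgroup.centralizer ((P : Subgroup G) : Set G) := by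
    intro hNC
    have hcompl := MonoidHom.ker_transferSylow_isComplement' P hNC
    exact no_normal_complement hGnc _ _ hcompl hPne hTab
  have hrel : (Subgroup.centralizer ((P : Subgroup G) : Set G)).relIndex
      (Subgroup.normalizer ((P : Subgroup G) : Set G)) ≠ 1 := by
    intro h; exact hNC (Subgroup.relIndex_eq_one.mp h)
  obtain ⟨s, hs, hsdvd⟩ := Nat.exists_prime_and_dvd hrel
  haveI : Fact s.Prime := ⟨hs⟩
  have hsqr : s ∣ q * r := by
    have h1 := Subgroup.relIndex_dvd_of_le_left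
      (Subgroup.normalizer ((P : Subgroup G) : Set G)) hPC
    have h3 := Subgroup.relIndex_dvd_index_of_le (Subgroup.le_normalizer (H := (P : Subgroup G)))
    rw [hPi] at h3
    exact hsdvd.trans (h1.trans h3)
  have hsp : p < s := by
    rcases (Nat.Prime.dvd_mul hs).mp hsqr with h1 | h1
    · rw [(Nat.prime_dvd_prime_iff_eq hs hq).mp h1]; exact hpq'
    · rw [(Nat.prime_dvd_prime_iff_eq hs hr).mp h1]; exact hpr'
  obtain ⟨S⟩ : Nonempty (Sylow s ↥(Subgroup.normalizer ((P : Subgroup G) : Set G))) :=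
    inferInstance
  have hSnot : ¬ (S : Subgroup ↥(Subgroup.normalizer ((P : Subgroup G) : Set G)))
      ≤ (Subgroup.centralizer ((P : Subgroup G) : Set G)).subgroupOf
        (Subgroup.normalizer ((P : Subgroup G) : Set G)) := by
    intro hle
    exact S.not_dvd_index (hsdvd.trans (Subgroup.index_dvd_of_le hle))
  obtain ⟨x, hxS, hxC⟩ := SetLike.not_le_iff_exists.mp hSnot
  obtain ⟨k, hk⟩ := S.2 ⟨x, hxS⟩
  have hxk : x ^ s ^ k = 1 := congrArg Subtype.val hk
  have hσ1 : (P : Subgroup G).normalizerMonoidHom x ≠ 1 := by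
    intro h
    apply hxC
    rw [← Subgroup.normalizerMonoidHom_ker]
    exact MonoidHom.mem_ker.mpr h
  have hσk : ((P : Subgroup G).normalizerMonoidHom x) ^ s ^ k = 1 := by
    rw [← map_pow, hxk, map_one]
  obtain ⟨σ, hσ⟩ : ∃ σ : MulAut ↥(P : Subgroup G),
      σ = (P : Subgroup G).normalizerMonoidHom x := ⟨_, rfl⟩
  rw [← hσ] at hσ1 hσk
  let F : Subgroup ↥(P : Subgroup G) :=
    { carrier := {a | σ a = a}
      mul_mem' := fun {a b} ha hb => by
        have ha' : σ a = a := ha
        have hb' : σ b = b := hb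
        show σ (a * b) = a * b
        rw [map_mul, ha', hb']
      one_mem' := map_one σ
      inv_mem' := fun {a} ha => by
        have ha' : σ a = a := ha
        show σ a⁻¹ = a⁻¹
        rw [map_inv, ha'] }
  have hFne : F ≠ ⊤ := by
    intro h
    apply hσ1
    apply MulEquiv.ext
    intro a
    have h1 : a ∈ F := by rw [h]; exact Subgroup.mem_top a
    exact h1
  have hFdvd : Nat.card ↥F ∣ p ^ 2 := by
    have h0 := Subgroup.card_subgroup_dvd_card F
    rw [hPc] at h0
    exact h0
  obtain ⟨i, hi2, hFi⟩ := (Nat.dvd_prime_pow hp).mp hFdvd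
  have hi : i ≠ 2 := by
    intro h
    apply hFne
    apply Subgroup.eq_top_of_card_eq
    rw [hFi, h, hPc]
  haveI : Fintype ↥(P : Subgroup G) := Fintype.ofFinite _
  have hπk : (MulAut.toPerm ↥(P : Subgroup G) σ) ^ s ^ k = 1 := by
    rw [← map_pow, hσk, map_one]
  have hmod := Equiv.Perm.card_compl_support_modEq hπk
  have hFc : Nat.card ↥F = ((MulAut.toPerm ↥(P : Subgroup G) σ).supportᶜ).card := by
    rw [← Fintype.card_coe, ← Nat.card_eq_fintype_card]
    apply Nat.card_congr
    apply Equiv.subtypeEquivRight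
    intro a
    rw [Finset.mem_compl, Equiv.Perm.mem_support, not_not]
    exact Iff.rfl
  rw [← hFc, ← Nat.card_eq_fintype_card, hPc, hFi] at hmod
  obtain ⟨hp2, hs3⟩ := p2qr_arith p s i hp hs hsp (by omega) hmod
  have hq3 : q = 3 := by
    rw [hs3] at hsqr
    rcases (Nat.Prime.dvd_mul Nat.prime_three).mp hsqr with h1 | h1
    · exact ((Nat.prime_dvd_prime_iff_eq Nat.prime_three hq).mp h1).symm
    · exfalso
      have := (Nat.prime_dvd_prime_iff_eq Nat.prime_three hr).mp h1
      omega
  subst hp2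
  subst hq3
  have hG12 : Nat.card G = r * 12 := by rw [hG]; ring
  have hr5 : 5 ≤ r := by
    by_contra h
    have h4 : r = 4 := by omega
    rw [h4] at hr
    exact absurd hr (by norm_num)
  obtain ⟨R⟩ : Nonempty (Sylow r G) := inferInstance
  obtain ⟨hRc, hRi⟩ := sylow_card_of_eq r R 12 hG12 (by
    intro h
    have h' : r ∣ 2 ^ 2 * 3 := by norm_num; exact h
    rcases (Nat.Prime.dvd_mul hr).mp h' with h1 | h1
    · have := Nat.le_of_dvd (by norm_num) (hr.dvd_of_dvd_pow h1)
      omega
    · have := Nat.le_of_dvd (by norm_num) h1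
      omega)
  obtain ⟨hn1, hn2, hn3⟩ := sylow_count r R
  rw [hRi] at hn2
  have hn_ne : Nat.card (Sylow r G) ≠ 1 :=
    sylow_not_normal_of_simple r R (by rw [hRc]; omega) (by rw [hRc, hG12]; omega)
  obtain ⟨n, hn⟩ : ∃ n, n = Nat.card (Sylow r G) := ⟨_, rfl⟩
  rw [← hn] at hn1 hn2 hn3 hn_ne
  have hnle : n ≤ 12 := Nat.le_of_dvd (by norm_num) hn2
  have hrdvd : r ∣ n - 1 := by
    have h1 : (n - 1) % r = 0 :=
      Nat.sub_mod_eq_zero_of_mod_eq (by rw [hn1, Nat.mod_eq_of_lt (by omega)])
    exact Nat.dvd_of_mod_eq_zero h1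
  have hn0 : 0 < n := Nat.pos_of_dvd_of_pos hn2 (by norm_num)
  have hcases : n = 1 ∨ n = 2 ∨ n = 3 ∨ n = 4 ∨ n = 6 ∨ n = 12 := by
    interval_cases n <;> first | omega | exact absurd hn2 (by decide)
  rcases hcases with h | h | h | h | h | h
  · exact absurd h hn_ne
  · rw [h] at hrdvd
    have := Nat.le_of_dvd (by norm_num) hrdvd
    omega
  · rw [h] at hrdvd
    have := Nat.le_of_dvd (by norm_num) hrdvd
    omega
  · rw [h] at hrdvd
    have := Nat.le_of_dvd (by norm_num) hrdvd
    omega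
  · rw [h] at hrdvd
    have h5 : r = 5 := by
      have := Nat.le_of_dvd (by norm_num) hrdvd
      omega
    rw [hG12, h5]
  · rw [h] at hrdvd hn3
    have h11 : r = 11 := (Nat.prime_dvd_prime_iff_eq hr (by norm_num)).mp hrdvd
    have hN : Nat.card (Subgroup.normalizer ((R : Subgroup G) : Set G)) = r := by
      rw [hG12] at hn3; omega
    exfalso
    refine sylow_prime_burnside r R hRc (by rw [hG12]; omega) ?_
    rw [hN, h11]; norm_num

end Cfsg.Agent.Lib.Helper2
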