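import Mathlib
import Cfsg.Prelude.Def_CaseTheorems
import Cfsg.Agent.Lib.Lead.SylowAux
import Cfsg.Agent.Lib.Lead.PmQ
import Cfsg.Agent.Lib.Helper7.MapConj
import Cfsg.Agent.Lib.Helper4.Normalizer

set_option autoImplicit false

namespace Cfsg.Agent.Lib.Helper2

/-- `X` contains an elementary abelian `p`-subgroup of order greater than `p ^ r`. -/
def ElemBig {G : Type*} [Group G] (p r : ℕ) (X : Subgroup G) : Prop :=
  ∃ E : Subgroup G, E ≤ X ∧ (∀ a ∈ E, ∀ b ∈ E, a * b = b * a) ∧ (∀ a ∈ E, a ^ p = 1) ∧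
    p ^ r < Nat.card E

theorem not_pRankLE_iff {G : Type*} [Group G] {p r : ℕ} (X : Subgroup G) :
    ¬ Cfsg.PRankLE p r ↥X ↔ ElemBig p r X := by
  constructor
  · intro h
    unfold Cfsg.PRankLE at h
    push Not at h
    obtain ⟨A, hA, hexp, hcard⟩ := h
    refine ⟨A.map X.subtype, Subgroup.map_subtype_le A, ?_, ?_, ?_⟩
    · rintro _ ⟨a, ha, rfl⟩ _ ⟨b, hb, rfl⟩
      have h1 := hA.is_comm.comm (⟨a, ha⟩ : ↥A) ⟨b, hb⟩
      have h2 : a * b = b * a := congrArg Subtype.val h1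
      rw [← map_mul, ← map_mul, h2]
    · rintro _ ⟨a, ha, rfl⟩
      rw [← map_pow, hexp a ha, map_one]
    · rw [Subgroup.card_subtype]; exact hcard
  · rintro ⟨E, hEX, hcomm, hexp, hcard⟩ hPR
    have h1 := hPR (E.subgroupOf X)
      ⟨⟨fun a b => Subtype.ext (Subtype.ext (hcomm _ a.2 _ b.2))⟩⟩ (by
        intro a ha
        apply Subtype.ext
        show ((a ^ p : ↥X) : G) = 1
        rw [Subgroup.coe_pow]; exact hexp _ ha)
    rw [Nat.card_congr (Subgroup.subgroupOfEquivOfLe hEX).toEquiv] at h1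
    omega

theorem ElemBig.mono {G : Type*} [Group G] {p r : ℕ} {X Y : Subgroup G} (h : ElemBig p r X)
    (hXY : X ≤ Y) : ElemBig p r Y := by
  obtain ⟨E, hEX, h1, h2, h3⟩ := h
  exact ⟨E, hEX.trans hXY, h1, h2, h3⟩

theorem ElemBig.map_inj {G G' : Type*} [Group G] [Group G'] {p r : ℕ} {X : Subgroup G}
    (h : ElemBig p r X) (f : G →* G') (hf : Function.Injective f) : ElemBig p r (X.map f) := by
  obtain ⟨E, hEX, h1, h2, h3⟩ := h
  refine ⟨E.map f, Subgroup.map_mono hEX, ?_, ?_, ?_⟩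
  · rintro _ ⟨a, ha, rfl⟩ _ ⟨b, hb, rfl⟩
    rw [← map_mul, ← map_mul, h1 a ha b hb]
  · rintro _ ⟨a, ha, rfl⟩
    rw [← map_pow, h2 a ha, map_one]
  · rw [Subgroup.card_map_of_injective hf]
    exact h3

theorem ElemBig.conj {G : Type*} [Group G] {p r : ℕ} {X : Subgroup G} (h : ElemBig p r X)
    (c : G) : ElemBig p r (X.map (MulAut.conj c).toMonoidHom) :=
  h.map_inj _ (MulAut.conj c).injective

theorem sylow_sub_conj {G : Type*} [Group G] [Finite G] {p : ℕ} [Fact p.Prime] (K : Subgroup G)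
    (S : Sylow p ↥K) (Q : Subgroup G) (hQ : IsPGroup p Q) (hQK : Q ≤ K) :
    ∃ x ∈ K, ∀ q ∈ Q, x * q * x⁻¹ ∈ (S : Subgroup ↥K).map K.subtype := by
  obtain ⟨g, hg⟩ := Cfsg.Agent.Lib.Lead.sylow_conj_mem S (Q.subgroupOf K) hQ.comap_subtype
  refine ⟨g.1, g.2, fun q hq => ?_⟩
  have h1 := hg ⟨q, hQK hq⟩ (show (⟨q, hQK hq⟩ : ↥K) ∈ Q.subgroupOf K from hq)
  exact ⟨_, h1, rfl⟩

theorem sylow_sub_max {G : Type*} [Group G] {p : ℕ} (K : Subgroup G) (S : Sylow p ↥K)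
    (Q : Subgroup G) (hQ : IsPGroup p Q) (hQK : Q ≤ K)
    (hSQ : (S : Subgroup ↥K).map K.subtype ≤ Q) : Q = (S : Subgroup ↥K).map K.subtype := by
  have h1 : (S : Subgroup ↥K) ≤ Q.subgroupOf K := by
    intro s hs
    exact hSQ ⟨s, hs, rfl⟩
  have h2 := S.is_maximal' hQ.comap_subtype h1
  have h3 : Q.subgroupOf K = (S : Subgroup ↥K) := h2
  rw [← h3, Subgroup.map_subgroupOf_eq_of_le hQK]

theorem sylow_big {G : Type*} [Group G] [Finite G] {p : ℕ} [Fact p.Prime] {r : ℕ}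
    (K : Subgroup G) (S : Sylow p ↥K) (h : ElemBig p r K) :
    ElemBig p r ((S : Subgroup ↥K).map K.subtype) := by
  obtain ⟨E, hEK, h1, h2, h3⟩ := h
  have hEp : IsPGroup p E := by
    intro a
    refine ⟨1, ?_⟩
    apply Subtype.ext
    show ((a ^ p ^ 1 : ↥E) : G) = 1
    rw [pow_one, Subgroup.coe_pow]; exact h2 _ a.2
  obtain ⟨x, hx, hxE⟩ := sylow_sub_conj K S E hEp hEK
  have h4 : ElemBig p r (E.map (MulAut.conj x).toMonoidHom) :=
    ElemBig.conj ⟨E, le_rfl, h1, h2, h3⟩ x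
  apply h4.mono
  rintro _ ⟨e, he, rfl⟩
  exact hxE e he

theorem prank_AB_aux {G : Type*} [Group G] [Finite G] {p : ℕ} [Fact p.Prime] (r : ℕ)
    (H P' : Subgroup G) (hP'p : IsPGroup p P')
    (hsyl : ∀ Q : Subgroup G, IsPGroup p Q → Q ≤ H → ∃ x ∈ H, ∀ q ∈ Q, x * q * x⁻¹ ∈ P')
    (hP : ElemBig p r P')
    (hA : ∀ X : Subgroup G, X ≤ P' → ElemBig p r X → Subgroup.normalizer (X : Set G) ≤ H)
    (g : G) (hg : g ∉ H) (R : Subgroup G) (hRp : IsPGroup p R)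
    (hRK : R ≤ H ⊓ H.map (MulAut.conj g).toMonoidHom) (hRbig : ElemBig p r R)
    (hRmax : ∀ Q : Subgroup G, IsPGroup p Q → Q ≤ H ⊓ H.map (MulAut.conj g).toMonoidHom →
      R ≤ Q → Q = R) : False := by
  have claim1 : ∀ c : G, (∀ q ∈ R, c * q * c⁻¹ ∈ P') →
      ∀ n ∈ Subgroup.normalizer (R : Set G), c * n * c⁻¹ ∈ H := by
    intro c hc n hn
    have hle : R.map (MulAut.conj c).toMonoidHom ≤ P' := by
      rintro _ ⟨q, hq, rfl⟩; exact hc q hq
    refine hA _ hle (hRbig.conj c) ?_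
    rw [Subgroup.mem_normalizer_iff]
    intro y
    have hn' := Subgroup.mem_normalizer_iff.mp hn
    rw [Cfsg.Agent.Lib.Helper7.mem_map_conj, Cfsg.Agent.Lib.Helper7.mem_map_conj]
    have e : c⁻¹ * (c * n * c⁻¹ * y * (c * n * c⁻¹)⁻¹) * c = n * (c⁻¹ * y * c) * n⁻¹ := by group
    rw [e]
    exact hn' (c⁻¹ * y * c)
  obtain ⟨h, hh, hhR⟩ := hsyl R hRp (hRK.trans inf_le_left)
  have hQ2H : R.map (MulAut.conj g⁻¹).toMonoidHom ≤ H := by
    rintro _ ⟨q, hq, rfl⟩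
    have h1 := (Cfsg.Agent.Lib.Helper7.mem_map_conj H g q).mp (hRK hq).2
    show g⁻¹ * q * g⁻¹⁻¹ ∈ H
    rw [inv_inv]; exact h1
  obtain ⟨h', hh', hh'R⟩ := hsyl _ (hRp.map _) hQ2H
  have hh'R' : ∀ q ∈ R, (h' * g⁻¹) * q * (h' * g⁻¹)⁻¹ ∈ P' := by
    intro q hq
    have h1 := hh'R _ ⟨q, hq, rfl⟩
    have h1' : h' * (g⁻¹ * q * g⁻¹⁻¹) * h'⁻¹ ∈ P' := h1
    have e : (h' * g⁻¹) * q * (h' * g⁻¹)⁻¹ = h' * (g⁻¹ * q * g⁻¹⁻¹) * h'⁻¹ := by group
    rw [e]; exact h1'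
  have hNK : Subgroup.normalizer (R : Set G) ≤ H ⊓ H.map (MulAut.conj g).toMonoidHom := by
    intro n hn
    have m1 : n ∈ H := by
      have h1 := claim1 h hhR n hn
      have e : n = h⁻¹ * (h * n * h⁻¹) * h := by group
      rw [e]; exact H.mul_mem (H.mul_mem (H.inv_mem hh) h1) hh
    have m2 : n ∈ H.map (MulAut.conj g).toMonoidHom := by
      rw [Cfsg.Agent.Lib.Helper7.mem_map_conj]
      have h1 := claim1 (h' * g⁻¹) hh'R' n hn
      have e : g⁻¹ * n * g = h'⁻¹ * ((h' * g⁻¹) * n * (h' * g⁻¹)⁻¹) * h' := by group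
      rw [e]; exact H.mul_mem (H.mul_mem (H.inv_mem hh') h1) hh'
    exact ⟨m1, m2⟩
  have claim2 : ∀ s ∈ P', h⁻¹ * s * h ∈ R := by
    have hSp : IsPGroup p (P'.map (MulAut.conj h⁻¹).toMonoidHom) := hP'p.map _
    have hRS : R ≤ P'.map (MulAut.conj h⁻¹).toMonoidHom := by
      intro q hq
      rw [Cfsg.Agent.Lib.Helper7.mem_map_conj, inv_inv]
      exact hhR q hq
    have hRS' : R = P'.map (MulAut.conj h⁻¹).toMonoidHom := by
      by_contra hne
      obtain ⟨s, hsS, hsN, hsR⟩ :=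
        Cfsg.Agent.Lib.Lead.exists_mem_normalizer_not_mem _ R hSp hRS hne
      have hQ := hRmax (P'.map (MulAut.conj h⁻¹).toMonoidHom ⊓ Subgroup.normalizer (R : Set G))
        (hSp.to_le inf_le_left) (inf_le_right.trans hNK) (le_inf hRS Subgroup.le_normalizer)
      have hs' : s ∈ P'.map (MulAut.conj h⁻¹).toMonoidHom ⊓ Subgroup.normalizer (R : Set G) :=
        ⟨hsS, hsN⟩
      rw [hQ] at hs'
      exact hsR hs'
    intro s hs
    rw [hRS', Cfsg.Agent.Lib.Helper7.mem_map_conj, inv_inv]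
    have e : h * (h⁻¹ * s * h) * h⁻¹ = s := by group
    rw [e]; exact hs
  have hw : h' * g⁻¹ * h⁻¹ ∈ Subgroup.normalizer (P' : Set G) := by
    apply Subgroup.mem_normalizer_fintype
    intro s hs
    have h1 := hh'R' _ (claim2 s hs)
    have e : h' * g⁻¹ * h⁻¹ * s * (h' * g⁻¹ * h⁻¹)⁻¹ =
        (h' * g⁻¹) * (h⁻¹ * s * h) * (h' * g⁻¹)⁻¹ := by group
    rw [e]; exact h1
  have hwH := hA P' le_rfl hP hw
  apply hg
  have e : g = h⁻¹ * (h' * g⁻¹ * h⁻¹)⁻¹ * h' := by group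
  rw [e]
  exact H.mul_mem (H.mul_mem (H.inv_mem hh) (H.inv_mem hwH)) hh'

theorem prank_se_iff {G : Type*} [Group G] [Finite G] {p : ℕ} [Fact p.Prime] (r : ℕ)
    (H : Subgroup G) (P : Sylow p ↥H) (hP : ¬ Cfsg.PRankLE p r ↥(P : Subgroup ↥H)) :
    (∀ X : Subgroup G, X ≤ (P : Subgroup ↥H).map H.subtype → ¬ Cfsg.PRankLE p r ↥X →
        Subgroup.normalizer (X : Set G) ≤ H) ↔
      (∀ g : G, g ∉ H → Cfsg.PRankLE p r ↥(H ⊓ H.map (MulAut.conj g).toMonoidHom)) := by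
  have hP' : ElemBig p r ((P : Subgroup ↥H).map H.subtype) :=
    ((not_pRankLE_iff (P : Subgroup ↥H)).mp hP).map_inj H.subtype H.subtype_injective
  constructor
  · intro hA g hg
    by_contra hb
    have hb' := (not_pRankLE_iff _).mp hb
    obtain ⟨R0⟩ := (inferInstance : Nonempty (Sylow p ↥(H ⊓ H.map (MulAut.conj g).toMonoidHom)))
    exact prank_AB_aux r H ((P : Subgroup ↥H).map H.subtype) (P.2.map _)
      (fun Q hQ hQH => sylow_sub_conj H P Q hQ hQH) hP'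
      (fun X hX hbig => hA X hX ((not_pRankLE_iff X).mpr hbig)) g hg
      ((R0 : Subgroup _).map (Subgroup.subtype _)) (R0.2.map _) (Subgroup.map_subtype_le _)
      (sylow_big _ R0 hb') (fun Q hQ hQK hRQ => sylow_sub_max _ R0 Q hQ hQK hRQ)
  · intro hB X hXP hXbig n hn
    by_contra hnH
    have h1 := hB n hnH
    apply (not_pRankLE_iff _).mpr _ h1
    apply ((not_pRankLE_iff X).mp hXbig).mono
    intro x hx
    have m1 : x ∈ H := Subgroup.map_subtype_le _ (hXP hx)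
    have m2 : x ∈ H.map (MulAut.conj n).toMonoidHom := by
      rw [Cfsg.Agent.Lib.Helper7.mem_map_conj]
      have h2 := Cfsg.Agent.Lib.Helper4.conj_mem_of_mem_normalizer (Subgroup.inv_mem _ hn) hx
      rw [inv_inv] at h2
      exact Subgroup.map_subtype_le _ (hXP h2)
    exact ⟨m1, m2⟩

end Cfsg.Agent.Lib.Helper2
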