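import Mathlib

namespace Cfsg.Agent.Lib.Helper2

/-- All entries of a Gaussian-integer matrix are divisible by three. -/
def gaussZ3 (M : Matrix (Fin 2) (Fin 2) (ℤ√(-1))) : Prop :=
  ∀ a b : Fin 2, (M a b).re % 3 = 0 ∧ (M a b).im % 3 = 0

instance gaussZ3Decidable : DecidablePred gaussZ3 := fun M => by
  unfold gaussZ3
  infer_instance

theorem gaussZ3_map {F : Type*} [Field F] (θ : ℤ√(-1) →+* F) (h3 : (3 : F) = 0)
    (M : Matrix (Fin 2) (Fin 2) (ℤ√(-1))) (h : gaussZ3 M) (a b : Fin 2) : θ (M a b) = 0 := by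
  obtain ⟨h1, h2⟩ := h a b
  have hd : ((3 : ℤ) : ℤ√(-1)) ∣ M a b :=
    (Zsqrtd.intCast_dvd 3 (M a b)).mpr
      ⟨Int.dvd_of_emod_eq_zero h1, Int.dvd_of_emod_eq_zero h2⟩
  obtain ⟨w, hw⟩ := hd
  rw [hw, map_mul, map_intCast]
  have h3' : ((3 : ℤ) : F) = 0 := by
    rw [Int.cast_ofNat]
    exact h3
  rw [h3', zero_mul]

theorem gauss_center {F : Type*} [Field F] (θ : ℤ√(-1) →+* F) (h3 : (3 : F) = 0)
    (X : Matrix.SpecialLinearGroup (Fin 2) (ℤ√(-1)))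
    (h : gaussZ3 ((X : Matrix (Fin 2) (Fin 2) (ℤ√(-1))) - 1) ∨
      gaussZ3 ((X : Matrix (Fin 2) (Fin 2) (ℤ√(-1))) + 1)) :
    Matrix.SpecialLinearGroup.map θ X ∈
      Subgroup.center (Matrix.SpecialLinearGroup (Fin 2) F) := by
  rw [Matrix.SpecialLinearGroup.mem_center_iff]
  rcases h with h | h
  · refine ⟨1, one_pow _, ?_⟩
    ext a b
    have h0 := gaussZ3_map θ h3 _ h a b
    rw [Matrix.sub_apply, map_sub, sub_eq_zero] at h0
    rw [map_one]
    show (1 : Matrix (Fin 2) (Fin 2) F) a b = θ ((X : Matrix (Fin 2) (Fin 2) (ℤ√(-1))) a b)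
    rw [h0, Matrix.one_apply, Matrix.one_apply, apply_ite θ, map_one, map_zero]
  · refine ⟨-1, by rw [Fintype.card_fin]; exact neg_one_sq, ?_⟩
    ext a b
    have h0 := gaussZ3_map θ h3 _ h a b
    rw [Matrix.add_apply, map_add, add_eq_zero_iff_eq_neg] at h0
    rw [map_neg, map_one]
    show (-1 : Matrix (Fin 2) (Fin 2) F) a b = θ ((X : Matrix (Fin 2) (Fin 2) (ℤ√(-1))) a b)
    rw [h0, Matrix.neg_apply, Matrix.one_apply, Matrix.one_apply, apply_ite θ, map_one,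
      map_zero]

end Cfsg.Agent.Lib.Helper2
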