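import Mathlib
import Cfsg.Prelude.Def_OddOrderLocal
import Cfsg.Agent.Lib.Helper3.PGroup
import Cfsg.Agent.Lib.Helper7.MapConj

set_option autoImplicit false

namespace Cfsg.Agent.Lib.Helper2

universe u

section Puig

variable {G : Type u} [Group G]

theorem puigStep_anti {X Y : Subgroup G} (h : X ≤ Y) : Cfsg.puigStep Y ≤ Cfsg.puigStep X := by
  show sSup _ ≤ sSup _
  apply sSup_le_sSup
  intro A hA
  exact ⟨hA.1, h.trans hA.2⟩

theorem puigSeq_zero : Cfsg.puigSeq G 0 = ⊥ := rfl

theorem puigSeq_succ (n : ℕ) : Cfsg.puigSeq G (n + 1) = Cfsg.puigStep (Cfsg.puigSeq G n) := rfl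

theorem le_puigStep {X A : Subgroup G} (hA : IsMulCommutative ↥A)
    (hX : X ≤ Subgroup.normalizer (A : Set G)) : A ≤ Cfsg.puigStep X :=
  le_sSup ⟨hA, hX⟩

theorem puigSeq_one : Cfsg.puigSeq G 1 = ⊤ := by
  rw [eq_top_iff]
  intro g _
  have h1 : Subgroup.zpowers g ≤ Cfsg.puigStep (Cfsg.puigSeq G 0) :=
    le_puigStep (Subgroup.zpowers_isMulCommutative g) (by rw [puigSeq_zero]; exact bot_le)
  exact h1 (Subgroup.mem_zpowers g)

theorem puig_even_step (n : ℕ) : Cfsg.puigSeq G (2 * n) ≤ Cfsg.puigSeq G (2 * n + 2) := by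
  induction n with
  | zero =>
    show Cfsg.puigSeq G 0 ≤ Cfsg.puigSeq G 2
    rw [puigSeq_zero]; exact bot_le
  | succ n ih =>
    show Cfsg.puigStep (Cfsg.puigStep (Cfsg.puigSeq G (2 * n)))
      ≤ Cfsg.puigStep (Cfsg.puigStep (Cfsg.puigSeq G (2 * n + 2)))
    exact puigStep_anti (puigStep_anti ih)

theorem puig_odd_step (n : ℕ) : Cfsg.puigSeq G (2 * n + 3) ≤ Cfsg.puigSeq G (2 * n + 1) := by
  show Cfsg.puigStep (Cfsg.puigSeq G (2 * n + 2)) ≤ Cfsg.puigStep (Cfsg.puigSeq G (2 * n))
  exact puigStep_anti (puig_even_step n)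

theorem puig_even_mono : Monotone (fun n : ℕ => Cfsg.puigSeq G (2 * n)) :=
  monotone_nat_of_le_succ (fun n => puig_even_step n)

theorem puig_odd_anti : Antitone (fun n : ℕ => Cfsg.puigSeq G (2 * n + 1)) :=
  antitone_nat_of_succ_le (fun n => puig_odd_step n)

theorem puig_even_le_odd_same (n : ℕ) :
    Cfsg.puigSeq G (2 * n) ≤ Cfsg.puigSeq G (2 * n + 1) := by
  induction n with
  | zero =>
    show Cfsg.puigSeq G 0 ≤ Cfsg.puigSeq G 1
    rw [puigSeq_zero]; exact bot_le
  | succ n ih =>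
    have h1 : Cfsg.puigSeq G (2 * n + 2) ≤ Cfsg.puigSeq G (2 * n + 1) := puigStep_anti ih
    show Cfsg.puigSeq G (2 * n + 2) ≤ Cfsg.puigSeq G (2 * n + 3)
    exact puigStep_anti h1

theorem puig_even_le_odd (n m : ℕ) :
    Cfsg.puigSeq G (2 * n) ≤ Cfsg.puigSeq G (2 * m + 1) := by
  rcases le_total n m with h | h
  · exact (puig_even_mono h).trans (puig_even_le_odd_same m)
  · exact (puig_even_le_odd_same n).trans (puig_odd_anti h)

theorem puig_stable [Finite G] : ∃ k : ℕ, ∀ n : ℕ, k ≤ n →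
    Cfsg.puigSeq G (2 * n) = Cfsg.puigLower G ∧
      Cfsg.puigSeq G (2 * n + 1) = Cfsg.puigSubgroup G := by
  obtain ⟨k1, hk1⟩ := WellFoundedGT.monotone_chain_condition
    (⟨fun n : ℕ => Cfsg.puigSeq G (2 * n), puig_even_mono⟩ : ℕ →o Subgroup G)
  obtain ⟨k2, hk2⟩ := WellFoundedLT.antitone_chain_condition (puig_odd_anti (G := G))
  have hlow : Cfsg.puigLower G = Cfsg.puigSeq G (2 * k1) := by
    apply le_antisymm
    · show (⨆ n : ℕ, Cfsg.puigSeq G (2 * n)) ≤ _
      apply iSup_le
      intro j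
      rcases le_total j k1 with h | h
      · exact puig_even_mono h
      · have h3 := hk1 j h
        exact le_of_eq h3.symm
    · exact le_iSup (fun n : ℕ => Cfsg.puigSeq G (2 * n)) k1
  have hup : Cfsg.puigSubgroup G = Cfsg.puigSeq G (2 * k2 + 1) := by
    apply le_antisymm
    · exact iInf_le (fun n : ℕ => Cfsg.puigSeq G (2 * n + 1)) k2
    · show _ ≤ (⨅ n : ℕ, Cfsg.puigSeq G (2 * n + 1))
      apply le_iInf
      intro j
      rcases le_total j k2 with h | h
      · exact puig_odd_anti h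
      · have h3 := hk2 j h
        exact le_of_eq h3
  refine ⟨max k1 k2, fun n hn => ⟨?_, ?_⟩⟩
  · rw [hlow]; exact (hk1 n (le_trans (le_max_left _ _) hn)).symm
  · rw [hup]; exact (hk2 n (le_trans (le_max_right _ _) hn)).symm

theorem puigStep_normal (X : Subgroup G) [hX : X.Normal] : (Cfsg.puigStep X).Normal := by
  constructor
  intro a ha g
  have hle : Cfsg.puigStep X ≤ (Cfsg.puigStep X).comap (MulAut.conj g).toMonoidHom := by
    show sSup _ ≤ _
    apply sSup_le
    rintro A ⟨hAc, hAX⟩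
    intro b hb
    rw [Subgroup.mem_comap]
    have hmem : (MulAut.conj g).toMonoidHom b ∈ A.map (MulAut.conj g).toMonoidHom :=
      Subgroup.mem_map_of_mem _ hb
    have hA' : A.map (MulAut.conj g).toMonoidHom ≤ Cfsg.puigStep X := by
      apply le_puigStep
      · haveI := hAc; infer_instance
      · intro x hx
        rw [Subgroup.mem_normalizer_iff]
        intro y
        rw [Cfsg.Agent.Lib.Helper7.mem_map_conj, Cfsg.Agent.Lib.Helper7.mem_map_conj]
        have hx' : g⁻¹ * x * g ∈ X := by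
          have h0 := hX.conj_mem x hx g⁻¹
          rwa [inv_inv] at h0
        have h1 := (Subgroup.mem_normalizer_iff.mp (hAX hx')) (g⁻¹ * y * g)
        have e : g⁻¹ * x * g * (g⁻¹ * y * g) * (g⁻¹ * x * g)⁻¹ = g⁻¹ * (x * y * x⁻¹) * g := by
          group
        rw [e] at h1
        exact h1
    exact hA' hmem
  have h2 := hle ha
  rw [Subgroup.mem_comap] at h2
  have e : (MulAut.conj g).toMonoidHom a = g * a * g⁻¹ := by simp [MulAut.conj_apply]
  rw [e] at h2
  exact h2

theorem puigSeq_normal (n : ℕ) : (Cfsg.puigSeq G n).Normal := by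
  induction n with
  | zero =>
    show (⊥ : Subgroup G).Normal
    infer_instance
  | succ n ih =>
    haveI := ih
    exact puigStep_normal _

/-- In a finite `p`-group, a normal subgroup containing every normal abelian subgroup contains
its own centralizer. -/
theorem centralizer_le_of_contains_normal_abelian {R : Type u} [Group R] [Finite R] {p : ℕ}
    [Fact p.Prime] (hR : IsPGroup p R) (L : Subgroup R) [hL : L.Normal]
    (hcontains : ∀ A : Subgroup R, A.Normal → IsMulCommutative ↥A → A ≤ L) :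
    Subgroup.centralizer (L : Set R) ≤ L := by
  by_contra hnot
  haveI hCn : (Subgroup.centralizer (L : Set R)).Normal := by
    constructor
    intro c hc g
    rw [Subgroup.mem_centralizer_iff] at hc ⊢
    intro l hl
    have hl' : g⁻¹ * l * g ∈ L := by
      have h0 := hL.conj_mem l hl g⁻¹
      rwa [inv_inv] at h0
    have h1 := hc _ hl'
    calc l * (g * c * g⁻¹) = g * ((g⁻¹ * l * g) * c) * g⁻¹ := by group
      _ = g * (c * (g⁻¹ * l * g)) * g⁻¹ := by rw [h1]
      _ = g * c * g⁻¹ * l := by group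
  obtain ⟨Z, hZ⟩ : ∃ Z : Subgroup R, Z = L ⊓ Subgroup.centralizer (L : Set R) := ⟨_, rfl⟩
  haveI hZn : Z.Normal := by rw [hZ]; infer_instance
  have hZL : Z ≤ L := by rw [hZ]; exact inf_le_left
  have hZC : Z ≤ Subgroup.centralizer (L : Set R) := by rw [hZ]; exact inf_le_right
  have hQ : IsPGroup p (R ⧸ Z) := hR.to_quotient Z
  have hNn : ((Subgroup.centralizer (L : Set R)).map (QuotientGroup.mk' Z)).Normal :=
    Subgroup.Normal.map hCn _ (QuotientGroup.mk'_surjective Z)
  have hNne : (Subgroup.centralizer (L : Set R)).map (QuotientGroup.mk' Z) ≠ ⊥ := by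
    intro h
    apply hnot
    intro c hc
    have h1 : QuotientGroup.mk' Z c ∈
        (Subgroup.centralizer (L : Set R)).map (QuotientGroup.mk' Z) :=
      Subgroup.mem_map_of_mem _ hc
    rw [h, Subgroup.mem_bot] at h1
    have h2 : c ∈ Z := (QuotientGroup.eq_one_iff c).mp h1
    exact hZL h2
  haveI := hNn
  obtain ⟨z, hzN, hz1, hzc⟩ :=
    Cfsg.Agent.Lib.Helper3.exists_ne_one_mem_center_of_normal hQ _ hNne
  obtain ⟨d, hdC, rfl⟩ := hzN
  have hdZ : d ∉ Z := fun h => hz1 ((QuotientGroup.eq_one_iff d).mpr h)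
  have hcomm_d : ∀ g : R, g * d * g⁻¹ * d⁻¹ ∈ Z := by
    intro g
    have h := Subgroup.mem_center_iff.mp hzc (QuotientGroup.mk' Z g)
    apply (QuotientGroup.eq_one_iff _).mp
    show QuotientGroup.mk' Z (g * d * g⁻¹ * d⁻¹) = 1
    rw [map_mul, map_mul, map_mul, map_inv, map_inv, h]
    group
  have hZd : ∀ z ∈ Z, z * d = d * z :=
    fun z hz => (Subgroup.mem_centralizer_iff.mp hdC) z (hZL hz)
  have hZZ : ∀ a ∈ Z, ∀ b ∈ Z, a * b = b * a :=
    fun a ha b hb => (Subgroup.mem_centralizer_iff.mp (hZC hb)) a (hZL ha)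
  have hAd : Z ⊔ Subgroup.zpowers d ≤ Subgroup.centralizer ({d} : Set R) := by
    refine sup_le ?_ ?_
    · intro z hz
      rw [Subgroup.mem_centralizer_iff]
      intro y hy
      rw [Set.mem_singleton_iff] at hy
      rw [hy]; exact (hZd z hz).symm
    · rw [Subgroup.zpowers_le, Subgroup.mem_centralizer_iff]
      intro y hy
      rw [Set.mem_singleton_iff] at hy
      rw [hy]
  have hAz : ∀ z ∈ Z, Z ⊔ Subgroup.zpowers d ≤ Subgroup.centralizer ({z} : Set R) := by
    intro z hz
    refine sup_le ?_ ?_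
    · intro a ha
      rw [Subgroup.mem_centralizer_iff]
      intro y hy
      rw [Set.mem_singleton_iff] at hy
      rw [hy]; exact hZZ z hz a ha
    · rw [Subgroup.zpowers_le, Subgroup.mem_centralizer_iff]
      intro y hy
      rw [Set.mem_singleton_iff] at hy
      rw [hy]; exact hZd z hz
  have hAA : Z ⊔ Subgroup.zpowers d
      ≤ Subgroup.centralizer ((Z ⊔ Subgroup.zpowers d : Subgroup R) : Set R) := by
    refine sup_le ?_ ?_
    · intro z hz
      rw [Subgroup.mem_centralizer_iff]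
      intro b hb
      have h1 := hAz z hz hb
      rw [Subgroup.mem_centralizer_iff] at h1
      exact (h1 z (Set.mem_singleton z)).symm
    · rw [Subgroup.zpowers_le, Subgroup.mem_centralizer_iff]
      intro b hb
      have h1 := hAd hb
      rw [Subgroup.mem_centralizer_iff] at h1
      exact (h1 d (Set.mem_singleton d)).symm
  have hAab : IsMulCommutative ↥(Z ⊔ Subgroup.zpowers d : Subgroup R) :=
    ⟨⟨fun a b => Subtype.ext ((Subgroup.mem_centralizer_iff.mp (hAA b.2)) a a.2)⟩⟩
  have hAn : (Z ⊔ Subgroup.zpowers d : Subgroup R).Normal := by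
    constructor
    intro a ha g
    have hle : Z ⊔ Subgroup.zpowers d
        ≤ (Z ⊔ Subgroup.zpowers d : Subgroup R).comap (MulAut.conj g).toMonoidHom := by
      refine sup_le ?_ ?_
      · intro z hz
        rw [Subgroup.mem_comap]
        have h1 : g * z * g⁻¹ ∈ Z := hZn.conj_mem z hz g
        have e : (MulAut.conj g).toMonoidHom z = g * z * g⁻¹ := by simp [MulAut.conj_apply]
        rw [e]; exact Subgroup.mem_sup_left h1
      · rw [Subgroup.zpowers_le, Subgroup.mem_comap]
        have e : (MulAut.conj g).toMonoidHom d = (g * d * g⁻¹ * d⁻¹) * d := by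
          simp [MulAut.conj_apply]
        rw [e]
        exact Subgroup.mul_mem _ (Subgroup.mem_sup_left (hcomm_d g))
          (Subgroup.mem_sup_right (Subgroup.mem_zpowers d))
    have h2 := hle ha
    rw [Subgroup.mem_comap] at h2
    have e : (MulAut.conj g).toMonoidHom a = g * a * g⁻¹ := by simp [MulAut.conj_apply]
    rw [e] at h2
    exact h2
  have hAL := hcontains _ hAn hAab
  apply hdZ
  rw [hZ]
  exact Subgroup.mem_inf.mpr ⟨hAL (Subgroup.mem_sup_right (Subgroup.mem_zpowers d)), hdC⟩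

theorem puig_centralizer_le {R : Type u} [Group R] [Finite R] {p : ℕ} [Fact p.Prime]
    (hR : IsPGroup p R) (i : ℕ) (hi : 0 < i) :
    Subgroup.centralizer ((Cfsg.puigSeq R i : Subgroup R) : Set R) ≤ Cfsg.puigSeq R i := by
  obtain ⟨j, rfl⟩ : ∃ j, i = j + 1 := ⟨i - 1, by omega⟩
  haveI := puigSeq_normal (G := R) (j + 1)
  apply centralizer_le_of_contains_normal_abelian hR
  intro A hAn hAab
  show A ≤ Cfsg.puigStep (Cfsg.puigSeq R j)
  apply le_puigStep hAab
  intro x _
  haveI := hAn
  rw [Subgroup.normalizer_eq_top]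
  exact Subgroup.mem_top x

end Puig

end Cfsg.Agent.Lib.Helper2
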