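import Mathlib
import Cfsg.Prelude.Def_LieRecognition
import Cfsg.Agent.Lib.Helper2.InvFix
import Cfsg.Agent.Lib.Helper3.PiCore
import Cfsg.Agent.Lib.Helper4.Normalizer

set_option autoImplicit false

namespace Cfsg.Agent.Lib.Helper2

namespace RankOne

variable {G Ω : Type*} [Group G] [MulAction G Ω] {a : Ω} {t : G} {Q : Subgroup G}

theorem t_inv (hS : Cfsg.IsRankOneSetup G Ω a t Q) : t⁻¹ = t :=
  inv_eq_of_mul_eq_one_left hS.mul_self

theorem ta_ne (hS : Cfsg.IsRankOneSetup G Ω a t Q) : t • a ≠ a := fun h => hS.not_mem h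

theorem tta (hS : Cfsg.IsRankOneSetup G Ω a t Q) : t • t • a = a := by
  rw [smul_smul, hS.mul_self, one_smul]

theorem two_trans (hS : Cfsg.IsRankOneSetup G Ω a t Q) {b c d e : Ω} (h1 : b ≠ c) (h2 : d ≠ e) :
    ∃ g : G, g • b = d ∧ g • c = e :=
  (MulAction.is_two_pretransitive_iff.mp hS.two_transitive) h1 h2

theorem D_le_norm (hS : Cfsg.IsRankOneSetup G Ω a t Q) :
    (MulAction.stabilizer G a ⊓ MulAction.stabilizer G (t • a)) ≤
      Subgroup.normalizer (Q : Set G) :=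
  Cfsg.Agent.Lib.Helper4.le_normalizer_of_conj_mem (fun s hs d hd => hS.conj_mem s hs.1 d hd)

theorem decomp (hS : Cfsg.IsRankOneSetup G Ω a t Q) {g : G}
    (hg : g ∈ MulAction.stabilizer G a) :
    ∃ x ∈ Q, ∃ d ∈ MulAction.stabilizer G a ⊓ MulAction.stabilizer G (t • a), g = x * d := by
  rw [← hS.sup_eq, sup_comm] at hg
  obtain ⟨d, hd, x, hx, rfl⟩ :=
    Cfsg.Agent.Lib.Helper3.exists_mul_of_mem_sup_of_le_normalizer _ _ (D_le_norm hS) hg
  exact ⟨d * x * d⁻¹, hS.conj_mem d hd.1 x hx, d, hd, by group⟩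

theorem Q_trans (hS : Cfsg.IsRankOneSetup G Ω a t Q) {c : Ω} (hc : c ≠ a) :
    ∃ x ∈ Q, x • (t • a) = c := by
  obtain ⟨g, hga, hgc⟩ := two_trans hS (ta_ne hS).symm hc.symm
  obtain ⟨x, hx, d, hd, rfl⟩ := decomp hS (show g ∈ MulAction.stabilizer G a from hga)
  refine ⟨x, hx, ?_⟩
  rw [mul_smul] at hgc
  have h1 : d • (t • a) = t • a := hd.2
  rw [h1] at hgc; exact hgc

theorem Q_semireg (hS : Cfsg.IsRankOneSetup G Ω a t Q) {x : G} (hx : x ∈ Q) {c : Ω}
    (hc : c ≠ a) (hxc : x • c = c) : x = 1 := by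
  obtain ⟨y, hy, rfl⟩ := Q_trans hS hc
  have h0 : y⁻¹ * x * y ∈ Q := Q.mul_mem (Q.mul_mem (Q.inv_mem hy) hx) hy
  have h0' : y⁻¹ * x * y ∈ MulAction.stabilizer G (t • a) := by
    show (y⁻¹ * x * y) • (t • a) = t • a
    rw [mul_smul, mul_smul, hxc, inv_smul_smul]
  have h1 : y⁻¹ * x * y ∈ Q ⊓ MulAction.stabilizer G (t • a) := ⟨h0, h0'⟩
  rw [hS.inf_eq_bot, Subgroup.mem_bot] at h1
  calc x = y * (y⁻¹ * x * y) * y⁻¹ := by group
    _ = 1 := by rw [h1]; group

theorem Q_unique (hS : Cfsg.IsRankOneSetup G Ω a t Q) {b c : Ω} (hb : b ≠ a) (hc : c ≠ a) :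
    ∃! x : Q, (x : G) • b = c := by
  obtain ⟨y, hy, rfl⟩ := Q_trans hS hb
  obtain ⟨y', hy', rfl⟩ := Q_trans hS hc
  refine ⟨⟨y' * y⁻¹, Q.mul_mem hy' (Q.inv_mem hy)⟩, ?_, ?_⟩
  · show (y' * y⁻¹) • y • t • a = y' • t • a
    rw [mul_smul, inv_smul_smul]
  · rintro ⟨x, hx⟩ hxb
    apply Subtype.ext
    show x = y' * y⁻¹
    have hxb' : x • y • t • a = y' • t • a := hxb
    have h1 : (y'⁻¹ * x * y) • (t • a) = t • a := by
      rw [mul_smul, mul_smul, hxb', inv_smul_smul]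
    have h2 := Q_semireg hS (Q.mul_mem (Q.mul_mem (Q.inv_mem hy') hx) hy) (ta_ne hS) h1
    calc x = y' * (y'⁻¹ * x * y) * y⁻¹ := by group
      _ = y' * y⁻¹ := by rw [h2, mul_one]

theorem Q_mem_stab (hS : Cfsg.IsRankOneSetup G Ω a t Q) {x : G} (hx : x ∈ Q) : x • a = a :=
  hS.le hx

theorem D_odd_elt [Finite G] (hS : Cfsg.IsRankOneSetup G Ω a t Q) {d : G}
    (hd : d ∈ MulAction.stabilizer G a ⊓ MulAction.stabilizer G (t • a)) (h2 : d * d = 1) :
    d = 1 := by
  obtain ⟨k, hk⟩ := hS.odd_card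
  have h1 : d ^ (2 * k + 1) = 1 := by
    have h3 : (⟨d, hd⟩ : ↥(MulAction.stabilizer G a ⊓ MulAction.stabilizer G (t • a))) ^
        Nat.card ↥(MulAction.stabilizer G a ⊓ MulAction.stabilizer G (t • a)) = 1 :=
      pow_card_eq_one'
    rw [hk] at h3
    exact congrArg Subtype.val h3
  rw [pow_succ, pow_mul, pow_two, h2, one_pow, one_mul] at h1
  exact h1

theorem invol_mem_Q [Finite G] (hS : Cfsg.IsRankOneSetup G Ω a t Q) {s : G}
    (hs : s ∈ MulAction.stabilizer G a) (h2 : s * s = 1) : s ∈ Q := by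
  obtain ⟨x, hx, d, hd, rfl⟩ := decomp hS hs
  have h4 : d * x * d = x⁻¹ := by
    calc d * x * d = x⁻¹ * (x * d * (x * d)) := by group
      _ = x⁻¹ := by rw [h2, mul_one]
  have h3 : d * d = x⁻¹ * (d⁻¹ * x⁻¹ * d⁻¹⁻¹) := by
    calc d * d = (d * x * d) * (d⁻¹ * x⁻¹ * d⁻¹⁻¹) := by group
      _ = _ := by rw [h4]
  have hdinv : d⁻¹ ∈ MulAction.stabilizer G a := Subgroup.inv_mem _ hd.1
  have h5 : d * d ∈ Q := by
    rw [h3]; exact Q.mul_mem (Q.inv_mem hx) (hS.conj_mem d⁻¹ hdinv x⁻¹ (Q.inv_mem hx))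
  have h5' : d * d ∈ MulAction.stabilizer G (t • a) := Subgroup.mul_mem _ hd.2 hd.2
  have h6 : d * d ∈ Q ⊓ MulAction.stabilizer G (t • a) := ⟨h5, h5'⟩
  rw [hS.inf_eq_bot, Subgroup.mem_bot] at h6
  rw [D_odd_elt hS hd h6, mul_one]; exact hx

theorem card_eq [Finite G] (hS : Cfsg.IsRankOneSetup G Ω a t Q) :
    Nat.card Ω = Nat.card Q + 1 ∧ Finite Ω := by
  have hinj : Function.Injective
      (fun o : Option ↥Q => o.elim a (fun x => (x : G) • (t • a))) := by
    intro o o' h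
    cases o with
    | none =>
      cases o' with
      | none => rfl
      | some x' =>
        exfalso
        have h' : a = (x' : G) • (t • a) := h
        have h1 : (x' : G) • a = (x' : G) • (t • a) := by rw [Q_mem_stab hS x'.2]; exact h'
        exact ta_ne hS (smul_left_cancel _ h1).symm
    | some x =>
      cases o' with
      | none =>
        exfalso
        have h' : (x : G) • (t • a) = a := h
        have h1 : (x : G) • (t • a) = (x : G) • a := by rw [Q_mem_stab hS x.2]; exact h'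
        exact ta_ne hS (smul_left_cancel _ h1)
      | some x' =>
        have h' : (x : G) • (t • a) = (x' : G) • (t • a) := h
        have h1 : ((x' : G)⁻¹ * x) • (t • a) = t • a := by
          rw [mul_smul, h', inv_smul_smul]
        have h2 := Q_semireg hS (Q.mul_mem (Q.inv_mem x'.2) x.2) (ta_ne hS) h1
        have h3 : (x : G) = x' := by
          calc (x : G) = x' * ((x' : G)⁻¹ * x) := by group
            _ = x' := by rw [h2, mul_one]
        rw [Subtype.ext h3]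
  have hsurj : Function.Surjective
      (fun o : Option ↥Q => o.elim a (fun x => (x : G) • (t • a))) := by
    intro c
    by_cases hc : c = a
    · exact ⟨none, hc.symm⟩
    · obtain ⟨x, hx, hxc⟩ := Q_trans hS hc
      exact ⟨some ⟨x, hx⟩, hxc⟩
  have hfin : Finite Ω := Finite.of_surjective _ hsurj
  refine ⟨?_, hfin⟩
  rw [← Nat.card_congr (Equiv.ofBijective _ ⟨hinj, hsurj⟩), Finite.card_option]

theorem pretrans (hS : Cfsg.IsRankOneSetup G Ω a t Q) : MulAction.IsPretransitive G Ω :=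
  MulAction.isPretransitive_of_is_two_pretransitive (h2 := hS.two_transitive)

/-- In the rank-one set-up every involution fixes exactly one point. -/
theorem invol_fix [Finite G] (hS : Cfsg.IsRankOneSetup G Ω a t Q) :
    ∀ i : G, orderOf i = 2 → ∃! x : Ω, i • x = x := by
  intro i hi
  obtain ⟨hcard, hfin⟩ := card_eq hS
  haveI := hfin
  haveI := pretrans hS
  haveI : Fact (Nat.Prime 2) := ⟨Nat.prime_two⟩
  have hp : IsPGroup 2 ↥(Subgroup.zpowers i) :=
    IsPGroup.of_card (n := 1) (by rw [Nat.card_zpowers, hi, pow_one])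
  have hodd : ¬ 2 ∣ Nat.card Ω := by
    rw [hcard]
    intro h
    have h1 := even_iff_two_dvd.mp hS.even_card
    omega
  obtain ⟨c, hc⟩ := hp.nonempty_fixed_point_of_prime_not_dvd_card Ω hodd
  have hic : i • c = c := hc ⟨i, Subgroup.mem_zpowers i⟩
  refine ⟨c, hic, ?_⟩
  intro c' hc'
  obtain ⟨g, hg⟩ := MulAction.exists_smul_eq G c a
  have hj : g * i * g⁻¹ ∈ MulAction.stabilizer G a := by
    show (g * i * g⁻¹) • a = a
    rw [← hg, mul_smul, mul_smul, inv_smul_smul, hic]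
  have hj2 : (g * i * g⁻¹) * (g * i * g⁻¹) = 1 := invol_mul_self (orderOf_conj_two g hi)
  have hjQ := invol_mem_Q hS hj hj2
  by_contra hne'
  have h1 : g • c' ≠ a := by
    intro h; apply hne'; rw [← hg] at h; exact smul_left_cancel g h
  have h2 : (g * i * g⁻¹) • (g • c') = g • c' := by
    rw [mul_smul, mul_smul, inv_smul_smul, hc']
  have h3 := Q_semireg hS hjQ h1 h2
  exact invol_ne_one (orderOf_conj_two g hi) h3

/-- Uniqueness of the form `g h t f`. -/
theorem form_unique (hS : Cfsg.IsRankOneSetup G Ω a t Q) {g h f g' h' f' : G}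
    (hg : g ∈ Q) (hh : h ∈ MulAction.stabilizer G a ⊓ MulAction.stabilizer G (t • a))
    (hf : f ∈ Q) (hg' : g' ∈ Q)
    (hh' : h' ∈ MulAction.stabilizer G a ⊓ MulAction.stabilizer G (t • a)) (hf' : f' ∈ Q)
    (heq : g * h * t * f = g' * h' * t * f') : g = g' ∧ h = h' ∧ f = f' := by
  have key : ∀ g h f : G, g ∈ Q → h ∈ MulAction.stabilizer G a ⊓ MulAction.stabilizer G (t • a) →
      (g * h * t * f)⁻¹ • a = f⁻¹ • t • a := by
    intro g h f hg hh
    have e : (g * h * t * f)⁻¹ = f⁻¹ * t⁻¹ * h⁻¹ * g⁻¹ := by group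
    rw [e, mul_smul, mul_smul, mul_smul, t_inv hS]
    have h1 : g⁻¹ • a = a := Q_mem_stab hS (Q.inv_mem hg)
    have h2 : h⁻¹ • a = a := (Subgroup.inv_mem _ hh).1
    rw [h1, h2]
  have h1 := key g h f hg hh
  rw [heq, key g' h' f' hg' hh'] at h1
  have h2 : (f * f'⁻¹) • (t • a) = t • a := by
    rw [mul_smul, h1, smul_inv_smul]
  have h3 := Q_semireg hS (Q.mul_mem hf (Q.inv_mem hf')) (ta_ne hS) h2
  have hff : f = f' := by
    calc f = (f * f'⁻¹) * f' := by group
      _ = f' := by rw [h3, one_mul]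
  subst hff
  have h4 : g * h = g' * h' := by
    have h5 : g * h * t * f * (t * f)⁻¹ = g' * h' * t * f * (t * f)⁻¹ := by rw [heq]
    have e1 : g * h * t * f * (t * f)⁻¹ = g * h := by group
    have e2 : g' * h' * t * f * (t * f)⁻¹ = g' * h' := by group
    rw [e1, e2] at h5; exact h5
  have h6 : g'⁻¹ * g = h' * h⁻¹ := by
    calc g'⁻¹ * g = g'⁻¹ * (g * h) * h⁻¹ := by group
      _ = g'⁻¹ * (g' * h') * h⁻¹ := by rw [h4]
      _ = h' * h⁻¹ := by group
  have h7 : g'⁻¹ * g ∈ Q := Q.mul_mem (Q.inv_mem hg') hg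
  have h7' : g'⁻¹ * g ∈ MulAction.stabilizer G (t • a) := by
    rw [h6]; exact (Subgroup.mul_mem _ hh' (Subgroup.inv_mem _ hh)).2
  have h8 : g'⁻¹ * g ∈ Q ⊓ MulAction.stabilizer G (t • a) := ⟨h7, h7'⟩
  rw [hS.inf_eq_bot, Subgroup.mem_bot] at h8
  have hgg : g = g' := by
    calc g = g' * (g'⁻¹ * g) := by group
      _ = g' := by rw [h8, mul_one]
  subst hgg
  exact ⟨rfl, mul_left_cancel h4, rfl⟩

theorem tDt (hS : Cfsg.IsRankOneSetup G Ω a t Q) {h : G}
    (hh : h ∈ MulAction.stabilizer G a ⊓ MulAction.stabilizer G (t • a)) :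
    t * h * t ∈ MulAction.stabilizer G a ⊓ MulAction.stabilizer G (t • a) := by
  have h1 : h • a = a := hh.1
  have h2 : h • (t • a) = t • a := hh.2
  have h3 : t * h * t ∈ MulAction.stabilizer G a := by
    show (t * h * t) • a = a
    rw [mul_smul, mul_smul, h2, tta hS]
  have h4 : t * h * t ∈ MulAction.stabilizer G (t • a) := by
    show (t * h * t) • (t • a) = t • a
    rw [mul_smul, mul_smul, tta hS, h1]
  exact ⟨h3, h4⟩

end RankOne

end Cfsg.Agent.Lib.Helper2
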