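import Mathlib
import Cfsg.Prelude.Def_LieRecognition
import Cfsg.Agent.Lib.Helper2.RankOne

set_option autoImplicit false

namespace Cfsg.Agent.Lib.Helper2

namespace RankOne

variable {G Ω : Type*} [Group G] [MulAction G Ω] {a : Ω} {t : G} {Q : Subgroup G}

theorem card_eq_of_invol_mul {t : G} (ht : t * t = 1) {A B : Set G}
    (h1 : ∀ k ∈ A, t * k ∈ B) (h2 : ∀ i ∈ B, t * i ∈ A) : Nat.card A = Nat.card B := by
  apply Nat.card_congr
  refine ⟨fun k => ⟨t * k.1, h1 k.1 k.2⟩, fun i => ⟨t * i.1, h2 i.1 i.2⟩, ?_, ?_⟩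
  · intro k; apply Subtype.ext; show t * (t * k.1) = k.1; rw [← mul_assoc, ht, one_mul]
  · intro i; apply Subtype.ext; show t * (t * i.1) = i.1; rw [← mul_assoc, ht, one_mul]

theorem mem_involutionsIn_iff {x : G} :
    x ∈ Cfsg.involutionsIn (MulAction.stabilizer G a : Set G) ↔ orderOf x = 2 ∧ x • a = a := by
  constructor
  · rintro ⟨h1, h2, h3⟩
    exact ⟨orderOf_eq_two_of h2 h3, h1⟩
  · rintro ⟨h1, h2⟩
    exact ⟨h2, invol_ne_one h1, invol_mul_self h1⟩

theorem invertedBy_mul (hS : Cfsg.IsRankOneSetup G Ω a t Q) {k : G}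
    (hk : k ∈ Cfsg.invertedBy (MulAction.stabilizer G a ⊓ MulAction.stabilizer G (t • a)) t) :
    orderOf (t * k) = 2 ∧ (t * k) • a = t • a := by
  obtain ⟨hkD, hkt⟩ := hk
  rw [t_inv hS] at hkt
  constructor
  · apply orderOf_eq_two_of
    · intro h
      have h1 : k = t := by
        calc k = t * (t * k) := by rw [← mul_assoc, hS.mul_self, one_mul]
          _ = t := by rw [h, mul_one]
      rw [h1] at hkD
      exact hS.not_mem hkD.1
    · calc t * k * (t * k) = (t * k * t) * k := by group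
        _ = 1 := by rw [hkt, inv_mul_cancel]
  · have h1 : k • a = a := hkD.1
    rw [mul_smul, h1]

theorem mul_mem_invertedBy (hS : Cfsg.IsRankOneSetup G Ω a t Q) {i : G} (hi : orderOf i = 2)
    (hia : i • a = t • a) :
    t * i ∈ Cfsg.invertedBy (MulAction.stabilizer G a ⊓ MulAction.stabilizer G (t • a)) t := by
  have hii := invol_mul_self hi
  have e : i • (t • a) = a := by rw [← hia, smul_smul, hii, one_smul]
  have m1 : t * i ∈ MulAction.stabilizer G a := by
    show (t * i) • a = a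
    rw [mul_smul, hia, tta hS]
  have m2 : t * i ∈ MulAction.stabilizer G (t • a) := by
    show (t * i) • (t • a) = t • a
    rw [mul_smul, e]
  refine ⟨⟨m1, m2⟩, ?_⟩
  rw [t_inv hS, mul_inv_rev, t_inv hS, invol_inv hi]
  calc t * (t * i) * t = (t * t) * i * t := by group
    _ = i * t := by rw [hS.mul_self, one_mul]

theorem invertedBy_inv {D : Subgroup G} {t k : G} (hk : k ∈ Cfsg.invertedBy D t) :
    k⁻¹ ∈ Cfsg.invertedBy D t := by
  obtain ⟨hkD, hkt⟩ := hk
  refine ⟨Subgroup.inv_mem _ hkD, ?_⟩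
  rw [inv_inv]
  calc t * k⁻¹ * t⁻¹ = (t * k * t⁻¹)⁻¹ := by group
    _ = k := by rw [hkt, inv_inv]

end RankOne

end Cfsg.Agent.Lib.Helper2
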