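import Mathlib
import Cfsg.Prelude.Def_LieRecognition
import Cfsg.Agent.Lib.Helper2.RankOne2
import Cfsg.Agent.S1122
import Cfsg.Agent.S1123

set_option autoImplicit false

namespace Cfsg.Agent.Lib.Helper2

theorem rel_inj_of_card {α β : Type*} [Finite α] [Finite β] (R : α → β → Prop)
    (h1 : ∀ x, ∃! y, R x y) (h2 : ∀ y, ∃ x, R x y) (hc : Nat.card α = Nat.card β)
    {x x' : α} {y : β} (hx : R x y) (hx' : R x' y) : x = x' := by
  have hsurj : Function.Surjective (fun x => (h1 x).exists.choose) := by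
    intro y
    obtain ⟨x, hx⟩ := h2 y
    exact ⟨x, (h1 x).unique (h1 x).exists.choose_spec hx⟩
  have hbij := (Nat.bijective_iff_surjective_and_card _).mpr ⟨hsurj, hc⟩
  apply hbij.1
  show (h1 x).exists.choose = (h1 x').exists.choose
  rw [(h1 x).unique (h1 x).exists.choose_spec hx, (h1 x').unique (h1 x').exists.choose_spec hx']

namespace RankOne

variable {G Ω : Type*} [Group G] [MulAction G Ω] {a : Ω} {t : G} {Q : Subgroup G}

theorem setup_of_invol (hS : Cfsg.IsRankOneSetup G Ω a t Q) {j : G} (hj : orderOf j = 2)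
    (hja : j • a = t • a) : Cfsg.IsRankOneSetup G Ω a j Q where
  two_transitive := hS.two_transitive
  mul_self := invol_mul_self hj
  ne_one := invol_ne_one hj
  not_mem := by
    intro h
    have h' : j • a = a := h
    rw [hja] at h'
    exact ta_ne hS h'
  le := hS.le
  conj_mem := hS.conj_mem
  inf_eq_bot := by rw [hja]; exact hS.inf_eq_bot
  sup_eq := by rw [hja]; exact hS.sup_eq
  even_card := hS.even_card
  odd_card := by rw [hja]; exact hS.odd_card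

theorem pair_unique [Finite G] (hS : Cfsg.IsRankOneSetup G Ω a t Q) {j s r s' r' : G}
    (hj : orderOf j = 2) (hja : j • a = t • a)
    (hs : orderOf s = 2) (hsa : s • a = a) (hr : r ∈ Q) (he : j * s * j = r⁻¹ * j * r)
    (hs' : orderOf s' = 2) (hsa' : s' • a = a) (hr' : r' ∈ Q)
    (he' : j * s' * j = r'⁻¹ * j * r') : s = s' ∧ r = r' := by
  have h := Cfsg.Agent.S1123.result (setup_of_invol hS hj hja)
  have h1 := h.unique (y₁ := (s, r)) (y₂ := (s', r'))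
    ⟨mem_involutionsIn_iff.mpr ⟨hs, hsa⟩, hr, he⟩ ⟨mem_involutionsIn_iff.mpr ⟨hs', hsa'⟩, hr', he'⟩
  exact ⟨congrArg Prod.fst h1, congrArg Prod.snd h1⟩

theorem pair_exists [Finite G] (hS : Cfsg.IsRankOneSetup G Ω a t Q) {j : G}
    (hj : orderOf j = 2) (hja : j • a = t • a) :
    ∃ s r : G, orderOf s = 2 ∧ s • a = a ∧ r ∈ Q ∧ j * s * j = r⁻¹ * j * r := by
  obtain ⟨⟨s, r⟩, ⟨hs, hr, he⟩, -⟩ := Cfsg.Agent.S1123.result (setup_of_invol hS hj hja)
  exact ⟨s, r, (mem_involutionsIn_iff.mp hs).1, (mem_involutionsIn_iff.mp hs).2, hr, he⟩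

theorem conj_invol_swap (hS : Cfsg.IsRankOneSetup G Ω a t Q) {j d : G} (hj : orderOf j = 2)
    (hja : j • a = t • a)
    (hd : d ∈ MulAction.stabilizer G a ⊓ MulAction.stabilizer G (t • a)) :
    orderOf (d * j * d⁻¹) = 2 ∧ (d * j * d⁻¹) • a = t • a := by
  refine ⟨orderOf_conj_two d hj, ?_⟩
  have h1 : d⁻¹ • a = a := (Subgroup.inv_mem _ hd).1
  have h2 : d • (t • a) = t • a := hd.2
  rw [mul_smul, mul_smul, h1, hja, h2]

theorem conj_invol_fix {s d : G} (hs : orderOf s = 2) (hsa : s • a = a) (hd : d • a = a) :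
    orderOf (d * s * d⁻¹) = 2 ∧ (d * s * d⁻¹) • a = a := by
  refine ⟨orderOf_conj_two d hs, ?_⟩
  have h1 : d⁻¹ • a = a := by rw [inv_smul_eq_iff, hd]
  rw [mul_smul, mul_smul, h1, hsa, hd]

theorem conj_pair {j s r : G} (d : G) (he : j * s * j = r⁻¹ * j * r) :
    (d * j * d⁻¹) * (d * s * d⁻¹) * (d * j * d⁻¹) =
      (d * r * d⁻¹)⁻¹ * (d * j * d⁻¹) * (d * r * d⁻¹) := by
  calc (d * j * d⁻¹) * (d * s * d⁻¹) * (d * j * d⁻¹) = d * (j * s * j) * d⁻¹ := by group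
    _ = d * (r⁻¹ * j * r) * d⁻¹ := by rw [he]
    _ = _ := by group

theorem pair_surj [Finite G] (hS : Cfsg.IsRankOneSetup G Ω a t Q) {s : G}
    (hs : orderOf s = 2) (hsa : s • a = a) :
    ∃ j r : G, orderOf j = 2 ∧ j • a = t • a ∧ r ∈ Q ∧ j * s * j = r⁻¹ * j * r := by
  have hto := orderOf_eq_two_of hS.ne_one hS.mul_self
  obtain ⟨s0, r0, hs0, hs0a, hr0, he0⟩ := pair_exists hS hto rfl
  obtain ⟨k, hk, hks⟩ := (Cfsg.Agent.S1122.result hS).2 s0
    (mem_involutionsIn_iff.mpr ⟨hs0, hs0a⟩) s (mem_involutionsIn_iff.mpr ⟨hs, hsa⟩)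
  have hkD : k⁻¹ ∈ MulAction.stabilizer G a ⊓ MulAction.stabilizer G (t • a) :=
    Subgroup.inv_mem _ hk.1
  have h1 := conj_invol_swap hS hto rfl hkD
  have h2 := conj_pair k⁻¹ he0
  have h3 := hS.conj_mem k⁻¹ hkD.1 r0 hr0
  rw [inv_inv] at h1 h2 h3
  rw [hks] at h2
  exact ⟨k⁻¹ * t * k, k⁻¹ * r0 * k, h1.1, h1.2, h3, h2⟩

theorem pair_inj [Finite G] (hS : Cfsg.IsRankOneSetup G Ω a t Q) {j j' s r r' : G}
    (hj : orderOf j = 2) (hja : j • a = t • a) (hj' : orderOf j' = 2) (hja' : j' • a = t • a)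
    (hs : orderOf s = 2) (hsa : s • a = a) (hr : r ∈ Q) (he : j * s * j = r⁻¹ * j * r)
    (hr' : r' ∈ Q) (he' : j' * s * j' = r'⁻¹ * j' * r') : j = j' := by
  have hfix := invol_fix hS
  haveI := pretrans hS
  obtain ⟨-, hfin⟩ := card_eq hS
  haveI := hfin
  have hc := card_invol_swap hfix a (t • a) (ta_ne hS).symm
  have h1 : ∀ j : {i : G // orderOf i = 2 ∧ i • a = t • a},
      ∃! s : {i : G // orderOf i = 2 ∧ i • a = a}, ∃ r ∈ Q, j.1 * s.1 * j.1 = r⁻¹ * j.1 * r := by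
    intro j
    obtain ⟨s, r, hs, hsa, hr, he⟩ := pair_exists hS j.2.1 j.2.2
    refine ⟨⟨s, hs, hsa⟩, ⟨r, hr, he⟩, ?_⟩
    rintro ⟨s', hs', hsa'⟩ ⟨r', hr', he'⟩
    exact Subtype.ext (pair_unique hS j.2.1 j.2.2 hs' hsa' hr' he' hs hsa hr he).1
  have h2 : ∀ s : {i : G // orderOf i = 2 ∧ i • a = a},
      ∃ j : {i : G // orderOf i = 2 ∧ i • a = t • a}, ∃ r ∈ Q, j.1 * s.1 * j.1 = r⁻¹ * j.1 * r := by
    rintro ⟨s, hs, hsa⟩
    obtain ⟨j, r, hj, hja, hr, he⟩ := pair_surj hS hs hsa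
    exact ⟨⟨j, hj, hja⟩, r, hr, he⟩
  have key := rel_inj_of_card _ h1 h2 hc (x := ⟨j, hj, hja⟩) (x' := ⟨j', hj', hja'⟩)
    (y := ⟨s, hs, hsa⟩) ⟨r, hr, he⟩ ⟨r', hr', he'⟩
  exact congrArg Subtype.val key

theorem comm_invol_of_comm_pair [Finite G] (hS : Cfsg.IsRankOneSetup G Ω a t Q) {j s r d : G}
    (hj : orderOf j = 2) (hja : j • a = t • a) (hs : orderOf s = 2) (hsa : s • a = a)
    (hr : r ∈ Q) (he : j * s * j = r⁻¹ * j * r)
    (hd : d ∈ MulAction.stabilizer G a ⊓ MulAction.stabilizer G (t • a))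
    (hds : d * s = s * d) : d * j = j * d := by
  have h1 := conj_invol_swap hS hj hja hd
  have h2 := conj_pair d he
  have e : d * s * d⁻¹ = s := by rw [hds]; group
  rw [e] at h2
  have h3 := pair_inj hS hj hja h1.1 h1.2 hs hsa hr he (hS.conj_mem d hd.1 r hr) h2
  calc d * j = (d * j * d⁻¹) * d := by group
    _ = j * d := by rw [← h3]

theorem comm_pair_of_comm_invol [Finite G] (hS : Cfsg.IsRankOneSetup G Ω a t Q) {j s r d : G}
    (hj : orderOf j = 2) (hja : j • a = t • a) (hs : orderOf s = 2) (hsa : s • a = a)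
    (hr : r ∈ Q) (he : j * s * j = r⁻¹ * j * r)
    (hd : d ∈ MulAction.stabilizer G a ⊓ MulAction.stabilizer G (t • a))
    (hdj : d * j = j * d) : d * s = s * d := by
  have h0 := conj_invol_fix hs hsa (show d • a = a from hd.1)
  have h2 := conj_pair d he
  have e : d * j * d⁻¹ = j := by rw [hdj]; group
  rw [e] at h2
  have h3 := (pair_unique hS hj hja hs hsa hr he h0.1 h0.2 (hS.conj_mem d hd.1 r hr) h2).1
  calc d * s = (d * s * d⁻¹) * d := by group
    _ = s * d := by rw [← h3]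

end RankOne

end Cfsg.Agent.Lib.Helper2
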