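import Mathlib
import Cfsg.Prelude.Def_LieRecognition
import Cfsg.Agent.Lib.Helper2.RankOne3

set_option autoImplicit false

namespace Cfsg.Agent.Lib.Helper2

theorem exists_pow_invol {G : Type*} [Group G] {g : G} (heven : Even (orderOf g))
    (hpos : 0 < orderOf g) : ∃ k : ℕ, orderOf (g ^ k) = 2 := by
  obtain ⟨k, hk⟩ := heven
  have hk0 : k ≠ 0 := by
    intro h; rw [h] at hk; omega
  refine ⟨k, ?_⟩
  rw [orderOf_pow_of_dvd hk0 ⟨2, by rw [hk]; ring⟩, hk]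
  have e : k + k = 2 * k := by ring
  rw [e, Nat.mul_div_cancel _ (Nat.pos_of_ne_zero hk0)]

/-- An element swapping two distinct points has even order (in a finite group). -/
theorem even_orderOf_of_swap {G : Type*} [Group G] {Ω : Type*} [MulAction G Ω] {g : G}
    {b c : Ω} (hbc : b ≠ c) (h1 : g • b = c) (h2 : g • c = b) : ¬ Odd (orderOf g) := by
  rintro ⟨m, hm⟩
  have h3 : g ^ (2 * m + 1) = 1 := by rw [← hm]; exact pow_orderOf_eq_one g
  have e : 2 * m + 1 + 1 = 2 * (m + 1) := by ring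
  have h4 : g = (g * g) ^ (m + 1) := by
    calc g = g ^ (2 * m + 1) * g := by rw [h3, one_mul]
      _ = g ^ (2 * (m + 1)) := by rw [← pow_succ, e]
      _ = (g * g) ^ (m + 1) := by rw [pow_mul, pow_two]
  have h5 : g * g ∈ MulAction.stabilizer G b := by
    show (g * g) • b = b
    rw [mul_smul, h1, h2]
  have h6 : (g * g) ^ (m + 1) ∈ MulAction.stabilizer G b := Subgroup.pow_mem _ h5 _
  rw [← h4] at h6
  have h7 : g • b = b := h6
  exact hbc (h7.symm.trans h1)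

namespace RankOne

variable {G Ω : Type*} [Group G] [MulAction G Ω] {a : Ω} {t : G} {Q : Subgroup G}

/-- If `X` fixes the points `g0 • a`, `b`, `c` (the latter two different from `g0 • a`), the unique
element of `Q^{g0}` mapping `b` to `c` centralizes `X`. -/
theorem cent_trans (hS : Cfsg.IsRankOneSetup G Ω a t Q) {X : Set G} {g0 : G} {b c : Ω}
    (hXe : ∀ x ∈ X, x • (g0 • a) = g0 • a) (hb : b ≠ g0 • a) (hc : c ≠ g0 • a)
    (hXb : ∀ x ∈ X, x • b = b) (hXc : ∀ x ∈ X, x • c = c) :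
    ∃ q ∈ Q, g0 * q * g0⁻¹ ∈ Subgroup.centralizer X ∧ (g0 * q * g0⁻¹) • b = c := by
  have hb' : g0⁻¹ • b ≠ a := by
    intro h; apply hb; rw [← h, smul_inv_smul]
  have hc' : g0⁻¹ • c ≠ a := by
    intro h; apply hc; rw [← h, smul_inv_smul]
  obtain ⟨⟨q, hq⟩, hqb, hqu⟩ := Q_unique hS hb' hc'
  have hqb' : q • g0⁻¹ • b = g0⁻¹ • c := hqb
  refine ⟨q, hq, ?_, ?_⟩
  · rw [Subgroup.mem_centralizer_iff]
    intro x hx
    have hx'a : (g0⁻¹ * x * g0) ∈ MulAction.stabilizer G a := by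
      show (g0⁻¹ * x * g0) • a = a
      rw [mul_smul, mul_smul, hXe x hx, inv_smul_smul]
    have h1 : (g0⁻¹ * x * g0) * q * (g0⁻¹ * x * g0)⁻¹ ∈ Q := hS.conj_mem _ hx'a q hq
    have h2 : ((g0⁻¹ * x * g0) * q * (g0⁻¹ * x * g0)⁻¹) • (g0⁻¹ • b) = g0⁻¹ • c := by
      have e : (g0⁻¹ * x * g0) * q * (g0⁻¹ * x * g0)⁻¹ =
          g0⁻¹ * x * g0 * q * g0⁻¹ * x⁻¹ * g0 := by group
      have hxb : x⁻¹ • b = b := by rw [inv_smul_eq_iff, hXb x hx]
      rw [e, mul_smul, mul_smul, mul_smul, mul_smul, mul_smul, mul_smul, smul_inv_smul, hxb,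
        hqb', smul_inv_smul, hXc x hx]
    have h3 := congrArg Subtype.val (hqu ⟨_, h1⟩ h2)
    have h3' : (g0⁻¹ * x * g0) * q * (g0⁻¹ * x * g0)⁻¹ = q := h3
    calc x * (g0 * q * g0⁻¹)
        = g0 * ((g0⁻¹ * x * g0) * q * (g0⁻¹ * x * g0)⁻¹) * g0⁻¹ * x := by group
      _ = g0 * q * g0⁻¹ * x := by rw [h3']
  · rw [mul_smul, mul_smul, hqb', smul_inv_smul]

theorem cent_trans_a (hS : Cfsg.IsRankOneSetup G Ω a t Q) {X : Set G} {b c : Ω}
    (hXa : ∀ x ∈ X, x • a = a) (hb : b ≠ a) (hc : c ≠ a)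
    (hXb : ∀ x ∈ X, x • b = b) (hXc : ∀ x ∈ X, x • c = c) :
    ∃ q ∈ Q, q ∈ Subgroup.centralizer X ∧ q • b = c := by
  obtain ⟨q, hq, hqC, hqb⟩ := cent_trans hS (X := X) (g0 := 1) (b := b) (c := c)
    (by rw [one_smul]; exact hXa) (by rw [one_smul]; exact hb) (by rw [one_smul]; exact hc) hXb hXc
  have e1 : (1 : G) * q * 1⁻¹ = q := by group
  rw [e1] at hqC hqb
  exact ⟨q, hq, hqC, hqb⟩

end RankOne

end Cfsg.Agent.Lib.Helper2
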