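import Mathlib
import Cfsg.Prelude.Def_LieRecognition
import Cfsg.Agent.Lib.Helper2.RankOne4

set_option autoImplicit false

namespace Cfsg.Agent.Lib.Helper2

theorem eq_sq_pow_of_odd_pow {G : Type*} [Group G] {g : G} {m : ℕ} (h : g ^ (2 * m + 1) = 1) :
    g = (g * g) ^ (m + 1) := by
  have e : 2 * m + 1 + 1 = 2 * (m + 1) := by ring
  calc g = g ^ (2 * m + 1) * g := by rw [h, one_mul]
    _ = g ^ (2 * (m + 1)) := by rw [← pow_succ, e]
    _ = (g * g) ^ (m + 1) := by rw [pow_mul, pow_two]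

/-- No nonidentity element of odd order is inverted by an element of odd order. -/
theorem eq_one_of_odd_inverts {G : Type*} [Group G] {x y : G} {m : ℕ}
    (hy : y ^ (2 * m + 1) = 1) (hx : x ^ (2 * m + 1) = 1) (h : y * x * y⁻¹ = x⁻¹) : x = 1 := by
  have h' : y * x⁻¹ = x * y := by
    have h0 : y * x⁻¹ * y⁻¹ = x := by
      calc y * x⁻¹ * y⁻¹ = (y * x * y⁻¹)⁻¹ := by group
        _ = x := by rw [h, inv_inv]
    calc y * x⁻¹ = (y * x⁻¹ * y⁻¹) * y := by group
      _ = x * y := by rw [h0]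
  have h1 : (y * y) * x = x * (y * y) := by
    have e : y * y * x = y * (y * x * y⁻¹) * y := by group
    rw [e, h, h']; group
  have h2 : Commute ((y * y) ^ (m + 1)) x := (show Commute (y * y) x from h1).pow_left _
  rw [← eq_sq_pow_of_odd_pow hy] at h2
  have h3 : x = x⁻¹ := by
    calc x = y * x * y⁻¹ := by rw [h2.eq]; group
      _ = x⁻¹ := h
  have h4 : x * x = 1 := by
    calc x * x = x * x⁻¹ := by rw [← h3]
      _ = 1 := mul_inv_cancel x
  rw [pow_succ, pow_mul, pow_two, h4, one_pow, one_mul] at hx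
  exact hx

namespace RankOne

variable {G Ω : Type*} [Group G] [MulAction G Ω] {a : Ω} {t : G} {Q : Subgroup G}

theorem D_odd_pow [Finite G] (hS : Cfsg.IsRankOneSetup G Ω a t Q) :
    ∃ m : ℕ, ∀ d ∈ MulAction.stabilizer G a ⊓ MulAction.stabilizer G (t • a),
      d ^ (2 * m + 1) = 1 := by
  obtain ⟨k, hk⟩ := hS.odd_card
  refine ⟨k, ?_⟩
  intro d hd
  have h3 : (⟨d, hd⟩ : ↥(MulAction.stabilizer G a ⊓ MulAction.stabilizer G (t • a))) ^
      Nat.card ↥(MulAction.stabilizer G a ⊓ MulAction.stabilizer G (t • a)) = 1 :=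
    pow_card_eq_one'
  rw [hk] at h3
  exact congrArg Subtype.val h3

/-- All involutions mapping `a` to `t • a` are conjugate to `t` under the two-point
stabiliser. -/
theorem invol_swap_conj [Finite G] (hS : Cfsg.IsRankOneSetup G Ω a t Q) {j : G}
    (hj : orderOf j = 2) (hja : j • a = t • a) :
    ∃ k ∈ MulAction.stabilizer G a ⊓ MulAction.stabilizer G (t • a), k * j * k⁻¹ = t := by
  have hto := orderOf_eq_two_of hS.ne_one hS.mul_self
  obtain ⟨s, r, hs, hsa, hr, he⟩ := pair_exists hS hj hja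
  obtain ⟨s0, r0, hs0, hs0a, hr0, he0⟩ := pair_exists hS hto rfl
  obtain ⟨k, hk, hks⟩ := (Cfsg.Agent.S1122.result hS).2 s
    (mem_involutionsIn_iff.mpr ⟨hs, hsa⟩) s0 (mem_involutionsIn_iff.mpr ⟨hs0, hs0a⟩)
  have hkD : k⁻¹ ∈ MulAction.stabilizer G a ⊓ MulAction.stabilizer G (t • a) :=
    Subgroup.inv_mem _ hk.1
  have h1 := conj_invol_swap hS hj hja hkD
  have h2 := conj_pair k⁻¹ he
  have h3 := hS.conj_mem k⁻¹ hkD.1 r hr
  rw [inv_inv] at h1 h2 h3
  rw [hks] at h2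
  have h4 := pair_inj hS h1.1 h1.2 hto rfl hs0 hs0a h3 h2 hr0 he0
  exact ⟨k⁻¹, hkD, by rw [inv_inv]; exact h4⟩

end RankOne

end Cfsg.Agent.Lib.Helper2
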