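import Mathlib
import Cfsg.Prelude.Def_LieRecognition
import Cfsg.Agent.Lib.Helper2.RankOne5

set_option autoImplicit false

namespace Cfsg.Agent.Lib.Helper2

theorem invol_conj_unique {G : Type*} [Group G] [Finite G] {Ω : Type*} [MulAction G Ω] [Finite Ω]
    [MulAction.IsPretransitive G Ω]
    (hfix : ∀ i : G, orderOf i = 2 → ∃! x : Ω, i • x = x) {x y : Ω} (hxy : x ≠ y)
    {s : G} (hs : orderOf s = 2) (hsx : s • x = x) {w w' : G} (hw : orderOf w = 2)
    (hwx : w • x = y) (hw' : orderOf w' = 2) (hwx' : w' • x = y)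
    (h : w * s * w⁻¹ = w' * s * w'⁻¹) : w = w' := by
  have hmem : ∀ v : {i : G // orderOf i = 2 ∧ i • x = y},
      orderOf (v.1 * s * v.1⁻¹) = 2 ∧ (v.1 * s * v.1⁻¹) • y = y := by
    intro v
    refine ⟨orderOf_conj_two v.1 hs, ?_⟩
    have h1 : v.1⁻¹ • y = x := by rw [inv_smul_eq_iff, v.2.2]
    rw [mul_smul, mul_smul, h1, hsx, v.2.2]
  have hb := invol_conj_bijective hfix x y hxy hs hsx
    (fun v => ⟨v.1 * s * v.1⁻¹, hmem v⟩) (fun v => rfl)
  have h2 := hb.1 (a₁ := ⟨w, hw, hwx⟩) (a₂ := ⟨w', hw', hwx'⟩) (Subtype.ext h)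
  exact congrArg Subtype.val h2

namespace RankOne

variable {G Ω : Type*} [Group G] [MulAction G Ω] {a : Ω} {t : G} {Q : Subgroup G}

/-- An involution `j` mapping `a` to `t • a` is conjugate to `t` by an element of the two-point
stabiliser centralizing any prescribed subset `Y` of `C_D(t) ∩ C_D(j)`. -/
theorem invol_swap_conj_cent [Finite G] (hS : Cfsg.IsRankOneSetup G Ω a t Q) {j : G}
    (hj : orderOf j = 2) (hja : j • a = t • a) {Y : Set G}
    (hYD : ∀ y ∈ Y, y ∈ MulAction.stabilizer G a ⊓ MulAction.stabilizer G (t • a))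
    (hYt : ∀ y ∈ Y, y * t = t * y) (hYj : ∀ y ∈ Y, y * j = j * y) :
    ∃ m ∈ MulAction.stabilizer G a ⊓ MulAction.stabilizer G (t • a),
      m * j * m⁻¹ = t ∧ ∀ y ∈ Y, y * m = m * y := by
  have hfix := invol_fix hS
  haveI := pretrans hS
  obtain ⟨-, hfin⟩ := card_eq hS
  haveI := hfin
  have hto := orderOf_eq_two_of hS.ne_one hS.mul_self
  obtain ⟨s, r, hs, hsa, hr, he⟩ := pair_exists hS hto rfl
  obtain ⟨s', r', hs', hsa', hr', he'⟩ := pair_exists hS hj hja
  have hYs : ∀ y ∈ Y, y * s = s * y := fun y hy =>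
    comm_pair_of_comm_invol hS hto rfl hs hsa hr he (hYD y hy) (hYt y hy)
  have hYs' : ∀ y ∈ Y, y * s' = s' * y := fun y hy =>
    comm_pair_of_comm_invol hS hj hja hs' hsa' hr' he' (hYD y hy) (hYj y hy)
  have h1 : orderOf (t * s * t⁻¹) = 2 := orderOf_conj_two t hs
  have h2 : (t * s * t⁻¹) • (t • a) = t • a := by
    rw [mul_smul, mul_smul, inv_smul_smul, hsa]
  obtain ⟨w, hw, hws, hwa⟩ := exists_invol_conj hfix hs' h1 hsa' h2 (ta_ne hS).symm
  have hYw : ∀ y ∈ Y, y * w = w * y := by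
    intro y hy
    have hc := conj_invol_swap hS hw hwa (hYD y hy)
    have hcs : (y * w * y⁻¹) * s' * (y * w * y⁻¹)⁻¹ = w * s' * w⁻¹ := by
      have e1 : y⁻¹ * s' * y = s' := by
        calc y⁻¹ * s' * y = y⁻¹ * (s' * y) := by group
          _ = y⁻¹ * (y * s') := by rw [hYs' y hy]
          _ = s' := by group
      have e2 : y * t⁻¹ * y⁻¹ = t⁻¹ := by
        calc y * t⁻¹ * y⁻¹ = (y * t * y⁻¹)⁻¹ := by group
          _ = (t * y * y⁻¹)⁻¹ := by rw [hYt y hy]
          _ = t⁻¹ := by group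
      calc (y * w * y⁻¹) * s' * (y * w * y⁻¹)⁻¹
          = y * (w * (y⁻¹ * s' * y) * w⁻¹) * y⁻¹ := by group
        _ = y * (t * s * t⁻¹) * y⁻¹ := by rw [e1, hws]
        _ = (y * t) * s * t⁻¹ * y⁻¹ := by group
        _ = (t * y) * s * t⁻¹ * y⁻¹ := by rw [hYt y hy]
        _ = t * (y * s) * t⁻¹ * y⁻¹ := by group
        _ = t * (s * y) * t⁻¹ * y⁻¹ := by rw [hYs y hy]
        _ = t * s * (y * t⁻¹ * y⁻¹) := by group
        _ = t * s * t⁻¹ := by rw [e2]
        _ = w * s' * w⁻¹ := hws.symm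
    have h3 := invol_conj_unique hfix (ta_ne hS).symm hs' hsa' hc.1 hc.2 hw hwa hcs
    calc y * w = (y * w * y⁻¹) * y := by group
      _ = w * y := by rw [h3]
  have hm := (mul_mem_invertedBy hS hw hwa).1
  have hms : (t * w) * s' * (t * w)⁻¹ = s := by
    calc (t * w) * s' * (t * w)⁻¹ = t * (w * s' * w⁻¹) * t⁻¹ := by group
      _ = t * (t * s * t⁻¹) * t⁻¹ := by rw [hws]
      _ = (t * t) * s * (t * t)⁻¹ := by group
      _ = s := by rw [hS.mul_self]; group
  have h4 := conj_invol_swap hS hj hja hm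
  have h5 := conj_pair (t * w) he'
  rw [hms] at h5
  have h6 := pair_inj hS h4.1 h4.2 hto rfl hs hsa (hS.conj_mem _ hm.1 r' hr') h5 hr he
  refine ⟨t * w, hm, h6, ?_⟩
  intro y hy
  calc y * (t * w) = (y * t) * w := by group
    _ = (t * y) * w := by rw [hYt y hy]
    _ = t * (y * w) := by group
    _ = t * (w * y) := by rw [hYw y hy]
    _ = t * w * y := by group

end RankOne

end Cfsg.Agent.Lib.Helper2
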