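import Mathlib
import Cfsg.Agent.Lib.Helper2.SL2Trace

set_option autoImplicit false

namespace Cfsg.Agent.Lib.Helper2

/-- A double transposition lies in the normal closure of any non-identity element of `S₄`. -/
theorem s4_normal_gen : ∀ k : Equiv.Perm (Fin 4), k ≠ 1 →
    ∃ h1 h2 : Equiv.Perm (Fin 4),
      Equiv.swap 0 1 * Equiv.swap 2 3 = (h1 * k * h1⁻¹) * (h2 * k * h2⁻¹)⁻¹ := by
  decide +kernel

theorem s4_elt4 : ∃ c : Equiv.Perm (Fin 4), c * c * c * c = 1 ∧ c * c ≠ 1 := by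
  decide +kernel

theorem fin3_forall2 (P : Fin 3 → Fin 3 → Prop) (h00 : P 0 0) (h01 : P 0 1) (h02 : P 0 2)
    (h10 : P 1 0) (h11 : P 1 1) (h12 : P 1 2) (h20 : P 2 0) (h21 : P 2 1) (h22 : P 2 2) :
    ∀ i j, P i j := by
  intro i j
  fin_cases i
  · fin_cases j
    · exact h00
    · exact h01
    · exact h02
  · fin_cases j
    · exact h10
    · exact h11
    · exact h12
  · fin_cases j
    · exact h20
    · exact h21
    · exact h22

theorem sl2_trace_comm {R : Type*} [CommRing R] (P Q : Matrix (Fin 2) (Fin 2) R) :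
    (Q * P) 0 0 + (Q * P) 1 1 = (P * Q) 0 0 + (P * Q) 1 1 := by
  simp only [Matrix.mul_apply, Fin.sum_univ_two]
  ring

theorem sl2_det_mul {R : Type*} [CommRing R] (P Q : Matrix (Fin 2) (Fin 2) R)
    (hdP : P 0 0 * P 1 1 - P 0 1 * P 1 0 = 1) (hdQ : Q 0 0 * Q 1 1 - Q 0 1 * Q 1 0 = 1) :
    (P * Q) 0 0 * (P * Q) 1 1 - (P * Q) 0 1 * (P * Q) 1 0 = 1 := by
  rw [← Matrix.det_fin_two, Matrix.det_mul, Matrix.det_fin_two P, Matrix.det_fin_two Q, hdP,
    hdQ, one_mul]

theorem sl2_sq_neg_of_trace {R : Type*} [CommRing R] (P : Matrix (Fin 2) (Fin 2) R)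
    (hd : P 0 0 * P 1 1 - P 0 1 * P 1 0 = 1) (ht : P 0 0 + P 1 1 = 0) : P * P = -1 := by
  have h := sl2_cayley P hd
  rw [ht, zero_smul, zero_sub] at h
  exact h

theorem sl2_cube_neg_of_trace {R : Type*} [CommRing R] (P : Matrix (Fin 2) (Fin 2) R)
    (hd : P 0 0 * P 1 1 - P 0 1 * P 1 0 = 1) (ht : P 0 0 + P 1 1 = 1) : P * P * P = -1 := by
  have h := sl2_cayley P hd
  rw [ht] at h
  rw [sl2_pow3 P 1 h, show ((1 : R)) ^ 2 - 1 = 0 by ring, zero_smul, zero_sub, one_smul]

/-- In characteristic two, `SL₂` has no element of order four. -/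
theorem char2_no_order4 {F : Type*} [Field F] (h2 : (2 : F) = 0)
    (M : Matrix (Fin 2) (Fin 2) F)
    (hdM : M 0 0 * M 1 1 - M 0 1 * M 1 0 = 1) (h4 : M * M * M * M = 1) : M * M = 1 := by
  have h := sl2_cayley M hdM
  obtain ⟨t, ht⟩ : ∃ t : F, t = M 0 0 + M 1 1 := ⟨_, rfl⟩
  rw [← ht] at h
  have h4' := sl2_pow4 M t h
  rw [h4] at h4'
  have ht0 : t = 0 := by
    by_contra hne
    have hu : t ^ 3 - 2 * t ≠ 0 := by
      intro h0
      have h3 : t ^ 3 = 0 := by linear_combination h0 + t * h2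
      exact hne ((pow_eq_zero_iff three_ne_zero).mp h3)
    have e00 := congrFun (congrFun h4' 0) 0
    have e11 := congrFun (congrFun h4' 1) 1
    simp only [Matrix.sub_apply, Matrix.smul_apply, smul_eq_mul] at e00 e11
    rw [Matrix.one_apply_eq] at e00 e11
    have h0011 : M 0 0 = M 1 1 := by
      have h' : (t ^ 3 - 2 * t) * (M 0 0 - M 1 1) = 0 := by linear_combination e11 - e00
      exact sub_eq_zero.mp ((mul_eq_zero.mp h').resolve_left hu)
    apply hne
    rw [ht]
    linear_combination M 1 1 * h2 + h0011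
  apply mat2_ext_entries
  · have e := congrFun (congrFun h 0) 0
    simp only [Matrix.sub_apply, Matrix.smul_apply, smul_eq_mul] at e
    rw [Matrix.one_apply_eq] at e ⊢
    linear_combination e + M 0 0 * ht0 - h2
  · have e := congrFun (congrFun h 0) 1
    simp only [Matrix.sub_apply, Matrix.smul_apply, smul_eq_mul] at e
    rw [Matrix.one_apply_ne (by decide)] at e ⊢
    linear_combination e + M 0 1 * ht0
  · have e := congrFun (congrFun h 1) 0
    simp only [Matrix.sub_apply, Matrix.smul_apply, smul_eq_mul] at e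
    rw [Matrix.one_apply_ne (by decide)] at e ⊢
    linear_combination e + M 1 0 * ht0
  · have e := congrFun (congrFun h 1) 1
    simp only [Matrix.sub_apply, Matrix.smul_apply, smul_eq_mul] at e
    rw [Matrix.one_apply_eq] at e ⊢
    linear_combination e + M 1 1 * ht0 - h2

end Cfsg.Agent.Lib.Helper2
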