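import Mathlib

set_option autoImplicit false

namespace Cfsg.Agent.Lib.Helper2

local notation "SL23" => Matrix.SpecialLinearGroup (Fin 2) (ZMod 3)

theorem sl23_card : Nat.card SL23 = 24 := by
  rw [Nat.card_eq_fintype_card]
  decide +kernel

theorem sl23_mul_mem : ∀ a b : SL23, a ^ 4 = 1 → b ^ 4 = 1 → (a * b) ^ 4 = 1 := by
  decide +kernel

/-- The subgroup of elements of order dividing 4 in SL(2,3). -/
def sl23Q : Subgroup SL23 where
  carrier := {g | g ^ 4 = 1}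
  mul_mem' := fun {a b} ha hb => sl23_mul_mem a b ha hb
  one_mem' := one_pow 4
  inv_mem' := fun {a} ha => by
    show (a⁻¹) ^ 4 = 1
    rw [inv_pow, ha, inv_one]

theorem sl23_mem_Q (g : SL23) : g ∈ sl23Q ↔ g ^ 4 = 1 := Iff.rfl

theorem sl23_comm_mem : ∀ a b : SL23, (a * b * a⁻¹ * b⁻¹) ^ 4 = 1 := by
  decide +kernel

theorem sl23_Q_comm : ∀ g : SL23, g ^ 4 = 1 → ∃ a b : SL23, a * b * a⁻¹ * b⁻¹ = g := by
  decide +kernel

theorem sl23_commutator_eq : commutator SL23 = sl23Q := by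
  apply le_antisymm
  · rw [commutator_def, Subgroup.commutator_le]
    intro a _ b _
    rw [sl23_mem_Q, commutatorElement_def]
    exact sl23_comm_mem a b
  · intro g hg
    obtain ⟨a, b, hab⟩ := sl23_Q_comm g hg
    rw [← hab, ← commutatorElement_def, commutator_def]
    exact Subgroup.commutator_mem_commutator (Subgroup.mem_top a) (Subgroup.mem_top b)

theorem sl23_center_elt : ∃ z : SL23, z ≠ 1 ∧ z ^ 2 = 1 ∧ (∀ h : SL23, h * z = z * h) ∧
    (∀ g : SL23, (∀ h : SL23, h * g = g * h) → g = 1 ∨ g = z) ∧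
    (∀ g : SL23, g ^ 2 = 1 → g = 1 ∨ g = z) ∧
    (∀ c : SL23, c ^ 4 = 1 → c ^ 2 ≠ 1 → z = c ^ 2) := by
  decide +kernel

theorem sl23_order4_conj_aux : ∀ c q : SL23, (c ^ 4 = 1 ∧ c ^ 2 ≠ 1 ∧ q ^ 4 = 1 ∧ q ^ 2 ≠ 1) →
    ∃ y : SL23, q = y * c * y⁻¹ := by
  decide +kernel

theorem sl23_order4_conj : ∀ c : SL23, c ^ 4 = 1 → c ^ 2 ≠ 1 → ∀ q : SL23, q ^ 4 = 1 → q ^ 2 ≠ 1 →
    ∃ y : SL23, q = y * c * y⁻¹ :=
  fun c h1 h2 q h3 h4 => sl23_order4_conj_aux c q ⟨h1, h2, h3, h4⟩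

theorem sl23_comm_order4 : ∀ g : SL23, g ^ 4 ≠ 1 → ∃ x : SL23, (g * x * g⁻¹ * x⁻¹) ^ 2 ≠ 1 := by
  decide +kernel

theorem sl23_card_Q : Nat.card sl23Q = 8 := by
  have h : Nat.card {g : SL23 // g ^ 4 = 1} = 8 := by
    rw [Nat.card_eq_fintype_card, Fintype.card_subtype]
    decide +kernel
  exact h

/-- The candidate embedding of the quaternion group of order 8 determined by two elements. -/
def sl23QuatMap (A B : SL23) : QuaternionGroup 2 → SL23
  | .a i => A ^ i.val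
  | .xa i => B * A ^ i.val

theorem sl23_quat_gens : ∃ A B : SL23,
    (∀ x y : QuaternionGroup 2, sl23QuatMap A B (x * y) = sl23QuatMap A B x * sl23QuatMap A B y) ∧
    (∀ x y : QuaternionGroup 2, sl23QuatMap A B x = sl23QuatMap A B y → x = y) ∧
    (∀ x : QuaternionGroup 2, sl23QuatMap A B x ^ 4 = 1) := by
  decide +kernel

theorem sl23_quat_iso : Nonempty (sl23Q ≃* QuaternionGroup 2) := by
  obtain ⟨A, B, hmul, hinj, hpow⟩ := sl23_quat_gens
  let f : QuaternionGroup 2 →* SL23 := MonoidHom.mk' (sl23QuatMap A B) hmul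
  have hfinj : Function.Injective f := fun x y h => hinj x y h
  have hrange_le : f.range ≤ sl23Q := by
    rintro _ ⟨x, rfl⟩
    exact hpow x
  have h8 : Nat.card (QuaternionGroup 2) = 8 :=
    Nat.card_eq_fintype_card.trans ((QuaternionGroup.card (n := 2)).trans (by norm_num))
  have hcard : Nat.card f.range = 8 := by
    rw [← Nat.card_congr (MonoidHom.ofInjective hfinj).toEquiv, h8]
  have hrange : f.range = sl23Q := by
    apply Subgroup.eq_of_le_of_card_ge hrange_le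
    rw [hcard, sl23_card_Q]
  exact ⟨((MonoidHom.ofInjective hfinj).trans (MulEquiv.subgroupCongr hrange)).symm⟩

end Cfsg.Agent.Lib.Helper2
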