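import Mathlib

set_option autoImplicit false

namespace Cfsg.Agent.Lib.Helper2

/-- A ring isomorphism induces an isomorphism of special linear groups. -/
noncomputable def slCongrRing {n : Type*} [DecidableEq n] [Fintype n] {R S : Type*}
    [CommRing R] [CommRing S] (e : R ≃+* S) :
    Matrix.SpecialLinearGroup n R ≃* Matrix.SpecialLinearGroup n S where
  toFun := Matrix.SpecialLinearGroup.map (e : R →+* S)
  invFun := Matrix.SpecialLinearGroup.map (e.symm : S →+* R)
  left_inv := fun g => by
    ext i j
    simp
  right_inv := fun g => by
    ext i j
    simp
  map_mul' := fun a b => map_mul _ a b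

end Cfsg.Agent.Lib.Helper2
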