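import Mathlib
import Cfsg.Prelude.Def_ClassicalGeometry

set_option autoImplicit false

namespace Cfsg.Agent.Lib.Helper2

/-- Position of an index of the three-dimensional orthogonal space. -/
def so33Pos : Unit ⊕ (Fin 1 ⊕ Fin 1) → Fin 3
  | Sum.inl _ => 0
  | Sum.inr (Sum.inl _) => 1
  | Sum.inr (Sum.inr _) => 2

/-- Three generating involutions over the prime field. -/
def so33T (k : Fin 3) : Matrix (Unit ⊕ (Fin 1 ⊕ Fin 1)) (Unit ⊕ (Fin 1 ⊕ Fin 1)) (ZMod 3) :=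
  fun i j => (![!![1, 0, 0; 0, 2, 0; 0, 0, 2], !![1, 0, 1; 2, 2, 1; 0, 0, 2],
    !![2, 0, 0; 0, 0, 1; 0, 1, 0]] k : Matrix (Fin 3) (Fin 3) (ZMod 3)) (so33Pos i) (so33Pos j)

theorem so33T_rel : ∀ i j : Fin 3, (so33T i * so33T j) ^ ((CoxeterMatrix.A 3) i j) = 1 := by
  decide +kernel

theorem so33T_sq : ∀ i : Fin 3, so33T i * so33T i = 1 := by
  decide +kernel

theorem so33T_02 : (so33T 0 * so33T 2) (Sum.inl ()) (Sum.inl ()) = 2 := by
  decide +kernel

/-- A vector given by its three coordinates. -/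
def so33Vec {R : Type*} (x y z : R) : Unit ⊕ (Fin 1 ⊕ Fin 1) → R :=
  Sum.elim (fun _ => x) (Sum.elim (fun _ => y) (fun _ => z))

theorem so33T_isom' : ∀ (k : Fin 3) (x y z : ZMod 3),
    Cfsg.quadFormOdd 1 (ZMod 3) (Matrix.mulVec (so33T k) (so33Vec x y z)) =
      Cfsg.quadFormOdd 1 (ZMod 3) (so33Vec x y z) := by
  decide +kernel

theorem so33_vec_eta {R : Type*} (u : Unit ⊕ (Fin 1 ⊕ Fin 1) → R) :
    u = so33Vec (u (Sum.inl ())) (u (Sum.inr (Sum.inl 0))) (u (Sum.inr (Sum.inr 0))) := by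
  funext i
  rcases i with i | i | i
  · rfl
  · have h : i = 0 := Subsingleton.elim _ _
    rw [h]
    rfl
  · have h : i = 0 := Subsingleton.elim _ _
    rw [h]
    rfl

theorem so33T_isom (k : Fin 3) (u : Unit ⊕ (Fin 1 ⊕ Fin 1) → ZMod 3) :
    Cfsg.quadFormOdd 1 (ZMod 3) (Matrix.mulVec (so33T k) u) = Cfsg.quadFormOdd 1 (ZMod 3) u := by
  have h := so33T_isom' k (u (Sum.inl ())) (u (Sum.inr (Sum.inl 0))) (u (Sum.inr (Sum.inr 0)))
  rw [← so33_vec_eta u] at h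
  exact h

theorem so33_forall (P : Unit ⊕ (Fin 1 ⊕ Fin 1) → Prop) (h1 : P (Sum.inl ()))
    (h2 : P (Sum.inr (Sum.inl 0))) (h3 : P (Sum.inr (Sum.inr 0))) : ∀ i, P i := by
  intro i
  rcases i with i | i | i
  · exact h1
  · have h : i = 0 := Subsingleton.elim _ _
    rw [h]
    exact h2
  · have h : i = 0 := Subsingleton.elim _ _
    rw [h]
    exact h3

/-- The index equivalence. -/
def so33E : (Unit ⊕ (Fin 1 ⊕ Fin 1)) ≃ Fin 3 where
  toFun := so33Pos
  invFun := ![Sum.inl (), Sum.inr (Sum.inl 0), Sum.inr (Sum.inr 0)]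
  left_inv := by
    intro i
    revert i
    decide
  right_inv := by
    intro i
    revert i
    decide

theorem so33_det {R : Type*} [CommRing R]
    (A : Matrix (Unit ⊕ (Fin 1 ⊕ Fin 1)) (Unit ⊕ (Fin 1 ⊕ Fin 1)) R) :
    A.det = A (Sum.inl ()) (Sum.inl ()) * A (Sum.inr (Sum.inl 0)) (Sum.inr (Sum.inl 0)) *
        A (Sum.inr (Sum.inr 0)) (Sum.inr (Sum.inr 0)) -
      A (Sum.inl ()) (Sum.inl ()) * A (Sum.inr (Sum.inl 0)) (Sum.inr (Sum.inr 0)) *
        A (Sum.inr (Sum.inr 0)) (Sum.inr (Sum.inl 0)) -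
      A (Sum.inl ()) (Sum.inr (Sum.inl 0)) * A (Sum.inr (Sum.inl 0)) (Sum.inl ()) *
        A (Sum.inr (Sum.inr 0)) (Sum.inr (Sum.inr 0)) +
      A (Sum.inl ()) (Sum.inr (Sum.inl 0)) * A (Sum.inr (Sum.inl 0)) (Sum.inr (Sum.inr 0)) *
        A (Sum.inr (Sum.inr 0)) (Sum.inl ()) +
      A (Sum.inl ()) (Sum.inr (Sum.inr 0)) * A (Sum.inr (Sum.inl 0)) (Sum.inl ()) *
        A (Sum.inr (Sum.inr 0)) (Sum.inr (Sum.inl 0)) -
      A (Sum.inl ()) (Sum.inr (Sum.inr 0)) * A (Sum.inr (Sum.inl 0)) (Sum.inr (Sum.inl 0)) *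
        A (Sum.inr (Sum.inr 0)) (Sum.inl ()) := by
  rw [← Matrix.det_submatrix_equiv_self so33E.symm A, Matrix.det_fin_three]
  rfl

theorem so33T_det (k : Fin 3) : (so33T k).det = 1 := by
  rw [so33_det]
  revert k
  decide +kernel

theorem so33_Q_map {R S : Type*} [Field R] [Field S] (f : R →+* S)
    (v : Unit ⊕ (Fin 1 ⊕ Fin 1) → R) :
    Cfsg.quadFormOdd 1 S (fun i => f (v i)) = f (Cfsg.quadFormOdd 1 R v) := by
  simp only [Cfsg.quadFormOdd, map_add, map_pow, map_sum, map_mul]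

theorem so33_isom_map {F : Type*} [Field F] (f : ZMod 3 →+* F) (g : F → ZMod 3)
    (hfg : ∀ x, f (g x) = x) (k : Fin 3) (u : Unit ⊕ (Fin 1 ⊕ Fin 1) → F) :
    Cfsg.quadFormOdd 1 F (Matrix.mulVec (f.mapMatrix (so33T k)) u) =
      Cfsg.quadFormOdd 1 F u := by
  have hu : (fun i => f (g (u i))) = u := by
    funext i
    rw [hfg]
  have h1 : Matrix.mulVec (f.mapMatrix (so33T k)) (fun i => f (g (u i))) =
      fun i => f (Matrix.mulVec (so33T k) (fun i => g (u i)) i) := by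
    funext i
    exact (RingHom.map_mulVec f (so33T k) (fun i => g (u i)) i).symm
  have e1 := so33_Q_map f (Matrix.mulVec (so33T k) (fun i => g (u i)))
  have e2 := so33_Q_map f (fun i => g (u i))
  calc Cfsg.quadFormOdd 1 F (Matrix.mulVec (f.mapMatrix (so33T k)) u)
      = Cfsg.quadFormOdd 1 F
          (Matrix.mulVec (f.mapMatrix (so33T k)) (fun i => f (g (u i)))) := by rw [hu]
    _ = Cfsg.quadFormOdd 1 F
          (fun i => f (Matrix.mulVec (so33T k) (fun i => g (u i)) i)) := by rw [h1]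
    _ = f (Cfsg.quadFormOdd 1 (ZMod 3) (Matrix.mulVec (so33T k) (fun i => g (u i)))) := e1
    _ = f (Cfsg.quadFormOdd 1 (ZMod 3) (fun i => g (u i))) := by rw [so33T_isom]
    _ = Cfsg.quadFormOdd 1 F (fun i => f (g (u i))) := e2.symm
    _ = Cfsg.quadFormOdd 1 F u := by rw [hu]

theorem so33_Q_eval {R : Type*} [Field R] (v : Unit ⊕ (Fin 1 ⊕ Fin 1) → R) :
    Cfsg.quadFormOdd 1 R v =
      v (Sum.inl ()) ^ 2 + v (Sum.inr (Sum.inl 0)) * v (Sum.inr (Sum.inr 0)) := by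
  unfold Cfsg.quadFormOdd
  rw [Fintype.sum_unique]
  rfl

theorem so33_mulVec {R : Type*} [CommRing R]
    (B : Matrix (Unit ⊕ (Fin 1 ⊕ Fin 1)) (Unit ⊕ (Fin 1 ⊕ Fin 1)) R) (x y z : R)
    (i : Unit ⊕ (Fin 1 ⊕ Fin 1)) :
    Matrix.mulVec B (so33Vec x y z) i =
      B i (Sum.inl ()) * x + (B i (Sum.inr (Sum.inl 0)) * y + B i (Sum.inr (Sum.inr 0)) * z) := by
  show ∑ j, B i j * so33Vec x y z j = _
  rw [Fintype.sum_sum_type, Fintype.sum_sum_type, Fintype.sum_unique, Fintype.sum_unique,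
    Fintype.sum_unique]
  rfl

theorem so33_code {F : Type*} [Field F] (e : F →+* ZMod 3)
    (B : Matrix (Unit ⊕ (Fin 1 ⊕ Fin 1)) (Unit ⊕ (Fin 1 ⊕ Fin 1)) F)
    (hB : ∀ u, Cfsg.quadFormOdd 1 F (Matrix.mulVec B u) = Cfsg.quadFormOdd 1 F u) (x y z : F) :
    (e (B (Sum.inl ()) (Sum.inl ())) * e x + (e (B (Sum.inl ()) (Sum.inr (Sum.inl 0))) * e y +
        e (B (Sum.inl ()) (Sum.inr (Sum.inr 0))) * e z)) ^ 2 +
      (e (B (Sum.inr (Sum.inl 0)) (Sum.inl ())) * e x +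
        (e (B (Sum.inr (Sum.inl 0)) (Sum.inr (Sum.inl 0))) * e y +
        e (B (Sum.inr (Sum.inl 0)) (Sum.inr (Sum.inr 0))) * e z)) *
      (e (B (Sum.inr (Sum.inr 0)) (Sum.inl ())) * e x +
        (e (B (Sum.inr (Sum.inr 0)) (Sum.inr (Sum.inl 0))) * e y +
        e (B (Sum.inr (Sum.inr 0)) (Sum.inr (Sum.inr 0))) * e z)) = e x ^ 2 + e y * e z := by
  have h := congrArg e (hB (so33Vec x y z))
  rw [so33_Q_eval, so33_Q_eval, so33_mulVec, so33_mulVec, so33_mulVec] at h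
  simp only [map_add, map_mul, map_pow, so33Vec, Sum.elim_inl, Sum.elim_inr] at h
  linear_combination h

/-- The quadratic form on coded column vectors. -/
def so33Q3 (c : ZMod 3 × ZMod 3 × ZMod 3) : ZMod 3 := c.1 ^ 2 + c.2.1 * c.2.2

/-- Sum of coded column vectors. -/
def so33Add (c d : ZMod 3 × ZMod 3 × ZMod 3) : ZMod 3 × ZMod 3 × ZMod 3 :=
  (c.1 + d.1, c.2.1 + d.2.1, c.2.2 + d.2.2)

/-- The determinant of a coded matrix (given by its columns). -/
def so33Det (t : (ZMod 3 × ZMod 3 × ZMod 3) × (ZMod 3 × ZMod 3 × ZMod 3) ×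
    (ZMod 3 × ZMod 3 × ZMod 3)) : ZMod 3 :=
  t.1.1 * t.2.1.2.1 * t.2.2.2.2 - t.1.1 * t.2.2.2.1 * t.2.1.2.2 - t.2.1.1 * t.1.2.1 * t.2.2.2.2 +
    t.2.1.1 * t.2.2.2.1 * t.1.2.2 + t.2.2.1 * t.1.2.1 * t.2.1.2.2 - t.2.2.1 * t.2.1.2.1 * t.1.2.2

/-- The coded special isometries. -/
def so33S : Finset ((ZMod 3 × ZMod 3 × ZMod 3) × (ZMod 3 × ZMod 3 × ZMod 3) ×
    (ZMod 3 × ZMod 3 × ZMod 3)) :=
  Finset.univ.filter (fun t => so33Q3 t.1 = 1 ∧ so33Q3 t.2.1 = 0 ∧ so33Q3 t.2.2 = 0 ∧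
    so33Q3 (so33Add t.1 t.2.1) = 1 ∧ so33Q3 (so33Add t.1 t.2.2) = 1 ∧
    so33Q3 (so33Add t.2.1 t.2.2) = 1 ∧ so33Det t = 1)

theorem so33S_card : so33S.card = 24 := by decide +kernel

/-- Coded column of a matrix. -/
def so33Col {F : Type*} (e : F → ZMod 3)
    (B : Matrix (Unit ⊕ (Fin 1 ⊕ Fin 1)) (Unit ⊕ (Fin 1 ⊕ Fin 1)) F)
    (j : Unit ⊕ (Fin 1 ⊕ Fin 1)) : ZMod 3 × ZMod 3 × ZMod 3 :=
  (e (B (Sum.inl ()) j), e (B (Sum.inr (Sum.inl 0)) j), e (B (Sum.inr (Sum.inr 0)) j))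

theorem so33_card_le {F : Type*} [Field F] [Fintype F] (hF : Fintype.card F = 3) :
    Finite ↥(Cfsg.specialIsometryGroup F (Cfsg.quadFormOdd 1 F)) ∧
      Nat.card ↥(Cfsg.specialIsometryGroup F (Cfsg.quadFormOdd 1 F)) ≤ 24 := by
  classical
  obtain ⟨e, he⟩ : ∃ e : F →+* ZMod 3, Function.Injective e :=
    ⟨((ZMod.ringEquivOfPrime F Nat.prime_three hF).symm : F ≃+* ZMod 3).toRingHom,
      (ZMod.ringEquivOfPrime F Nat.prime_three hF).symm.injective⟩
  obtain ⟨mat, hmatQ, hmatD, hmatI⟩ :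
      ∃ mat : ↥(Cfsg.specialIsometryGroup F (Cfsg.quadFormOdd 1 F)) →
        Matrix (Unit ⊕ (Fin 1 ⊕ Fin 1)) (Unit ⊕ (Fin 1 ⊕ Fin 1)) F,
      (∀ A u, Cfsg.quadFormOdd 1 F (Matrix.mulVec (mat A) u) = Cfsg.quadFormOdd 1 F u) ∧
      (∀ A, (mat A).det = 1) ∧ Function.Injective mat := by
    refine ⟨fun A => A.1.1.1, ?_, ?_, ?_⟩
    · intro A u
      exact A.1.2 u u
    · intro A
      have h := MonoidHom.mem_ker.mp A.2
      exact congrArg Units.val h
    · intro A A' h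
      exact Subtype.ext (Subtype.ext (Units.ext h))
  have hmem : ∀ A, (so33Col e (mat A) (Sum.inl ()), so33Col e (mat A) (Sum.inr (Sum.inl 0)),
      so33Col e (mat A) (Sum.inr (Sum.inr 0))) ∈ so33S := by
    intro A
    rw [so33S, Finset.mem_filter]
    refine ⟨Finset.mem_univ _, ?_, ?_, ?_, ?_, ?_, ?_, ?_⟩
    · have h := so33_code e (mat A) (hmatQ A) 1 0 0
      rw [map_zero, map_one] at h
      simp only [so33Q3, so33Col]
      linear_combination h
    · have h := so33_code e (mat A) (hmatQ A) 0 1 0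
      rw [map_zero, map_one] at h
      simp only [so33Q3, so33Col]
      linear_combination h
    · have h := so33_code e (mat A) (hmatQ A) 0 0 1
      rw [map_zero, map_one] at h
      simp only [so33Q3, so33Col]
      linear_combination h
    · have h := so33_code e (mat A) (hmatQ A) 1 1 0
      rw [map_zero, map_one] at h
      simp only [so33Q3, so33Add, so33Col]
      linear_combination h
    · have h := so33_code e (mat A) (hmatQ A) 1 0 1
      rw [map_zero, map_one] at h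
      simp only [so33Q3, so33Add, so33Col]
      linear_combination h
    · have h := so33_code e (mat A) (hmatQ A) 0 1 1
      rw [map_zero, map_one] at h
      simp only [so33Q3, so33Add, so33Col]
      linear_combination h
    · have hd := congrArg e (so33_det (mat A))
      rw [hmatD A, map_one] at hd
      simp only [map_sub, map_add, map_mul] at hd
      simp only [so33Det, so33Col]
      linear_combination -hd
  obtain ⟨c, hc⟩ : ∃ c : ↥(Cfsg.specialIsometryGroup F (Cfsg.quadFormOdd 1 F)) → ↥so33S,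
      ∀ A, (c A).1 = (so33Col e (mat A) (Sum.inl ()), so33Col e (mat A) (Sum.inr (Sum.inl 0)),
        so33Col e (mat A) (Sum.inr (Sum.inr 0))) :=
    ⟨fun A => ⟨_, hmem A⟩, fun A => rfl⟩
  have hinj : Function.Injective c := by
    intro A A' h
    have h' : (c A).1 = (c A').1 := congrArg Subtype.val h
    rw [hc, hc] at h'
    simp only [so33Col, Prod.mk.injEq] at h'
    obtain ⟨⟨h11, h21, h31⟩, ⟨h12, h22, h32⟩, h13, h23, h33⟩ := h'
    apply hmatI
    apply Matrix.ext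
    refine so33_forall (fun i => ∀ j, mat A i j = mat A' i j) ?_ ?_ ?_
    · exact so33_forall (fun j => mat A (Sum.inl ()) j = mat A' (Sum.inl ()) j)
        (he h11) (he h12) (he h13)
    · exact so33_forall (fun j => mat A (Sum.inr (Sum.inl 0)) j = mat A' (Sum.inr (Sum.inl 0)) j)
        (he h21) (he h22) (he h23)
    · exact so33_forall (fun j => mat A (Sum.inr (Sum.inr 0)) j = mat A' (Sum.inr (Sum.inr 0)) j)
        (he h31) (he h32) (he h33)
  have hfin : Finite ↥(Cfsg.specialIsometryGroup F (Cfsg.quadFormOdd 1 F)) :=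
    Finite.of_injective c hinj
  refine ⟨hfin, ?_⟩
  calc Nat.card ↥(Cfsg.specialIsometryGroup F (Cfsg.quadFormOdd 1 F)) ≤ Nat.card (↥so33S) :=
        Nat.card_le_card_of_injective c hinj
    _ = 24 := by rw [Nat.card_eq_fintype_card, Fintype.card_coe, so33S_card]

end Cfsg.Agent.Lib.Helper2
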