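import Mathlib
import Cfsg.Prelude.Def_OddOrderLocal
import Cfsg.Agent.Lib.Helper2.Layer2

set_option autoImplicit false

namespace Cfsg.Agent.Lib.Helper2

/-- A cyclic subgroup is generated by a single element. -/
theorem exists_zpowers_eq_of_isCyclic {G : Type*} [Group G] (W : Subgroup G) (hW : IsCyclic ↥W) :
    ∃ a : G, a ∈ W ∧ W = Subgroup.zpowers a := by
  obtain ⟨⟨a, ha⟩, hgen⟩ := IsCyclic.exists_generator (α := ↥W)
  refine ⟨a, ha, le_antisymm ?_ (Subgroup.zpowers_le.mpr ha)⟩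
  intro x hx
  obtain ⟨k, hk⟩ := Subgroup.mem_zpowers_iff.mp (hgen ⟨x, hx⟩)
  rw [Subgroup.mem_zpowers_iff]
  refine ⟨k, ?_⟩
  have h1 := congrArg Subtype.val hk
  rw [Subgroup.coe_zpow] at h1
  exact h1

/-- Two commuting elements of coprime orders generate a cyclic group. -/
theorem zpowers_sup_zpowers_of_coprime {G : Type*} [Group G] (a b : G) (hab : a * b = b * a)
    (hcop : (orderOf a).Coprime (orderOf b)) :
    Subgroup.zpowers a ⊔ Subgroup.zpowers b = Subgroup.zpowers (a * b) := by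
  have hc : Commute a b := hab
  apply le_antisymm
  · apply sup_le
    · rw [Subgroup.zpowers_le]
      obtain ⟨m, hm⟩ := exists_pow_eq_self_of_coprime hcop.symm
      have h1 : (a * b) ^ orderOf b = a ^ orderOf b := by
        rw [hc.mul_pow, pow_orderOf_eq_one, mul_one]
      have hmem : ((a * b) ^ orderOf b) ^ m ∈ Subgroup.zpowers (a * b) :=
        Subgroup.pow_mem _ (Subgroup.pow_mem _ (Subgroup.mem_zpowers (a * b)) _) _
      rw [h1, hm] at hmem
      exact hmem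
    · rw [Subgroup.zpowers_le]
      obtain ⟨m, hm⟩ := exists_pow_eq_self_of_coprime hcop
      have h1 : (a * b) ^ orderOf a = b ^ orderOf a := by
        rw [hc.mul_pow, pow_orderOf_eq_one, one_mul]
      have hmem : ((a * b) ^ orderOf a) ^ m ∈ Subgroup.zpowers (a * b) :=
        Subgroup.pow_mem _ (Subgroup.pow_mem _ (Subgroup.mem_zpowers (a * b)) _) _
      rw [h1, hm] at hmem
      exact hmem
  · rw [Subgroup.zpowers_le]
    exact Subgroup.mul_mem _ (Subgroup.mem_sup_left (Subgroup.mem_zpowers a))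
      (Subgroup.mem_sup_right (Subgroup.mem_zpowers b))

/-- The self-normalising cyclic pair of a semidirect product `K ⋊ W₁` with `W₂ = C_K(x)`. -/
theorem selfNormCyclic_of_semidirect {L : Type*} [Group L] [Finite L] (K W₁ W₂ : Subgroup L)
    [hK : K.Normal] (hKW₁ : K ⊓ W₁ = ⊥) (hKW₁' : K ⊔ W₁ = ⊤) (hW₁ : W₁ ≠ ⊥)
    (hW₁c : IsCyclic W₁) (hHall : Nat.Coprime (Nat.card W₁) W₁.index) (hW₂ : W₂ ≠ ⊥)
    (hW₂c : IsCyclic W₂) (hW₂K : W₂ ≤ K)
    (hC : ∀ x ∈ W₁, x ≠ 1 → K ⊓ Subgroup.centralizer ({x} : Set L) = W₂) :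
    Cfsg.IsSelfNormalizingCyclic W₁ W₂ := by
  have hcompl : Subgroup.IsComplement' K W₁ := by
    apply Subgroup.isComplement'_of_disjoint_and_mul_eq_univ (disjoint_iff.mpr hKW₁)
    rw [← Subgroup.normal_mul, hKW₁', Subgroup.coe_top]
  have hidx : W₁.index = Nat.card ↥K := hcompl.index_eq_card
  have hcopK : (Nat.card ↥W₁).Coprime (Nat.card ↥K) := by rw [← hidx]; exact hHall
  have hcop12 : (Nat.card ↥W₁).Coprime (Nat.card ↥W₂) :=
    Nat.Coprime.coprime_dvd_right (Subgroup.card_dvd_of_le hW₂K) hcopK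
  have hdisj : W₁ ⊓ W₂ = ⊥ := by
    rw [eq_bot_iff]
    intro x hx
    have h1 : x ∈ K ⊓ W₁ := ⟨hW₂K hx.2, hx.1⟩
    rw [hKW₁] at h1
    exact h1
  have hcomm : ∀ a ∈ W₁, ∀ b ∈ W₂, a * b = b * a := by
    intro a ha b hb
    by_cases ha1 : a = 1
    · rw [ha1, one_mul, mul_one]
    · have h1 : b ∈ K ⊓ Subgroup.centralizer ({a} : Set L) := by rw [hC a ha ha1]; exact hb
      exact (Subgroup.mem_centralizer_iff.mp h1.2) a (Set.mem_singleton a)
  obtain ⟨a, haW, hWa⟩ := exists_zpowers_eq_of_isCyclic W₁ hW₁c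
  obtain ⟨b, hbW, hWb⟩ := exists_zpowers_eq_of_isCyclic W₂ hW₂c
  have hcopab : (orderOf a).Coprime (orderOf b) :=
    Nat.Coprime.coprime_dvd_left (Subgroup.orderOf_dvd_natCard _ haW)
      (Nat.Coprime.coprime_dvd_right (Subgroup.orderOf_dvd_natCard _ hbW) hcop12)
  have hWeq : W₁ ⊔ W₂ = Subgroup.zpowers (a * b) := by
    conv_lhs => rw [hWa, hWb]
    exact zpowers_sup_zpowers_of_coprime a b (hcomm a haW b hbW) hcopab
  have hcyc : IsCyclic ↥(W₁ ⊔ W₂) := by
    rw [hWeq]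
    infer_instance
  have hWcomm : ∀ x ∈ W₁ ⊔ W₂, ∀ y ∈ W₁ ⊔ W₂, x * y = y * x := by
    intro x hx y hy
    rw [hWeq] at hx hy
    obtain ⟨i, rfl⟩ := Subgroup.mem_zpowers_iff.mp hx
    obtain ⟨j, rfl⟩ := Subgroup.mem_zpowers_iff.mp hy
    exact Commute.zpow_zpow_self (a * b) i j
  refine ⟨hW₁, hW₂, hdisj, hcomm, hcyc, ?_⟩
  intro X hX hXne
  apply le_antisymm
  · intro g hg
    rw [Subgroup.mem_set_normalizer_iff] at hg
    obtain ⟨x, hxX⟩ := hXne
    have hxW : x ∈ W₁ ⊔ W₂ := (hX hxX).1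
    have hxn : x ∉ (W₁ : Set L) ∪ (W₂ : Set L) := (hX hxX).2
    obtain ⟨a', ha', b', hb', hxab⟩ := mem_sup_of_commute W₁ W₂ hcomm x hxW
    have ha'1 : a' ≠ 1 := by
      intro h
      apply hxn
      right
      rw [hxab, h, one_mul]
      exact hb'
    have hgtop : g ∈ K ⊔ W₁ := by rw [hKW₁']; exact Subgroup.mem_top g
    obtain ⟨k, hk, w, hw, hkw⟩ := Subgroup.mem_sup_of_normal_left.mp hgtop
    have hgx : g * x * g⁻¹ ∈ X := (hg x).mp hxX
    have hgxW : g * x * g⁻¹ ∈ W₁ ⊔ W₂ := (hX hgx).1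
    obtain ⟨a'', ha'', b'', hb'', hgxab⟩ := mem_sup_of_commute W₁ W₂ hcomm _ hgxW
    have hwx : w * x * w⁻¹ = x := by
      have h1 := hWcomm w (Subgroup.mem_sup_left hw) x hxW
      rw [h1, mul_assoc, mul_inv_cancel, mul_one]
    have hkx : k * x * k⁻¹ = g * x * g⁻¹ := by
      rw [← hkw]
      calc k * x * k⁻¹ = k * (w * x * w⁻¹) * k⁻¹ := by rw [hwx]
        _ = k * w * x * (k * w)⁻¹ := by group
    have hkab : k * (a' * b') * k⁻¹ = a'' * b'' := by rw [← hxab, hkx, hgxab]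
    have haa : a'' = a' := by
      have h1 : a'⁻¹ * a'' = (a'⁻¹ * k * a'⁻¹⁻¹) * (b' * k⁻¹ * b''⁻¹) := by
        have h2 : a'' = k * (a' * b') * k⁻¹ * b''⁻¹ := by rw [hkab]; group
        rw [h2]; group
      have h3 : a'⁻¹ * a'' ∈ K := by
        rw [h1]
        exact K.mul_mem (hK.conj_mem k hk a'⁻¹)
          (K.mul_mem (K.mul_mem (hW₂K hb') (K.inv_mem hk)) (K.inv_mem (hW₂K hb'')))
      have h4 : a'⁻¹ * a'' ∈ K ⊓ W₁ := ⟨h3, W₁.mul_mem (W₁.inv_mem ha') ha''⟩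
      rw [hKW₁, Subgroup.mem_bot] at h4
      calc a'' = a' * (a'⁻¹ * a'') := by group
        _ = a' := by rw [h4, mul_one]
    rw [haa] at hkab
    have hb'n : b' ^ Nat.card ↥W₂ = 1 :=
      orderOf_dvd_iff_pow_eq_one.mp (Subgroup.orderOf_dvd_natCard _ hb')
    have hb''n : b'' ^ Nat.card ↥W₂ = 1 :=
      orderOf_dvd_iff_pow_eq_one.mp (Subgroup.orderOf_dvd_natCard _ hb'')
    have hpow : k * a' ^ Nat.card ↥W₂ * k⁻¹ = a' ^ Nat.card ↥W₂ := by
      have h1 : (k * (a' * b') * k⁻¹) ^ Nat.card ↥W₂ = (a' * b'') ^ Nat.card ↥W₂ := by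
        rw [hkab]
      have c1 : Commute a' b' := hcomm a' ha' b' hb'
      have c2 : Commute a' b'' := hcomm a' ha' b'' hb''
      rw [conj_pow, c1.mul_pow, c2.mul_pow, hb'n, hb''n, mul_one] at h1
      exact h1
    have hcopa : (Nat.card ↥W₂).Coprime (orderOf a') :=
      (Nat.Coprime.coprime_dvd_left (Subgroup.orderOf_dvd_natCard _ ha') hcop12).symm
    obtain ⟨m, hm⟩ := exists_pow_eq_self_of_coprime hcopa
    have hka : k * a' * k⁻¹ = a' := by
      have h1 : (k * a' ^ Nat.card ↥W₂ * k⁻¹) ^ m = (a' ^ Nat.card ↥W₂) ^ m := by rw [hpow]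
      rw [conj_pow, hm] at h1
      exact h1
    have hkcent : k ∈ Subgroup.centralizer ({a'} : Set L) := by
      rw [Subgroup.mem_centralizer_iff]
      intro y hy
      rw [Set.mem_singleton_iff] at hy
      rw [hy]
      calc a' * k = (k * a' * k⁻¹) * k := by rw [hka]
        _ = k * a' := by group
    have hkC : k ∈ K ⊓ Subgroup.centralizer ({a'} : Set L) := ⟨hk, hkcent⟩
    rw [hC a' ha' ha'1] at hkC
    rw [← hkw]
    exact Subgroup.mul_mem _ (Subgroup.mem_sup_right hkC) (Subgroup.mem_sup_left hw)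
  · intro w hw
    rw [Subgroup.mem_set_normalizer_iff]
    intro h
    constructor
    · intro hh
      have h1 := hWcomm w hw h (hX hh).1
      rw [h1, mul_assoc, mul_inv_cancel, mul_one]
      exact hh
    · intro hh
      have h2 : w * h * w⁻¹ ∈ W₁ ⊔ W₂ := (hX hh).1
      have h3 : h ∈ W₁ ⊔ W₂ := by
        have h4 : h = w⁻¹ * (w * h * w⁻¹) * w := by group
        rw [h4]
        exact Subgroup.mul_mem _ (Subgroup.mul_mem _ (Subgroup.inv_mem _ hw) h2) hw
      have h1 := hWcomm w hw h h3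
      rw [h1, mul_assoc, mul_inv_cancel, mul_one] at hh
      exact hh

end Cfsg.Agent.Lib.Helper2
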