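import Mathlib
import Cfsg.Prelude.Def_Local
import Cfsg.Agent.Lib.Helper2.CNQuot
import Cfsg.Agent.Lib.Helper2.GenCoprime

set_option autoImplicit false

namespace Cfsg.Agent.Lib.Helper2

/-- The symmetric group of degree five, the ambient group of the example. -/
abbrev SigP5 := Equiv.Perm (Fin 5)

def sigA1 : SigP5 := Equiv.swap 0 1
def sigB1 : SigP5 := Equiv.swap 2 3
def sigU : SigP5 := Equiv.swap 2 3 * Equiv.swap 3 4
def sigV : SigP5 := Equiv.swap 0 1 * Equiv.swap 1 4

/-- The four-group generated by two disjoint transpositions. -/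
def sigA : Subgroup SigP5 where
  carrier := {x | x = 1 ∨ x = sigA1 ∨ x = sigB1 ∨ x = sigA1 * sigB1}
  mul_mem' := by
    rintro x y (rfl | rfl | rfl | rfl) (rfl | rfl | rfl | rfl) <;> decide
  one_mem' := Or.inl rfl
  inv_mem' := by
    rintro x (rfl | rfl | rfl | rfl) <;> decide

/-- The signalizer functor of the example. -/
def sigTheta (g : SigP5) : Subgroup SigP5 :=
  Subgroup.zpowers (if g = sigA1 then sigU else if g = sigB1 then sigV else 1)

theorem sig_mem_A (x : SigP5) :
    x ∈ sigA ↔ (x = 1 ∨ x = sigA1 ∨ x = sigB1 ∨ x = sigA1 * sigB1) := Iff.rfl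

theorem sig_zpowers3 (c : SigP5) (hc : c ^ 3 = 1) (x : SigP5)
    (hx : x ∈ Subgroup.zpowers c) : x = 1 ∨ x = c ∨ x = c ^ 2 := by
  obtain ⟨k, rfl⟩ := Subgroup.mem_zpowers_iff.mp hx
  have h3 : c ^ (3 : ℤ) = 1 := by
    have h := zpow_natCast c 3
    rw [hc] at h
    exact h
  have hk : c ^ k = c ^ (k % 3) := by
    have h := Int.emod_add_mul_ediv k 3
    calc c ^ k = c ^ (k % 3 + 3 * (k / 3)) := by rw [h]
      _ = c ^ (k % 3) := by rw [zpow_add, zpow_mul, h3, one_zpow, mul_one]
  have h0 : 0 ≤ k % 3 := Int.emod_nonneg k (by norm_num)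
  have h1 : k % 3 < 3 := Int.emod_lt_of_pos k (by norm_num)
  rw [hk]
  obtain ⟨m, hm⟩ : ∃ m : ℕ, k % 3 = m := ⟨(k % 3).toNat, (Int.toNat_of_nonneg h0).symm⟩
  rw [hm, zpow_natCast]
  have hm3 : m < 3 := by omega
  interval_cases m
  · left
    exact pow_zero c
  · right
    left
    exact pow_one c
  · right
    right
    rfl

theorem sig_mem_zpowers_of (c x : SigP5) (h : x = 1 ∨ x = c ∨ x = c ^ 2) :
    x ∈ Subgroup.zpowers c := by
  rcases h with rfl | rfl | rfl
  · exact Subgroup.one_mem _
  · exact Subgroup.mem_zpowers _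
  · exact Subgroup.pow_mem _ (Subgroup.mem_zpowers _) 2

theorem sigTheta_a : sigTheta sigA1 = Subgroup.zpowers sigU := by
  unfold sigTheta
  rw [if_pos rfl]

theorem sigTheta_b : sigTheta sigB1 = Subgroup.zpowers sigV := by
  unfold sigTheta
  rw [if_neg (by decide), if_pos rfl]

theorem sigTheta_ab : sigTheta (sigA1 * sigB1) = ⊥ := by
  unfold sigTheta
  rw [if_neg (by decide), if_neg (by decide), Subgroup.zpowers_one_eq_bot]

theorem sigA_comm : ∀ x ∈ sigA, ∀ y ∈ sigA, x * y = y * x := by
  rintro x (rfl | rfl | rfl | rfl) y (rfl | rfl | rfl | rfl) <;> decide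

theorem sigA_exp : ∀ x ∈ sigA, x ^ 2 = 1 := by
  rintro x (rfl | rfl | rfl | rfl) <;> decide

theorem sigA_card : Nat.card ↥sigA = 4 := by
  have h1 : (sigA : Set SigP5) = {1, sigA1, sigB1, sigA1 * sigB1} := by
    ext x
    simp only [SetLike.mem_coe, sig_mem_A, Set.mem_insert_iff, Set.mem_singleton_iff]
  show Nat.card ↥(sigA : Set SigP5) = 4
  rw [Nat.card_coe_set_eq, h1,
    Set.ncard_insert_of_notMem (by
      simp only [Set.mem_insert_iff, Set.mem_singleton_iff]
      decide),
    Set.ncard_insert_of_notMem (by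
      simp only [Set.mem_insert_iff, Set.mem_singleton_iff]
      decide),
    Set.ncard_pair (by decide)]

theorem sig_nonid (a' : SigP5) (ha : a' ∈ sigA) (h1 : a' ≠ 1) :
    a' = sigA1 ∨ a' = sigB1 ∨ a' = sigA1 * sigB1 := by
  rcases ha with rfl | h | h | h
  · exact absurd rfl h1
  · exact Or.inl h
  · exact Or.inr (Or.inl h)
  · exact Or.inr (Or.inr h)

theorem sig_balance_aux (a' : SigP5)
    (ha' : a' = sigA1 ∨ a' = sigB1 ∨ a' = sigA1 * sigB1) (b' : SigP5)
    (hb' : b' = sigA1 ∨ b' = sigB1 ∨ b' = sigA1 * sigB1) (hne : a' ≠ b') (x : SigP5)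
    (hx : x ∈ sigTheta a') (hc : b' * x = x * b') : x = 1 := by
  rcases ha' with rfl | rfl | rfl
  · rw [sigTheta_a] at hx
    rcases sig_zpowers3 sigU (by decide) x hx with rfl | rfl | rfl
    · rfl
    · rcases hb' with rfl | rfl | rfl
      · exact absurd rfl hne
      · exact absurd hc (by decide)
      · exact absurd hc (by decide)
    · rcases hb' with rfl | rfl | rfl
      · exact absurd rfl hne
      · exact absurd hc (by decide)
      · exact absurd hc (by decide)
  · rw [sigTheta_b] at hx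
    rcases sig_zpowers3 sigV (by decide) x hx with rfl | rfl | rfl
    · rfl
    · rcases hb' with rfl | rfl | rfl
      · exact absurd hc (by decide)
      · exact absurd rfl hne
      · exact absurd hc (by decide)
    · rcases hb' with rfl | rfl | rfl
      · exact absurd hc (by decide)
      · exact absurd rfl hne
      · exact absurd hc (by decide)
  · rw [sigTheta_ab] at hx
    exact Subgroup.mem_bot.mp hx

theorem sig_functor : Cfsg.IsSignalizerFunctor 2 sigA sigTheta := by
  refine ⟨?_, ?_, ?_, ?_⟩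
  · intro a' ha h1
    rcases sig_nonid a' ha h1 with rfl | rfl | rfl
    · rw [sigTheta_a, Subgroup.zpowers_le]
      exact (mem_centralizer_singleton sigA1 sigU).mpr (by decide)
    · rw [sigTheta_b, Subgroup.zpowers_le]
      exact (mem_centralizer_singleton sigB1 sigV).mpr (by decide)
    · rw [sigTheta_ab]
      exact bot_le
  · intro a' ha h1
    rcases sig_nonid a' ha h1 with rfl | rfl | rfl
    · rw [sigTheta_a, Nat.card_zpowers, orderOf_eq_prime (p := 3) (by decide) (by decide)]
      decide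
    · rw [sigTheta_b, Nat.card_zpowers, orderOf_eq_prime (p := 3) (by decide) (by decide)]
      decide
    · rw [sigTheta_ab, Subgroup.card_bot]
      decide
  · intro a' ha h1 b' hb x hx
    rcases sig_nonid a' ha h1 with rfl | rfl | rfl
    · rw [sigTheta_a] at hx ⊢
      rcases hb with rfl | rfl | rfl | rfl <;>
        rcases sig_zpowers3 sigU (by decide) x hx with rfl | rfl | rfl <;>
        exact sig_mem_zpowers_of _ _ (by decide)
    · rw [sigTheta_b] at hx ⊢
      rcases hb with rfl | rfl | rfl | rfl <;>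
        rcases sig_zpowers3 sigV (by decide) x hx with rfl | rfl | rfl <;>
        exact sig_mem_zpowers_of _ _ (by decide)
    · rw [sigTheta_ab] at hx ⊢
      rw [Subgroup.mem_bot] at hx ⊢
      rw [hx]
      group
  · intro a' ha h1 b' hb hb1 x hx
    by_cases hne : a' = b'
    · rw [← hne]
      exact hx.1
    · have hx1 : x = 1 := sig_balance_aux a' (sig_nonid a' ha h1) b' (sig_nonid b' hb hb1) hne x
        hx.1 ((mem_centralizer_singleton b' x).mp hx.2)
      rw [hx1]
      exact Subgroup.one_mem _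

theorem sig_not_complete : ¬ Cfsg.IsCompleteSignalizerFunctor 2 sigA sigTheta := by
  rintro ⟨-, K, -, hK2, hKc⟩
  have hA1 : sigA1 ∈ sigA := Or.inr (Or.inl rfl)
  have hB1 : sigB1 ∈ sigA := Or.inr (Or.inr (Or.inl rfl))
  have h1 := hKc sigA1 hA1 (by decide)
  have h2 := hKc sigB1 hB1 (by decide)
  have hu : sigU ∈ K := by
    have h3 : sigU ∈ K ⊓ Subgroup.centralizer {sigA1} := by
      rw [h1, sigTheta_a]
      exact Subgroup.mem_zpowers _
    exact h3.1
  have hv : sigV ∈ K := by
    have h3 : sigV ∈ K ⊓ Subgroup.centralizer {sigB1} := by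
      rw [h2, sigTheta_b]
      exact Subgroup.mem_zpowers _
    exact h3.1
  have hw : sigU * sigV * sigU * sigV⁻¹ ∈ K :=
    K.mul_mem (K.mul_mem (K.mul_mem hu hv) hu) (K.inv_mem hv)
  have ho : orderOf (sigU * sigV * sigU * sigV⁻¹) = 2 :=
    orderOf_eq_prime (p := 2) (by decide) (by decide)
  have hdvd := Subgroup.orderOf_dvd_natCard K hw
  rw [ho] at hdvd
  exact hK2 hdvd

end Cfsg.Agent.Lib.Helper2
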