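import Mathlib
import Cfsg.Prelude.Def_Balance
import Cfsg.Agent.Lib.Helper2.Signal
import Cfsg.Agent.Lib.Helper2.PComp
import Cfsg.Agent.Lib.Helper2.Fit
import Cfsg.Agent.Lib.Helper2.FStar
import Cfsg.Agent.Lib.Lead.CoprimeAction
import Cfsg.Agent.S0017
import Cfsg.Agent.S0028

set_option autoImplicit false

namespace Cfsg.Agent.Lib.Helper2

universe u

open Cfsg

/-- In a finite solvable group `H`, a `p'`-subgroup `D` centralizing an element `a` of order
dividing `p` and normalized by `C_H(a)` lies in `O_{p'}(H)`. -/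
theorem pprime_le_pPrimeCore_of_solvable {H : Type u} [Group H] [Finite H] (p : ℕ)
    [hp : Fact p.Prime] (hs : Group.IsSolvable H) (a : H) (ha : a ^ p = 1) (D : Subgroup H)
    (hD : ¬ p ∣ Nat.card ↥D) (hDa : D ≤ Subgroup.centralizer ({a} : Set H))
    (hn : Subgroup.centralizer ({a} : Set H) ≤ Subgroup.normalizer (D : Set H)) :
    D ≤ Cfsg.pPrimeCore p H := by
  set O := Cfsg.pPrimeCore p H with hO
  set π := QuotientGroup.mk' O with hπ
  have hOq : Cfsg.pPrimeCore p (H ⧸ O) = ⊥ := pPrimeCore_quotient_eq_bot p H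
  have hsq : Group.IsSolvable (H ⧸ O) := inferInstance
  have hUn : (Cfsg.pCore p (H ⧸ O)).Normal := Cfsg.pCore_normal p _
  have hU : IsPGroup p ↥(Cfsg.pCore p (H ⧸ O)) := pCore_isPGroup' p _
  have hCU := Cfsg.Agent.S0017.result (G := H ⧸ O) p hOq
  have hDc : (Nat.card ↥D).Coprime p :=
    ((Nat.Prime.coprime_iff_not_dvd hp.out).mpr hD).symm
  have hQ : (Nat.card ↥(D.map π)).Coprime p :=
    Nat.Coprime.coprime_dvd_left (Subgroup.card_map_dvd D π) hDc
  have hdisj : Cfsg.pCore p (H ⧸ O) ⊓ D.map π = ⊥ := by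
    obtain ⟨k, hk⟩ := IsPGroup.iff_card.mp hU
    apply disjoint_iff.mp
    apply Subgroup.disjoint_of_coprime_natCard
    rw [hk]
    exact Nat.Coprime.pow_left k hQ.symm
  have hP : IsPGroup p ↥(Subgroup.zpowers (π a)) :=
    zpowers_isPGroup_of_pow_eq_one p 1 _ (by rw [pow_one, ← map_pow, ha, map_one])
  have hcopA : (Nat.card ↥(Subgroup.zpowers a)).Coprime (Nat.card ↥O) := by
    rw [Nat.card_zpowers]
    exact Nat.Coprime.coprime_dvd_left (orderOf_dvd_of_pow_eq_one ha)
      (pPrimeCore_card_coprime p H).symm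
  have hAsolv : Group.IsSolvable ↥(Subgroup.zpowers a) := by
    have : IsMulCommutative ↥(Subgroup.zpowers a) := inferInstance
    infer_instance
  have key := Cfsg.Agent.S0028.result p (Subgroup.zpowers (π a)) (D.map π)
    (Cfsg.pCore p (H ⧸ O)) hP hQ hU ?_ ?_ ?_ ?_
  · -- conclusion
    have h1 : D.map π ≤ Cfsg.pCore p (H ⧸ O) ⊓ D.map π := by
      refine le_inf ?_ le_rfl
      refine le_trans ?_ hCU
      exact key
    rw [hdisj, le_bot_iff] at h1
    intro d hd
    have h2 : π d ∈ D.map π := Subgroup.mem_map_of_mem π hd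
    rw [h1, Subgroup.mem_bot] at h2
    exact (QuotientGroup.eq_one_iff d).mp h2
  · rw [Subgroup.zpowers_le, Subgroup.mem_centralizer_iff]
    rintro _ ⟨d, hd, rfl⟩
    have h1 : a * d = d * a := Subgroup.mem_centralizer_iff.mp (hDa hd) a rfl
    rw [← map_mul, ← map_mul, h1]
  · rw [Subgroup.normalizer_eq_top]; exact le_top
  · rw [Subgroup.normalizer_eq_top]; exact le_top
  · rintro r ⟨hrU, hrC⟩
    obtain ⟨h, rfl⟩ := QuotientGroup.mk'_surjective O r
    have hk : ∀ a' ∈ Subgroup.zpowers a, a'⁻¹ * (h⁻¹ * a' * h) ∈ O := by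
      intro a' ha'
      have h1 : π a' ∈ Subgroup.zpowers (π a) := by
        rw [← MonoidHom.map_zpowers]; exact Subgroup.mem_map_of_mem π ha'
      have h2 : π a' * π h = π h * π a' := Subgroup.mem_centralizer_iff.mp hrC _ h1
      have h3 : π (a'⁻¹ * (h⁻¹ * a' * h)) = 1 := by
        rw [map_mul, map_mul, map_mul, map_inv, map_inv, mul_assoc (π h)⁻¹, h2]; group
      exact (QuotientGroup.eq_one_iff _).mp h3
    obtain ⟨n, hnO, hnA⟩ := Cfsg.Agent.Lib.Lead.coprime_fix (Subgroup.zpowers a) O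
      (by rw [Subgroup.normalizer_eq_top]; exact le_top) hcopA (Or.inl hAsolv) h hk
    have hc : h * n ∈ Subgroup.centralizer ((Subgroup.zpowers a : Subgroup H) : Set H) := by
      apply Cfsg.Agent.Lib.Lead.mem_centralizer_of_normalizes' (Subgroup.zpowers a) O hcopA
        (h * n) _ hnA
      intro a' ha'
      have h4 : a'⁻¹ * ((h * n)⁻¹ * a' * (h * n)) =
          (a'⁻¹ * n⁻¹ * a'⁻¹⁻¹) * (a'⁻¹ * (h⁻¹ * a' * h)) * n := by group
      rw [h4]
      exact O.mul_mem (O.mul_mem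
        ((inferInstance : O.Normal).conj_mem n⁻¹ (O.inv_mem hnO) a'⁻¹) (hk a' ha')) hnO
    have hcC : h * n ∈ Subgroup.centralizer ({a} : Set H) := by
      rw [Subgroup.mem_centralizer_iff]
      intro x hx
      rw [Set.mem_singleton_iff] at hx
      subst hx
      exact Subgroup.mem_centralizer_iff.mp hc x (Subgroup.mem_zpowers x)
    have hcn := hn hcC
    have hn1 : π n = 1 := (QuotientGroup.eq_one_iff n).mpr hnO
    have hπc : π (h * n) = π h := by rw [map_mul, hn1, mul_one]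
    rw [Subgroup.mem_centralizer_iff]
    rintro _ ⟨d, hd, rfl⟩
    have h5 : π h * π d * (π h)⁻¹ ∈ D.map π := by
      rw [← hπc, ← map_mul, ← map_inv, ← map_mul]
      exact Subgroup.mem_map_of_mem π ((Subgroup.mem_normalizer_iff.mp hcn d).mp hd)
    have h6 : π h * π d * (π h)⁻¹ * (π d)⁻¹ ∈ Cfsg.pCore p (H ⧸ O) ⊓ D.map π := by
      refine ⟨?_, (D.map π).mul_mem h5 ((D.map π).inv_mem (Subgroup.mem_map_of_mem π hd))⟩
      have h7 : π h * π d * (π h)⁻¹ * (π d)⁻¹ = π h * (π d * (π h)⁻¹ * (π d)⁻¹) := by group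
      rw [h7]
      exact (Cfsg.pCore p (H ⧸ O)).mul_mem hrU (hUn.conj_mem _ (inv_mem hrU) (π d))
    rw [hdisj, Subgroup.mem_bot] at h6
    have h8 := mul_inv_eq_one.mp h6
    have h9 := mul_inv_eq_iff_eq_mul.mp h8
    exact h9.symm

/-- A normal subgroup of a subgroup `C`, viewed in the ambient group, is normalized by `C`. -/
theorem le_normalizer_map_subtype_of_normal {G : Type*} [Group G] (C : Subgroup G)
    (N : Subgroup ↥C) [hN : N.Normal] :
    C ≤ Subgroup.normalizer ((N.map C.subtype : Subgroup G) : Set G) := by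
  apply Cfsg.Agent.Lib.Helper4.le_normalizer_of_conj_mem
  rintro s hs _ ⟨d, hd, rfl⟩
  exact ⟨⟨s, hs⟩ * d * ⟨s, hs⟩⁻¹, hN.conj_mem d hd ⟨s, hs⟩, rfl⟩

end Cfsg.Agent.Lib.Helper2
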