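import Mathlib
import Cfsg.Agent.Lib.Helper2.SL2Trace

set_option autoImplicit false

namespace Cfsg.Agent.Lib.Helper2

/-- The range of a homomorphism is isomorphic to the quotient by its kernel. -/
theorem range_equiv_quot {A B : Type*} [Group A] [Group B] (φ : A →* B) (N : Subgroup A)
    [N.Normal] (h : φ.ker = N) : Nonempty (φ.range ≃* A ⧸ N) :=
  ⟨(QuotientGroup.quotientKerEquivRange φ).symm.trans (QuotientGroup.quotientMulEquivOfEq h)⟩

theorem scalar2_eq {R : Type*} [CommRing R] (M : Matrix (Fin 2) (Fin 2) R) (r : R)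
    (h00 : M 0 0 = r) (h01 : M 0 1 = 0) (h10 : M 1 0 = 0) (h11 : M 1 1 = r) :
    Matrix.scalar (Fin 2) r = M := by
  apply mat2_ext_entries
  · rw [Matrix.scalar_apply, Matrix.diagonal_apply_eq, h00]
  · rw [Matrix.scalar_apply, Matrix.diagonal_apply_ne _ (by decide), h01]
  · rw [Matrix.scalar_apply, Matrix.diagonal_apply_ne _ (by decide), h10]
  · rw [Matrix.scalar_apply, Matrix.diagonal_apply_eq, h11]

theorem scalar2_entries {R : Type*} [CommRing R] (M : Matrix (Fin 2) (Fin 2) R) (r : R)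
    (h : Matrix.scalar (Fin 2) r = M) :
    M 0 0 = r ∧ M 0 1 = 0 ∧ M 1 0 = 0 ∧ M 1 1 = r := by
  subst h
  refine ⟨?_, ?_, ?_, ?_⟩
  · rw [Matrix.scalar_apply, Matrix.diagonal_apply_eq]
  · rw [Matrix.scalar_apply, Matrix.diagonal_apply_ne _ (by decide)]
  · rw [Matrix.scalar_apply, Matrix.diagonal_apply_ne _ (by decide)]
  · rw [Matrix.scalar_apply, Matrix.diagonal_apply_eq]

theorem sl2_center_of_entries {F : Type*} [Field F] (g : Matrix.SpecialLinearGroup (Fin 2) F)
    (h01 : (g : Matrix (Fin 2) (Fin 2) F) 0 1 = 0) (h10 : (g : Matrix (Fin 2) (Fin 2) F) 1 0 = 0)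
    (h : (g : Matrix (Fin 2) (Fin 2) F) 0 0 = (g : Matrix (Fin 2) (Fin 2) F) 1 1) :
    g ∈ Subgroup.center (Matrix.SpecialLinearGroup (Fin 2) F) := by
  rw [Matrix.SpecialLinearGroup.mem_center_iff]
  have hdet : (g : Matrix (Fin 2) (Fin 2) F) 0 0 * (g : Matrix (Fin 2) (Fin 2) F) 1 1 -
      (g : Matrix (Fin 2) (Fin 2) F) 0 1 * (g : Matrix (Fin 2) (Fin 2) F) 1 0 = 1 := by
    rw [← Matrix.det_fin_two]
    exact g.2
  refine ⟨(g : Matrix (Fin 2) (Fin 2) F) 0 0, ?_, scalar2_eq _ _ rfl h01 h10 h.symm⟩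
  rw [Fintype.card_fin]
  rw [h01, ← h] at hdet
  linear_combination hdet

theorem sl2_entries_of_center {F : Type*} [Field F] (g : Matrix.SpecialLinearGroup (Fin 2) F)
    (hg : g ∈ Subgroup.center (Matrix.SpecialLinearGroup (Fin 2) F)) :
    (g : Matrix (Fin 2) (Fin 2) F) 0 1 = 0 ∧ (g : Matrix (Fin 2) (Fin 2) F) 1 0 = 0 ∧
      (g : Matrix (Fin 2) (Fin 2) F) 0 0 = (g : Matrix (Fin 2) (Fin 2) F) 1 1 := by
  rw [Matrix.SpecialLinearGroup.mem_center_iff] at hg
  obtain ⟨r, _, hr⟩ := hg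
  obtain ⟨h00, h01, h10, h11⟩ := scalar2_entries _ r hr
  exact ⟨h01, h10, h00.trans h11.symm⟩

theorem gl2_center_iff_entries {K : Type*} [Field K] (g : Matrix.GeneralLinearGroup (Fin 2) K) :
    g ∈ Subgroup.center (Matrix.GeneralLinearGroup (Fin 2) K) ↔
      ((g : Matrix (Fin 2) (Fin 2) K) 0 1 = 0 ∧ (g : Matrix (Fin 2) (Fin 2) K) 1 0 = 0 ∧
        (g : Matrix (Fin 2) (Fin 2) K) 0 0 = (g : Matrix (Fin 2) (Fin 2) K) 1 1) := by
  rw [Matrix.GeneralLinearGroup.mem_center_iff_val_mem_range_scalar]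
  constructor
  · rintro ⟨r, hr⟩
    obtain ⟨h00, h01, h10, h11⟩ := scalar2_entries _ r hr
    exact ⟨h01, h10, h00.trans h11.symm⟩
  · rintro ⟨h01, h10, h⟩
    exact ⟨(g : Matrix (Fin 2) (Fin 2) K) 0 0, scalar2_eq _ _ rfl h01 h10 h.symm⟩

/-- Proportional elements of `SL₂` have the same image under a map killing the centre. -/
theorem sl2_hom_eq_of_smul {F G : Type*} [Field F] [Group G]
    (π : Matrix.SpecialLinearGroup (Fin 2) F →* G)
    (hπ1 : ∀ z, z ∈ Subgroup.center (Matrix.SpecialLinearGroup (Fin 2) F) → π z = 1)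
    (X Y : Matrix.SpecialLinearGroup (Fin 2) F) (c : F)
    (h : (Y : Matrix (Fin 2) (Fin 2) F) = c • (X : Matrix (Fin 2) (Fin 2) F)) : π Y = π X := by
  have hM : ((Y * X⁻¹ : Matrix.SpecialLinearGroup (Fin 2) F) : Matrix (Fin 2) (Fin 2) F) =
      c • (1 : Matrix (Fin 2) (Fin 2) F) := by
    rw [Matrix.SpecialLinearGroup.coe_mul, h, Matrix.smul_mul,
      ← Matrix.SpecialLinearGroup.coe_mul, mul_inv_cancel, Matrix.SpecialLinearGroup.coe_one]
  have hZ : Y * X⁻¹ ∈ Subgroup.center (Matrix.SpecialLinearGroup (Fin 2) F) := by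
    apply sl2_center_of_entries
    · rw [hM, Matrix.smul_apply, Matrix.one_apply_ne (by decide), smul_zero]
    · rw [hM, Matrix.smul_apply, Matrix.one_apply_ne (by decide), smul_zero]
    · rw [hM, Matrix.smul_apply, Matrix.smul_apply, Matrix.one_apply_eq, Matrix.one_apply_eq]
  have h1 : π (Y * X⁻¹) = 1 := hπ1 _ hZ
  have h2 : Y = Y * X⁻¹ * X := by rw [inv_mul_cancel_right]
  rw [h2, map_mul, h1, one_mul]

theorem sl2_hom_eq_of_smul2 {F G : Type*} [Field F] [Group G]
    (π : Matrix.SpecialLinearGroup (Fin 2) F →* G)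
    (hπ1 : ∀ z, z ∈ Subgroup.center (Matrix.SpecialLinearGroup (Fin 2) F) → π z = 1)
    (X Y : Matrix.SpecialLinearGroup (Fin 2) F) (c1 c2 : F) (hc1 : c1 ≠ 0)
    (h : ∀ i j, c1 * (Y : Matrix (Fin 2) (Fin 2) F) i j =
      c2 * (X : Matrix (Fin 2) (Fin 2) F) i j) : π Y = π X := by
  apply sl2_hom_eq_of_smul π hπ1 X Y (c1⁻¹ * c2)
  ext i j
  rw [Matrix.smul_apply, smul_eq_mul]
  have e : (Y : Matrix (Fin 2) (Fin 2) F) i j =
      c1⁻¹ * (c1 * (Y : Matrix (Fin 2) (Fin 2) F) i j) := by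
    rw [← mul_assoc, inv_mul_cancel₀ hc1, one_mul]
  rw [e, h i j, mul_assoc]

/-- A finite field whose order is a power of the order of another finite field contains it. -/
theorem finfield_embed {F K : Type*} [Field F] [Fintype F] [Field K] [Fintype K] (m : ℕ)
    (hK : Fintype.card K ^ m = Fintype.card F) : Nonempty (K →+* F) := by
  obtain ⟨p, hp⟩ : ∃ p, CharP K p := ⟨ringChar K, ringChar.charP K⟩
  haveI : CharP K p := hp
  haveI hpp : Fact p.Prime := ⟨CharP.char_is_prime K p⟩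
  letI : Algebra (ZMod p) K := ZMod.algebra K p
  have hcK : p ^ Module.finrank (ZMod p) K = Fintype.card K :=
    FiniteField.pow_finrank_eq_card p K
  have hpF : CharP F p := by
    apply (CharP.charP_iff_prime_eq_zero hpp.out).mpr
    have h0 : ((Fintype.card F : ℕ) : F) = 0 := Nat.cast_card_eq_zero F
    rw [← hK, ← hcK, Nat.cast_pow, Nat.cast_pow] at h0
    exact eq_zero_of_pow_eq_zero (eq_zero_of_pow_eq_zero h0)
  haveI : CharP F p := hpF
  letI : Algebra (ZMod p) F := ZMod.algebra F p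
  have hcF : p ^ Module.finrank (ZMod p) F = Fintype.card F :=
    FiniteField.pow_finrank_eq_card p F
  have hdeg : Module.finrank (ZMod p) K * m = Module.finrank (ZMod p) F := by
    apply (Nat.pow_right_inj hpp.out.one_lt).mp
    rw [pow_mul, hcK, hcF, hK]
  obtain ⟨f⟩ := FiniteField.nonempty_algHom_of_finrank_dvd (F := ZMod p) (K := K) (L := F)
    (Dvd.intro m hdeg)
  exact ⟨f.toRingHom⟩

/-- `PSL₂` of a subfield embeds in `PSL₂`. -/
theorem psl2_subfield {F K : Type*} [Field F] [Field K] (ι : K →+* F) :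
    ∃ H : Subgroup (Matrix.ProjectiveSpecialLinearGroup (Fin 2) F),
      Nonempty (H ≃* Matrix.ProjectiveSpecialLinearGroup (Fin 2) K) := by
  obtain ⟨π, hπ1, hπ2⟩ : ∃ π : Matrix.SpecialLinearGroup (Fin 2) F →*
      Matrix.ProjectiveSpecialLinearGroup (Fin 2) F,
      (∀ z, z ∈ Subgroup.center (Matrix.SpecialLinearGroup (Fin 2) F) → π z = 1) ∧
      (∀ z, π z = 1 → z ∈ Subgroup.center (Matrix.SpecialLinearGroup (Fin 2) F)) :=
    ⟨QuotientGroup.mk' _, fun z hz => (QuotientGroup.eq_one_iff z).mpr hz,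
      fun z hz => (QuotientGroup.eq_one_iff z).mp hz⟩
  have hι : Function.Injective ι := ι.injective
  obtain ⟨μ, hμ⟩ : ∃ μ : Matrix.SpecialLinearGroup (Fin 2) K →*
      Matrix.SpecialLinearGroup (Fin 2) F,
      ∀ g i j, (μ g : Matrix (Fin 2) (Fin 2) F) i j = ι ((g : Matrix (Fin 2) (Fin 2) K) i j) :=
    ⟨Matrix.SpecialLinearGroup.map ι, fun g i j => rfl⟩
  have hker : (π.comp μ).ker = Subgroup.center (Matrix.SpecialLinearGroup (Fin 2) K) := by
    ext g
    rw [MonoidHom.mem_ker, MonoidHom.comp_apply]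
    constructor
    · intro h
      obtain ⟨h01, h10, h0011⟩ := sl2_entries_of_center _ (hπ2 _ h)
      rw [hμ] at h01 h10
      rw [hμ, hμ] at h0011
      apply sl2_center_of_entries
      · apply hι
        rw [map_zero]
        exact h01
      · apply hι
        rw [map_zero]
        exact h10
      · exact hι h0011
    · intro hc
      obtain ⟨h01, h10, h0011⟩ := sl2_entries_of_center _ hc
      apply hπ1
      apply sl2_center_of_entries
      · rw [hμ, h01, map_zero]
      · rw [hμ, h10, map_zero]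
      · rw [hμ, hμ, h0011]
  obtain ⟨e⟩ := range_equiv_quot (π.comp μ) _ hker
  exact ⟨(π.comp μ).range, ⟨e⟩⟩

/-- If every element of the subfield is a square in the big field, `PGL₂` of the subfield embeds
in `PSL₂` of the big field. -/
theorem pgl2_subfield {F K : Type*} [Field F] [Field K] (ι : K →+* F)
    (hsq : ∀ x : K, x ≠ 0 → ∃ s : F, s ^ 2 = ι x) :
    ∃ H : Subgroup (Matrix.ProjectiveSpecialLinearGroup (Fin 2) F),
      Nonempty (H ≃* Matrix.ProjGenLinGroup (Fin 2) K) := by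
  obtain ⟨π, hπ1, hπ2⟩ : ∃ π : Matrix.SpecialLinearGroup (Fin 2) F →*
      Matrix.ProjectiveSpecialLinearGroup (Fin 2) F,
      (∀ z, z ∈ Subgroup.center (Matrix.SpecialLinearGroup (Fin 2) F) → π z = 1) ∧
      (∀ z, π z = 1 → z ∈ Subgroup.center (Matrix.SpecialLinearGroup (Fin 2) F)) :=
    ⟨QuotientGroup.mk' _, fun z hz => (QuotientGroup.eq_one_iff z).mpr hz,
      fun z hz => (QuotientGroup.eq_one_iff z).mp hz⟩
  have hι : Function.Injective ι := ι.injective
  have hN : ∀ g : Matrix.GeneralLinearGroup (Fin 2) K,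
      ∃ X : Matrix.SpecialLinearGroup (Fin 2) F, ∃ t : F, t ≠ 0 ∧
        ∀ i j, (X : Matrix (Fin 2) (Fin 2) F) i j =
          t * ι ((g : Matrix (Fin 2) (Fin 2) K) i j) := by
    intro g
    have hd0 : (g : Matrix (Fin 2) (Fin 2) K) 0 0 * (g : Matrix (Fin 2) (Fin 2) K) 1 1 -
        (g : Matrix (Fin 2) (Fin 2) K) 0 1 * (g : Matrix (Fin 2) (Fin 2) K) 1 0 ≠ 0 := by
      rw [← Matrix.det_fin_two]
      exact ((Matrix.isUnit_iff_isUnit_det _).mp g.isUnit).ne_zero
    obtain ⟨s, hs⟩ := hsq _ hd0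
    have hs0 : s ≠ 0 := by
      intro h0
      apply hd0
      apply hι
      rw [map_zero, ← hs, h0, zero_pow two_ne_zero]
    obtain ⟨t, ht⟩ : ∃ t : F, t * s = 1 := ⟨s⁻¹, inv_mul_cancel₀ hs0⟩
    have ht0 : t ≠ 0 := by
      intro h0
      rw [h0, zero_mul] at ht
      exact zero_ne_one ht
    rw [map_sub, map_mul, map_mul] at hs
    refine ⟨⟨!![t * ι ((g : Matrix (Fin 2) (Fin 2) K) 0 0),
        t * ι ((g : Matrix (Fin 2) (Fin 2) K) 0 1);
        t * ι ((g : Matrix (Fin 2) (Fin 2) K) 1 0),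
        t * ι ((g : Matrix (Fin 2) (Fin 2) K) 1 1)], ?_⟩, t, ht0, ?_⟩
    · rw [Matrix.det_fin_two]
      show t * ι ((g : Matrix (Fin 2) (Fin 2) K) 0 0) *
          (t * ι ((g : Matrix (Fin 2) (Fin 2) K) 1 1)) -
        t * ι ((g : Matrix (Fin 2) (Fin 2) K) 0 1) *
          (t * ι ((g : Matrix (Fin 2) (Fin 2) K) 1 0)) = 1
      linear_combination (-(t ^ 2)) * hs + (t * s + 1) * ht
    · intro i j
      fin_cases i <;> fin_cases j <;> rfl
  choose N s hs0 hN using hN
  have hmul : ∀ g h : Matrix.GeneralLinearGroup (Fin 2) K,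
      π (N (g * h)) = π (N g) * π (N h) := by
    intro g h
    rw [← map_mul]
    apply sl2_hom_eq_of_smul2 π hπ1 (N g * N h) (N (g * h)) (s g * s h) (s (g * h))
      (mul_ne_zero (hs0 g) (hs0 h))
    intro i j
    simp only [hN, Matrix.SpecialLinearGroup.coe_mul, Matrix.mul_apply, Fin.sum_univ_two,
      Units.val_mul, map_add, map_mul]
    ring
  obtain ⟨Φ, hΦ⟩ : ∃ Φ : Matrix.GeneralLinearGroup (Fin 2) K →*
      Matrix.ProjectiveSpecialLinearGroup (Fin 2) F, ∀ g, Φ g = π (N g) :=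
    ⟨MonoidHom.mk' (fun g => π (N g)) hmul, fun g => rfl⟩
  have hker : Φ.ker = Subgroup.center (Matrix.GeneralLinearGroup (Fin 2) K) := by
    ext g
    rw [MonoidHom.mem_ker, hΦ, gl2_center_iff_entries]
    constructor
    · intro h
      obtain ⟨h01, h10, h0011⟩ := sl2_entries_of_center _ (hπ2 _ h)
      rw [hN] at h01 h10
      rw [hN, hN] at h0011
      refine ⟨?_, ?_, ?_⟩
      · apply hι
        rw [map_zero]
        exact (mul_eq_zero.mp h01).resolve_left (hs0 g)
      · apply hι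
        rw [map_zero]
        exact (mul_eq_zero.mp h10).resolve_left (hs0 g)
      · apply hι
        exact mul_left_cancel₀ (hs0 g) h0011
    · rintro ⟨h01, h10, h0011⟩
      apply hπ1
      apply sl2_center_of_entries
      · rw [hN, h01, map_zero, mul_zero]
      · rw [hN, h10, map_zero, mul_zero]
      · rw [hN, hN, h0011]
  obtain ⟨e⟩ := range_equiv_quot Φ _ hker
  exact ⟨Φ.range, ⟨e⟩⟩

/-- The order of `PGL₂` over a finite field, in product form. -/
theorem card_pgl2 {K : Type*} [Field K] [Fintype K] :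
    Nat.card (Matrix.GeneralLinearGroup (Fin 2) K ⧸
        Subgroup.center (Matrix.GeneralLinearGroup (Fin 2) K)) * (Fintype.card K - 1) =
      (Fintype.card K ^ 2 - 1) * (Fintype.card K ^ 2 - Fintype.card K) := by
  have h1 := Subgroup.card_eq_card_quotient_mul_card_subgroup
    (Subgroup.center (Matrix.GeneralLinearGroup (Fin 2) K))
  have h2 : Nat.card (Matrix.GeneralLinearGroup (Fin 2) K) =
      (Fintype.card K ^ 2 - 1) * (Fintype.card K ^ 2 - Fintype.card K) := by
    rw [Matrix.card_GL_field 2, Fin.prod_univ_two]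
    show (Fintype.card K ^ 2 - Fintype.card K ^ 0) * (Fintype.card K ^ 2 - Fintype.card K ^ 1) =
      (Fintype.card K ^ 2 - 1) * (Fintype.card K ^ 2 - Fintype.card K)
    rw [pow_zero, pow_one]
  have hinj : Function.Injective (Matrix.GeneralLinearGroup.scalar (Fin 2) :
      Kˣ →* Matrix.GeneralLinearGroup (Fin 2) K) := by
    intro u v huv
    have h := congrArg (fun A : Matrix.GeneralLinearGroup (Fin 2) K =>
      (A : Matrix (Fin 2) (Fin 2) K) 0 0) huv
    simp only [Matrix.GeneralLinearGroup.coe_scalar, Matrix.scalar_apply,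
      Matrix.diagonal_apply_eq] at h
    exact Units.ext h
  have e1 : Nat.card Kˣ = Nat.card ((Matrix.GeneralLinearGroup.scalar (Fin 2) :
      Kˣ →* Matrix.GeneralLinearGroup (Fin 2) K).range) :=
    Nat.card_congr (MonoidHom.ofInjective hinj).toEquiv
  have h3 : Nat.card (Subgroup.center (Matrix.GeneralLinearGroup (Fin 2) K)) =
      Fintype.card K - 1 := by
    rw [Matrix.GeneralLinearGroup.center_eq_range_scalar, ← e1, Nat.card_units,
      Nat.card_eq_fintype_card]
  calc Nat.card (Matrix.GeneralLinearGroup (Fin 2) K ⧸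
        Subgroup.center (Matrix.GeneralLinearGroup (Fin 2) K)) * (Fintype.card K - 1)
      = Nat.card (Matrix.GeneralLinearGroup (Fin 2) K ⧸
        Subgroup.center (Matrix.GeneralLinearGroup (Fin 2) K)) *
        Nat.card (Subgroup.center (Matrix.GeneralLinearGroup (Fin 2) K)) := by rw [h3]
    _ = Nat.card (Matrix.GeneralLinearGroup (Fin 2) K) := h1.symm
    _ = _ := h2

/-- `(A + 1) ^ n - 1 = A * S` with `S ≡ n` modulo two when `A` is even. -/
theorem pow_sub_one_odd_quot (A : ℕ) (hA : A % 2 = 0) (n : ℕ) :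
    ∃ S, (A + 1) ^ n = A * S + 1 ∧ S % 2 = n % 2 := by
  induction n with
  | zero => exact ⟨0, by simp, rfl⟩
  | succ n ih =>
    obtain ⟨S, hS, hS2⟩ := ih
    refine ⟨S * (A + 1) + 1, ?_, ?_⟩
    · rw [pow_succ, hS]
      ring
    · obtain ⟨a, ha⟩ : ∃ a, A = 2 * a := ⟨A / 2, by omega⟩
      have e : S * (A + 1) + 1 = 2 * (a * S) + S + 1 := by
        rw [ha]
        ring
      omega

end Cfsg.Agent.Lib.Helper2
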