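import Mathlib
import Cfsg.Prelude
import Cfsg.Agent.Lib.Helper2.Layer
import Cfsg.Agent.Lib.Helper2.Fit
import Cfsg.Agent.Lib.Helper1.Subn
import Cfsg.Agent.Lib.Helper4.Normalizer

set_option autoImplicit false

namespace Cfsg.Agent.Lib.Helper2

universe u

open scoped commutatorElement

/-- If two subnormal subgroups `E₁, E₂` of a group `H` acting faithfully on an elementary abelian
`p`-group `V` satisfy `[V, E₁, E₂] = 1`, then `[E₁, E₂] ≤ O_p(H)`. -/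
theorem subn_comm_le_pCore {G : Type u} [Group G] [Finite G] {p : ℕ} [Fact p.Prime]
    (V H : Subgroup G) (hV : Cfsg.IsElementaryAbelian p V)
    (hHV : H ≤ Subgroup.normalizer (V : Set G))
    (hf : H ⊓ Subgroup.centralizer (V : Set G) = ⊥) (E₁ E₂ : Subgroup G) (h₁ : E₁ ≤ H)
    (h₂ : E₂ ≤ H) (hs₁ : (E₁.subgroupOf H).IsSubnormal) (hs₂ : (E₂.subgroupOf H).IsSubnormal)
    (hc : ⁅⁅V, E₁⁆, E₂⁆ = ⊥) : ⁅E₁, E₂⁆ ≤ (Cfsg.pCore p H).map H.subtype := by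
  obtain ⟨-, hVexp⟩ := hV
  obtain ⟨W, hWdef⟩ : ∃ W : Subgroup G, W = ⁅V, E₁⁆ := ⟨_, rfl⟩
  rw [← hWdef] at hc
  have hW' : W = ⁅E₁, V⁆ := by rw [hWdef, Subgroup.commutator_comm]
  have hWV : W ≤ V := by
    rw [hWdef, Subgroup.commutator_le]
    intro v hv e he
    rw [commutatorElement_def]
    have h1 : e * v⁻¹ * e⁻¹ ∈ V :=
      Cfsg.Agent.Lib.Helper4.conj_mem_of_mem_normalizer (hHV (h₁ he)) (V.inv_mem hv)
    have h2 : v * e * v⁻¹ * e⁻¹ = v * (e * v⁻¹ * e⁻¹) := by group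
    rw [h2]
    exact V.mul_mem hv h1
  have hWE₂ : ∀ w ∈ W, ∀ e ∈ E₂, e * w = w * e := by
    intro w hw e he
    have h1 : W ≤ Subgroup.centralizer (E₂ : Set G) :=
      Subgroup.commutator_eq_bot_iff_le_centralizer.mp hc
    exact Subgroup.mem_centralizer_iff.mp (h1 hw) e he
  have hWE₁ : ∀ e ∈ E₁, ∀ w ∈ W, e * w * e⁻¹ ∈ W := by
    intro e he w hw
    have h1 : E₁ ≤ Subgroup.normalizer ((⁅E₁, V⁆ : Subgroup G) : Set G) :=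
      le_normalizer_commutator E₁ V
    rw [← hW'] at h1
    exact Cfsg.Agent.Lib.Helper4.conj_mem_of_mem_normalizer (h1 he) hw
  have hVE₁ : ∀ e ∈ E₁, ∀ v ∈ V, e * v * e⁻¹ * v⁻¹ ∈ W := by
    intro e he v hv
    have h1 : ⁅e, v⁆ ∈ ⁅E₁, V⁆ := Subgroup.commutator_mem_commutator he hv
    rw [← hW', commutatorElement_def] at h1
    exact h1
  -- the stabilizer of the chain `1 ≤ W ≤ V` in `H`
  obtain ⟨Q, hQmem⟩ : ∃ Q : Subgroup G, ∀ g : G, g ∈ Q ↔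
      (g ∈ H ∧ (∀ w ∈ W, g * w = w * g) ∧ ∀ v ∈ V, g * v * g⁻¹ * v⁻¹ ∈ W) :=
    ⟨{ carrier := {g | g ∈ H ∧ (∀ w ∈ W, g * w = w * g) ∧ ∀ v ∈ V, g * v * g⁻¹ * v⁻¹ ∈ W}
       one_mem' := ⟨H.one_mem, fun w _ => by rw [one_mul, mul_one], fun v _ => by
         have h : (1 : G) * v * 1⁻¹ * v⁻¹ = 1 := by group
         rw [h]
         exact W.one_mem⟩
       mul_mem' := by
         rintro g h ⟨hgH, hgW, hgV⟩ ⟨hhH, hhW, hhV⟩
         refine ⟨H.mul_mem hgH hhH, ?_, ?_⟩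
         · intro w hw
           calc g * h * w = g * (h * w) := by group
             _ = g * (w * h) := by rw [hhW w hw]
             _ = (g * w) * h := by group
             _ = (w * g) * h := by rw [hgW w hw]
             _ = w * (g * h) := by group
         · intro v hv
           have e1 : g * h * v * (g * h)⁻¹ * v⁻¹
               = (g * (h * v * h⁻¹ * v⁻¹) * g⁻¹) * (g * v * g⁻¹ * v⁻¹) := by group
           have e2 : g * (h * v * h⁻¹ * v⁻¹) * g⁻¹ = h * v * h⁻¹ * v⁻¹ := by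
             rw [hgW _ (hhV v hv)]
             group
           rw [e1, e2]
           exact W.mul_mem (hhV v hv) (hgV v hv)
       inv_mem' := by
         rintro g ⟨hgH, hgW, hgV⟩
         refine ⟨H.inv_mem hgH, ?_, ?_⟩
         · intro w hw
           have h0 := hgW w hw
           calc g⁻¹ * w = g⁻¹ * (w * g) * g⁻¹ := by group
             _ = g⁻¹ * (g * w) * g⁻¹ := by rw [h0]
             _ = w * g⁻¹ := by group
         · intro v hv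
           have hv' : g⁻¹ * v * g ∈ V := by
             have h0 := Cfsg.Agent.Lib.Helper4.conj_mem_of_mem_normalizer
               (hHV (H.inv_mem hgH)) hv
             rw [inv_inv] at h0
             exact h0
           have h3 := hgV _ hv'
           have e : g⁻¹ * v * g⁻¹⁻¹ * v⁻¹
               = (g * (g⁻¹ * v * g) * g⁻¹ * (g⁻¹ * v * g)⁻¹)⁻¹ := by group
           rw [e]
           exact W.inv_mem h3 }, fun g => Iff.rfl⟩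
  -- `Q` has exponent `p`
  have hQp : ∀ g ∈ Q, g ^ p = 1 := by
    intro g hg
    obtain ⟨hgH, hgW, hgV⟩ := (hQmem g).mp hg
    have hpow : ∀ v ∈ V, ∀ k : ℕ,
        g ^ k * v * (g ^ k)⁻¹ = (g * v * g⁻¹ * v⁻¹) ^ k * v := by
      intro v hv k
      induction k with
      | zero => simp
      | succ k ih =>
        have hw := hgV v hv
        have hc' : g * (g * v * g⁻¹ * v⁻¹) ^ k = (g * v * g⁻¹ * v⁻¹) ^ k * g :=
          ((show Commute g (g * v * g⁻¹ * v⁻¹) from hgW _ hw).pow_right k).eq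
        have a1 : ∀ Y : G, g * Y * v * (g * Y)⁻¹ = g * (Y * v * Y⁻¹) * g⁻¹ := by
          intro Y
          group
        have a2 : ∀ Y : G, g * (Y * v) * g⁻¹ = (g * Y) * v * g⁻¹ := by
          intro Y
          group
        have a3 : ∀ Y : G, (Y * g) * v * g⁻¹ = Y * (g * v * g⁻¹ * v⁻¹) * v := by
          intro Y
          group
        calc g ^ (k + 1) * v * (g ^ (k + 1))⁻¹ = g * (g ^ k * v * (g ^ k)⁻¹) * g⁻¹ := by
              rw [pow_succ', a1]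
          _ = g * ((g * v * g⁻¹ * v⁻¹) ^ k * v) * g⁻¹ := by rw [ih]
          _ = (g * (g * v * g⁻¹ * v⁻¹) ^ k) * v * g⁻¹ := a2 _
          _ = ((g * v * g⁻¹ * v⁻¹) ^ k * g) * v * g⁻¹ := by rw [hc']
          _ = (g * v * g⁻¹ * v⁻¹) ^ k * (g * v * g⁻¹ * v⁻¹) * v := a3 _
          _ = (g * v * g⁻¹ * v⁻¹) ^ (k + 1) * v := by rw [pow_succ]
    have hgp : g ^ p ∈ H ⊓ Subgroup.centralizer (V : Set G) := by
      refine ⟨H.pow_mem hgH p, ?_⟩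
      show g ^ p ∈ Subgroup.centralizer (V : Set G)
      rw [Subgroup.mem_centralizer_iff]
      intro v hv
      have h1 := hpow v hv p
      have h2 : (g * v * g⁻¹ * v⁻¹) ^ p = 1 := hVexp _ (hWV (hgV v hv))
      rw [h2, one_mul] at h1
      calc v * g ^ p = (g ^ p * v * (g ^ p)⁻¹) * g ^ p := by rw [h1]
        _ = g ^ p * v := by group
    rw [hf, Subgroup.mem_bot] at hgp
    exact hgp
  -- the commutator lies in `Q`
  have hEQ : ⁅E₁, E₂⁆ ≤ Q := by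
    rw [Subgroup.commutator_le]
    intro e₁ he₁ e₂ he₂
    rw [hQmem, commutatorElement_def]
    refine ⟨H.mul_mem (H.mul_mem (H.mul_mem (h₁ he₁) (h₂ he₂)) (H.inv_mem (h₁ he₁)))
      (H.inv_mem (h₂ he₂)), ?_, ?_⟩
    · intro w hw
      have hw' : e₁⁻¹ * w * e₁ ∈ W := by
        have h0 := hWE₁ e₁⁻¹ (E₁.inv_mem he₁) w hw
        rw [inv_inv] at h0
        exact h0
      have c1 : e₂⁻¹ * w = w * e₂⁻¹ := hWE₂ w hw e₂⁻¹ (E₂.inv_mem he₂)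
      have c2 : e₂ * (e₁⁻¹ * w * e₁) = (e₁⁻¹ * w * e₁) * e₂ := hWE₂ _ hw' e₂ he₂
      calc e₁ * e₂ * e₁⁻¹ * e₂⁻¹ * w = e₁ * e₂ * e₁⁻¹ * (e₂⁻¹ * w) := by group
        _ = e₁ * e₂ * e₁⁻¹ * (w * e₂⁻¹) := by rw [c1]
        _ = e₁ * (e₂ * (e₁⁻¹ * w * e₁)) * e₁⁻¹ * e₂⁻¹ := by group
        _ = e₁ * ((e₁⁻¹ * w * e₁) * e₂) * e₁⁻¹ * e₂⁻¹ := by rw [c2]
        _ = w * (e₁ * e₂ * e₁⁻¹ * e₂⁻¹) := by group
    · intro v hv
      have hv₁ : e₂⁻¹ * v * e₂ ∈ V := by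
        have h0 := Cfsg.Agent.Lib.Helper4.conj_mem_of_mem_normalizer
          (hHV (h₂ (E₂.inv_mem he₂))) hv
        rw [inv_inv] at h0
        exact h0
      have ha : e₁⁻¹ * (e₂⁻¹ * v * e₂) * e₁ * (e₂⁻¹ * v * e₂)⁻¹ ∈ W := by
        have h0 := hVE₁ e₁⁻¹ (E₁.inv_mem he₁) _ hv₁
        rw [inv_inv] at h0
        exact h0
      have ha' : e₁ * (e₁⁻¹ * (e₂⁻¹ * v * e₂) * e₁ * (e₂⁻¹ * v * e₂)⁻¹) * e₁⁻¹ ∈ W :=
        hWE₁ e₁ he₁ _ ha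
      have hb : e₁ * v * e₁⁻¹ * v⁻¹ ∈ W := hVE₁ e₁ he₁ v hv
      have c3 : e₂ * (e₁⁻¹ * (e₂⁻¹ * v * e₂) * e₁ * (e₂⁻¹ * v * e₂)⁻¹)
          = (e₁⁻¹ * (e₂⁻¹ * v * e₂) * e₁ * (e₂⁻¹ * v * e₂)⁻¹) * e₂ := hWE₂ _ ha e₂ he₂
      have key : e₁ * e₂ * e₁⁻¹ * e₂⁻¹ * v * (e₁ * e₂ * e₁⁻¹ * e₂⁻¹)⁻¹ * v⁻¹
          = (e₁ * (e₁⁻¹ * (e₂⁻¹ * v * e₂) * e₁ * (e₂⁻¹ * v * e₂)⁻¹) * e₁⁻¹)
            * (e₁ * v * e₁⁻¹ * v⁻¹) := by
        calc e₁ * e₂ * e₁⁻¹ * e₂⁻¹ * v * (e₁ * e₂ * e₁⁻¹ * e₂⁻¹)⁻¹ * v⁻¹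
            = e₁ * (e₂ * (e₁⁻¹ * (e₂⁻¹ * v * e₂) * e₁ * (e₂⁻¹ * v * e₂)⁻¹)) * e₂⁻¹ * v
                * e₁⁻¹ * v⁻¹ := by group
          _ = e₁ * ((e₁⁻¹ * (e₂⁻¹ * v * e₂) * e₁ * (e₂⁻¹ * v * e₂)⁻¹) * e₂) * e₂⁻¹ * v
                * e₁⁻¹ * v⁻¹ := by rw [c3]
          _ = (e₁ * (e₁⁻¹ * (e₂⁻¹ * v * e₂) * e₁ * (e₂⁻¹ * v * e₂)⁻¹) * e₁⁻¹)
            * (e₁ * v * e₁⁻¹ * v⁻¹) := by group
      rw [key]
      exact W.mul_mem ha' hb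
  -- pass to `H`
  obtain ⟨F₁, hF₁⟩ : ∃ F₁ : Subgroup ↥H, F₁ = E₁.subgroupOf H := ⟨_, rfl⟩
  obtain ⟨F₂, hF₂⟩ : ∃ F₂ : Subgroup ↥H, F₂ = E₂.subgroupOf H := ⟨_, rfl⟩
  have hmap₁ : F₁.map H.subtype = E₁ := by
    rw [hF₁]
    exact Subgroup.map_subgroupOf_eq_of_le h₁
  have hmap₂ : F₂.map H.subtype = E₂ := by
    rw [hF₂]
    exact Subgroup.map_subgroupOf_eq_of_le h₂
  have hmapc : (⁅F₁, F₂⁆).map H.subtype = ⁅E₁, E₂⁆ := by
    rw [Subgroup.map_commutator, hmap₁, hmap₂]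
  have hsub : (F₁ ⊔ F₂).IsSubnormal :=
    Cfsg.Agent.Lib.Helper1.subnormal_sup _ ↥H rfl F₁ F₂ (by rw [hF₁]; exact hs₁)
      (by rw [hF₂]; exact hs₂)
  have hle : ⁅F₁, F₂⁆ ≤ F₁ ⊔ F₂ := by
    rw [Subgroup.commutator_le]
    intro a ha b hb
    rw [commutatorElement_def]
    have ha' : a ∈ F₁ ⊔ F₂ := (le_sup_left : F₁ ≤ F₁ ⊔ F₂) ha
    have hb' : b ∈ F₁ ⊔ F₂ := (le_sup_right : F₂ ≤ F₁ ⊔ F₂) hb
    exact (F₁ ⊔ F₂).mul_mem ((F₁ ⊔ F₂).mul_mem ((F₁ ⊔ F₂).mul_mem ha' hb')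
      ((F₁ ⊔ F₂).inv_mem ha')) ((F₁ ⊔ F₂).inv_mem hb')
  have hN : F₁ ⊔ F₂ ≤ Subgroup.normalizer ((⁅F₁, F₂⁆ : Subgroup ↥H) : Set ↥H) := by
    apply sup_le
    · exact le_normalizer_commutator F₁ F₂
    · have h0 := le_normalizer_commutator F₂ F₁
      rw [Subgroup.commutator_comm F₂ F₁] at h0
      exact h0
  have hnorm : ((⁅F₁, F₂⁆ : Subgroup ↥H).subgroupOf (F₁ ⊔ F₂)).Normal :=
    (Subgroup.normal_subgroupOf_iff_le_normalizer hle).mpr hN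
  have hsubc : (⁅F₁, F₂⁆ : Subgroup ↥H).IsSubnormal :=
    Subgroup.IsSubnormal.step _ _ hle hsub hnorm
  have hpc : IsPGroup p ↥(⁅F₁, F₂⁆ : Subgroup ↥H) := by
    intro x
    refine ⟨1, ?_⟩
    rw [pow_one]
    have hx : ((x : ↥H) : G) ∈ ⁅E₁, E₂⁆ := by
      rw [← hmapc]
      exact ⟨x.1, x.2, rfl⟩
    have h0 : ((x : ↥H) : G) ^ p = 1 := hQp _ (hEQ hx)
    apply Subtype.ext
    apply Subtype.ext
    exact h0
  have hfin : ⁅F₁, F₂⁆ ≤ Cfsg.pCore p ↥H := subnormal_pgroup_le_pCore p _ hsubc hpc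
  rw [← hmapc]
  exact Subgroup.map_mono hfin

end Cfsg.Agent.Lib.Helper2
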