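import Mathlib
import Cfsg.Agent.Lib.Lead.PmQ
import Cfsg.Agent.Lib.Helper3.PRes
import Cfsg.Agent.Lib.Helper4.Normalizer
import Cfsg.Agent.Lib.Helper7.MapConj

set_option autoImplicit false

namespace Cfsg.Agent.Lib.Helper2

/-- A TI-subgroup which commutes with none of its other conjugates is normal in every
`p`-subgroup containing it. -/
theorem ti_normal_in_pgroup {G : Type*} [Group G] [Finite G] (p : ℕ) [Fact p.Prime]
    (B P : Subgroup G)
    (hTI : ∀ h : G, B.map (MulAut.conj h).toMonoidHom ⊓ B = ⊥ ∨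
      B.map (MulAut.conj h).toMonoidHom = B)
    (hb : ∀ h : G, (∀ a ∈ B, ∀ b ∈ B.map (MulAut.conj h).toMonoidHom, a * b = b * a) →
      B.map (MulAut.conj h).toMonoidHom = B)
    (hP : IsPGroup p P) (hBP : B ≤ P) : P ≤ Subgroup.normalizer (B : Set G) := by
  by_contra hcon
  have hne : P ⊓ Subgroup.normalizer (B : Set G) ≠ P := by
    intro h; exact hcon (inf_eq_left.mp h)
  obtain ⟨x, hxP, hxN, hxn⟩ :=
    Cfsg.Agent.Lib.Lead.exists_mem_normalizer_not_mem P _ hP inf_le_left hne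
  have hxB : x ∉ Subgroup.normalizer (B : Set G) := fun h => hxn ⟨hxP, h⟩
  have hBN1 : B ≤ P ⊓ Subgroup.normalizer (B : Set G) := le_inf hBP Subgroup.le_normalizer
  apply hxB
  rcases hTI x with h1 | h1
  · apply Cfsg.Agent.Lib.Helper4.mem_normalizer_of_map_conj_eq
    apply hb x
    intro a ha b hb'
    rw [Cfsg.Agent.Lib.Helper7.mem_map_conj] at hb'
    have hbN1 : b ∈ P ⊓ Subgroup.normalizer (B : Set G) := by
      have h2 := (Subgroup.mem_normalizer_iff.mp hxN _).mp (hBN1 hb')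
      have e : x * (x⁻¹ * b * x) * x⁻¹ = b := by group
      rwa [e] at h2
    have hxinv : x⁻¹ ∈ Subgroup.normalizer
        ((P ⊓ Subgroup.normalizer (B : Set G) : Subgroup G) : Set G) := Subgroup.inv_mem _ hxN
    have haN1 : x⁻¹ * a * x ∈ P ⊓ Subgroup.normalizer (B : Set G) := by
      have h2 := (Subgroup.mem_normalizer_iff.mp hxinv _).mp (hBN1 ha)
      rwa [inv_inv] at h2
    have hc1 : b * a * b⁻¹ * a⁻¹ ∈ B := by
      have h2 := (Subgroup.mem_normalizer_iff.mp hbN1.2 a).mp ha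
      exact B.mul_mem h2 (B.inv_mem ha)
    have hc2 : b * a * b⁻¹ * a⁻¹ ∈ B.map (MulAut.conj x).toMonoidHom := by
      rw [Cfsg.Agent.Lib.Helper7.mem_map_conj]
      have e : x⁻¹ * (b * a * b⁻¹ * a⁻¹) * x =
          (x⁻¹ * b * x) * ((x⁻¹ * a * x) * (x⁻¹ * b * x)⁻¹ * (x⁻¹ * a * x)⁻¹) := by group
      rw [e]
      exact B.mul_mem hb' ((Subgroup.mem_normalizer_iff.mp haN1.2 _).mp (B.inv_mem hb'))
    have hc : b * a * b⁻¹ * a⁻¹ ∈ B.map (MulAut.conj x).toMonoidHom ⊓ B := ⟨hc2, hc1⟩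
    rw [h1, Subgroup.mem_bot] at hc
    calc a * b = (b * a * b⁻¹ * a⁻¹)⁻¹ * b * a := by group
      _ = b * a := by rw [hc]; group
  · exact Cfsg.Agent.Lib.Helper4.mem_normalizer_of_map_conj_eq h1

/-- A TI elementary abelian `2`-subgroup commuting with none of its other conjugates is weakly
closed in the centralizer of each of its nonidentity elements. -/
theorem ti_weakly_closed {G : Type*} [Group G] [Finite G] (A : Subgroup G)
    (hA2 : ∀ a ∈ A, a ^ 2 = 1)
    (hTI : ∀ g : G, A.map (MulAut.conj g).toMonoidHom ⊓ A = ⊥ ∨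
      A.map (MulAut.conj g).toMonoidHom = A)
    (hb : ∀ g : G, (∀ a ∈ A, ∀ b ∈ A.map (MulAut.conj g).toMonoidHom, a * b = b * a) →
      A.map (MulAut.conj g).toMonoidHom = A)
    (a : G) (ha : a ∈ A) (ha1 : a ≠ 1) (g : G)
    (hg : A.map (MulAut.conj g).toMonoidHom ≤ Subgroup.centralizer ({a} : Set G)) :
    A.map (MulAut.conj g).toMonoidHom = A := by
  haveI : Fact (Nat.Prime 2) := ⟨Nat.prime_two⟩
  have he : ∀ h : G, (A.map (MulAut.conj g).toMonoidHom).map (MulAut.conj h).toMonoidHom =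
      (A.map (MulAut.conj (g⁻¹ * h * g)).toMonoidHom).map (MulAut.conj g).toMonoidHom := by
    intro h
    rw [Cfsg.Agent.Lib.Helper3.map_conj_map_conj, Cfsg.Agent.Lib.Helper3.map_conj_map_conj]
    have e : g * (g⁻¹ * h * g) = h * g := by group
    rw [e]
  have hTIB : ∀ h : G, (A.map (MulAut.conj g).toMonoidHom).map (MulAut.conj h).toMonoidHom ⊓
      A.map (MulAut.conj g).toMonoidHom = ⊥ ∨
      (A.map (MulAut.conj g).toMonoidHom).map (MulAut.conj h).toMonoidHom =
        A.map (MulAut.conj g).toMonoidHom := by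
    intro h
    rw [he h]
    rcases hTI (g⁻¹ * h * g) with h1 | h1
    · left
      rw [← Subgroup.map_inf _ _ _ (MulAut.conj g).injective, h1, Subgroup.map_bot]
    · right; rw [h1]
  have hbB : ∀ h : G, (∀ a ∈ A.map (MulAut.conj g).toMonoidHom,
      ∀ b ∈ (A.map (MulAut.conj g).toMonoidHom).map (MulAut.conj h).toMonoidHom, a * b = b * a) →
      (A.map (MulAut.conj g).toMonoidHom).map (MulAut.conj h).toMonoidHom =
        A.map (MulAut.conj g).toMonoidHom := by
    intro h hcomm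
    rw [he h]
    rw [hb (g⁻¹ * h * g) ?_]
    intro a' ha' b' hb''
    have h1 := hcomm (g * a' * g⁻¹) (Subgroup.mem_map_of_mem (MulAut.conj g).toMonoidHom ha')
      (g * b' * g⁻¹) (by rw [he h]; exact Subgroup.mem_map_of_mem (MulAut.conj g).toMonoidHom hb'')
    calc a' * b' = g⁻¹ * ((g * a' * g⁻¹) * (g * b' * g⁻¹)) * g := by group
      _ = g⁻¹ * ((g * b' * g⁻¹) * (g * a' * g⁻¹)) * g := by rw [h1]
      _ = b' * a' := by group
  have hBNA : A.map (MulAut.conj g).toMonoidHom ≤ Subgroup.normalizer (A : Set G) := by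
    intro b hb'
    apply Cfsg.Agent.Lib.Helper4.mem_normalizer_of_map_conj_eq
    rcases hTI b with h1 | h1
    · exfalso
      have hcomm := Subgroup.mem_centralizer_iff.mp (hg hb') a (Set.mem_singleton a)
      have h2' : a ∈ A.map (MulAut.conj b).toMonoidHom := by
        rw [Cfsg.Agent.Lib.Helper7.mem_map_conj]
        have e : b⁻¹ * a * b = a := by rw [mul_assoc, hcomm]; group
        rw [e]; exact ha
      have h2 : a ∈ A.map (MulAut.conj b).toMonoidHom ⊓ A := ⟨h2', ha⟩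
      rw [h1, Subgroup.mem_bot] at h2
      exact ha1 h2
    · exact h1
  have hA2g : IsPGroup 2 ↥A := fun x => ⟨1, by apply Subtype.ext; simpa using hA2 x.1 x.2⟩
  have hB2g : IsPGroup 2 ↥(A.map (MulAut.conj g).toMonoidHom) := hA2g.map _
  have hP : IsPGroup 2 ↥(A.map (MulAut.conj g).toMonoidHom ⊔ A) :=
    IsPGroup.to_sup_of_normal_right' hB2g hA2g hBNA
  have hPN := ti_normal_in_pgroup 2 _ _ hTIB hbB hP le_sup_left
  have hANB : A ≤ Subgroup.normalizer
      ((A.map (MulAut.conj g).toMonoidHom : Subgroup G) : Set G) := le_sup_right.trans hPN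
  rcases hTI g with h1 | h1
  · apply hb g
    intro a' ha' b hb'
    have hc1 : a' * b * a'⁻¹ * b⁻¹ ∈ A.map (MulAut.conj g).toMonoidHom :=
      Subgroup.mul_mem _ ((Subgroup.mem_normalizer_iff.mp (hANB ha') b).mp hb')
        (Subgroup.inv_mem _ hb')
    have hc2 : a' * b * a'⁻¹ * b⁻¹ ∈ A := by
      have h2 := (Subgroup.mem_normalizer_iff.mp (hBNA hb') a'⁻¹).mp (A.inv_mem ha')
      have e : a' * b * a'⁻¹ * b⁻¹ = a' * (b * a'⁻¹ * b⁻¹) := by group
      rw [e]; exact A.mul_mem ha' h2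
    have hc : a' * b * a'⁻¹ * b⁻¹ ∈ A.map (MulAut.conj g).toMonoidHom ⊓ A := ⟨hc1, hc2⟩
    rw [h1, Subgroup.mem_bot] at hc
    calc a' * b = (a' * b * a'⁻¹ * b⁻¹) * b * a' := by group
      _ = b * a' := by rw [hc, one_mul]
  · exact h1

end Cfsg.Agent.Lib.Helper2
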