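import Mathlib
import Cfsg.Prelude.Def_Transfer

set_option autoImplicit false

namespace Cfsg.Agent.Lib.Helper2

/-- If `ϕ` takes the same value on `g ^ k` and on every conjugate of `g ^ k` lying in `H`,
then the transfer of `g ∈ H` is `ϕ g ^ [G : H]`. -/
theorem transfer_eq_pow_of_phi {G : Type*} [Group G] {H : Subgroup G} [H.FiniteIndex]
    {A : Type*} [CommGroup A] (ϕ : H →* A) (g : G) (hg : g ∈ H)
    (key : ∀ (k : ℕ) (g₀ : G) (hk : g₀⁻¹ * g ^ k * g₀ ∈ H),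
      ϕ ⟨g₀⁻¹ * g ^ k * g₀, hk⟩ = ϕ ⟨g ^ k, H.pow_mem hg k⟩) :
    MonoidHom.transfer ϕ g = ϕ ⟨g, hg⟩ ^ H.index := by
  classical
  let := H.fintypeQuotientOfFiniteIndex
  rw [MonoidHom.transfer_eq_prod_quotient_orbitRel_zpowers_quot]
  have h1 : ∀ q : Quotient (MulAction.orbitRel (Subgroup.zpowers g) (G ⧸ H)),
      ϕ ⟨q.out.out⁻¹ * g ^ Function.minimalPeriod (g • ·) q.out * q.out.out,
        QuotientGroup.out_conj_pow_minimalPeriod_mem H g q.out⟩
        = ϕ ⟨g, hg⟩ ^ Function.minimalPeriod (g • ·) q.out := by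
    intro q
    rw [key, ← map_pow]
    rfl
  rw [Finset.prod_congr rfl (fun q _ => h1 q), Finset.prod_pow_eq_pow_sum,
    ← Subgroup.index_eq_sum_minimalPeriod H g]

end Cfsg.Agent.Lib.Helper2
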