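import Mathlib
import Cfsg.Prelude.Def_Balance
import Cfsg.Agent.Lib.Helper2.Transit
import Cfsg.Agent.S0023

set_option autoImplicit false

namespace Cfsg.Agent.Lib.Helper2

open Cfsg

theorem bot_mem_family {G : Type*} [Group G] [Finite G] (p : ℕ) [hp : Fact p.Prime]
    (A : Subgroup G) (θ : G → Subgroup G) : (⊥ : Subgroup G) ∈ Cfsg.signalizerFamily p A θ := by
  refine ⟨?_, ?_, ?_, ?_⟩
  · exact Group.isSolvable_of_comm (fun a b => Subsingleton.elim _ _)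
  · rw [Subgroup.card_bot]
    exact hp.out.one_lt.ne' ∘ Nat.dvd_one.mp
  · intro b _ u hu
    rw [Subgroup.mem_bot] at hu ⊢
    rw [hu]; group
  · intro a _ _
    exact inf_le_left.trans bot_le

theorem theta_mem_family {G : Type*} [Group G] [Finite G] (p : ℕ) (A : Subgroup G)
    (θ : G → Subgroup G) (hθ : Cfsg.IsSolvableSignalizerFunctor p A θ) (a : G) (haA : a ∈ A)
    (ha1 : a ≠ 1) : θ a ∈ Cfsg.signalizerFamily p A θ :=
  ⟨hθ.2 a haA ha1, hθ.1.2.1 a haA ha1, hθ.1.2.2.1 a haA ha1,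
    fun b hb hb1 => hθ.1.2.2.2 a haA ha1 b hb hb1⟩

/-- A maximal `q`-member of the family meets every member in a Sylow `q`-subgroup, up to
conjugation by `θ(C_G(A))`. -/
theorem maximal_member_sylow {G : Type*} [Group G] [Finite G] (p : ℕ) [hp : Fact p.Prime]
    (A : Subgroup G) (hA : Cfsg.IsElementaryAbelian p A) (hA3 : p ^ 3 ≤ Nat.card ↥A)
    (θ : G → Subgroup G) (hθ : Cfsg.IsSolvableSignalizerFunctor p A θ) (q : ℕ)
    [hq : Fact q.Prime] (Q : Subgroup G) (hQW : Q ∈ Cfsg.signalizerFamily p A θ)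
    (hQq : IsPGroup q ↥Q)
    (hQmax : ∀ R ∈ Cfsg.signalizerFamily p A θ, IsPGroup q ↥R → Q ≤ R → R = Q)
    (H : Subgroup G) (hH : H ∈ Cfsg.signalizerFamily p A θ) :
    ∃ c ∈ Cfsg.signalizerInf A θ, ∃ S : Sylow q ↥H,
      (S : Subgroup ↥H).map H.subtype = Q.map (MulAut.conj c).toMonoidHom ⊓ H := by
  have hcommA : ∀ a ∈ A, ∀ b ∈ A, a * b = b * a := by
    intro a ha b hb
    have := hA.1.is_comm.comm ⟨a, ha⟩ ⟨b, hb⟩
    exact congrArg Subtype.val this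
  have hApg : IsPGroup p ↥A := by
    intro a
    refine ⟨1, ?_⟩
    apply Subtype.ext
    show (a : G) ^ p ^ 1 = 1
    rw [pow_one]
    exact hA.2 a.1 a.2
  have hAsolv : Group.IsSolvable ↥A :=
    Group.isSolvable_of_comm (fun a b => Subtype.ext (hcommA a.1 a.2 b.1 b.2))
  have hAH : A ≤ Subgroup.normalizer (H : Set G) :=
    Cfsg.Agent.Lib.Helper4.le_normalizer_of_conj_mem hH.2.2.1
  have hcop : (Nat.card ↥A).Coprime (Nat.card ↥H) := by
    obtain ⟨k, hk⟩ := IsPGroup.iff_card.mp hApg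
    rw [hk]
    exact Nat.Coprime.pow_left k ((Nat.Prime.coprime_iff_not_dvd hp.out).mpr hH.2.1)
  obtain ⟨P, hPA⟩ := Cfsg.Agent.S0023.result A H hAH hcop (Or.inl hAsolv) q
  have hRW : P.1.map H.subtype ∈ Cfsg.signalizerFamily p A θ :=
    family_sub p A θ H _ hH (Subgroup.map_subtype_le _)
      (fun b hb v hv => Cfsg.Agent.Lib.Helper4.conj_mem_of_mem_normalizer (hPA hb) hv)
  have hRq : IsPGroup q ↥(P.1.map H.subtype) := P.2.map _
  obtain ⟨Q₃, ⟨hQ₃W, hQ₃q⟩, hRQ₃, hQ₃max⟩ := exists_maximal_member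
    (fun R => R ∈ Cfsg.signalizerFamily p A θ ∧ IsPGroup q ↥R) _ _ ⟨hRW, hRq⟩ le_rfl
  obtain ⟨c, hc, hceq⟩ := transitivity p A hA hA3 θ hθ q _ Q Q₃ hQW hQq hQmax hQ₃W hQ₃q
    (fun R hR hRq hle => hQ₃max R ⟨hR, hRq⟩ hle) le_rfl
  refine ⟨c, hc, P, ?_⟩
  rw [hceq]
  apply le_antisymm (le_inf hRQ₃ (Subgroup.map_subtype_le _))
  have h1 : (Q₃ ⊓ H).subgroupOf H = P.1 := by
    apply P.is_maximal'
    · exact (hQ₃q.to_le inf_le_left).comap_of_injective H.subtype H.subtype_injective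
    · intro x hx
      rw [Subgroup.mem_subgroupOf]
      exact ⟨hRQ₃ ⟨x, hx, rfl⟩, x.2⟩
  rw [← h1, Subgroup.map_subgroupOf_eq_of_le inf_le_right]

end Cfsg.Agent.Lib.Helper2
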